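import Mathlib
import Cfsg.Agent.H10.SL2b
import Cfsg.Agent.H10.SmallId

/-!
Three reflections of a three-dimensional orthogonal space, via Dickson's theorem.
-/

set_option autoImplicit false
set_option linter.unusedSectionVars false

namespace Cfsg.Agent.H11.Im

open Matrix H10
open scoped MatrixGroups

theorem small_orders {G : Type*} [Group G] [Finite G] (h : NoCycNormal G)
    (c : Nat.card G = 12 ∨ Nat.card G = 24 ∨ Nat.card G = 60) (g : G) :
    g ^ 2 = 1 ∨ g ^ 3 = 1 ∨ g ^ 4 = 1 ∨ g ^ 5 = 1 := by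
  have k4 : ∀ s : Equiv.Perm (Fin 4), s ^ 3 = 1 ∨ s ^ 4 = 1 := by decide +kernel
  have k5 : ∀ s : Equiv.Perm (Fin 5), Equiv.Perm.sign s = 1 → s ^ 2 = 1 ∨ s ^ 3 = 1 ∨ s ^ 5 = 1 := by
    decide +kernel
  rcases c with c | c | c
  · obtain ⟨e⟩ := h.equiv_A4 c
    have := k4 (e g).1
    simp only [← Subgroup.coe_pow, ← map_pow, OneMemClass.coe_eq_one, map_eq_one_iff _ e.injective]
      at this
    exact Or.inr (this.imp_right Or.inl)
  · obtain ⟨e⟩ := h.equiv_S4 c
    have := k4 (e g)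
    simp only [← map_pow, map_eq_one_iff _ e.injective] at this
    exact Or.inr (this.imp_right Or.inl)
  · obtain ⟨e⟩ := h.equiv_A5 c
    have := k5 (e g).1 (Equiv.Perm.mem_alternatingGroup.mp (e g).2)
    simp only [← Subgroup.coe_pow, ← map_pow, OneMemClass.coe_eq_one, map_eq_one_iff _ e.injective]
      at this
    exact this.imp_right (Or.imp_right Or.inr)

variable {F : Type*} [Field F]

theorem pow_scalar (a b c d u : F) (hn : ¬ (b = 0 ∧ c = 0 ∧ a = d)) :
    (!![a, b; c, d] ^ 2 = u • 1 → a + d = 0) ∧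
    (!![a, b; c, d] ^ 3 = u • 1 → (a + d) ^ 2 - (a * d - b * c) = 0) ∧
    (!![a, b; c, d] ^ 4 = u • 1 → (a + d) * ((a + d) ^ 2 - 2 * (a * d - b * c)) = 0) ∧
    (!![a, b; c, d] ^ 5 = u • 1 →
      (a + d) ^ 4 - 3 * (a + d) ^ 2 * (a * d - b * c) + (a * d - b * c) ^ 2 = 0) := by
  refine ⟨?_, ?_, ?_, ?_⟩ <;>
  · intro e
    have e0 := congrFun (congrFun e 0) 0
    have e1 := congrFun (congrFun e 0) 1
    have e2 := congrFun (congrFun e 1) 0
    have e3 := congrFun (congrFun e 1) 1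
    simp [pow_succ] at e0 e1 e2 e3
    by_contra hc
    exact hn ⟨mul_left_cancel₀ hc (by linear_combination e1),
      mul_left_cancel₀ hc (by linear_combination e2), mul_left_cancel₀ hc (by
        linear_combination e0 - e3)⟩

/-- Traceless matrices in orthogonal coordinates. -/
def tm (δ x y α β γ : F) : Matrix (Fin 2) (Fin 2) F :=
  !![β * x - γ * δ * y, -α * δ + β * δ * y + γ * δ * x; α + β * y + γ * x, -β * x + γ * δ * y]

section
variable {δ x y : F} (hxy : x * x + δ * y * y = -δ)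
include hxy

theorem tm_anti (α β γ α' β' γ' : F) : tm δ x y α β γ * tm δ x y α' β' γ' +
    tm δ x y α' β' γ' * tm δ x y α β γ = (-2 * δ * (α * α' + β * β' + δ * γ * γ')) • 1 := by
  ext i j
  fin_cases i <;> fin_cases j <;> simp [tm]
  · linear_combination 2 * (β * β' + δ * γ * γ') * hxy
  · ring
  · ring
  · linear_combination 2 * (β * β' + δ * γ * γ') * hxy

theorem tm_det (α β γ : F) : (tm δ x y α β γ).det = δ * (α * α + β * β + δ * γ * γ) := by
  simp [tm]; linear_combination -(β * β + δ * γ * γ) * hxy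

theorem tm_sq (α β γ : F) :
    tm δ x y α β γ * tm δ x y α β γ = (-δ * (α * α + β * β + δ * γ * γ)) • 1 := by
  ext i j
  fin_cases i <;> fin_cases j <;> simp [tm]
  · linear_combination (β * β + δ * γ * γ) * hxy
  · ring
  · ring
  · linear_combination (β * β + δ * γ * γ) * hxy

theorem tm_inj (d0 : δ ≠ 0) (t2 : (2 : F) ≠ 0) {α β γ α' β' γ' : F}
    (e : tm δ x y α β γ = tm δ x y α' β' γ') : α = α' ∧ β = β' ∧ γ = γ' := by
  have k : ∀ a b c, a * α + b * β + δ * c * γ = a * α' + b * β' + δ * c * γ' := fun a b c => by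
    have := (tm_anti hxy a b c α β γ).symm.trans (e ▸ tm_anti hxy a b c α' β' γ')
    have := congrFun (congrFun this 0) 0
    simpa [d0, t2] using this
  exact ⟨by simpa using k 1 0 0, by simpa using k 0 1 0, by simpa [d0] using k 0 0 1⟩

omit hxy in
theorem tm_sub (α β γ α' β' γ' s : F) : tm δ x y (α - s * α') (β - s * β') (γ - s * γ') =
    tm δ x y α β γ - s • tm δ x y α' β' γ' := by
  ext i j
  fin_cases i <;> fin_cases j <;> simp [tm] <;> ring

end

variable {V : Type*} [AddCommGroup V] [Module F V]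

/-- `g` acts on traceless matrices as `n` acts on the image of `L`, up to the sign `ε`. -/
def Rel (δ x y : F) (L : F → F → F → V) (ε : F) (g : PGL(2, F)) (n : V ≃ₗ[F] V) : Prop :=
  ∃ M : GL (Fin 2) F, ProjGenLinGroup.mk M = g ∧ ∀ α β γ, ∃ α' β' γ',
    M.1 * tm δ x y α β γ = ε • (tm δ x y α' β' γ' * M.1) ∧ n (L α β γ) = L α' β' γ'

theorem Rel.mul {δ x y : F} {L : F → F → F → V} {ε ε' : F} {g g' : PGL(2, F)} {n n' : V ≃ₗ[F] V}
    (a : Rel δ x y L ε g n) (b : Rel δ x y L ε' g' n') : Rel δ x y L (ε * ε') (g * g') (n * n') := by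
  obtain ⟨M, rfl, a⟩ := a
  obtain ⟨M', rfl, b⟩ := b
  refine ⟨M * M', map_mul _ _ _, fun α β γ => ?_⟩
  obtain ⟨α, β, γ, b1, b2⟩ := b α β γ
  obtain ⟨α, β, γ, a1, a2⟩ := a α β γ
  refine ⟨α, β, γ, ?_, by rw [LinearEquiv.mul_apply, b2, a2]⟩
  rw [Units.val_mul, mul_assoc, b1, mul_smul_comm, ← mul_assoc, a1, smul_mul_assoc, smul_smul,
    mul_comm ε', mul_assoc]

theorem rel_one (δ x y : F) (L : F → F → F → V) : Rel δ x y L 1 1 1 :=
  ⟨1, map_one _, fun α β γ => ⟨α, β, γ, by simp, rfl⟩⟩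

theorem Rel.pow {δ x y : F} {L : F → F → F → V} {ε : F} {g : PGL(2, F)} {n : V ≃ₗ[F] V}
    (a : Rel δ x y L ε g n) (k : ℕ) : Rel δ x y L (ε ^ k) (g ^ k) (n ^ k) := by
  induction k with
  | zero => simpa using rel_one δ x y L
  | succ k ih => simpa [pow_succ] using ih.mul a

theorem model [Finite F] {p : ℕ} [Fact p.Prime] [CharP F p] (t2 : (2 : F) ≠ 0) {δ a b : F}
    (d0 : δ ≠ 0) (a0 : a ≠ 0) (b0 : b ≠ 0) (q0 : a * a + b * b + δ ≠ 0) (L : F → F → F → V)
    (hL : ∀ α β γ α' β' γ', L α β γ = L α' β' γ' → α = α' ∧ β = β' ∧ γ = γ')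
    (Γ : Subgroup (V ≃ₗ[F] V))
    (hΓ : ∀ α₀ β₀ γ₀, (α₀, β₀, γ₀) ∈ ({(1, 0, 0), (0, 1, 0), (a, b, 1)} : Set (F × F × F)) →
      ∃ n ∈ Γ, ∀ α β γ s, s * (α₀ * α₀ + β₀ * β₀ + δ * γ₀ * γ₀) = 2 * (α₀ * α + β₀ * β + δ * γ₀ * γ) →
        n (L α β γ) = L (α - s * α₀) (β - s * β₀) (γ - s * γ₀)) :
    (4 * (a * a) - (a * a + b * b + δ)) * (4 * (a * a) - 2 * (a * a + b * b + δ)) *
      (16 * (a * a) ^ 2 - 12 * (a * a) * (a * a + b * b + δ) + (a * a + b * b + δ) ^ 2) = 0 ∨
    ∃ n ∈ Γ, n ≠ 1 ∧ ∀ α β γ, (n ^ p) (L α β γ) = L α β γ := by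
  obtain ⟨x, y, hxy⟩ : ∃ x y : F, x * x + δ * y * y = -δ := by
    have := Fintype.ofFinite F
    obtain ⟨x, y, e⟩ := FiniteField.exists_root_sum_quadratic (R := F)
      (f := Polynomial.X ^ 2) (g := Polynomial.C δ * Polynomial.X ^ 2 + Polynomial.C δ)
      (Polynomial.degree_X_pow 2) (by compute_degree!)
      (FiniteField.odd_card_of_char_ne_two fun e =>
        t2 (by simpa [e] using ringChar.Nat.cast_ringChar (R := F)))
    exact ⟨x, y, by simp at e; linear_combination e⟩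
  let G : ∀ α β γ, α * α + β * β + δ * γ * γ ≠ 0 → GL (Fin 2) F := fun α β γ e =>
    GeneralLinearGroup.mkOfDetNeZero (tm δ x y α β γ) (by rw [tm_det hxy]; exact mul_ne_zero d0 e)
  have Gv : ∀ α β γ e, (G α β γ e).1 = tm δ x y α β γ := fun _ _ _ _ => rfl
  have G2 : ∀ α β γ e, ProjGenLinGroup.mk (G α β γ e) * ProjGenLinGroup.mk (G α β γ e) = 1 :=
    fun α β γ e => by
    rw [← map_mul, ← map_one ProjGenLinGroup.mk, eq_comm, pgl_mk_eq_mk_iff]
    exact ⟨_, mul_ne_zero (neg_ne_zero.mpr d0) e, tm_sq hxy α β γ⟩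
  have q1 : (1 : F) * 1 + 0 * 0 + δ * 0 * 0 ≠ 0 := by simp
  have q2 : (0 : F) * 0 + 1 * 1 + δ * 0 * 0 ≠ 0 := by simp
  have q3 : (0 : F) * 0 + 0 * 0 + δ * 1 * 1 ≠ 0 := by simpa
  have q4 : a * a + b * b + δ * 1 * 1 ≠ 0 := by simpa
  let H := Subgroup.closure ({ProjGenLinGroup.mk (G 1 0 0 q1), ProjGenLinGroup.mk (G 0 1 0 q2),
    ProjGenLinGroup.mk (G a b 1 q4)} : Set PGL(2, F))
  have m1 : ProjGenLinGroup.mk (G 1 0 0 q1) ∈ H := Subgroup.subset_closure (by simp)
  have m2 : ProjGenLinGroup.mk (G 0 1 0 q2) ∈ H := Subgroup.subset_closure (by simp)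
  have m4 : ProjGenLinGroup.mk (G a b 1 q4) ∈ H := Subgroup.subset_closure (by simp)
  have e3 : G 1 0 0 q1 * G 0 1 0 q2 = G 0 0 1 q3 := Units.ext (by
    simp only [Units.val_mul, Gv]
    ext i j
    fin_cases i <;> fin_cases j <;> simp [tm] <;> ring)
  by_cases hp : p ∣ Nat.card H
  · right
    have gen : ∀ α β γ e, (α, β, γ) ∈ ({(1, 0, 0), (0, 1, 0), (a, b, 1)} : Set (F × F × F)) →
        ∃ n ∈ Γ, ∃ ε, ε * ε = 1 ∧ Rel δ x y L ε (ProjGenLinGroup.mk (G α β γ e)) n :=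
      fun α₀ β₀ γ₀ e m => by
      obtain ⟨n, hn, k⟩ := hΓ _ _ _ m
      refine ⟨n, hn, -1, by simp, _, rfl, fun α β γ => ⟨_, _, _, ?_, k α β γ _ (div_mul_cancel₀ _ e)⟩⟩
      rw [Gv _ _ _ e, tm_sub, sub_mul, smul_mul_assoc, tm_sq hxy, smul_smul,
        eq_sub_of_add_eq (tm_anti hxy α₀ β₀ γ₀ α β γ), mul_left_comm, div_mul_cancel₀ _ e]
      module
    have all : ∀ g ∈ H, ∃ n ∈ Γ, ∃ ε, ε * ε = 1 ∧ Rel δ x y L ε g n := fun g hg => by
      induction hg using Subgroup.closure_induction'' with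
      | one => exact ⟨1, one_mem _, 1, by simp, rel_one _ _ _ _⟩
      | mem g hg =>
        rcases hg with rfl | rfl | rfl
        exacts [gen _ _ _ q1 (by simp), gen _ _ _ q2 (by simp), gen _ _ _ q4 (by simp)]
      | inv_mem g hg =>
        rcases hg with rfl | rfl | rfl
        · rw [inv_eq_of_mul_eq_one_right (G2 _ _ _ q1)]; exact gen _ _ _ q1 (by simp)
        · rw [inv_eq_of_mul_eq_one_right (G2 _ _ _ q2)]; exact gen _ _ _ q2 (by simp)
        · rw [inv_eq_of_mul_eq_one_right (G2 _ _ _ q4)]; exact gen _ _ _ q4 (by simp)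
      | mul g g' _ _ a b =>
        obtain ⟨n, hn, ε, e, a⟩ := a
        obtain ⟨n', hn', ε', e', b⟩ := b
        exact ⟨_, mul_mem hn hn', _, by linear_combination ε' * ε' * e + e', a.mul b⟩
    obtain ⟨g, hg⟩ := exists_prime_orderOf_dvd_card' p hp
    obtain ⟨n, hn, ε, e, r⟩ := all g g.2
    have r2 := r.mul r
    rw [e] at r2
    have gp : (g.1 * g.1) ^ p = 1 := by
      rw [← sq, ← pow_mul, mul_comm, pow_mul, ← hg, ← Subgroup.coe_pow, pow_orderOf_eq_one]; simp
    refine ⟨n * n, mul_mem hn hn, fun c => ?_, fun α β γ => ?_⟩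
    · obtain ⟨M, e1, k⟩ := r2
      have k' : ∀ α β γ, M.1 * tm δ x y α β γ = tm δ x y α β γ * M.1 := fun α β γ => by
        obtain ⟨α', β', γ', k1, k2⟩ := k α β γ
        rw [c] at k2
        obtain ⟨rfl, rfl, rfl⟩ := hL _ _ _ _ _ _ k2
        simpa using k1
      have k1 := k' 1 0 0
      have k2 := k' 0 1 0
      rw [eta_fin_two M.1] at k1 k2
      have a1 := congrFun (congrFun k1 0) 0
      have a2 := congrFun (congrFun k1 1) 0
      have a3 := congrFun (congrFun k2 0) 0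
      have a4 := congrFun (congrFun k2 1) 0
      simp [tm] at a1 a2 a3 a4
      have a5 : M.1 1 0 = 0 := mul_left_cancel₀ (mul_ne_zero t2 d0) (by
        linear_combination (-x) * a4 + y * a3 - y * y * a1 + x * y * a2 + 2 * M.1 1 0 * hxy)
      have : g.1 * g.1 = 1 := by
        rw [← e1, ← map_one ProjGenLinGroup.mk, eq_comm, pgl_mk_eq_mk_iff]
        refine ⟨M.1 0 0, fun c => gl_det_ne_zero M (by simp [c, a5]), ?_⟩
        ext i j
        fin_cases i <;> fin_cases j <;> simp [a1, a2, a5]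
      have : p ∣ 2 := by
        rw [← hg, orderOf_dvd_iff_pow_eq_one, sq]; exact Subtype.ext this
      exact t2 (by simpa using (CharP.cast_eq_zero_iff F p 2).mpr this)
    · obtain ⟨M, e1, k⟩ := r2.pow p
      rw [gp, ← map_one ProjGenLinGroup.mk, eq_comm, pgl_mk_eq_mk_iff] at e1
      obtain ⟨u, u0, e1⟩ := e1
      obtain ⟨α', β', γ', k1, k2⟩ := k α β γ
      rw [e1] at k1
      obtain ⟨rfl, rfl, rfl⟩ := tm_inj hxy d0 t2 (smul_right_injective _ u0 (by simpa using k1) :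
        tm δ x y α β γ = tm δ x y α' β' γ')
      exact k2
  left
  rcases dickson_coprime p hp with ⟨z, z', e, he, hH⟩ | ⟨h1, h2⟩
  · exfalso
    have la := lineAct_pgl F p
    obtain ⟨α, β, γ, e, k1, k2, k3, k4⟩ : ∃ α β γ e, ProjGenLinGroup.mk (G α β γ e) • z = z ∧
        ProjGenLinGroup.mk (G α β γ e) • z' = z' ∧ a * α + b * β + δ * 1 * γ ≠ 0 ∧
        ∀ s, ¬ (a = s * α ∧ b = s * β ∧ 1 = s * γ) := by
      rcases hH m1 with c | c
      · exact ⟨_, _, _, q1, c.1, c.2, by simpa, by simp⟩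
      rcases hH m2 with c' | c'
      · exact ⟨_, _, _, q2, c'.1, c'.2, by simpa, by simp⟩
      exact ⟨_, _, _, q3, by rw [← e3, map_mul, mul_smul, c'.1, c.2],
        by rw [← e3, map_mul, mul_smul, c'.2, c.1], by simpa, by simp [a0]⟩
    have : ProjGenLinGroup.mk (G α β γ e) * ProjGenLinGroup.mk (G a b 1 q4) =
        ProjGenLinGroup.mk (G a b 1 q4) * ProjGenLinGroup.mk (G α β γ e) := by
      rcases hH m4 with c | c
      · have := la.isCyclic_inf he.1
        exact congrArg Subtype.val ((IsCyclic.isMulCommutative (α := ↥(MulAction.stabilizer _ z ⊓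
          MulAction.stabilizer _ z'))).is_comm.comm ⟨_, k1, k2⟩ ⟨_, c.1, c.2⟩)
      · have := la.swap_inverts he.1 c.1 c.2 k1 k2
        rw [inv_eq_of_mul_eq_one_right (G2 α β γ e), mul_inv_eq_iff_eq_mul] at this
        exact this.symm
    rw [← map_mul, ← map_mul, pgl_mk_eq_mk_iff] at this
    obtain ⟨u, -, c⟩ := this
    simp only [Units.val_mul, Gv] at c
    have c1 := tm_anti hxy a b 1 α β γ
    rw [c, show ∀ M : Matrix (Fin 2) (Fin 2) F, u • M + M = (u + 1) • M from fun M => by module] at c1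
    have c2 := congrArg (tm δ x y α β γ * ·) c1
    simp only [mul_smul_comm, ← mul_assoc, tm_sq hxy, smul_mul_assoc, one_mul, mul_one,
      smul_smul] at c2
    have u1 : u + 1 ≠ 0 := fun c => by
      have := congrFun (congrFun c1 0) 0
      simp [c, t2, d0] at this
      exact k3 (by simpa using this)
    have c3 := tm_sub (δ := δ) (x := x) (y := y) a b 1 α β γ
      (2 * (a * α + b * β + δ * 1 * γ) / ((u + 1) * (α * α + β * β + δ * γ * γ)))
    have c4 : tm δ x y a b 1 = (2 * (a * α + b * β + δ * 1 * γ) /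
        ((u + 1) * (α * α + β * β + δ * γ * γ))) • tm δ x y α β γ := by
      refine smul_right_injective _ (mul_ne_zero u1 (mul_ne_zero (neg_ne_zero.mpr d0) e)) ?_
      simp only [smul_smul]
      rw [← mul_assoc, c2]; congr 1
      clear k1 k2
      generalize α * α + β * β + δ * γ * γ = r at e ⊢
      field_simp
    rw [← c4, sub_self, show (0 : Matrix (Fin 2) (Fin 2) F) = tm δ x y 0 0 0 by
      ext i j; fin_cases i <;> fin_cases j <;> simp [tm]] at c3
    have := tm_inj hxy d0 t2 c3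
    simp only [sub_eq_zero] at this
    exact k4 _ this
  have key : ∀ k, (⟨_, mul_mem m1 m4⟩ : H) ^ k = 1 → ∃ u : F,
      !![-δ * (a + b * y + x), δ * (b * x - δ * y); b * x - δ * y, -a * δ + b * δ * y + δ * x] ^ k =
        u • 1 := fun k hk => by
    have : (ProjGenLinGroup.mk (G 1 0 0 q1) * ProjGenLinGroup.mk (G a b 1 q4)) ^ k = 1 :=
      congrArg Subtype.val hk
    rw [← map_mul, ← map_pow, ← map_one ProjGenLinGroup.mk, eq_comm, pgl_mk_eq_mk_iff] at this
    obtain ⟨u, -, c⟩ := this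
    refine ⟨u, ?_⟩
    simp only [Units.val_pow_eq_pow_val, Units.val_mul, Gv, Units.val_one] at c
    convert c using 2
    ext i j
    fin_cases i <;> fin_cases j <;> simp [tm] <;> ring
  have hn : ¬ (δ * (b * x - δ * y) = 0 ∧ b * x - δ * y = 0 ∧
      -δ * (a + b * y + x) = -a * δ + b * δ * y + δ * x) := fun c => by
    have c1 : b * y + x = 0 := mul_left_cancel₀ (mul_ne_zero t2 d0) (by linear_combination -c.2.2)
    exact d0 (by linear_combination hxy - x * c1 + y * c.2.1)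
  have d2 := pow_ne_zero 2 d0
  have dt : -δ * (a + b * y + x) * (-a * δ + b * δ * y + δ * x) - δ * (b * x - δ * y) * (b * x - δ * y) =
      δ ^ 2 * (a * a + b * b + δ) := by linear_combination -(δ * b * b + δ * δ) * hxy
  rcases small_orders h1 h2 ⟨_, mul_mem m1 m4⟩ with c | c | c | c <;> obtain ⟨u, c⟩ := key _ c
  · exact absurd (by linear_combination -(pow_scalar _ _ _ _ u hn).1 c)
      (mul_ne_zero (mul_ne_zero t2 d0) a0)
  · have := (pow_scalar _ _ _ _ u hn).2.1 c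
    rw [dt] at this
    rw [mul_left_cancel₀ d2 (show δ ^ 2 * (4 * (a * a) - (a * a + b * b + δ)) = δ ^ 2 * 0 by
      linear_combination this)]; simp
  · have := (pow_scalar _ _ _ _ u hn).2.2.1 c
    rw [dt] at this
    rw [mul_left_cancel₀ (mul_ne_zero (mul_ne_zero (mul_ne_zero t2 d0) a0) d2) (show 2 * δ * a * δ ^ 2 *
      (4 * (a * a) - 2 * (a * a + b * b + δ)) = 2 * δ * a * δ ^ 2 * 0 by linear_combination -this)]
    simp
  · have := (pow_scalar _ _ _ _ u hn).2.2.2 c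
    rw [dt] at this
    rw [mul_left_cancel₀ (pow_ne_zero 4 d0) (show δ ^ 4 * (16 * (a * a) ^ 2 - 12 * (a * a) *
      (a * a + b * b + δ) + (a * a + b * b + δ) ^ 2) = δ ^ 4 * 0 by linear_combination this)]
    simp

end Cfsg.Agent.H11.Im
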