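import Mathlib
import Cfsg.Agent.H11.Im11
import Cfsg.Agent.H11.Im12

/-!
Groups generated by reflections over prime fields: producing Eichler elements.
-/

set_option autoImplicit false
set_option linter.unusedSectionVars false

namespace Cfsg.Agent.H11.Im

open Module H10 H11 Cfsg.Geo

variable {F : Type*} [Field F] {V : Type*} [AddCommGroup V] [Module F V] [FiniteDimensional F V]
  {t : ℕ} {D : Fin t → Submodule F V} {p : Fin t → V →ₗ[F] V}
  {B : V →ₗ[F] V →ₗ[F] F} {Q : V → F} [Fintype F]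
  (h : Cl (σ := RingHom.id F) 1 2 (AddMonoidHom.id F) B Q)

/-- `N` contains an Eichler element with non-singular second vector. -/
def HasE (N : Subgroup (V ≃ₗ[F] V)) : Prop := ∃ u ≠ 0, Q u = 0 ∧ ∃ y ∈ h.Ar N u, Q y ≠ 0

theorem arm_of_ar (hp : (Fintype.card F).Prime) {N : Subgroup (V ≃ₗ[F] V)} {u y : V}
    (hy : y ∈ h.Ar N u) : y ∈ h.Arm N u := fun s => by
  have : Fact (Fintype.card F).Prime := ⟨hp⟩
  obtain ⟨n, rfl⟩ := (ZMod.ringEquivOfPrime F hp rfl).surjective s
  obtain ⟨n, rfl⟩ := ZMod.natCast_zmod_surjective n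
  rw [map_natCast, Nat.cast_smul_eq_nsmul]
  exact nsmul_mem hy n

include h in
theorem eq_one_of_loc {U : Submodule F V} (hU : NondegOn B U) {g : V ≃ₗ[F] V} (hg : g ∈ Loc B Q U)
    (e : ∀ x ∈ U, g x = x) : g = 1 := LinearEquiv.ext fun v => show g v = v from sub_eq_zero.mp
  (hU _ (loc_sub_mem h hg v) fun y hy => h.refl (by rw [map_sub, ← hg.1.1 y v, e y hy, sub_self]))

theorem unip_three (hp : (Fintype.card F).Prime) (t2 : (2 : F) ≠ 0) {U : Submodule F V}
    (hU : NondegOn B U) (h3 : finrank F U ≤ 3) {N : Subgroup (V ≃ₗ[F] V)} {n : V ≃ₗ[F] V}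
    (hn : n ∈ N) (ln : n ∈ Loc B Q U) (n1 : n ≠ 1) (np : n ^ Fintype.card F = 1) : HasE h N := by
  have hQ : IsQuad B Q := h.form
  have : Fact (Fintype.card F).Prime := ⟨hp⟩
  have : CharP F (Fintype.card F) := charP_of_card_eq_prime rfl
  obtain ⟨x, x1, x2⟩ : ∃ x, n x - x ≠ 0 ∧ n (n x - x) = n x - x := by
    by_contra hc
    push Not at hc
    obtain ⟨x, hx⟩ : ∃ x, n x - x ≠ 0 := by
      by_contra k; push Not at k; exact n1 (LinearEquiv.ext fun v => sub_eq_zero.mp (k v))
    have : Nontrivial V := ⟨_, _, hx⟩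
    have k : ∀ j, (((n : Module.End F V) - 1) ^ (j + 1) : Module.End F V) x ≠ 0 := fun j => by
      induction j with
      | zero => simpa using hx
      | succ j ih =>
        rw [pow_succ'] at ih
        rw [pow_succ', pow_succ']
        exact sub_ne_zero.mpr (hc _ ih)
    have : CharP (Module.End F V) (Fintype.card F) :=
      charP_of_injective_algebraMap (algebraMap F _).injective _
    have := k (Fintype.card F - 1)
    rw [Nat.sub_add_cancel hp.one_le, sub_pow_char_of_commute _ (Commute.one_right _), one_pow,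
      show ((n : Module.End F V) ^ Fintype.card F : Module.End F V) = 1 from
        (map_pow (LinearEquiv.automorphismGroup.toLinearMapMonoidHom) n _).symm.trans
          (by rw [np, map_one])] at this
    simp at this
  have mu := loc_sub_mem h ln x
  have qu : Q (n x - x) = 0 := by
    have := ln.1.1 (n x - x) x
    rw [x2] at this
    have e : B (n x - x) (n x - x) = 0 := by rw [map_sub, this, sub_self]
    rw [hQ.diag'] at e
    exact (mul_eq_zero.mp e).resolve_left t2
  generalize n x - x = u at x1 x2 mu qu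
  obtain ⟨f, hf, qf, uf⟩ := h.exists_partner_in' hU mu qu x1
  obtain ⟨w, c, uw, hc, e⟩ := h.exists_eich_apply qu (ln.1.2 f).symm (v := f)
    (by rw [← ln.1.1 u f, x2]) (by simp [uf])
  obtain rfl : c = Q w := hc
  have mw : w ∈ U := by
    have := U.sub_mem (U.sub_mem (U.add_mem hf (U.smul_mem (B w f) mu)) (U.smul_mem (Q w) mu))
      (loc_mem h ln le_rfl hf)
    rw [← e, h.eich_apply qu uw, uf] at this
    convert this using 1; module
  have lE := eich_mem_loc h mu mw qu uw rfl
  have lm := mul_mem (inv_mem lE) ln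
  have m1 : ((h.eich u w (Q w))⁻¹ * n) u = u := by
    rw [LinearEquiv.mul_apply, x2, LinearEquiv.coe_inv, LinearEquiv.symm_apply_eq,
      h.eich_fix _ (h.diag0 qu) (h.refl uw)]
  have m2 : ((h.eich u w (Q w))⁻¹ * n) f = f := by rw [LinearEquiv.mul_apply, ← e, inv_app]
  let Z := U ⊓ perp B (Submodule.span F {u, f})
  have mZ : ∀ z, z ∈ Z ↔ z ∈ U ∧ B u z = 0 ∧ B f z = 0 := fun z => by simp [Z, mem_perp_span]
  have dZ : finrank F Z ≤ 1 := by
    have := finrank_add_le h hU (Z := Submodule.span F {u, f}) (W := Z)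
      (by simp [Submodule.span_le, Set.insert_subset_iff, mu, hf]) inf_le_left fun z hz w hw => hw.2 z hz
    have := finrank_span_eq_card (h.form.linearIndependent_pair qu (f := f) (by simp [uf]))
    rw [Matrix.range_cons_cons_empty, Fintype.card_fin] at this
    omega
  have m3 : ∀ z ∈ Z, ((h.eich u w (Q w))⁻¹ * n) z = z := fun z hz => by
    by_cases z0 : z = 0
    · simp [z0]
    obtain ⟨a1, a2, a3⟩ := (mZ z).mp hz
    obtain ⟨s, hs⟩ := Submodule.mem_span_singleton.mp ((Submodule.eq_of_le_of_finrank_le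
      (S₁ := Submodule.span F {z}) (by simpa using hz) (by rw [finrank_span_singleton z0]; omega)).ge
      ((mZ _).mpr ⟨loc_mem h lm le_rfl a1, by rw [← a2, ← lm.1.1 u z, m1],
        by rw [← a3, ← lm.1.1 f z, m2]⟩))
    have k : n z = s • z + (s * B w z) • u := by
      have := congrArg (h.eich u w (Q w)) hs
      rw [LinearEquiv.mul_apply, app_inv, map_smul, h.eich_of_perp qu uw _ a2] at this
      rw [← this]; module
    have k1 : ∀ j : ℕ, ∃ β : F, (n ^ j) z = s ^ j • z + β • u := fun j => by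
      induction j with
      | zero => exact ⟨0, by simp⟩
      | succ j ih =>
        obtain ⟨β, ih⟩ := ih
        exact ⟨β + s ^ j * (s * B w z), by
          rw [pow_succ', LinearEquiv.mul_apply, ih, map_add, map_smul, map_smul, k, x2]; module⟩
    obtain ⟨β, k2⟩ := k1 (Fintype.card F)
    rw [np, FiniteField.pow_card] at k2
    have k3 := congrArg (B f) k2
    simp [a3, hQ.comm f u, uf] at k3
    rw [← hs]; simpa [← k3] using k2.symm
  have m4 := eq_one_of_loc h hU lm fun y hy => by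
    have := m3 (y - B f y • u - B u y • f) ((mZ _).mpr ⟨U.sub_mem (U.sub_mem hy (U.smul_mem _ mu))
      (U.smul_mem _ hf), by simp [h.diag0 qu, uf], by simp [h.diag0 qf, hQ.comm f u, uf]⟩)
    rwa [map_sub, map_sub, map_smul, map_smul, m1, m2, sub_left_inj, sub_left_inj] at this
  rw [inv_mul_eq_one] at m4
  refine ⟨u, x1, qu, w, (h.mem_ar qu).mpr ⟨uw, _, rfl, m4 ▸ hn⟩, fun qw => n1 ?_⟩
  by_cases c : w ∈ Submodule.span F {u}
  · obtain ⟨s, rfl⟩ := Submodule.mem_span_singleton.mp c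
    have := h.eich_add_smul qu (w := 0) (by simp) s 0
    simp only [zero_add, one_mul, RingHom.id_apply, sub_self, h.eich_zero] at this
    rw [← m4, qw, this]
  have o : ∀ z ∈ Submodule.span F {u, w}, ∀ y ∈ Submodule.span F {u, w}, B z y = 0 := fun z hz y hy => by
    obtain ⟨a, b, rfl⟩ := Submodule.mem_span_pair.mp hz
    obtain ⟨a', b', rfl⟩ := Submodule.mem_span_pair.mp hy
    simp [h.diag0 qu, h.diag0 qw, uw, h.refl uw]
  have le : Submodule.span F {u, w} ≤ U := by simp [Submodule.span_le, Set.insert_subset_iff, mu, mw]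
  have := finrank_add_le h hU le le o
  have := Submodule.finrank_lt_finrank_of_lt (lt_of_le_of_ne (Submodule.span_mono (by simp) :
    Submodule.span F {u} ≤ Submodule.span F {u, w}) fun e => c (e ▸ Submodule.subset_span (by simp)))
  rw [finrank_span_singleton x1] at this
  omega

theorem weyl_eq {u f y : V} (qu : Q u = 0) (qf : Q f = 0) (uf : B u f = 1) (uy : B u y = 0)
    (fy : B f y = 0) (qy : Q y ≠ 0) : h.eich u y (Q y) * h.eich f ((Q y)⁻¹ • y) (Q ((Q y)⁻¹ • y)) *
      h.eich u y (Q y) = r h y * r h (u + (Q y)⁻¹ • f) := by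
  have hQ : IsQuad B Q := h.form
  ext x
  simp only [LinearEquiv.mul_apply, h.eich_apply qu uy, h.eich_apply qf (show B f ((Q y)⁻¹ • y) = 0 by
    simp [fy]), r_apply, hQ.add', hQ.smul', qu, qf, map_add, map_sub, map_smul, LinearMap.add_apply,
    LinearMap.smul_apply, smul_eq_mul, uf, uy, fy, hQ.comm y u, hQ.comm y f, hQ.comm f u, hQ.diag']
  simp only [mul_zero, zero_add, mul_one, inv_inv]
  match_scalars <;> field_simp <;> ring

theorem torus_mem {N : Subgroup (V ≃ₗ[F] V)} {u f y : V} (qu : Q u = 0) (qf : Q f = 0)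
    (uf : B u f = 1) (hu : y ∈ h.Arm N u) (hf : y ∈ h.Arm N f) (qy : Q y ≠ 0) {s : F} (s0 : s ≠ 0) :
    r h (u + (s * s * Q y)⁻¹ • f) * r h (u + (Q y)⁻¹ • f) ∈ N := by
  have hQ : IsQuad B Q := h.form
  have k : ∀ s : F, s ≠ 0 → r h y * r h (u + (s * s * Q y)⁻¹ • f) ∈ N := fun s s0 => by
    obtain ⟨a1, _, rfl, a2⟩ := (h.mem_ar qu).mp (hu s)
    obtain ⟨b1, _, rfl, b2⟩ := (h.mem_ar qf).mp (hf ((Q (s • y))⁻¹ * s))
    have := mul_mem (mul_mem a2 b2) a2
    rw [mul_smul] at b1 this
    have q : Q (s • y) ≠ 0 := Q_smul_ne h qy s0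
    erw [weyl_eq h qu qf uf a1 (by simpa [q] using b1) q] at this
    convert this using 2
    · ext x; simp only [r_apply, hQ.smul', map_smul, LinearMap.smul_apply, smul_eq_mul, smul_smul]
      congr 2; field_simp
    · rw [hQ.smul']
  have := mul_mem (inv_mem (k s s0)) (k 1 one_ne_zero)
  rwa [mul_inv_rev, mul_assoc, inv_mul_cancel_left, r_inv, one_mul, one_mul] at this

variable {h} (d : Dec B Q D p) (h1 : ∀ i, finrank F (D i) ≤ 1) {e : Fin t → V} (he : ∀ i, e i ∈ D i)
  {c : F} (c0 : c ≠ 0) (ec : ∀ i, Q (e i) = c) (t2 : (2 : F) ≠ 0) {N : Subgroup (V ≃ₗ[F] V)}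
  (hN : N ≤ Isom B Q) (re : ∀ i, r h (e i) ∈ N)
include d h1 he c0 ec t2

theorem r_line (i : Fin t) (v : V) : r h (e i) v = v - (2 : F) • p i v := by
  rw [r_apply, p_line d (h1 i) (he i) (by simp [h.form.diag, ec, c0, t2]), h.form.diag, smul_smul]
  congr 2; field_simp

include hN re

theorem stepC (hp : (Fintype.card F).Prime) (h4 : 4 ≤ Fintype.card F) (hE : HasE h N)
    (con : ∀ i j, ∃ b, Lam h N b ∧ p i b ≠ 0 ∧ p j b ≠ 0) : h.Om ≤ N := by
  have hQ : IsQuad B Q := h.form
  obtain ⟨u, u0, qu, y, hy, qy⟩ := hE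
  obtain ⟨s, s0, s1⟩ := exists_sq_ne h4
  have q0 : ∀ i, Q (e i) ≠ 0 := fun i => by rwa [ec]
  have ne : ∀ i, e i ≠ 0 := fun i => ne_zero_of_Q h (q0 i)
  have pair : ∀ b, Lam h N b → B b u ≠ 0 → ∃ f, Q f = 0 ∧ B u f = 1 ∧ b ∈ Submodule.span F {u, f} ∧
      ∀ z ∈ h.Arm N u, B f z = 0 → z ∈ h.Arm N f := fun b hb bu => by
    have qb := hb.1
    have e1 : B u (r h b u) = -(Q b)⁻¹ * B b u * B b u := by
      rw [r_apply]; simp [h.diag0 qu, hQ.comm u b]
    have e0 : B u (r h b u) ≠ 0 := by simp [e1, qb, bu]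
    refine ⟨(B u (r h b u))⁻¹ • r h b u, h.sing_smul (by rw [(r_isom h b).2, qu]) _, by simp [e0],
      Submodule.mem_span_pair.mpr ⟨Q b / B b u, B b u, ?_⟩, fun z hz fz a => ?_⟩
    · rw [e1, r_apply]; match_scalars <;> field_simp <;> ring
    · have uz := h.ar_perp (h.ar_of_arm hz)
      have bz : B b z = 0 := by
        rw [map_smul, LinearMap.smul_apply, smul_eq_zero] at fz
        simpa [r_apply, uz, qb, bu] using fz.resolve_left (inv_ne_zero e0)
      have := h.map_mem_ar hN (hb.2 (Q b)⁻¹) (hz (a / B u (r h b u)))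
      rw [rf_fix h b _ (x := _ • z) (by simp [bz])] at this
      have := h.mem_ar_smul (M := N) (y := (a / B u (r h b u)) • z)
        (h.sing_smul (x := r h b u) (by rw [(r_isom h b).2, qu]) (B u (r h b u))⁻¹)
        (B u (r h b u)) (by rwa [smul_smul, mul_inv_cancel₀ e0, one_smul]) e0
      rwa [RingHom.id_apply, smul_smul, mul_div_cancel₀ _ e0] at this
  obtain ⟨i, hi⟩ : ∃ i, B (e i) u ≠ 0 := by
    by_contra hc; push Not at hc
    exact u0 (ext_p d fun i => by
      rw [p_line d (h1 i) (he i) (by simp [h.form.diag, ec, c0, t2]), hc]; simp)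
  obtain ⟨f, qf, uf, -, af⟩ := pair _ (lam_r h (q0 i) (re i)) hi
  have fu : B f u = 1 := (hQ.comm f u).trans uf
  have su := h.self_mem_arm (M := N) qu
  have uy := h.ar_perp hy
  have hy0 := (h.Arm N u).sub_mem (arm_of_ar h hp hy) ((h.Arm N u).smul_mem (B f y) su)
  have fy : B f (y - B f y • u) = 0 := by simp [fu]
  have qy0 : Q (y - B f y • u) ≠ 0 := by simpa [hQ.sub', hQ.smul', qu, hQ.comm y u, uy] using qy
  generalize y - B f y • u = y at hy0 fy qy0
  clear hy uy
  have uy := h.ar_perp (h.ar_of_arm hy0)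
  have tm := torus_mem h qu qf uf hy0 (af y hy0 fy) qy0 s0
  have key : ∀ b, Lam h N b → B b u ≠ 0 → b ∈ h.Arm N u ⊔ Submodule.span F {f} := fun b hb bu => by
    obtain ⟨f', qf', uf', mb, af'⟩ := pair b hb bu
    obtain ⟨w, _, uw, rfl, ew⟩ := h.exists_eich_apply qu (qf.trans qf'.symm) (uf.trans uf'.symm)
      (by simp [uf])
    have iE := h.eich_mem_isom qu uw (c := Q w) rfl
    have Eu : h.eich u w (Q w) u = u := h.eich_fix _ (h.diag0 qu) (h.refl uw)
    have hy1 : h.eich u w (Q w) y ∈ h.Arm N u := by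
      rw [h.eich_of_perp qu uw _ uy]; exact add_mem hy0 ((h.Arm N u).smul_mem _ su)
    have tm' := torus_mem h qu qf' uf' hy1 (af' _ hy1 (by rw [← ew, iE.1, fy]))
      (by rwa [iE.2]) s0
    have cj : ∀ a : F, r h (u + a • f') =
        h.eich u w (Q w) * r h (u + a • f) * (h.eich u w (Q w))⁻¹ := fun a => by
      rw [conj_r h iE, map_add, map_smul, Eu, ew]
    rw [iE.2, cj, cj] at tm'
    obtain ⟨T, hT⟩ : ∃ T, T = r h (u + (s * s * Q y)⁻¹ • f) * r h (u + (Q y)⁻¹ • f) := ⟨_, rfl⟩
    have Tx : ∀ x, B u x = 0 → T x = x + ((s * s - 1) * B f x) • u := fun x hx => by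
      simp only [hT, LinearEquiv.mul_apply, r_apply, hQ.add', hQ.smul', qu, qf, map_add, map_sub,
        map_smul, LinearMap.add_apply, LinearMap.smul_apply, smul_eq_mul, uf, fu, hx, hQ.diag']
      simp only [mul_zero, zero_add, mul_one, inv_inv]
      match_scalars <;> field_simp <;> ring
    have k := mul_mem tm' (inv_mem tm)
    have Tu : T u = (s * s) • u := by rw [Tx u (h.diag0 qu), fu]; module
    have uw' : B u (T w) = 0 := by simp [Tx w uw, uw, h.diag0 qu]
    rw [show ∀ E a b : V ≃ₗ[F] V, E * a * E⁻¹ * (E * b * E⁻¹) * (a * b)⁻¹ =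
      E * (a * b * E * (a * b)⁻¹)⁻¹ from fun E a b => by group, ← hT,
      h.conj_eich (hN (hT ▸ tm)), Tu, h.eich_smul_left qu uw', h.eich_inv qu (by simp [uw']),
      h.eich_mul qu uw (by simp [uw'])] at k
    have k1 := arm_of_ar h hp ((h.mem_ar qu).mpr ⟨by simp [uw, uw'], _, by
      simp only [AddMonoidHom.id_apply, RingHom.id_apply, hQ.add', ← neg_smul, hQ.smul', hQ.diag',
        (hN (hT ▸ tm)).2]
      ring, k⟩)
    have k2 : w ∈ h.Arm N u := by
      have := (h.Arm N u).smul_mem (1 - s * s)⁻¹ (add_mem k1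
        ((h.Arm N u).smul_mem (s * s * ((s * s - 1) * B f w)) su))
      convert this using 1
      have : 1 - s ^ 2 ≠ 0 := by rw [sq]; exact sub_ne_zero.mpr s1.symm
      rw [Tx w uw, RingHom.id_apply, ← sq]; match_scalars <;> field_simp <;> ring
    refine (Submodule.span_le.mpr ?_ : _ ≤ _) mb
    rintro _ (rfl | rfl)
    · exact Submodule.mem_sup_left su
    · rw [← ew, h.eich_apply qu uw]
      exact sub_mem (sub_mem (add_mem (Submodule.mem_sup_right (Submodule.mem_span_singleton_self _))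
        (Submodule.mem_sup_left ((h.Arm N u).smul_mem _ su))) (Submodule.mem_sup_left
          ((h.Arm N u).smul_mem _ k2))) (Submodule.mem_sup_left ((h.Arm N u).smul_mem _ su))
  let S := Submodule.span F {b | Lam h N b ∧ B b u ≠ 0}
  have inv : ∀ b, Lam h N b → ∀ x ∈ S, r h b x ∈ S := fun b hb x hx => by
    by_cases bu : B b u = 0
    · refine Submodule.span_induction (fun x hx => Submodule.subset_span ⟨hx.1.map hN (hb.2 _), ?_⟩)
        (by simp) (fun _ _ _ _ a b => by rw [map_add]; exact add_mem a b)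
        (fun _ _ _ a => by rw [map_smul]; exact S.smul_mem _ a) hx
      simpa [r_apply, bu] using hx.2
    · rw [r_apply]; exact sub_mem hx (S.smul_mem _ (Submodule.subset_span ⟨hb, bu⟩))
  have inv' : ∀ b, Lam h N b → ∀ x ∈ S, B b x ≠ 0 → b ∈ S := fun b hb x hx c => by
    have := sub_mem hx (inv b hb x hx)
    rwa [r_apply, sub_sub_cancel, S.smul_mem_iff (mul_ne_zero (inv_ne_zero hb.1) c)] at this
  have pb : ∀ j b, p j b ≠ 0 → B (e j) b ≠ 0 := fun j b c k => c (by
    rw [p_line d (h1 j) (he j) (by simp [h.form.diag, ec, c0, t2]), k]; simp)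
  have all : ∀ j, e j ∈ S := fun j => by
    obtain ⟨b, hb, b1, b2⟩ := con i j
    exact inv' _ (lam_r h (q0 j) (re j)) b (inv' b hb (e i)
      (Submodule.subset_span ⟨lam_r h (q0 i) (re i), hi⟩) (h.refl_ne (pb i b b1))) (pb j b b2)
  have fl : h.Full N u := h.full_of_ar qu (fun x hx => by
    have : x ∈ h.Arm N u ⊔ Submodule.span F {f} :=
      (Submodule.span_le.mpr fun b hb => key b hb.1 hb.2 : S ≤ _) (mem_of_blocks d fun j _ z hz => by
        obtain ⟨a, rfl⟩ := line_mem d (h1 j) (he j) (ne j) hz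
        exact S.smul_mem _ (all j))
    obtain ⟨a, ha, z, hz, rfl⟩ := Submodule.mem_sup.mp this
    obtain ⟨β, rfl⟩ := Submodule.mem_span_singleton.mp hz
    have : β = 0 := by simpa [uf, h.ar_perp (h.ar_of_arm ha)] using hx
    simpa [this] using h.ar_of_arm ha) fun c hc => by
      rw [show c = 0 from hc, h.eich_zero]; exact one_mem _
  refine h.om_le_of_full hN fl (fl.map hN (re i)) ?_
  simpa [Adm.apply (adm_r h _), h.diag0 qu, q0, hi] using h.refl_ne hi

omit h1 he c0 ec t2 hN re in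
include h in
theorem Q_sub_sum (I : Finset (Fin t)) (a : V) :
    Q (a - ∑ i ∈ I, p i a) = Q a - ∑ i ∈ I, Q (p i a) ∧
      ∀ l, p l (∑ i ∈ I, p i a) = if l ∈ I then p l a else 0 := by
  classical
  have k : ∀ l, p l (∑ i ∈ I, p i a) = if l ∈ I then p l a else 0 := fun l => by
    rw [map_sum]
    split_ifs with c
    · rw [Finset.sum_eq_single l (fun j _ hj => d.p_p' hj.symm a) (by simp [c]), d.p_p]
    · exact Finset.sum_eq_zero fun j hj => d.p_p' (by rintro rfl; exact c hj) a
  refine ⟨?_, k⟩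
  rw [Q_sum h d, Q_sum h d a, ← Finset.sum_add_sum_compl I, ← Finset.sum_add_sum_compl I,
    Finset.sum_eq_zero fun i hi => by rw [map_sub, k, if_pos hi, sub_self, h.Q_zero],
    Finset.sum_congr rfl fun i hi => by rw [map_sub, k, if_neg (by simpa using hi), sub_zero]]
  ring

omit hN in
theorem exists_sign (I : Finset (Fin t)) : ∃ s ∈ N, ∀ v, s v = v - (2 : F) • ∑ i ∈ I, p i v := by
  classical
  induction I using Finset.induction_on with
  | empty => exact ⟨1, one_mem _, by simp⟩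
  | insert i I hi ih =>
    obtain ⟨s, hs, ih⟩ := ih
    refine ⟨_, mul_mem (re i) hs, fun v => ?_⟩
    rw [LinearEquiv.mul_apply, r_line d h1 he c0 ec t2, ih, Finset.sum_insert hi, map_sub, map_smul,
      (Q_sub_sum (h := h) d I v).2, if_neg hi]
    module

omit d h1 he c0 ec t2 hN re in
theorem Lam.neg {a : V} (ha : Lam h N a) : Lam h N (-a) := by
  have q : Q (-a) = Q a := by rw [← neg_one_smul F, h.Q_smul]; simp
  refine ⟨q ▸ ha.1, fun c => ?_⟩
  by_cases hc : Adm h a c
  · convert ha.2 c using 1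
    ext x; simp [hc.apply, (hc.congr q).apply]
  · rw [rf, dif_neg fun e : Adm h (-a) c => hc (e.congr q.symm)]; exact one_mem _

theorem degen {a : V} (ha : Lam h N a) (I : Finset (Fin t)) {o : Fin t} (ho : o ∉ I)
    (ho' : p o a ≠ 0) (q : Q a = ∑ i ∈ I, Q (p i a)) : HasE h N := by
  obtain ⟨s, hs, es⟩ := exists_sign d h1 he c0 ec t2 re I
  obtain ⟨k1, k2⟩ := Q_sub_sum (h := h) d I a
  rw [← q, sub_self] at k1
  have q1 := h.sing_smul k1 (-2)
  have e1 : B (a - ∑ i ∈ I, p i a) a = 0 := by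
    have : B (a - ∑ i ∈ I, p i a) (∑ i ∈ I, p i a) = 0 := perp_of_blocks d fun l hl => by
      by_contra c
      rw [map_sub, k2] at hl
      rw [k2] at c
      split_ifs at hl c <;> simp at hl c
    have := congrArg₂ (· + ·) (h.diag0 k1) this
    rwa [← map_add, sub_add_cancel, add_zero] at this
  refine ⟨_, smul_ne_zero (neg_ne_zero.mpr t2) fun c => ho' ?_, q1, _, (adm_r h a).mem_ar q1
    (by rw [map_smul, LinearMap.smul_apply, e1, smul_zero]) (mul_mem ?_ (inv_mem (ha.2 _))), Q_smul_ne h ha.1 (inv_ne_zero ha.1)⟩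
  · simpa [k2, ho] using congrArg (p o) c
  · convert (ha.map hN hs).neg.2 _ using 2
    rw [es]; module

theorem trip (hp : (Fintype.card F).Prime) {a : V} (ha : Lam h N a) {i j : Fin t} (hij : i ≠ j)
    (hi : p i a ≠ 0) (hj : p j a ≠ 0) (q : Q a ≠ Q (p i a) + Q (p j a)) (hE : ¬ HasE h N) :
    (4 * Q (p i a) / Q a - 1) * (4 * Q (p i a) / Q a - 2) *
      ((4 * Q (p i a) / Q a) ^ 2 - 3 * (4 * Q (p i a) / Q a) + 1) = 0 := by
  have hQ : IsQuad B Q := h.form
  have : Fact (Fintype.card F).Prime := ⟨hp⟩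
  have : CharP F (Fintype.card F) := charP_of_card_eq_prime rfl
  have ne : ∀ i, e i ≠ 0 := fun i => ne_zero_of_Q h (by rwa [ec])
  obtain ⟨α, e1⟩ := line_mem d (h1 i) (he i) (ne i) (d.mem i a)
  obtain ⟨β, e2⟩ := line_mem d (h1 j) (he j) (ne j) (d.mem j a)
  obtain ⟨k1, k2⟩ := Q_sub_sum (h := h) d {i, j} a
  rw [Finset.sum_pair hij, Finset.sum_pair hij] at k1
  obtain ⟨w, hw⟩ : ∃ w, w = a - (p i a + p j a) := ⟨_, rfl⟩
  rw [← hw, ← e1, ← e2, hQ.smul', hQ.smul', ec, ec] at k1
  have iw : B (e i) w = 0 := by rw [← d.B_p (he i), hw]; simp [d.p_p, d.p_p' hij]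
  have jw : B (e j) w = 0 := by rw [← d.B_p (he j), hw]; simp [d.p_p, d.p_p' hij.symm]
  have ij := d.orth i j hij _ (he i) _ (he j)
  rw [← e1, ← e2, hQ.smul', hQ.smul', ec, ec] at q
  have qw : Q w ≠ 0 := k1 ▸ sub_ne_zero.mpr q
  have qa : α * α + β * β + Q w / c = Q a / c := by rw [k1]; field_simp; ring
  have ea : a = α • e i + β • e j + (1 : F) • w := by rw [hw, e1, e2]; simp
  have BL : ∀ x y z x' y' z' : F, B (x • e i + y • e j + z • w) (x' • e i + y' • e j + z' • w) =
      2 * c * (x * x' + y * y' + Q w / c * z * z') := fun x y z x' y' z' => by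
    simp [hQ.diag', ec, iw, jw, ij, h.refl iw, h.refl jw, h.refl ij]; field_simp
  let U := Submodule.span F {e i, e j, w}
  have mU : ∀ x y z : F, x • e i + y • e j + z • w ∈ U := fun x y z =>
    Submodule.mem_span_triple.mpr ⟨x, y, z, rfl⟩
  have inj : ∀ x y z : F, (∀ v ∈ U, B (x • e i + y • e j + z • w) v = 0) → x = 0 ∧ y = 0 ∧ z = 0 :=
    fun x y z k => ⟨by simpa [BL, t2, c0] using (BL ..).symm.trans (k _ (mU 1 0 0)),
      by simpa [BL, t2, c0] using (BL ..).symm.trans (k _ (mU 0 1 0)),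
      by simpa [BL, t2, c0, qw] using (BL ..).symm.trans (k _ (mU 0 0 1))⟩
  have hU : NondegOn B U := fun v hv k => by
    obtain ⟨x, y, z, rfl⟩ := Submodule.mem_span_triple.mp hv
    obtain ⟨rfl, rfl, rfl⟩ := inj x y z k
    simp
  rcases model (p := Fintype.card F) t2 (div_ne_zero qw c0) (a := α) (b := β)
    (by rintro rfl; exact hi (by simp [← e1])) (by rintro rfl; exact hj (by simp [← e2]))
    (qa ▸ div_ne_zero ha.1 c0) (fun x y z => x • e i + y • e j + z • w)
    (fun x y z x' y' z' k => by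
      simpa [sub_eq_zero] using inj (x - x') (y - y') (z - z') fun v _ => by
        rw [show (x - x') • e i + (y - y') • e j + (z - z') • w = 0 by
          rw [← sub_eq_zero] at k; rw [← k]; module]
        simp)
    (N ⊓ Loc B Q U) (fun x y z m => by
      have m1 : Lam h N (x • e i + y • e j + z • w) := by
        rcases m with m | m | m <;> obtain ⟨rfl, rfl, rfl⟩ := m
        · simpa using lam_r h (by rwa [ec]) (re i)
        · simpa using lam_r h (by rwa [ec]) (re j)
        · rwa [← ea]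
      refine ⟨r h _, ⟨m1.2 _, rf_mem_loc h (mU x y z) _⟩, fun x' y' z' s hs => ?_⟩
      have q1 : Q (x • e i + y • e j + z • w) = c * (x * x + y * y + Q w / c * z * z) :=
        mul_left_cancel₀ t2 (by rw [← hQ.diag', BL, mul_assoc])
      have q2 := m1.1
      rw [r_apply, BL, show (Q (x • e i + y • e j + z • w))⁻¹ * _ = s from by
        rw [inv_mul_eq_iff_eq_mul₀ q2, q1]; linear_combination -c * hs]
      module) with k | ⟨n, hn, n1, k⟩
  · rw [qa] at k
    rw [← e1, hQ.smul', ec]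
    have := ha.1
    field_simp at k ⊢
    linear_combination k
  · refine absurd (unip_three h hp t2 hU ?_ hn.1 hn.2 n1 (eq_one_of_loc h hU (pow_mem hn.2 _)
      fun v hv => ?_)) hE
    · classical
      exact ((finrank_span_finset_le_card (R := F) {e i, e j, w}).trans'
        (by rw [Finset.coe_insert, Finset.coe_pair]; rfl)).trans Finset.card_le_three
    · obtain ⟨x, y, z, rfl⟩ := Submodule.mem_span_triple.mp hv
      exact k x y z

end Cfsg.Agent.H11.Im
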