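import Mathlib
import Cfsg.Agent.H11.Im13

/-!
Reflection overgroups of the stabiliser of an orthogonal frame over a prime field.
-/

set_option autoImplicit false
set_option linter.unusedSectionVars false

namespace Cfsg.Agent.H11.Im

open Module H10 H11 Cfsg.Geo

variable {F : Type*} [Field F] {V : Type*} [AddCommGroup V] [Module F V] [FiniteDimensional F V]
  {t : ℕ} {D : Fin t → Submodule F V} {p : Fin t → V →ₗ[F] V}
  {B : V →ₗ[F] V →ₗ[F] F} {Q : V → F} [Fintype F]

open Classical in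
/-- The support of a vector with respect to a frame. -/
noncomputable def sp (B : V →ₗ[F] V →ₗ[F] F) (e : Fin t → V) (v : V) : Finset (Fin t) :=
  Finset.univ.filter fun i => B (e i) v ≠ 0

theorem mem_sp {e : Fin t → V} {v : V} {i : Fin t} : i ∈ sp B e v ↔ B (e i) v ≠ 0 := by simp [sp]

variable {h : Cl (σ := RingHom.id F) 1 2 (AddMonoidHom.id F) B Q} (d : Dec B Q D p)
  (h1 : ∀ i, finrank F (D i) ≤ 1) {e : Fin t → V} (he : ∀ i, e i ∈ D i)
  {c : F} (c0 : c ≠ 0) (ec : ∀ i, Q (e i) = c) (t2 : (2 : F) ≠ 0)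
include h d h1 he c0 ec t2

theorem Bee (i j : Fin t) : B (e i) (e j) = if i = j then 2 * c else 0 := by
  split_ifs with k
  · rw [k, h.form.diag, ec]
  · exact d.orth i j k _ (he i) _ (he j)

theorem pe (i : Fin t) (v : V) : p i v = (B (e i) v / (2 * c)) • e i := by
  rw [p_line d (h1 i) (he i) (by simp [h.form.diag, ec, c0, t2]), h.form.diag, ec]

theorem pz (i : Fin t) (v : V) : p i v = 0 ↔ B (e i) v = 0 := by
  simp [pe (h := h) d h1 he c0 ec t2, c0, t2, ne_zero_of_Q h (show Q (e i) ≠ 0 by rwa [ec])]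

theorem Qp (i : Fin t) (v : V) : 4 * Q (p i v) = B (e i) v ^ 2 / c := by
  have hQ : IsQuad B Q := h.form
  rw [pe (h := h) d h1 he c0 ec t2, hQ.smul', ec]; field_simp; ring

theorem Bs (v w : V) : 2 * c * B v w = ∑ i, B (e i) v * B (e i) w := by
  rw [B_sum d, Finset.mul_sum]
  refine Finset.sum_congr rfl fun i _ => ?_
  simp only [pe (h := h) d h1 he c0 ec t2, map_smul, LinearMap.smul_apply, smul_eq_mul, h.form.diag, ec]
  field_simp

theorem blk_of {g : V ≃ₗ[F] V} {l m : Fin t} (hg : g (e l) ∈ D m) : ∀ z ∈ D l, g z ∈ D m :=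
  fun z hz => by
  obtain ⟨s, rfl⟩ := line_mem d (h1 l) (he l) (ne_zero_of_Q h (by rwa [ec])) hz
  rw [map_smul]; exact (D m).smul_mem _ hg

theorem Q_root {a b : Fin t} (hab : a ≠ b) {ε : F} (hε : ε * ε = 1) : Q (e a - ε • e b) = 2 * c := by
  have hQ : IsQuad B Q := h.form
  simp only [hQ.sub', hQ.smul', ec, map_smul, d.orth a b hab _ (he a) _ (he b), hε]; simp; ring

theorem r_root {a b : Fin t} (hab : a ≠ b) {ε : F} (hε : ε * ε = 1) (l : Fin t) :
    r h (e a - ε • e b) (e l) = (if l = a ∨ l = b then ε else 1) • e (Equiv.swap a b l) := by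
  rw [r_apply, Q_root (h := h) d h1 he c0 ec t2 hab hε]
  simp only [map_sub, map_smul, LinearMap.sub_apply, LinearMap.smul_apply, Bee (h := h) d h1 he c0 ec t2]
  by_cases k : l = a
  · subst k; simp [hab.symm]; match_scalars <;> field_simp; ring
  by_cases k' : l = b
  · subst k'; simp [hab]; match_scalars <;> field_simp
    linear_combination -hε
  simp [k, k', Ne.symm k, Ne.symm k', Equiv.swap_apply_of_ne_of_ne k k']

theorem root_dstab {a b : Fin t} (hab : a ≠ b) {ε : F} (hε : ε * ε = 1) :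
    r h (e a - ε • e b) ∈ dstab D := perm_dstab d (π := Equiv.swap a b) fun l =>
  blk_of (h := h) d h1 he c0 ec t2 (by
    rw [r_root d h1 he c0 ec t2 hab hε]; exact (D _).smul_mem _ (he _))

variable (hn : 5 ≤ finrank F V) {N : Subgroup (V ≃ₗ[F] V)} (hO : Ov h D N)
include hn hO

theorem root_pair {a b a' b' : Fin t} (hab : a ≠ b) (hab' : a' ≠ b') {ε δ : F} (hε : ε * ε = 1)
    (hδ : δ * δ = 1) : r h (e a - ε • e b) * r h (e a' - δ • e b') ∈ h.Om := by
  have q := Q_root (h := h) d h1 he c0 ec t2 hab hε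
  have q' := Q_root (h := h) d h1 he c0 ec t2 hab' hδ
  exact r_mul_mem h hn (by simp [q, t2, c0]) (by simp [q', t2, c0]) ⟨_, by rw [q, q']⟩

theorem frame_perm (π : Equiv.Perm (Fin t)) (A : Finset (Fin t)) (hA : A.card + 2 ≤ t) :
    ∃ k ∈ N, k ∈ h.Om ∧ ∃ π' : Equiv.Perm (Fin t), (∀ l, k (e l) = e (π' l)) ∧ ∀ l ∈ A, π' l = π l := by
  obtain ⟨x, hx, y, hy, hxy⟩ := Finset.one_lt_card.mp (show 1 < Aᶜ.card by
    rw [Finset.card_compl, Fintype.card_fin]; omega)
  have rr : ∀ a b, a ≠ b → ∀ l, r h (e a - (1 : F) • e b) (e l) = e (Equiv.swap a b l) :=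
    fun a b hab l => by rw [r_root d h1 he c0 ec t2 hab (mul_one 1)]; simp
  obtain ⟨k, k1, k2⟩ : ∃ k, (∀ l, k (e l) = e (π l)) ∧
      (k ∈ h.Om ∨ k * r h (e x - (1 : F) • e y) ∈ h.Om) := by
    induction π using Equiv.Perm.swap_induction_on with
    | one => exact ⟨1, fun _ => rfl, Or.inl (one_mem _)⟩
    | swap_mul σ a b hab ih =>
      obtain ⟨k, k1, k2⟩ := ih
      have m := root_pair d h1 he c0 ec t2 hn hO hab hxy (mul_one 1) (mul_one 1)
      refine ⟨r h (e a - (1 : F) • e b) * k, fun l => by rw [LinearEquiv.mul_apply, k1, rr a b hab]; rfl,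
        k2.symm.imp (fun k2 => ?_) fun k2 => ?_⟩ <;>
      have := mul_mem m (h.conj_mem_om (r_isom h (e x - (1 : F) • e y)) k2)
      · rwa [← mul_assoc _ k, mul_inv_cancel_right, mul_assoc, ← mul_assoc _ _ k, r_r, one_mul] at this
      · rwa [r_inv, mul_assoc, mul_assoc, ← mul_assoc _ _ (k * _), r_r, one_mul, ← mul_assoc] at this
  have ds : ∀ k ∈ h.Om, ∀ π : Equiv.Perm (Fin t), (∀ l, k (e l) = e (π l)) → k ∈ N :=
    fun k hk π k1 => hO k hk (perm_dstab d (π := π) fun l =>
      blk_of (h := h) d h1 he c0 ec t2 (k1 l ▸ he _))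
  rcases k2 with k2 | k2
  · exact ⟨k, ds k k2 π k1, k2, π, k1, fun _ _ => rfl⟩
  have k3 : ∀ l, (k * r h (e x - (1 : F) • e y)) (e l) = e ((π * Equiv.swap x y) l) := fun l => by
    rw [LinearEquiv.mul_apply, rr x y hxy, k1]; rfl
  refine ⟨_, ds _ k2 _ k3, k2, _, k3, fun l hl => ?_⟩
  rw [Equiv.Perm.mul_apply, Equiv.swap_apply_of_ne_of_ne] <;> rintro rfl <;> simp [hl] at hx hy

variable (hN : N ≤ Isom B Q)
include hN

theorem overlap {a : V} (ha : Lam h N a) {i : Fin t} (hi : i ∈ sp B e a)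
    (hc : 2 * (sp B e a).card ≤ t + 1) (hc' : (sp B e a).card + 2 ≤ t) :
    ∃ b, Lam h N b ∧ ∃ S ⊆ sp B e b, i ∉ S ∧ S.card + 2 = 2 * (sp B e a).card ∧
      (B (e i) a ^ 2 ≠ 2 * c * Q a → i ∈ sp B e b) := by
  obtain ⟨π, p1, p2⟩ := exists_perm_move ((sp B e a).erase i) (sp B e a)ᶜ {i} (by
    rw [Finset.card_compl, Finset.card_erase_of_mem hi, Fintype.card_fin]; omega) (by simp) (by simpa)
  obtain ⟨k, hk, -, π', k1, k2⟩ := frame_perm d h1 he c0 ec t2 hn hO π _ hc'
  have k3 : ∀ l, B (e (π' l)) (k a) = B (e l) a := fun l => by rw [← k1, (hN hk).1]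
  have k4 : π' i = i := (k2 i hi).trans (p2 i (by simp))
  have k4' : B (e i) (k a) = B (e i) a := by rw [← k3 i, k4]
  have k5 : ∀ l ∈ sp B e a, l ≠ i → B (e (π' l)) a = 0 := fun l hl hl' => by
    simpa [mem_sp, k2 l hl] using p1 l (by simp [hl, hl'])
  have k6 : ∀ l ∈ sp B e a, l ≠ i → B (e l) (k a) = 0 := fun l hl hl' => by
    obtain ⟨l, rfl⟩ := π'.surjective l
    rw [k3]; by_contra c
    exact mem_sp.mp hl (k5 l (mem_sp.mpr c) (by rintro rfl; exact hl' k4))
  have k7 : 2 * c * B a (k a) = B (e i) a ^ 2 := by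
    rw [Bs (h := h) d h1 he c0 ec t2, Finset.sum_eq_single i (fun l _ hl => by
      by_cases c : l ∈ sp B e a
      · rw [k6 l c hl, mul_zero]
      · simp_all [mem_sp]) (by simp), k4', sq]
  have i0 := mem_sp.mp hi
  have qa := ha.1
  have k8 : B a (k a) ≠ 0 := fun c => pow_ne_zero 2 i0 (by rw [← k7, c, mul_zero])
  refine ⟨_, (ha.map hN hk).map hN (ha.2 (Q a)⁻¹), (sp B e a).erase i ∪
    ((sp B e a).erase i).map π'.toEmbedding, fun l hl => mem_sp.mpr ?_, ?_, ?_, fun c => mem_sp.mpr ?_⟩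
  · rw [r_apply]
    rcases Finset.mem_union.mp hl with hl | hl
    · obtain ⟨a1, a2⟩ := Finset.mem_erase.mp hl
      simpa [k6 l a2 a1, qa, k8] using mem_sp.mp a2
    · obtain ⟨l, hl', rfl⟩ := Finset.mem_map.mp hl
      obtain ⟨a1, a2⟩ := Finset.mem_erase.mp hl'
      simpa [k5 l a2 a1, k3] using mem_sp.mp a2
  · simp [Equiv.symm_apply_eq, k4]
  · rw [Finset.card_union_of_disjoint, Finset.card_map, Finset.card_erase_of_mem hi]
    · have := Finset.card_pos.mpr ⟨i, hi⟩; omega
    · refine Finset.disjoint_left.mpr fun l hl hl' => ?_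
      obtain ⟨l, a, rfl⟩ := Finset.mem_map.mp hl'
      exact mem_sp.mp (Finset.mem_erase.mp hl).2 (k5 l (Finset.mem_erase.mp a).2 (Finset.mem_erase.mp a).1)
  · rw [r_apply, map_sub, map_smul, k4', smul_eq_mul, ← one_sub_mul]
    refine mul_ne_zero (fun e => c ?_) i0
    rw [← k7, sub_eq_zero, eq_inv_mul_iff_mul_eq₀ qa, mul_one] at *
    rw [e]

variable (re : ∀ i, r h (e i) ∈ N)
include re

omit hn hO in
theorem bound (hp : (Fintype.card F).Prime) (t3 : (3 : F) ≠ 0) (hE : ¬ HasE h N) {a : V}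
    (ha : Lam h N a) : (sp B e a).card ≤ 6 := by
  classical
  by_contra hc
  have hQ : IsQuad B Q := h.form
  have z := pz (h := h) d h1 he c0 ec t2
  have t4 : (4 : F) ≠ 0 := by rw [show (4 : F) = 2 * 2 by norm_num]; exact mul_ne_zero t2 t2
  have dg : ∀ a, Lam h N a → ∀ I : Finset (Fin t), I.card < (sp B e a).card →
      ∑ i ∈ I, 4 * Q (p i a) / Q a ≠ 4 := fun a ha I hI k => by
    obtain ⟨o, o1, o2⟩ := Finset.exists_mem_notMem_of_card_lt_card hI
    refine hE (degen d h1 he c0 ec t2 hN re ha I o2 (by simpa [z] using mem_sp.mp o1) ?_)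
    rw [← Finset.sum_div, ← Finset.mul_sum, div_eq_iff ha.1] at k
    exact (mul_left_cancel₀ t4 k).symm
  have good : ∀ a, Lam h N a → 3 ≤ (sp B e a).card → ∀ i ∈ sp B e a, (4 * Q (p i a) / Q a - 1) *
      (4 * Q (p i a) / Q a - 2) * ((4 * Q (p i a) / Q a) ^ 2 - 3 * (4 * Q (p i a) / Q a) + 1) = 0 :=
    fun a ha h3 i hi => by
    obtain ⟨j, j1, j2⟩ := Finset.exists_mem_notMem_of_card_lt_card (s := {i}) (t := sp B e a)
      (by simp; omega)
    have hij : i ≠ j := by rintro rfl; simp at j2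
    refine trip d h1 he c0 ec t2 hN re hp ha hij (by simpa [z] using mem_sp.mp hi)
      (by simpa [z] using mem_sp.mp j1) (fun k => dg a ha {i, j} (by rw [Finset.card_pair hij]; omega) ?_) hE
    rw [Finset.sum_pair hij, ← add_div, ← mul_add, ← k, mul_div_cancel_right₀ _ ha.1]
  have cnt : ∀ (n : ℕ) (s : F), n ≤ 6 → n * s = 4 →
      ((sp B e a).filter fun i => 4 * Q (p i a) / Q a = s).card < n := fun n s hn hs => by
    by_contra k
    obtain ⟨I, I1, I2⟩ := Finset.exists_subset_card_eq (not_lt.mp k)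
    refine dg a ha I (by omega) ?_
    rw [Finset.sum_congr rfl fun i hi => (Finset.mem_filter.mp (I1 hi)).2, Finset.sum_const, I2,
      nsmul_eq_mul, hs]
  have c1 := cnt 4 1 (by omega) (by simp)
  have c2 := cnt 2 2 (by omega) (by norm_num)
  have c3 := card_le_two_of_quad (((sp B e a).filter fun i => (4 * Q (p i a) / Q a) ^ 2 -
    3 * (4 * Q (p i a) / Q a) + 1 = 0).image fun i => 4 * Q (p i a) / Q a) (a := 1) (b := -3) (c := 1)
    one_ne_zero fun x hx => by
      obtain ⟨i, hi, rfl⟩ := Finset.mem_image.mp hx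
      linear_combination (Finset.mem_filter.mp hi).2
  rw [Finset.card_image_of_injOn fun i hi j hj k => by
    by_contra hij
    obtain ⟨i1, i2⟩ := Finset.mem_filter.mp hi
    obtain ⟨j1, -⟩ := Finset.mem_filter.mp hj
    have qa := ha.1
    have j0 := mem_sp.mp j1
    have hb := (lam_r h (show Q (e j) ≠ 0 by rwa [ec]) (re j)).map hN (ha.2 (Q a)⁻¹)
    have b1 : ∀ l, l ≠ j → B (e l) (r h a (e j)) = -((Q a)⁻¹ * B (e j) a) * B (e l) a := fun l hl => by
      simp [r_apply, Bee (h := h) d h1 he c0 ec t2, hl, hQ.comm a]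
    have b2 : (sp B e a).erase j ⊆ sp B e (r h a (e j)) := fun l hl => mem_sp.mpr (by
      simpa [b1 l (Finset.mem_erase.mp hl).1, qa, j0] using mem_sp.mp (Finset.mem_erase.mp hl).2)
    have b3 := Finset.card_le_card b2
    rw [Finset.card_erase_of_mem j1] at b3
    have b4 := good _ hb (le_trans (by omega) b3) i (b2 (by simp [hij, i1]))
    have b5 : 4 * Q (p i a) / Q a ≠ 4 := fun k => by
      have := cnt 1 4 (by omega) (by simp)
      simp only [Nat.lt_one_iff, Finset.card_eq_zero, Finset.filter_eq_empty_iff] at this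
      exact this i1 k
    rw [show 4 * Q (p i (r h a (e j))) / Q (r h a (e j)) =
        4 * Q (p i a) / Q a * (4 * Q (p j a) / Q a) by
      simp only [Qp (h := h) d h1 he c0 ec t2, b1 i hij, (r_isom h a).2, ec]; field_simp] at b4
    rw [← k] at b4
    generalize 4 * Q (p i a) / Q a = τ at i2 b4 b5
    rcases mul_eq_zero.mp b4 with k | k
    · rcases mul_eq_zero.mp k with k | k
      · exact b5 (by linear_combination (2 - 2 * τ - 3 * τ ^ 2) * (k - i2) + 9 * τ * k)
      · exact pow_ne_zero 2 t3 (by linear_combination (3 * τ + 3) * (k - i2) - 9 * k)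
    · exact t4 (by linear_combination 36 * i2 + (8 - 3 * τ) * (k - (τ ^ 2 + 3 * τ + 5) * i2))] at c3
  have key : ∀ A C E : Finset (Fin t), sp B e a ⊆ A ∪ C ∪ E → A.card < 4 → C.card < 2 → E.card ≤ 2 →
      False := fun A C E k _ _ _ => by
    have := Finset.card_le_card k
    have := Finset.card_union_le (A ∪ C) E
    have := Finset.card_union_le A C
    omega
  exact key _ _ _ (fun i hi => by
    simpa only [Finset.mem_union, Finset.mem_filter, hi, true_and, mul_eq_zero, sub_eq_zero] using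
      good a ha (by omega) i hi) c1 c2 c3

omit hn hO hN re in
theorem two_le_sp {v : V} (hv : ∀ l, v ∉ D l) (ht : 1 ≤ t) : 2 ≤ (sp B e v).card := by
  by_contra hc
  have : Nonempty (Fin t) := ⟨⟨0, ht⟩⟩
  obtain ⟨l, hl⟩ := Finset.card_le_one_iff_subset_singleton.mp (show (sp B e v).card ≤ 1 by omega)
  exact hv l (mem_of_blocks d fun i hi => by
    rw [Finset.mem_singleton.mp (hl (mem_sp.mpr (mt (pz (h := h) d h1 he c0 ec t2 i v).mpr hi)))])

omit hn hO hN re in
theorem out_sp (x : V ≃ₗ[F] V) (J S : Finset (Fin t)) (hJ : S.card < J.card) :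
    ∃ l ∈ J, ∃ o ∉ S, o ∈ sp B e (x (e l)) := by
  by_contra hc
  push Not at hc
  refine (card_le_of_supp d x J S fun l hl z hz i hi => ?_).not_gt hJ
  obtain ⟨s, rfl⟩ := line_mem d (h1 l) (he l) (ne_zero_of_Q h (by rwa [ec])) hz
  simpa [pz (h := h) d h1 he c0 ec t2, mem_sp] using Or.inr (hc l hl i hi)

omit hn hO hN re in
theorem single {v w : V} {i : Fin t} (hv : i ∈ sp B e v) (hw : i ∈ sp B e w)
    (k : ∀ l ∈ sp B e v, l ∈ sp B e w → l = i) : B v w ≠ 0 := fun c => by
  have := Bs (h := h) d h1 he c0 ec t2 v w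
  rw [c, mul_zero, Finset.sum_eq_single i (fun l _ hl => by
    by_contra c; exact hl (k l (mem_sp.mpr (left_ne_zero_of_mul c)) (mem_sp.mpr (right_ne_zero_of_mul c))))
    (by simp)] at this
  exact mul_ne_zero (mem_sp.mp hv) (mem_sp.mp hw) this.symm

theorem three (ht : 4 ≤ t) {x : V ≃ₗ[F] V} (hx : x ∈ N) {j : Fin t}
    (hj : 2 ≤ (sp B e (x (e j))).card) : ∃ a, Lam h N a ∧ 3 ≤ (sp B e a).card := by
  by_contra hc
  push Not at hc
  have q0 : ∀ i, Q (e i) ≠ 0 := fun i => by rwa [ec]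
  have La : ∀ l, Lam h N (x (e l)) := fun l => (lam_r h (q0 l) (re l)).map hN hx
  have c2 : (sp B e (x (e j))).card = 2 := by have := hc _ (La j); omega
  obtain ⟨i, hi⟩ := Finset.card_pos.mp (show 0 < (sp B e (x (e j))).card by omega)
  have k : B (e i) (x (e j)) ^ 2 = 2 * c * c := by
    by_contra k
    obtain ⟨b, hb, S, s1, s2, s3, s4⟩ := overlap d h1 he c0 ec t2 hn hO hN (La j) hi (by omega) (by omega)
    have := Finset.card_le_card (Finset.insert_subset (s4 (by rwa [(hN hx).2, ec])) s1)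
    rw [Finset.card_insert_of_notMem s2] at this
    have := hc b hb
    omega
  obtain ⟨l, -, o, o1, o2⟩ := out_sp (h := h) d h1 he c0 ec t2 x Finset.univ (sp B e (x (e j)))
    (by simp; omega)
  have hjl : j ≠ l := by rintro rfl; exact o1 o2
  have q := Q_root (h := h) d h1 he c0 ec t2 hjl (mul_one 1)
  have q1 : Q (e j - (1 : F) • e l) ≠ 0 := by rw [q]; exact mul_ne_zero t2 c0
  have m := mul_mem (hO _ (r_mul_mem h hn q1 (q0 j) ⟨_, by rw [q, ec, ← k, sq]⟩) (mul_mem
    (root_dstab d h1 he c0 ec t2 hjl (mul_one 1)) (rf_dstab h d (he j) _))) (inv_mem (re j))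
  rw [mul_inv_cancel_right] at m
  have k1 : ∀ i ∈ sp B e (x (e j)), i ∉ sp B e (x (e l)) := fun i hi hi' =>
    single (h := h) d h1 he c0 ec t2 hi hi' (fun s s1 s2 => by
      by_contra c
      have := Finset.card_le_card (show {o, i, s} ⊆ sp B e (x (e l)) by
        simp [Finset.insert_subset_iff, o2, hi', s2])
      rw [Finset.card_eq_three.mpr ⟨o, i, s, by rintro rfl; exact o1 hi, by rintro rfl; exact o1 s1,
        Ne.symm c, rfl⟩] at this
      exact (hc _ (La l)).not_ge this) (by rw [(hN hx).1, d.orth j l hjl _ (he j) _ (he l)])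
  have := Finset.card_le_card (show insert o (sp B e (x (e j))) ⊆ sp B e (x (e j - (1 : F) • e l)) from
    fun s hs => by
      rcases Finset.mem_insert.mp hs with rfl | hs
      · simp_all [mem_sp]
      · have := k1 s hs
        simp_all [mem_sp])
  rw [Finset.card_insert_of_notMem o1] at this
  have := hc _ ((lam_r h q1 m).map hN hx)
  omega

theorem rt_three (hp : (Fintype.card F).Prime) (t3 : (3 : F) = 0) (ht : 6 ≤ t) {a : V}
    (ha : Lam h N a) {i j l o : Fin t} (hij : i ≠ j) (hil : i ≠ l) (hio : i ≠ o) (hjl : j ≠ l)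
    (hjo : j ≠ o) (hlo : l ≠ o) (ai : p i a = e i) (aj : p j a = e j) (al : p l a = e l)
    (ao : p o a ≠ 0) : h.Om ≤ N := by
  have hQ : IsQuad B Q := h.form
  have ee := Bee (h := h) d h1 he c0 ec t2
  have c2 := mul_ne_zero t2 c0
  obtain ⟨u, hu⟩ : ∃ u, u = e i + e j + e l := ⟨_, rfl⟩
  have eu : ∀ m, m ≠ i → m ≠ j → m ≠ l → B (e m) u = 0 := fun m a b c => by simp [hu, ee, a, b, c]
  have qu : Q u = 0 := by
    simp [hu, hQ.add', ee, ec, hij, hil, hjl]; linear_combination c * t3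
  have ua : B u a = 0 := by
    simp only [hu, map_add, LinearMap.add_apply]
    rw [← d.B_p (he i), ← d.B_p (he j), ← d.B_p (he l), ai, aj, al]
    simp only [ee, if_true]; linear_combination 2 * c * t3
  obtain ⟨s, hs, es⟩ := exists_sign d h1 he c0 ec t2 re {i, j, l}
  have a1 := arm_of_ar h hp ((adm_r h a).mem_ar qu ua (mul_mem (by
    convert (ha.map hN hs).2 _ using 2
    rw [es, Finset.sum_insert (by simp [hij, hil]), Finset.sum_pair hjl, ai, aj, al, hu,
      show (2 : F) = -1 by linear_combination t3]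
    module) (inv_mem (ha.2 _))))
  rw [Submodule.smul_mem_iff _ (inv_ne_zero ha.1)] at a1
  have a2 := sub_mem a1 (h.map_mem_arm hN (re o) (rf_fix h _ _ (eu o hio.symm hjo.symm hlo.symm)) a1)
  rw [r_apply, sub_sub_cancel, Submodule.smul_mem_iff _ (mul_ne_zero (by simpa [ec])
    (by rwa [Ne, ← pz (h := h) d h1 he c0 ec t2]))] at a2
  have a3 : ∀ m, m ≠ i → m ≠ j → m ≠ l → e m ∈ h.Arm N u := fun m a b c => by
    obtain ⟨k, hk, -, π, k1, k2⟩ := frame_perm d h1 he c0 ec t2 hn hO (Equiv.swap o m) {i, j, l, o}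
      ((Nat.add_le_add_right Finset.card_le_four _).trans ht)
    simp only [Finset.mem_insert, Finset.mem_singleton, forall_eq_or_imp, forall_eq] at k2
    have := h.map_mem_arm hN hk (by
      simp [hu, k1, k2, Equiv.swap_apply_of_ne_of_ne, hio, hjo, hlo, a.symm, b.symm, c.symm]) a2
    rwa [k1, k2.2.2.2, Equiv.swap_apply_left] at this
  obtain ⟨m, -, hm⟩ := Finset.exists_mem_notMem_of_card_lt_card (s := {i, j, l, o}) (t := Finset.univ)
    (Finset.card_le_four.trans_lt (by simp; omega))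
  simp only [Finset.mem_insert, Finset.mem_singleton, not_or] at hm
  obtain ⟨mi, mj, ml, mo⟩ := hm
  obtain ⟨k, hk, -, π, k1, k2⟩ := frame_perm d h1 he c0 ec t2 hn hO (Equiv.swap l o) {i, j, l, m}
    ((Nat.add_le_add_right Finset.card_le_four _).trans ht)
  simp only [Finset.mem_insert, Finset.mem_singleton, forall_eq_or_imp, forall_eq, Equiv.swap_apply_left,
    Equiv.swap_apply_of_ne_of_ne hil hio, Equiv.swap_apply_of_ne_of_ne hjl hjo,
    Equiv.swap_apply_of_ne_of_ne ml mo] at k2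
  have k3 : (r h (e j) * k) u = e i - e j + e o := by
    simp [hu, k1, k2, r_apply, ee, hij.symm, hjo, ec]; match_scalars <;> field_simp; ring
  have k4 := h.map_mem_ar hN (mul_mem (re j) hk) (h.ar_of_arm (a3 m mi mj ml))
  rw [k3, LinearEquiv.mul_apply, k1, k2.2.2.2, rf_fix h _ _ (by simp [ee, Ne.symm mj])] at k4
  have k5 := arm_of_ar h hp (h.ar_move hN (by rw [← k3, (hN (mul_mem (re j) hk)).2, qu])
    (by simp [hu, ee, hij, hil, hjl, hij.symm, hio.symm, hjo.symm, hlo.symm]) (h.ar_of_arm (a3 m mi mj ml)) k4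
    (eu m mi mj ml) (by simp [ee, Ne.symm mi, Ne.symm mj, Ne.symm mo]))
  rw [Submodule.smul_mem_iff _ (by simpa [ee] using c2)] at k5
  have k6 := sub_mem k5 a2
  rw [add_sub_cancel_right] at k6
  have fl : h.Full N u := h.full_of_ar qu (fun x hx => h.ar_of_arm (by
    obtain ⟨q1, q2⟩ := Q_sub_sum (h := h) d {i, j, l} x
    have m1 : x - ∑ s ∈ {i, j, l}, p s x ∈ h.Arm N u := mem_of_blocks d fun s hs z hz => by
      obtain ⟨a, rfl⟩ := line_mem d (h1 s) (he s) (ne_zero_of_Q h (by rwa [ec])) hz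
      rw [map_sub, q2] at hs
      refine Submodule.smul_mem _ _ (a3 s ?_ ?_ ?_) <;> rintro rfl <;> simp at hs
    rw [Finset.sum_insert (by simp [hij, hil]), Finset.sum_pair hjl] at m1
    simp only [pe (h := h) d h1 he c0 ec t2] at m1
    have := add_mem (add_mem m1 (Submodule.smul_mem _ (B (e l) x / (2 * c)) (h.self_mem_arm qu)))
      (Submodule.smul_mem _ ((B (e i) x - B (e l) x) / (2 * c)) k6)
    convert this using 1
    simp only [hu, map_add, LinearMap.add_apply] at hx ⊢
    match_scalars <;> field_simp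
    · ring
    · linear_combination hx - B (e l) x * t3
    · ring)) fun c hc => by
      rw [show c = 0 from hc, h.eich_zero]; exact one_mem _
  refine h.om_le_of_full hN fl (fl.map hN (re i)) ?_
  have : B (e i) u = 2 * c := by simp [hu, ee, hij, hil]
  simp [r_apply, h.diag0 qu, hQ.comm u, this, ec, c0, t2]

theorem rt_frame (hp : (Fintype.card F).Prime) (ht : 11 ≤ t) {x : V ≃ₗ[F] V} (hx : x ∈ N)
    (hx' : x ∉ dstab D) : h.Om ≤ N := by
  classical
  have q0 : ∀ i, Q (e i) ≠ 0 := fun i => by rwa [ec]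
  have z := pz (h := h) d h1 he c0 ec t2
  obtain ⟨-, -, -, ⟨j, rfl⟩, out⟩ := exists_out d (P := fun v => ∃ j, e j = v) (fun i => ⟨⟨_, he i,
    ne_zero_of_Q h (q0 i), i, rfl⟩, fun X a b c => absurd (Submodule.eq_of_le_of_finrank_le a
      ((h1 i).trans (Submodule.one_le_finrank_iff.mpr b))) c⟩) (hN hx) hx'
  have h2 := two_le_sp (h := h) d h1 he c0 ec t2 out (by omega)
  have ha := (lam_r h (q0 j) (re j)).map hN hx
  have qa : Q (x (e j)) = c := by rw [(hN hx).2, ec]
  by_cases c3 : Fintype.card F = 3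
  · have t3 : (3 : F) = 0 := by simpa [c3] using FiniteField.cast_card_eq_zero F
    generalize x (e j) = a at h2 ha qa
    have q1 : ∀ i ∈ sp B e a, Q (p i a) = c := fun i hi => by
      have := FiniteField.pow_card_sub_one_eq_one _ (div_ne_zero (mem_sp.mp hi) (mul_ne_zero t2 c0))
      rw [c3] at this
      rw [pe (h := h) d h1 he c0 ec t2, IsQuad.smul' h.form, ec, ← sq, this, one_mul]
    have q2 := Q_sum h d a
    rw [← Finset.sum_subset (Finset.subset_univ (sp B e a)) fun i _ hi => by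
      rw [(z i a).mpr (by simpa [mem_sp] using hi), h.Q_zero], Finset.sum_congr rfl q1,
      Finset.sum_const, nsmul_eq_mul, qa, eq_comm, mul_eq_right₀ c0] at q2
    have h4 : 4 ≤ (sp B e a).card := by
      by_contra k
      rcases (show (sp B e a).card = 2 ∨ (sp B e a).card = 3 by omega) with k | k <;> rw [k] at q2
      · exact t2 (by push_cast at q2; linear_combination t3 - q2)
      · exact t2 (by push_cast at q2; linear_combination q2)
    obtain ⟨S, s1, s2⟩ := Finset.exists_subset_card_eq h4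
    obtain ⟨i, j, l, o, hij, hil, hio, hjl, hjo, hlo, rfl⟩ := Finset.card_eq_four.mp s2
    simp only [Finset.insert_subset_iff, Finset.singleton_subset_iff] at s1
    have he' : ∀ m, (if m ∈ sp B e a then p m a else e m) ∈ D m := fun m => by
      split_ifs; exacts [d.mem m a, he m]
    have ec' : ∀ m, Q (if m ∈ sp B e a then p m a else e m) = c := fun m => by
      split_ifs with k; exacts [q1 m k, ec m]
    exact rt_three d h1 he' c0 ec' t2 hn hO hN (fun m => by
      convert re m using 1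
      ext v; rw [r_line d h1 he' c0 ec' t2, r_line d h1 he c0 ec t2]) hp t3 (by omega) ha
      hij hil hio hjl hjo hlo (by simp [s1]) (by simp [s1]) (by simp [s1])
      (mt (z o a).mp (mem_sp.mp s1.2.2.2))
  have : Fact (Fintype.card F).Prime := ⟨hp⟩
  have : CharP F (Fintype.card F) := charP_of_card_eq_prime rfl
  have h4 : 4 ≤ Fintype.card F := by
    have := hp.two_le
    have : Fintype.card F ≠ 2 := fun k => t2 (by simpa [k] using FiniteField.cast_card_eq_zero F)
    omega
  have t3 : (3 : F) ≠ 0 := fun k => by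
    have := Nat.le_of_dvd (by omega) ((CharP.cast_eq_zero_iff F (Fintype.card F) 3).mp (by simpa))
    omega
  refine stepC d h1 he c0 ec t2 hN re hp h4 ?_ fun i j => ?_
  · by_contra hE
    have bd := fun a => bound d h1 he c0 ec t2 hN re hp t3 hE (a := a)
    have : ∀ n : ℕ, ∃ a, Lam h N a ∧ n + 3 ≤ (sp B e a).card := fun n => by
      induction n with
      | zero => exact three d h1 he c0 ec t2 hn hO hN re (by omega) hx h2
      | succ n ih =>
        obtain ⟨a, ha, ih⟩ := ih
        have := bd a ha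
        obtain ⟨i, hi⟩ := Finset.card_pos.mp (show 0 < (sp B e a).card by omega)
        obtain ⟨b, hb, S, s1, -, s3, -⟩ := overlap d h1 he c0 ec t2 hn hO hN ha hi (by omega) (by omega)
        exact ⟨b, hb, le_trans (by omega) (Finset.card_le_card s1)⟩
    obtain ⟨a, ha, k⟩ := this 4
    have := bd a ha
    omega
  by_cases hij : i = j
  · exact ⟨_, lam_r h (q0 j) (re j), by simp [hij, d.self j _ (he j), ne_zero_of_Q h (q0 j)]⟩
  obtain ⟨i', hi, j', hj, hij'⟩ := Finset.one_lt_card.mp h2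
  obtain ⟨k, hk, -, π, k1, k2⟩ := frame_perm d h1 he c0 ec t2 hn hO
    (Equiv.swap (Equiv.swap i' i j') j * Equiv.swap i' i) {i', j'}
    ((Nat.add_le_add_right Finset.card_le_two _).trans (by omega))
  have k3 : π i' = i := by
    rw [k2 i' (by simp), Equiv.Perm.mul_apply, Equiv.swap_apply_left, Equiv.swap_apply_of_ne_of_ne _ hij]
    rwa [Ne, eq_comm, Equiv.swap_apply_eq_iff, Equiv.swap_apply_right, eq_comm]
  have k4 : π j' = j := by rw [k2 j' (by simp), Equiv.Perm.mul_apply, Equiv.swap_apply_left]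
  exact ⟨_, ha.map hN hk, by rw [Ne, z, ← k3, ← k1, (hN hk).1]; exact mem_sp.mp hi,
    by rw [Ne, z, ← k4, ← k1, (hN hk).1]; exact mem_sp.mp hj⟩

end Cfsg.Agent.H11.Im
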