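import Mathlib
import Cfsg.Agent.H11.Im14

/-!
The stabiliser of an orthogonal frame over a prime field is maximal.
-/

set_option autoImplicit false
set_option linter.unusedSectionVars false

namespace Cfsg.Agent.H11.Im

open Module H10 H11 Cfsg.Geo

variable {F : Type*} [Field F] {V : Type*} [AddCommGroup V] [Module F V] [FiniteDimensional F V]
  {t : ℕ} {D : Fin t → Submodule F V} {p : Fin t → V →ₗ[F] V}
  {B : V →ₗ[F] V →ₗ[F] F} {Q : V → F} [Fintype F]
  {h : Cl (σ := RingHom.id F) 1 2 (AddMonoidHom.id F) B Q} (d : Dec B Q D p)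
  (h1 : ∀ i, finrank F (D i) ≤ 1) {e : Fin t → V} (he : ∀ i, e i ∈ D i)
  {c : F} (c0 : c ≠ 0) (ec : ∀ i, Q (e i) = c) (t2 : (2 : F) ≠ 0)
include h d h1 he c0 ec t2

theorem cyc_three {b b' : V} (q : Q b ≠ 0) (q' : Q b' = Q b) (bb : B b b' = Q b) (n : b + b' ≠ 0)
    (hy : r h b * r h b' ∈ dstab D) : (sp B e b ∪ sp B e b').card ≤ 3 := by
  have hQ : IsQuad B Q := h.form
  have ee := Bee (h := h) d h1 he c0 ec t2
  have c2 := mul_ne_zero t2 c0
  have z := pz (h := h) d h1 he c0 ec t2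
  have iy := mul_mem (r_isom h b) (r_isom h b')
  have y1 : (r h b * r h b') b' = b - b' := by
    rw [LinearEquiv.mul_apply, r_self h (q' ▸ q), map_neg, r_apply, bb, inv_mul_cancel₀ q]; simp
  have y2 : (r h b * r h b') b = -b' := by
    rw [LinearEquiv.mul_apply, r_apply h b', hQ.comm, bb, q', inv_mul_cancel₀ q, one_smul, map_sub,
      r_self h q, r_apply, bb, inv_mul_cancel₀ q, one_smul]; abel
  have m : ∀ v, (r h b * r h b') v - v ∈ Submodule.span F {b, b'} :=
    loc_sub_mem h (mul_mem (rf_mem_loc h (Submodule.subset_span (by simp)) _)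
      (rf_mem_loc h (Submodule.subset_span (by simp)) _))
  generalize r h b * r h b' = y at hy iy y1 y2 m
  obtain ⟨π, hπ⟩ := dstab_perm hy
  have ne : ∀ i, e i ≠ 0 := fun i => ne_zero_of_Q h (by rwa [ec])
  obtain ⟨i, hi⟩ : ∃ i, π (π i) ≠ i := by
    by_contra hc
    push Not at hc
    have : ∀ v, y (y (y (y v))) = v := fun v => fix_of_p d (s := y * y * y * y) (J := ∅)
      (fun i _ x hx => by
        obtain ⟨s, hs⟩ := line_mem d (h1 i) (he i) (ne i) (hc i ▸ hπ _ _ (hπ i _ (he i)))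
        obtain ⟨a, rfl⟩ := line_mem d (h1 i) (he i) (ne i) hx
        have := congrArg Q hs
        rw [iy.2, iy.2, hQ.smul', ec, mul_eq_right₀ c0] at this
        simp only [LinearEquiv.mul_apply, map_smul, ← hs, smul_smul s, this, one_smul]) (by simp)
    have := this b
    simp only [y1, y2, map_neg, map_sub] at this
    exact n (by rw [← this]; abel)
  have hi' : π i ≠ i := fun c => hi (by rw [c, c])
  have k1 : ∀ i l, l ≠ i → l ≠ π i → B (e l) (y (e i) - e i) = 0 := fun i l a b => by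
    rw [map_sub, d.orth l _ b _ (he l) _ (hπ i _ (he i)), d.orth l i a _ (he l) _ (he i), sub_zero]
  have k2 : ∀ i, π i ≠ i → B (e i) (y (e i) - e i) ≠ 0 := fun i a => by
    simpa [d.orth i _ a.symm _ (he i) _ (hπ i _ (he i)), ee] using c2
  have z0 : y (e (π i)) - e (π i) ≠ 0 := fun c => k2 (π i) (by simpa using hi') (by simp [c])
  have n' : y (e i) - e i ∉ Submodule.span F {y (e (π i)) - e (π i)} := fun c => by
    obtain ⟨s, c⟩ := Submodule.mem_span_singleton.mp c
    exact k2 i hi' (by rw [← c, map_smul, k1 _ i hi'.symm hi.symm, smul_zero])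
  have e1 : Submodule.span F {y (e (π i)) - e (π i)} < Submodule.span F
      {y (e (π i)) - e (π i), y (e i) - e i} := lt_of_le_of_ne
    (Submodule.span_mono (by simp)) fun e => n' (e ▸ Submodule.subset_span (by simp))
  have := Submodule.finrank_lt_finrank_of_lt e1
  rw [finrank_span_singleton z0] at this
  have e2 : Submodule.span F {y (e (π i)) - e (π i), y (e i) - e i} = Submodule.span F {b, b'} :=
    Submodule.eq_of_le_of_finrank_le (by simp [Submodule.span_le, Set.insert_subset_iff, m])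
      ((finrank_span_pair_le _ _).trans this)
  have k3 : ∀ a ∈ Submodule.span F {b, b'}, sp B e a ⊆ {i, π i, π (π i)} := fun a ha o ho => by
    by_contra c
    simp only [Finset.mem_insert, Finset.mem_singleton, not_or] at c
    obtain ⟨α, β, rfl⟩ := Submodule.mem_span_pair.mp (e2 ▸ ha)
    exact mem_sp.mp ho (by rw [map_add, map_smul, map_smul, k1 i o c.1 c.2.1, k1 _ o c.2.1 c.2.2]; simp)
  exact (Finset.card_le_card (Finset.union_subset (k3 _ (Submodule.subset_span (by simp)))
    (k3 _ (Submodule.subset_span (by simp))))).trans Finset.card_le_three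

variable (hp : (Fintype.card F).Prime) (ht : 11 ≤ t) {M : Subgroup (V ≃ₗ[F] V)} (hO : Ov h D M)
  (hM : M ≤ h.Om) (hc : ¬ h.Om ≤ M)
include hp ht hO hM hc

theorem frame_star {x : V ≃ₗ[F] V} (hx : x ∈ M) {j l : Fin t} (hl : x (e j) ∈ D l) : x ∈ dstab D := by
  have hn : 5 ≤ finrank F V := by
    have := Nat.mul_le_mul_left t (Submodule.one_le_finrank_iff.mpr (d.ne j))
    rw [← finrank_eq_mul d j] at this; omega
  have q0 : ∀ i, Q (e i) ≠ 0 := fun i => by rwa [ec]
  obtain ⟨k, hk, -, π, k1, k2⟩ := frame_perm d h1 he c0 ec t2 hn hO (Equiv.swap l j) {l} (by simp; omega)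
  have b := fun l => blk_of (h := h) d h1 he c0 ec t2 (g := k) (l := l) (k1 l ▸ he _)
  have k3 := b l _ hl
  rw [k2 l (by simp), Equiv.swap_apply_left] at k3
  by_contra hx'
  refine hc (hO.om_le_of_ext d hM (le_refl (D j)) (rt_frame d h1 he c0 ec t2 hn (hO.ext d le_rfl)
    (ext_le_isom hM) (fun i => ?_) hp ht (hO.mem_ext_of_stab d hM le_rfl (mul_mem hk hx)
      (blk_of (h := h) d h1 he c0 ec t2 k3)) fun c => hx' ?_))
  · simpa using mul_mem (hO.ext d le_rfl _ (r_mul_mem h hn (q0 i) (q0 j) ⟨c, by rw [ec, ec]⟩) (mul_mem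
      (rf_dstab h d (he i) _) (rf_dstab h d (he j) _))) (inv_mem (le_ext _ _ (rf_mem_loc h (he j) (Q (e j))⁻¹)))
  · simpa using mul_mem (inv_mem (perm_dstab d b)) c

theorem frame_c {m : V ≃ₗ[F] V} (hm : m ∈ M) (J : Finset (Fin t)) (hJ : 5 ≤ J.card)
    (hs : ∀ s ∈ M, s ∈ dstab D → (∀ i ∉ J, ∀ x ∈ D i, s x = x) → m * s * m⁻¹ ∈ dstab D) :
    m ∈ dstab D := by
  have hQ : IsQuad B Q := h.form
  have mI := hM.trans h.om_le_isom hm
  have ee := Bee (h := h) d h1 he c0 ec t2
  have c2 := mul_ne_zero t2 c0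
  by_contra hm'
  have two := fun j => two_le_sp (h := h) d h1 he c0 ec t2
    (fun l c => hm' (frame_star d h1 he c0 ec t2 hp ht hO hM hc hm (j := j) (l := l) c)) (by omega)
  have k1 : ∀ j ∈ J, ∀ k ∈ J, ∀ l ∈ J, j ≠ k → j ≠ l → k ≠ l → ∀ ε δ : F, ε * ε = 1 → δ * δ = 1 →
      (sp B e (m (e j - ε • e k)) ∪ sp B e (m (e j - δ • e l))).card ≤ 3 :=
    fun j hj k hk l hl jk jl kl ε δ hε hδ => by
    have hn : 5 ≤ finrank F V := by
      have := Nat.mul_le_mul_left t (Submodule.one_le_finrank_iff.mpr (d.ne j))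
      rw [← finrank_eq_mul d j] at this; omega
    have q := Q_root (h := h) d h1 he c0 ec t2 jk hε
    have s1 := mul_mem (root_dstab (h := h) d h1 he c0 ec t2 jk hε) (root_dstab (h := h) d h1 he c0 ec t2 jl hδ)
    have fx : ∀ k ∈ J, ∀ ε : F, ∀ i ∉ J, ∀ x ∈ D i, r h (e j - ε • e k) x = x := fun k hk ε i hi x hx =>
      rf_fix h _ _ (by simp [d.orth j i (by rintro rfl; exact hi hj) _ (he j) x hx,
        d.orth k i (by rintro rfl; exact hi hk) _ (he k) x hx])
    have := hs _ (hO _ (root_pair d h1 he c0 ec t2 hn hO jk jl hε hδ) s1) s1 fun i hi x hx => by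
      rw [LinearEquiv.mul_apply, fx l hl δ i hi x hx, fx k hk ε i hi x hx]
    rw [show ∀ x y : V ≃ₗ[F] V, m * (x * y) * m⁻¹ = m * x * m⁻¹ * (m * y * m⁻¹) from
      fun x y => by group, conj_r h mI, conj_r h mI] at this
    refine cyc_three d h1 he c0 ec t2 (by rwa [mI.2, q]) (by
      rw [mI.2, mI.2, q, Q_root (h := h) d h1 he c0 ec t2 jl hδ]) (by
      rw [mI.1, mI.2, q]; simp [ee, jl, kl, jk.symm]) (fun c => ?_) this
    have := congrArg (B (m (e k))) c
    simp [mI.1, ee, jk.symm, kl, t2, c0] at this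
    simp [this] at hε
  have k2 : ∀ A ⊆ J, A.card ≤ 3 → (A.biUnion fun j => sp B e (m (e j))).card ≤ 4 := fun A hA h3 => by
    obtain ⟨u, u1, u2, u3⟩ := Finset.exists_subsuperset_card_eq hA h3 (by omega)
    obtain ⟨j, k, l, jk, jl, kl, rfl⟩ := Finset.card_eq_three.mp u3
    refine (Finset.card_le_card (Finset.biUnion_subset_biUnion_of_subset_left _ u1)).trans ?_
    simp only [Finset.insert_subset_iff, Finset.singleton_subset_iff] at u2
    have a := k1 j u2.1 k u2.2.1 l u2.2.2 jk jl kl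
    have key : ∀ T T1 T2 T3 : Finset (Fin t), T ⊆ T1 ∪ T2 → T ⊆ T1 ∪ T3 → T ⊆ T2 ∪ T3 → T1.card ≤ 3 →
        T2.card ≤ 3 → T3.card ≤ 3 → T.card ≤ 4 := fun T T1 T2 T3 a b c _ _ _ => by
      have := Finset.card_le_card (show T \ T1 ∪ T \ T2 ∪ T \ T3 ⊆ T by simp [Finset.union_subset_iff])
      rw [Finset.card_union_of_disjoint (Finset.disjoint_left.mpr fun i x y => by
          rw [Finset.mem_union, Finset.mem_sdiff, Finset.mem_sdiff] at x
          rw [Finset.mem_sdiff] at y
          have := Finset.mem_union.mp (b y.1)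
          have := Finset.mem_union.mp (c y.1)
          tauto),
        Finset.card_union_of_disjoint (Finset.disjoint_left.mpr fun i x y => by
          rw [Finset.mem_sdiff] at x y
          have := Finset.mem_union.mp (a y.1)
          tauto)] at this
      have := Finset.le_card_sdiff T1 T
      have := Finset.le_card_sdiff T2 T
      have := Finset.le_card_sdiff T3 T
      omega
    refine key _ _ _ _ ?_ ?_ ?_ (a 1 1 (by simp) (by simp)) (a (-1) 1 (by simp) (by simp))
      (a 1 (-1) (by simp) (by simp)) <;>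
    · intro i hi
      simp only [Finset.mem_union, Finset.biUnion_insert, Finset.singleton_biUnion, mem_sp, map_sub,
        map_smul, smul_eq_mul] at hi ⊢
      by_contra c
      push Not at c
      obtain ⟨⟨c1, c2⟩, c3, c4⟩ := c
      have : B (e i) (m (e j)) = 0 := mul_left_cancel₀ t2 (by
        first | linear_combination c1 + c3 | linear_combination c2 + c4)
      rw [this] at c1 c2 hi
      simp only [zero_sub, neg_eq_zero, neg_mul, one_mul] at c1 c2
      simp [c1, c2] at hi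
  have k3 : ∀ A ⊆ J, A.card ≤ 2 → (A.biUnion fun j => sp B e (m (e j))).card ≤ 3 := fun A hA h2 => by
    by_contra c
    obtain ⟨l, hl, o, o1, o2⟩ := out_sp (h := h) d h1 he c0 ec t2 m J _ ((k2 A hA (by omega)).trans_lt hJ)
    have := k2 (insert l A) (Finset.insert_subset hl hA) ((Finset.card_insert_le _ _).trans (by omega))
    have := Finset.card_lt_card (show (A.biUnion fun j => sp B e (m (e j))) ⊂
      (insert l A).biUnion fun j => sp B e (m (e j)) from ⟨by simp, fun c => o1 (c (by simp [o2]))⟩)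
    omega
  have k4 : ∀ j ∈ J, ∃ k ∈ J, k ≠ j ∧ (sp B e (m (e j))).card < (sp B e (m (e j)) ∪ sp B e (m (e k))).card ∧
      (sp B e (m (e j)) ∪ sp B e (m (e k))).card ≤ 3 := fun j hj => by
    obtain ⟨l, hl, o, o1, o2⟩ := out_sp (h := h) d h1 he c0 ec t2 m J (sp B e (m (e j))) (by
      have := k3 {j} (by simpa) (by simp)
      rw [Finset.singleton_biUnion] at this; omega)
    exact ⟨l, hl, by rintro rfl; exact o1 o2, Finset.card_lt_card ⟨by simp, fun c => o1 (c (by simp [o2]))⟩,
      by simpa using k3 {j, l} (by simp [Finset.insert_subset_iff, hj, hl]) Finset.card_le_two⟩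
  obtain ⟨j, hj⟩ := Finset.card_pos.mp (show 0 < J.card by omega)
  obtain ⟨k, hk, kj, a1, a2⟩ := k4 j hj
  obtain ⟨l, -, -, b1, b2⟩ := k4 k hk
  have := Finset.card_union_add_card_inter (sp B e (m (e j))) (sp B e (m (e k)))
  have := two j
  have := two k
  obtain ⟨i, hi⟩ := Finset.card_eq_one.mp (show (sp B e (m (e j)) ∩ sp B e (m (e k))).card = 1 by omega)
  have i1 := Finset.mem_inter.mp (hi ▸ Finset.mem_singleton_self i)
  exact single (h := h) d h1 he c0 ec t2 i1.1 i1.2 (fun l a b => by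
    simpa [← Finset.mem_singleton, ← hi] using And.intro a b)
    (by rw [mI.1, d.orth j k kj.symm _ (he j) _ (he k)])

omit he c0 ec hO hM hc ht in
theorem max_frame (ht : 13 ≤ t) : IsMaximalIn h.Om (dstab D ⊓ h.Om) := by
  have hQ : IsQuad B Q := h.form
  have ns : ∀ i, ∀ x ∈ D i, x ≠ 0 → Q x ≠ 0 := fun i x hx x0 c => x0 (d.nd i x hx fun y hy => by
    obtain ⟨s, rfl⟩ := line_mem d (h1 i) hx x0 hy
    simp [h.diag0 c])
  obtain ⟨v, hv, v0⟩ := (Submodule.ne_bot_iff _).mp (d.ne ⟨0, by omega⟩)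
  choose e he ec _ using exists_val h d hv
  have c0 := ns _ v hv v0
  have q0 : ∀ i, Q (e i) ≠ 0 := fun i => by rwa [ec]
  have hn : 5 ≤ finrank F V := by
    have := Nat.mul_le_mul_left t (Submodule.one_le_finrank_iff.mpr (d.ne ⟨0, by omega⟩))
    rw [← finrank_eq_mul d] at this; omega
  refine max_of d h hn (by omega) fun M hO hM g hg hg' => ?_
  by_contra hc
  refine hg' (stepA' d h (hM.trans h.om_le_isom) (κ₀ := 5) (k := 1) (fun x hx i v hv q k => ?_)
    (fun m => frame_c d h1 he c0 ec t2 hp (by omega) hO hM hc) (fun y b y1 => ?_)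
    (fun i => Submodule.one_le_finrank_iff.mpr (d.ne i)) (by omega) (Or.inr ⟨le_rfl, by omega⟩)
    (fun i => r h (e i)) (fun i => blk_of_loc d h le_rfl (rf_mem_loc h (he i) _)) (fun i => r_r h _)
    (fun i => rk_rf h _ _) (fun i => ⟨e i, he i, ?_⟩) (fun i j => hO _
      (r_mul_mem h hn (q0 i) (q0 j) ⟨_, by rw [ec, ec]⟩)
      (mul_mem (rf_dstab h d (he i) _) (rf_dstab h d (he j) _))) hg)
  · obtain ⟨s, hs⟩ := line_mem d (h1 i) hv (ne_zero_of_Q h q) (he i)
    exact frame_star d h1 he c0 ec t2 hp (by omega) hO hM hc hx (j := i) (l := i)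
      (by rw [← hs, map_smul, k, hs]; exact he i)
  · obtain ⟨i, x, hx, c⟩ := exists_blk_ne d y1
    exact ⟨i, x, hx, ns i _ ((D i).sub_mem (b.blk i x hx) hx) (sub_ne_zero.mpr c)⟩
  · rw [r_self h (q0 i), Ne, neg_eq_iff_add_eq_zero, ← two_smul F, smul_eq_zero]
    simp [t2, ne_zero_of_Q h (q0 i)]

end Cfsg.Agent.H11.Im
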