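import Mathlib
import Cfsg.Agent.H11.Im15

/-!
Orthogonal frames over prime fields in small dimension.
-/

set_option autoImplicit false
set_option linter.unusedSectionVars false

namespace Cfsg.Agent.H11.Im

open Module H10 H11 Cfsg.Geo

theorem dihedral' {G : Type*} [Group G] [Finite G] {M : Subgroup G} {a b : G} (ha : a ∈ M)
    (hb : b ∈ M) (a2 : a * a = 1) (b2 : b * b = 1) : (∃ m ∈ M, m * a * m⁻¹ = b) ∨
      ∃ w ∈ M, w ≠ 1 ∧ w * w = 1 ∧ w * a = a * w ∧ w * b = b * w ∧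
        ((∃ m ∈ M, w * a = m * a * m⁻¹) ∨ (∃ m ∈ M, w * a = m * b * m⁻¹) ∧
        ∃ m ∈ M, w * b = m * a * m⁻¹) := by
  obtain ⟨c, hc⟩ : ∃ c, c = a * b := ⟨_, rfl⟩
  have cM : c ∈ M := hc ▸ mul_mem ha hb
  have ai : a⁻¹ = a := inv_eq_of_mul_eq_one_right a2
  have bi : b⁻¹ = b := inv_eq_of_mul_eq_one_right b2
  have k : ∀ x, x * c * x⁻¹ = c⁻¹ → ∀ j : ℕ, x * (c ^ j)⁻¹ = c ^ j * x := fun x hx j => by
    have : x * c⁻¹ * x⁻¹ = c := by rw [← inv_inj]; nth_rewrite 2 [← hx]; group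
    rw [← inv_pow, ← mul_inv_eq_iff_eq_mul, ← conj_pow, this]
  have ka := k a (by rw [hc, mul_inv_rev, ai, bi, ← mul_assoc, a2, one_mul])
  have kb := k b (by rw [hc, mul_inv_rev, ai, bi, mul_assoc, mul_assoc, b2, mul_one])
  have ea : ∀ j : ℕ, c ^ j * a * (c ^ j)⁻¹ = c ^ (j + j) * a := fun j => by
    rw [mul_assoc, ka, ← mul_assoc, pow_add]
  have eb : ∀ j : ℕ, c ^ j * b * (c ^ j)⁻¹ = c ^ (j + j) * b := fun j => by
    rw [mul_assoc, kb, ← mul_assoc, pow_add]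
  have cb : c * b = a := by rw [hc, mul_assoc, b2, mul_one]
  have o := pow_orderOf_eq_one c
  have o0 := orderOf_pos c
  rcases Nat.even_or_odd' (orderOf c) with ⟨m, e | e⟩
  · have w2 : c ^ m * c ^ m = 1 := by rw [← pow_add, ← two_mul, ← e, o]
    have wi : (c ^ m)⁻¹ = c ^ m := inv_eq_of_mul_eq_one_right w2
    refine Or.inr ⟨c ^ m, pow_mem cM m, pow_ne_one_of_lt_orderOf (by omega) (by omega), w2,
      by rw [← ka, wi], by rw [← kb, wi], ?_⟩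
    rcases Nat.even_or_odd' m with ⟨j, rfl | rfl⟩
    · exact Or.inl ⟨_, pow_mem cM j, by rw [ea, two_mul]⟩
    · refine Or.inr ⟨⟨_, pow_mem cM (j + 1), ?_⟩, ⟨_, pow_mem cM j, ?_⟩⟩
      · rw [eb, ← cb, ← mul_assoc, ← pow_succ]; congr 2; ring
      · rw [ea, ← cb, ← mul_assoc, ← pow_succ, two_mul]
  · refine Or.inl ⟨_, pow_mem cM m, ?_⟩
    rw [ea, ← cb, ← mul_assoc, ← pow_succ, ← two_mul, ← e, o, one_mul]

section
variable {F : Type*} [Field F] {V : Type*} [AddCommGroup V] [Module F V] {σ : F →+* F}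
  {t : ℕ} {D : Fin t → Submodule F V} {p : Fin t → V →ₗ[F] V} [FiniteDimensional F V]
  {κ : F} {τ : F →+ F} {B : V →ₛₗ[σ] V →ₗ[F] F} {Q : V → F}

theorem Rk.fix {x y : V ≃ₗ[F] V} {r s : ℕ} (a : Rk x r) (b : Rk y (s + 1)) (n : ¬ Rk (x * y) (r + s))
    {v : V} (hv : (x * y) v = v) : y v = v := by
  obtain ⟨X, a, a'⟩ := a
  obtain ⟨Y, b, b'⟩ := b
  by_contra c
  refine n ⟨X ⊔ Y, ?_, fun v => by simpa using Submodule.add_mem_sup (a' (y v)) (b' v)⟩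
  have := Submodule.finrank_sup_add_finrank_inf_eq X Y
  have : 1 ≤ finrank F ↥(X ⊓ Y) := Submodule.one_le_finrank_iff.mpr ((Submodule.ne_bot_iff _).mpr
    ⟨y v - v, ⟨by simpa [← LinearEquiv.mul_apply, hv] using X.neg_mem (a' (y v)), b' v⟩,
      sub_ne_zero.mpr c⟩)
  omega

/-- The dihedral argument, sharpened. -/
theorem stepB (d : Dec B Q D p) [Finite F] (h : Cl 1 κ τ B Q) {M : Subgroup (V ≃ₗ[F] V)}
    (hM : M ≤ Isom B Q) {κ₀ : ℕ}
    (star : ∀ x ∈ M, ∀ i, ∀ v ∈ D i, Q v ≠ 0 → x v = v → x ∈ dstab D)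
    (hc : ∀ m ∈ M, ∀ J : Finset (Fin t), κ₀ ≤ J.card → (∀ s ∈ M, s ∈ dstab D →
      (∀ i ∉ J, ∀ x ∈ D i, s x = x) → m * s * m⁻¹ ∈ dstab D) → m ∈ dstab D)
    (ns : ∀ y, Blk B Q D Finset.univ y → y ≠ 1 → ∃ i, ∃ x ∈ D i, Q (y x - x) ≠ 0)
    (ht : κ₀ + 4 ≤ t) (t5 : 5 ≤ t) (par : κ₀ + 5 ≤ t ∨
      ∀ w ∈ M, Blk B Q D Finset.univ w → w * w = 1 → Rk w 5 → Rk w 4)
    (nsf : ∀ w, Blk B Q D Finset.univ w → w * w = 1 → Rk w 6 → ∃ i, ∃ v ∈ D i, Q v ≠ 0 ∧ w v = v)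
    (ρ : Fin t → V ≃ₗ[F] V) (b : ∀ i, Blk B Q D {i} (ρ i)) (r2 : ∀ i, ρ i * ρ i = 1)
    (r1 : ∀ i, Rk (ρ i) 1) (ne : ∀ i, ∃ x ∈ D i, ρ i x ≠ x) (m : ∀ i j, ρ i * ρ j ∈ M) :
    M ≤ dstab D := fun g hg => by
  classical
  have : Finite V := Module.finite_of_finite F
  have : Finite (V ≃ₗ[F] V) := DFunLike.finite _
  have hk := fun i => Submodule.one_le_finrank_iff.mpr (d.ne i)
  have cen : ∀ r, κ₀ + r ≤ t → ∀ y, Blk B Q D Finset.univ y → y ≠ 1 → y * y = 1 → Rk y r → ∀ m ∈ M,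
      m * y = y * m → m ∈ dstab D := fun r hr y b y1 y2 r m hm e => by
    obtain ⟨J, e', α, β, c1, c2, c3⟩ := rk_count d r y2 (π := 1) b.blk hk
    have := c3 fun _ => rfl
    obtain ⟨i, x, hx, q⟩ := ns y b y1
    refine hc m hm J (by omega) fun s hs _ fs => star _ (mul_mem (mul_mem hm hs) (inv_mem hm)) i _
      ((D i).sub_mem (b.blk i x hx) hx) q ?_
    have : m⁻¹ (y x - x) = y (m⁻¹ x) - m⁻¹ x := by
      rw [map_sub, ← LinearEquiv.mul_apply, ← LinearEquiv.mul_apply y,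
        show m⁻¹ * y = y * m⁻¹ by rw [inv_mul_eq_iff_eq_mul, ← mul_assoc, e, mul_inv_cancel_right]]
    rw [LinearEquiv.mul_apply, LinearEquiv.mul_apply, this,
      fix_of_p d fs fun j hj => p_sub_eq d h b.isom (e' j hj) _, ← this, app_inv]
  have P : ∀ y, Blk B Q D Finset.univ y → y ≠ 1 → y * y = 1 → Rk y 2 → ∀ m ∈ M,
      m * y * m⁻¹ ∈ dstab D → m ∈ dstab D := fun y b y1 y2 r m hm e => by
    obtain ⟨π, hπ⟩ := dstab_perm e
    obtain ⟨J, e', α, β, c1, c2, -⟩ := rk_count d (r.conj m) (by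
      rw [show m * y * m⁻¹ * (m * y * m⁻¹) = m * (y * y) * m⁻¹ by group, y2]; simp) hπ hk
    refine inv_mem_iff.mp (hc _ (inv_mem hm) J (by omega) fun s hs _ fs =>
      cen 2 (by omega) y b y1 y2 r _ (mul_mem (mul_mem (inv_mem hm) hs) (by simpa using hm)) ?_)
    have := comm_of d h (mul_mem (mul_mem (hM hm) b.isom) (inv_mem (hM hm))) (hM hs) e' fs
    calc _ = m⁻¹ * (s * (m * y * m⁻¹)) * m := by group
      _ = _ := by rw [this]; group
  have inv : ∀ {x y : V ≃ₗ[F] V}, x * x = 1 → y * y = 1 → x * y = y * x → x * y * (x * y) = 1 :=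
    fun {x y} a b e => by
      rw [mul_assoc, ← mul_assoc y, ← e, mul_assoc x, b, mul_one, a]
  have a2 : ∀ i j, i ≠ j → ρ i * ρ j * (ρ i * ρ j) = 1 := fun i j e =>
    inv (r2 i) (r2 j) ((b i).comm d (b j) (by simpa using e))
  have f1 : ∀ i j, i ≠ j → ∃ x ∈ D i, (ρ i * ρ j) x ≠ x := fun i j e => by
    obtain ⟨x, hx, c⟩ := ne i
    exact ⟨x, hx, by rwa [LinearEquiv.mul_apply, (b j).fix i (by simpa using e) x hx]⟩
  have a1 : ∀ i j, i ≠ j → ρ i * ρ j ≠ 1 := fun i j hij e => by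
    obtain ⟨x, -, c⟩ := f1 i j hij
    exact c (by rw [e]; rfl)
  have ba : ∀ i j, Blk B Q D Finset.univ (ρ i * ρ j) := fun i j => ((b i).mul' (b j)).mono (by simp)
  have ra : ∀ i j, Rk (ρ i * ρ j) 2 := fun i j => (r1 i).mul (r1 j)
  by_contra hg'
  have key : ∀ i j k l, i ≠ j → i ≠ k → i ≠ l → j ≠ k → j ≠ l → k ≠ l →
      g * (ρ i * ρ j * (ρ k * ρ l)) * g⁻¹ ∈ dstab D := fun i j k l hij hik hil hjk hjl hkl => by
    have b1 := (b i).mul' (b j)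
    have b2 := (b k).mul' (b l)
    have ba' := (ba i j).mul (ba k l)
    have ra' := (ra i j).mul (ra k l)
    have ha' := mul_mem (m i j) (m k l)
    have a2' := inv (a2 i j hij) (a2 k l hkl) (b1.comm d b2 (by
      simp [hik.symm, hil.symm, hjk.symm, hjl.symm]))
    have na' : ¬ Rk (ρ i * ρ j * (ρ k * ρ l)) 2 := not_rk d ba' {i, j, k}
      (by rw [Finset.card_eq_three.mpr ⟨i, j, k, hij, hik, hjk, rfl⟩]; omega) (by
        simp only [Finset.mem_insert, Finset.mem_singleton, forall_eq_or_imp, forall_eq]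
        refine ⟨?_, ?_, ?_⟩
        · obtain ⟨x, hx, c⟩ := f1 i j hij
          exact ⟨x, hx, by rwa [LinearEquiv.mul_apply, b2.fix i (by simp [hik, hil]) x hx]⟩
        · obtain ⟨x, hx, c⟩ := f1 j i hij.symm
          exact ⟨x, hx, by rwa [LinearEquiv.mul_apply, b2.fix j (by simp [hjk, hjl]) x hx,
            (b i).comm d (b j) (by simpa using hij)]⟩
        · obtain ⟨x, hx, c⟩ := f1 k l hkl
          exact ⟨x, hx, by
            rwa [LinearEquiv.mul_apply, b1.fix k (by simp [hik.symm, hjk.symm]) _ (b2.blk k x hx)]⟩)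
    have ha := m i j
    have Pa := P _ (ba i j) (a1 i j hij) (a2 i j hij) (ra i j)
    have ca := cen 2 (by omega) _ (ba i j) (a1 i j hij) (a2 i j hij) (ra i j)
    have ba := ba i j
    have ra := ra i j
    have a2 := a2 i j hij
    generalize ρ i * ρ j * (ρ k * ρ l) = a' at *
    generalize ρ i * ρ j = a at *
    have a1' : a' ≠ 1 := by rintro rfl; exact na' ⟨⊥, by simp, by simp⟩
    have gb := mul_mem (mul_mem hg ha') (inv_mem hg)
    rcases dihedral' ha gb a2 (by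
      rw [show g * a' * g⁻¹ * (g * a' * g⁻¹) = g * (a' * a') * g⁻¹ by group, a2']; simp) with
      ⟨m, -, e⟩ | ⟨w, hw, w1, w2, wa, wb, ⟨m, hm, e⟩ | ⟨⟨m, hm, e⟩, m', hm', e'⟩⟩
    · refine absurd ?_ na'
      have := (ra.conj m).conj g⁻¹
      rwa [e, show g⁻¹ * (g * a' * g⁻¹) * g⁻¹⁻¹ = a' by group] at this
    · have e1 : m * a * m⁻¹ * a = w := by rw [← e, mul_assoc, a2, mul_one]
      exact cen 4 ht w (e1 ▸ (ba.conj d (hM hm) (Pa m hm (e ▸ mul_mem (ca w hw wa) (ba.dstab d)))).mul ba)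
        w1 w2 (e1 ▸ (ra.conj m).mul ra) _ gb wb.symm
    exfalso
    have hw' := mul_mem (mul_mem (inv_mem hg) hw) hg
    have e2 : g⁻¹ * w * g * a' = g⁻¹ * m' * a * (g⁻¹ * m')⁻¹ := by
      calc _ = g⁻¹ * (w * (g * a' * g⁻¹)) * g := by group
        _ = _ := by rw [e']; group
    have e3 : g⁻¹ * m' * a * (g⁻¹ * m')⁻¹ * a' = g⁻¹ * w * g := by rw [← e2, mul_assoc, a2', mul_one]
    have hgm := mul_mem (inv_mem hg) hm'
    have bw := e3 ▸ (ba.conj d (hM hgm) (Pa _ hgm (e2 ▸ mul_mem (cen 4 ht a' ba' a1' a2' ra' _ hw' (by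
      calc _ = g⁻¹ * (w * (g * a' * g⁻¹)) * g := by group
        _ = _ := by rw [wb]; group)) (ba'.dstab d)))).mul ba'
    have rw6 : Rk (g⁻¹ * w * g) 6 := e3 ▸ (ra.conj _).mul ra'
    have w2' : g⁻¹ * w * g * (g⁻¹ * w * g) = 1 := by
      rw [show g⁻¹ * w * g * (g⁻¹ * w * g) = g⁻¹ * (w * w) * g by group, w2]; simp
    have w1' : g⁻¹ * w * g ≠ 1 := fun c => w1 (by
      rw [show w = g * (g⁻¹ * w * g) * g⁻¹ by group, c]; simp)
    have ga := mul_mem (mul_mem (inv_mem hg) ha) (inv_mem (inv_mem hg))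
    refine hg' (inv_mem_iff.mp (Pa _ (inv_mem hg) ?_))
    have cm : g⁻¹ * a * g⁻¹⁻¹ * (g⁻¹ * w * g) = g⁻¹ * w * g * (g⁻¹ * a * g⁻¹⁻¹) := by
      calc _ = g⁻¹ * (a * w) * g := by group
        _ = _ := by rw [← wa]; group
    by_cases c : Rk (g⁻¹ * w * g) 5
    · rcases par with k | k
      · exact cen 5 k _ bw w1' w2' c _ ga cm
      · exact cen 4 ht _ bw w1' w2' (k _ hw' bw w2' c) _ ga cm
    obtain ⟨s, v, hv, q, ev⟩ := nsf _ bw w2' rw6
    have e4 : g⁻¹ * m * g * a' * (g⁻¹ * m * g)⁻¹ * (g⁻¹ * a * g⁻¹⁻¹) = g⁻¹ * w * g := by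
      calc _ = g⁻¹ * (m * (g * a' * g⁻¹) * m⁻¹ * a) * g := by group
        _ = _ := by rw [← e, mul_assoc w, a2, mul_one]
    exact star _ ga s v hv q ((ra'.conj _).fix (ra.conj _) (e4 ▸ c) (e4 ▸ ev))
  obtain ⟨S, -, hS⟩ := Finset.exists_subset_card_eq (n := 5) (s := (Finset.univ : Finset (Fin t)))
    (by simpa)
  obtain ⟨o, T, ho, -, hT⟩ := Finset.card_eq_succ.mp hS
  obtain ⟨i, j, k, l, hij, hik, hil, hjk, hjl, hkl, rfl⟩ := Finset.card_eq_four.mp hT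
  simp only [Finset.mem_insert, Finset.mem_singleton, not_or] at ho
  have := mul_mem (inv_mem (key i j k l hij hik hil hjk hjl hkl))
    (key i j k o hij hik (Ne.symm ho.1) hjk (Ne.symm ho.2.1) (Ne.symm ho.2.2.1))
  rw [show (g * (ρ i * ρ j * (ρ k * ρ l)) * g⁻¹)⁻¹ * (g * (ρ i * ρ j * (ρ k * ρ o)) * g⁻¹) =
    g * ((ρ l)⁻¹ * ρ o) * g⁻¹ by group, inv_eq_of_mul_eq_one_right (r2 l)] at this
  have lo := Ne.symm ho.2.2.2
  exact hg' (P _ (ba l o) (a1 l o lo) (a2 l o lo) (ra l o) g hg this)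

end

end Cfsg.Agent.H11.Im
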