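import Mathlib
import Cfsg.Agent.H11.Im16

/-!
Orthogonal frames over prime fields in small dimension.
-/

set_option autoImplicit false
set_option linter.unusedSectionVars false

namespace Cfsg.Agent.H11.Im

open Module H10 H11 Cfsg.Geo

variable {F : Type*} [Field F] {V : Type*} [AddCommGroup V] [Module F V] [FiniteDimensional F V]
  {t : ℕ} {D : Fin t → Submodule F V} {p : Fin t → V →ₗ[F] V}
  {B : V →ₗ[F] V →ₗ[F] F} {Q : V → F} [Fintype F]
  {h : Cl (σ := RingHom.id F) 1 2 (AddMonoidHom.id F) B Q} (d : Dec B Q D p)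
  (h1 : ∀ i, finrank F (D i) ≤ 1) {e : Fin t → V} (he : ∀ i, e i ∈ D i)
  {c : F} (c0 : c ≠ 0) (ec : ∀ i, Q (e i) = c) (t2 : (2 : F) ≠ 0)
include h d h1 he c0 ec t2

section
variable (hn : 5 ≤ finrank F V) {N : Subgroup (V ≃ₗ[F] V)} (hO : Ov h D N) (hN : N ≤ Isom B Q)
  (re : ∀ i, r h (e i) ∈ N)
include hn hO hN re

omit hn hO in
theorem bound4 (hp : (Fintype.card F).Prime) (t3 : (3 : F) ≠ 0) (hE : ¬ HasE h N) {a : V}
    (ha : Lam h N a) : (sp B e a).card ≤ 4 := by
  classical
  by_contra hc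
  have hQ : IsQuad B Q := h.form
  have z := pz (h := h) d h1 he c0 ec t2
  have t4 : (4 : F) ≠ 0 := by rw [show (4 : F) = 2 * 2 by norm_num]; exact mul_ne_zero t2 t2
  have dg : ∀ a, Lam h N a → ∀ I : Finset (Fin t), I.card < (sp B e a).card →
      ∑ i ∈ I, 4 * Q (p i a) / Q a ≠ 4 := fun a ha I hI k => by
    obtain ⟨o, o1, o2⟩ := Finset.exists_mem_notMem_of_card_lt_card hI
    refine hE (degen d h1 he c0 ec t2 hN re ha I o2 (by simpa [z] using mem_sp.mp o1) ?_)
    rw [← Finset.sum_div, ← Finset.mul_sum, div_eq_iff ha.1] at k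
    exact (mul_left_cancel₀ t4 k).symm
  have good : ∀ a, Lam h N a → 3 ≤ (sp B e a).card → ∀ i ∈ sp B e a, (4 * Q (p i a) / Q a - 1) *
      (4 * Q (p i a) / Q a - 2) * ((4 * Q (p i a) / Q a) ^ 2 - 3 * (4 * Q (p i a) / Q a) + 1) = 0 :=
    fun a ha h3 i hi => by
    obtain ⟨j, j1, j2⟩ := Finset.exists_mem_notMem_of_card_lt_card (s := {i}) (t := sp B e a)
      (by simp; omega)
    have hij : i ≠ j := by rintro rfl; simp at j2
    refine trip d h1 he c0 ec t2 hN re hp ha hij (by simpa [z] using mem_sp.mp hi)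
      (by simpa [z] using mem_sp.mp j1) (fun k => dg a ha {i, j} (by rw [Finset.card_pair hij]; omega) ?_) hE
    rw [Finset.sum_pair hij, ← add_div, ← mul_add, ← k, mul_div_cancel_right₀ _ ha.1]
  have cnt : ∀ (n : ℕ) (s : F), n ≤ 4 → n * s = 4 →
      ((sp B e a).filter fun i => 4 * Q (p i a) / Q a = s).card < n := fun n s hn hs => by
    by_contra k
    obtain ⟨I, I1, I2⟩ := Finset.exists_subset_card_eq (not_lt.mp k)
    refine dg a ha I (by omega) ?_
    rw [Finset.sum_congr rfl fun i hi => (Finset.mem_filter.mp (I1 hi)).2, Finset.sum_const, I2,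
      nsmul_eq_mul, hs]
  have c1 := cnt 4 1 (by omega) (by simp)
  have c2 := cnt 2 2 (by omega) (by norm_num)
  have c3 := card_le_two_of_quad (((sp B e a).filter fun i => (4 * Q (p i a) / Q a) ^ 2 -
    3 * (4 * Q (p i a) / Q a) + 1 = 0).image fun i => 4 * Q (p i a) / Q a) (a := 1) (b := -3) (c := 1)
    one_ne_zero fun x hx => by
      obtain ⟨i, hi, rfl⟩ := Finset.mem_image.mp hx
      linear_combination (Finset.mem_filter.mp hi).2
  have inj : Set.InjOn (fun i => 4 * Q (p i a) / Q a) ((sp B e a).filter fun i =>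
      (4 * Q (p i a) / Q a) ^ 2 - 3 * (4 * Q (p i a) / Q a) + 1 = 0 :) := fun i hi j hj k => by
    by_contra hij
    obtain ⟨i1, i2⟩ := Finset.mem_filter.mp hi
    obtain ⟨j1, -⟩ := Finset.mem_filter.mp hj
    have qa := ha.1
    have j0 := mem_sp.mp j1
    have hb := (lam_r h (show Q (e j) ≠ 0 by rwa [ec]) (re j)).map hN (ha.2 (Q a)⁻¹)
    have b1 : ∀ l, l ≠ j → B (e l) (r h a (e j)) = -((Q a)⁻¹ * B (e j) a) * B (e l) a := fun l hl => by
      simp [r_apply, Bee (h := h) d h1 he c0 ec t2, hl, hQ.comm a]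
    have b2 : (sp B e a).erase j ⊆ sp B e (r h a (e j)) := fun l hl => mem_sp.mpr (by
      simpa [b1 l (Finset.mem_erase.mp hl).1, qa, j0] using mem_sp.mp (Finset.mem_erase.mp hl).2)
    have b3 := Finset.card_le_card b2
    rw [Finset.card_erase_of_mem j1] at b3
    have b4 := good _ hb (le_trans (by omega) b3) i (b2 (by simp [hij, i1]))
    have b5 : 4 * Q (p i a) / Q a ≠ 4 := fun k => by
      have := cnt 1 4 (by omega) (by simp)
      simp only [Nat.lt_one_iff, Finset.card_eq_zero, Finset.filter_eq_empty_iff] at this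
      exact this i1 k
    rw [show 4 * Q (p i (r h a (e j))) / Q (r h a (e j)) =
        4 * Q (p i a) / Q a * (4 * Q (p j a) / Q a) by
      simp only [Qp (h := h) d h1 he c0 ec t2, b1 i hij, (r_isom h a).2, ec]; field_simp] at b4
    dsimp only at k
    rw [← k] at b4
    generalize 4 * Q (p i a) / Q a = τ at i2 b4 b5
    rcases mul_eq_zero.mp b4 with k | k
    · rcases mul_eq_zero.mp k with k | k
      · exact b5 (by linear_combination (2 - 2 * τ - 3 * τ ^ 2) * (k - i2) + 9 * τ * k)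
      · exact pow_ne_zero 2 t3 (by linear_combination (3 * τ + 3) * (k - i2) - 9 * k)
    · exact t4 (by linear_combination 36 * i2 + (8 - 3 * τ) * (k - (τ ^ 2 + 3 * τ + 5) * i2))
  rw [Finset.card_image_of_injOn inj] at c3
  have key : ∀ A C E : Finset (Fin t), sp B e a ⊆ A ∪ C ∪ E → A.card < 4 → C.card < 2 → E.card ≤ 2 →
      (1 < A.card → ¬ 0 < C.card) → (1 < E.card → ¬ 0 < A.card) → False := fun A C E k _ _ _ _ _ => by
    have := Finset.card_le_card k
    have := Finset.card_union_le (A ∪ C) E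
    have := Finset.card_union_le A C
    omega
  have tr : ∀ i j l, i ≠ j → i ≠ l → j ≠ l → 4 * Q (p i a) / Q a + (4 * Q (p j a) / Q a +
      4 * Q (p l a) / Q a) ≠ 4 := fun i j l hij hil hjl => by
    have := dg a ha {i, j, l} (Finset.card_le_three.trans_lt (by omega))
    rwa [Finset.sum_insert (by simp [hij, hil]), Finset.sum_pair hjl] at this
  refine key _ _ _ (fun i hi => by
    simpa only [Finset.mem_union, Finset.mem_filter, hi, true_and, mul_eq_zero, sub_eq_zero] using
      good a ha (by omega) i hi) c1 c2 c3 (fun k k' => ?_) fun k k' => ?_ <;>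
  obtain ⟨i, hi, j, hj, hij⟩ := Finset.one_lt_card.mp k <;>
  obtain ⟨l, hl⟩ := Finset.card_pos.mp k' <;>
  have i1 := (Finset.mem_filter.mp hi).2 <;> have j1 := (Finset.mem_filter.mp hj).2 <;>
  have l1 := (Finset.mem_filter.mp hl).2
  · refine tr i j l hij ?_ ?_ (by rw [i1, j1, l1]; norm_num) <;> rintro rfl
    · exact one_ne_zero (by linear_combination i1 - l1 : (1 : F) = 0)
    · exact one_ne_zero (by linear_combination j1 - l1 : (1 : F) = 0)
  · refine tr i j l hij ?_ ?_ ?_
    · rintro rfl; rw [l1] at i1; exact one_ne_zero (by linear_combination -i1 : (1 : F) = 0)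
    · rintro rfl; rw [l1] at j1; exact one_ne_zero (by linear_combination -j1 : (1 : F) = 0)
    · exact mul_left_cancel₀ (sub_ne_zero.mpr fun c => hij (inj hi hj c)) (by
        rw [l1]; linear_combination i1 - j1)

theorem rt_frame7 (hp : (Fintype.card F).Prime) (ht : 7 ≤ t) {x : V ≃ₗ[F] V} (hx : x ∈ N)
    (hx' : x ∉ dstab D) : h.Om ≤ N := by
  classical
  have q0 : ∀ i, Q (e i) ≠ 0 := fun i => by rwa [ec]
  have z := pz (h := h) d h1 he c0 ec t2
  obtain ⟨-, -, -, ⟨j, rfl⟩, out⟩ := exists_out d (P := fun v => ∃ j, e j = v) (fun i => ⟨⟨_, he i,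
    ne_zero_of_Q h (q0 i), i, rfl⟩, fun X a b c => absurd (Submodule.eq_of_le_of_finrank_le a
      ((h1 i).trans (Submodule.one_le_finrank_iff.mpr b))) c⟩) (hN hx) hx'
  have h2 := two_le_sp (h := h) d h1 he c0 ec t2 out (by omega)
  have ha := (lam_r h (q0 j) (re j)).map hN hx
  have qa : Q (x (e j)) = c := by rw [(hN hx).2, ec]
  by_cases c3 : Fintype.card F = 3
  · have t3 : (3 : F) = 0 := by simpa [c3] using FiniteField.cast_card_eq_zero F
    generalize x (e j) = a at h2 ha qa
    have q1 : ∀ i ∈ sp B e a, Q (p i a) = c := fun i hi => by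
      have := FiniteField.pow_card_sub_one_eq_one _ (div_ne_zero (mem_sp.mp hi) (mul_ne_zero t2 c0))
      rw [c3] at this
      rw [pe (h := h) d h1 he c0 ec t2, IsQuad.smul' h.form, ec, ← sq, this, one_mul]
    have q2 := Q_sum h d a
    rw [← Finset.sum_subset (Finset.subset_univ (sp B e a)) fun i _ hi => by
      rw [(z i a).mpr (by simpa [mem_sp] using hi), h.Q_zero], Finset.sum_congr rfl q1,
      Finset.sum_const, nsmul_eq_mul, qa, eq_comm, mul_eq_right₀ c0] at q2
    have h4 : 4 ≤ (sp B e a).card := by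
      by_contra k
      rcases (show (sp B e a).card = 2 ∨ (sp B e a).card = 3 by omega) with k | k <;> rw [k] at q2
      · exact t2 (by push_cast at q2; linear_combination t3 - q2)
      · exact t2 (by push_cast at q2; linear_combination q2)
    obtain ⟨S, s1, s2⟩ := Finset.exists_subset_card_eq h4
    obtain ⟨i, j, l, o, hij, hil, hio, hjl, hjo, hlo, rfl⟩ := Finset.card_eq_four.mp s2
    simp only [Finset.insert_subset_iff, Finset.singleton_subset_iff] at s1
    have he' : ∀ m, (if m ∈ sp B e a then p m a else e m) ∈ D m := fun m => by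
      split_ifs; exacts [d.mem m a, he m]
    have ec' : ∀ m, Q (if m ∈ sp B e a then p m a else e m) = c := fun m => by
      split_ifs with k; exacts [q1 m k, ec m]
    exact rt_three d h1 he' c0 ec' t2 hn hO hN (fun m => by
      convert re m using 1
      ext v; rw [r_line d h1 he' c0 ec' t2, r_line d h1 he c0 ec t2]) hp t3 (by omega) ha
      hij hil hio hjl hjo hlo (by simp [s1]) (by simp [s1]) (by simp [s1])
      (mt (z o a).mp (mem_sp.mp s1.2.2.2))
  have : Fact (Fintype.card F).Prime := ⟨hp⟩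
  have : CharP F (Fintype.card F) := charP_of_card_eq_prime rfl
  have h4 : 4 ≤ Fintype.card F := by
    have := hp.two_le
    have : Fintype.card F ≠ 2 := fun k => t2 (by simpa [k] using FiniteField.cast_card_eq_zero F)
    omega
  have t3 : (3 : F) ≠ 0 := fun k => by
    have := Nat.le_of_dvd (by omega) ((CharP.cast_eq_zero_iff F (Fintype.card F) 3).mp (by simpa))
    omega
  refine stepC d h1 he c0 ec t2 hN re hp h4 ?_ fun i j => ?_
  · by_contra hE
    have bd := fun a => bound4 d h1 he c0 ec t2 hN re hp t3 hE (a := a)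
    have : ∀ n : ℕ, ∃ a, Lam h N a ∧ n + 3 ≤ (sp B e a).card := fun n => by
      induction n with
      | zero => exact three d h1 he c0 ec t2 hn hO hN re (by omega) hx h2
      | succ n ih =>
        obtain ⟨a, ha, ih⟩ := ih
        have := bd a ha
        obtain ⟨i, hi⟩ := Finset.card_pos.mp (show 0 < (sp B e a).card by omega)
        obtain ⟨b, hb, S, s1, -, s3, -⟩ := overlap d h1 he c0 ec t2 hn hO hN ha hi (by omega) (by omega)
        exact ⟨b, hb, le_trans (by omega) (Finset.card_le_card s1)⟩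
    obtain ⟨a, ha, k⟩ := this 2
    have := bd a ha
    omega
  by_cases hij : i = j
  · exact ⟨_, lam_r h (q0 j) (re j), by simp [hij, d.self j _ (he j), ne_zero_of_Q h (q0 j)]⟩
  obtain ⟨i', hi, j', hj, hij'⟩ := Finset.one_lt_card.mp h2
  obtain ⟨k, hk, -, π, k1, k2⟩ := frame_perm d h1 he c0 ec t2 hn hO
    (Equiv.swap (Equiv.swap i' i j') j * Equiv.swap i' i) {i', j'}
    ((Nat.add_le_add_right Finset.card_le_two _).trans (by omega))
  have k3 : π i' = i := by
    rw [k2 i' (by simp), Equiv.Perm.mul_apply, Equiv.swap_apply_left, Equiv.swap_apply_of_ne_of_ne _ hij]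
    rwa [Ne, eq_comm, Equiv.swap_apply_eq_iff, Equiv.swap_apply_right, eq_comm]
  have k4 : π j' = j := by rw [k2 j' (by simp), Equiv.Perm.mul_apply, Equiv.swap_apply_left]
  exact ⟨_, ha.map hN hk, by rw [Ne, z, ← k3, ← k1, (hN hk).1]; exact mem_sp.mp hi,
    by rw [Ne, z, ← k4, ← k1, (hN hk).1]; exact mem_sp.mp hj⟩

end

variable (hp : (Fintype.card F).Prime) (ht : 7 ≤ t) {M : Subgroup (V ≃ₗ[F] V)} (hO : Ov h D M)
  (hM : M ≤ h.Om) (hc : ¬ h.Om ≤ M)
include hp ht hO hM hc

theorem frame_star7 {x : V ≃ₗ[F] V} (hx : x ∈ M) {j l : Fin t} (hl : x (e j) ∈ D l) : x ∈ dstab D := by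
  have hn : 5 ≤ finrank F V := by
    have := Nat.mul_le_mul_left t (Submodule.one_le_finrank_iff.mpr (d.ne j))
    rw [← finrank_eq_mul d j] at this; omega
  have q0 : ∀ i, Q (e i) ≠ 0 := fun i => by rwa [ec]
  obtain ⟨k, hk, -, π, k1, k2⟩ := frame_perm d h1 he c0 ec t2 hn hO (Equiv.swap l j) {l} (by simp; omega)
  have b := fun l => blk_of (h := h) d h1 he c0 ec t2 (g := k) (l := l) (k1 l ▸ he _)
  have k3 := b l _ hl
  rw [k2 l (by simp), Equiv.swap_apply_left] at k3
  by_contra hx'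
  refine hc (hO.om_le_of_ext d hM (le_refl (D j)) (rt_frame7 d h1 he c0 ec t2 hn (hO.ext d le_rfl)
    (ext_le_isom hM) (fun i => ?_) hp ht (hO.mem_ext_of_stab d hM le_rfl (mul_mem hk hx)
      (blk_of (h := h) d h1 he c0 ec t2 k3)) fun c => hx' ?_))
  · simpa using mul_mem (hO.ext d le_rfl _ (r_mul_mem h hn (q0 i) (q0 j) ⟨c, by rw [ec, ec]⟩) (mul_mem
      (rf_dstab h d (he i) _) (rf_dstab h d (he j) _))) (inv_mem (le_ext _ _ (rf_mem_loc h (he j) (Q (e j))⁻¹)))
  · simpa using mul_mem (inv_mem (perm_dstab d b)) c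

theorem frame_c7 {m : V ≃ₗ[F] V} (hm : m ∈ M) (J : Finset (Fin t)) (hJ : 5 ≤ J.card)
    (hs : ∀ s ∈ M, s ∈ dstab D → (∀ i ∉ J, ∀ x ∈ D i, s x = x) → m * s * m⁻¹ ∈ dstab D) :
    m ∈ dstab D := by
  have hQ : IsQuad B Q := h.form
  have mI := hM.trans h.om_le_isom hm
  have ee := Bee (h := h) d h1 he c0 ec t2
  have c2 := mul_ne_zero t2 c0
  by_contra hm'
  have two := fun j => two_le_sp (h := h) d h1 he c0 ec t2
    (fun l c => hm' (frame_star7 d h1 he c0 ec t2 hp ht hO hM hc hm (j := j) (l := l) c)) (by omega)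
  have k1 : ∀ j ∈ J, ∀ k ∈ J, ∀ l ∈ J, j ≠ k → j ≠ l → k ≠ l → ∀ ε δ : F, ε * ε = 1 → δ * δ = 1 →
      (sp B e (m (e j - ε • e k)) ∪ sp B e (m (e j - δ • e l))).card ≤ 3 :=
    fun j hj k hk l hl jk jl kl ε δ hε hδ => by
    have hn : 5 ≤ finrank F V := by
      have := Nat.mul_le_mul_left t (Submodule.one_le_finrank_iff.mpr (d.ne j))
      rw [← finrank_eq_mul d j] at this; omega
    have q := Q_root (h := h) d h1 he c0 ec t2 jk hε
    have s1 := mul_mem (root_dstab (h := h) d h1 he c0 ec t2 jk hε) (root_dstab (h := h) d h1 he c0 ec t2 jl hδ)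
    have fx : ∀ k ∈ J, ∀ ε : F, ∀ i ∉ J, ∀ x ∈ D i, r h (e j - ε • e k) x = x := fun k hk ε i hi x hx =>
      rf_fix h _ _ (by simp [d.orth j i (by rintro rfl; exact hi hj) _ (he j) x hx,
        d.orth k i (by rintro rfl; exact hi hk) _ (he k) x hx])
    have := hs _ (hO _ (root_pair d h1 he c0 ec t2 hn hO jk jl hε hδ) s1) s1 fun i hi x hx => by
      rw [LinearEquiv.mul_apply, fx l hl δ i hi x hx, fx k hk ε i hi x hx]
    rw [show ∀ x y : V ≃ₗ[F] V, m * (x * y) * m⁻¹ = m * x * m⁻¹ * (m * y * m⁻¹) from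
      fun x y => by group, conj_r h mI, conj_r h mI] at this
    refine cyc_three d h1 he c0 ec t2 (by rwa [mI.2, q]) (by
      rw [mI.2, mI.2, q, Q_root (h := h) d h1 he c0 ec t2 jl hδ]) (by
      rw [mI.1, mI.2, q]; simp [ee, jl, kl, jk.symm]) (fun c => ?_) this
    have := congrArg (B (m (e k))) c
    simp [mI.1, ee, jk.symm, kl, t2, c0] at this
    simp [this] at hε
  have k2 : ∀ A ⊆ J, A.card ≤ 3 → (A.biUnion fun j => sp B e (m (e j))).card ≤ 4 := fun A hA h3 => by
    obtain ⟨u, u1, u2, u3⟩ := Finset.exists_subsuperset_card_eq hA h3 (by omega)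
    obtain ⟨j, k, l, jk, jl, kl, rfl⟩ := Finset.card_eq_three.mp u3
    refine (Finset.card_le_card (Finset.biUnion_subset_biUnion_of_subset_left _ u1)).trans ?_
    simp only [Finset.insert_subset_iff, Finset.singleton_subset_iff] at u2
    have a := k1 j u2.1 k u2.2.1 l u2.2.2 jk jl kl
    have key : ∀ T T1 T2 T3 : Finset (Fin t), T ⊆ T1 ∪ T2 → T ⊆ T1 ∪ T3 → T ⊆ T2 ∪ T3 → T1.card ≤ 3 →
        T2.card ≤ 3 → T3.card ≤ 3 → T.card ≤ 4 := fun T T1 T2 T3 a b c _ _ _ => by
      have := Finset.card_le_card (show T \ T1 ∪ T \ T2 ∪ T \ T3 ⊆ T by simp [Finset.union_subset_iff])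
      rw [Finset.card_union_of_disjoint (Finset.disjoint_left.mpr fun i x y => by
          rw [Finset.mem_union, Finset.mem_sdiff, Finset.mem_sdiff] at x
          rw [Finset.mem_sdiff] at y
          have := Finset.mem_union.mp (b y.1)
          have := Finset.mem_union.mp (c y.1)
          tauto),
        Finset.card_union_of_disjoint (Finset.disjoint_left.mpr fun i x y => by
          rw [Finset.mem_sdiff] at x y
          have := Finset.mem_union.mp (a y.1)
          tauto)] at this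
      have := Finset.le_card_sdiff T1 T
      have := Finset.le_card_sdiff T2 T
      have := Finset.le_card_sdiff T3 T
      omega
    refine key _ _ _ _ ?_ ?_ ?_ (a 1 1 (by simp) (by simp)) (a (-1) 1 (by simp) (by simp))
      (a 1 (-1) (by simp) (by simp)) <;>
    · intro i hi
      simp only [Finset.mem_union, Finset.biUnion_insert, Finset.singleton_biUnion, mem_sp, map_sub,
        map_smul, smul_eq_mul] at hi ⊢
      by_contra c
      push Not at c
      obtain ⟨⟨c1, c2⟩, c3, c4⟩ := c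
      have : B (e i) (m (e j)) = 0 := mul_left_cancel₀ t2 (by
        first | linear_combination c1 + c3 | linear_combination c2 + c4)
      rw [this] at c1 c2 hi
      simp only [zero_sub, neg_eq_zero, neg_mul, one_mul] at c1 c2
      simp [c1, c2] at hi
  have k3 : ∀ A ⊆ J, A.card ≤ 2 → (A.biUnion fun j => sp B e (m (e j))).card ≤ 3 := fun A hA h2 => by
    by_contra c
    obtain ⟨l, hl, o, o1, o2⟩ := out_sp (h := h) d h1 he c0 ec t2 m J _ ((k2 A hA (by omega)).trans_lt hJ)
    have := k2 (insert l A) (Finset.insert_subset hl hA) ((Finset.card_insert_le _ _).trans (by omega))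
    have := Finset.card_lt_card (show (A.biUnion fun j => sp B e (m (e j))) ⊂
      (insert l A).biUnion fun j => sp B e (m (e j)) from ⟨by simp, fun c => o1 (c (by simp [o2]))⟩)
    omega
  have k4 : ∀ j ∈ J, ∃ k ∈ J, k ≠ j ∧ (sp B e (m (e j))).card < (sp B e (m (e j)) ∪ sp B e (m (e k))).card ∧
      (sp B e (m (e j)) ∪ sp B e (m (e k))).card ≤ 3 := fun j hj => by
    obtain ⟨l, hl, o, o1, o2⟩ := out_sp (h := h) d h1 he c0 ec t2 m J (sp B e (m (e j))) (by
      have := k3 {j} (by simpa) (by simp)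
      rw [Finset.singleton_biUnion] at this; omega)
    exact ⟨l, hl, by rintro rfl; exact o1 o2, Finset.card_lt_card ⟨by simp, fun c => o1 (c (by simp [o2]))⟩,
      by simpa using k3 {j, l} (by simp [Finset.insert_subset_iff, hj, hl]) Finset.card_le_two⟩
  obtain ⟨j, hj⟩ := Finset.card_pos.mp (show 0 < J.card by omega)
  obtain ⟨k, hk, kj, a1, a2⟩ := k4 j hj
  obtain ⟨l, -, -, b1, b2⟩ := k4 k hk
  have := Finset.card_union_add_card_inter (sp B e (m (e j))) (sp B e (m (e k)))
  have := two j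
  have := two k
  obtain ⟨i, hi⟩ := Finset.card_eq_one.mp (show (sp B e (m (e j)) ∩ sp B e (m (e k))).card = 1 by omega)
  have i1 := Finset.mem_inter.mp (hi ▸ Finset.mem_singleton_self i)
  exact single (h := h) d h1 he c0 ec t2 i1.1 i1.2 (fun l a b => by
    simpa [← Finset.mem_singleton, ← hi] using And.intro a b)
    (by rw [mI.1, d.orth j k kj.symm _ (he j) _ (he k)])

omit hc in
theorem frame_odd (odd : Odd t) {g : V ≃ₗ[F] V} (hg : g ∈ M) (hg' : g ∉ dstab D) : h.Om ≤ M := by
  have q0 : ∀ i, Q (e i) ≠ 0 := fun i => by rwa [ec]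
  have hd : finrank F V = t := by
    rw [finrank_eq_mul d ⟨0, by omega⟩, (h1 _).antisymm (Submodule.one_le_finrank_iff.mpr (d.ne _)),
      mul_one]
  have sg : ∀ I : Finset (Fin t), ∃ s, (∀ v, s v = v - (2 : F) • ∑ i ∈ I, p i v) ∧ s ∈ dstab D ∧
      ∀ j, (if Even I.card then s else s * r h (e j)) ∈ h.Om := fun I => by
    induction I using Finset.induction_on with
    | empty => exact ⟨1, by simp, one_mem _, by simp⟩
    | insert i I hi ih =>
      obtain ⟨s, k1, k2, k3⟩ := ih
      refine ⟨r h (e i) * s, fun v => ?_, mul_mem (rf_dstab h d (he i) _) k2, fun j => ?_⟩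
      · rw [LinearEquiv.mul_apply, r_line d h1 he c0 ec t2, k1, Finset.sum_insert hi, map_sub, map_smul,
          (Q_sub_sum (h := h) d I v).2, if_neg hi]
        module
      rw [Finset.card_insert_of_notMem hi]
      by_cases c : Even I.card
      · have := mul_mem (r_mul_mem h (by omega) (q0 i) (q0 j) ⟨_, by rw [ec, ec]⟩)
          (h.conj_mem_om (r_isom h (e j)) (if_pos c ▸ k3 j :))
        rw [if_neg (Nat.even_add_one.not.mpr (not_not.mpr c))]
        rwa [r_inv, mul_assoc, mul_assoc, ← mul_assoc _ _ (s * _), r_r, one_mul, ← mul_assoc] at this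
      · have := h.conj_mem_om (r_isom h (e i)) (if_neg c ▸ k3 i :)
        rw [if_pos (Nat.even_add_one.mpr c)]
        rwa [← mul_assoc, mul_inv_cancel_right] at this
  let z : V ≃ₗ[F] V := LinearEquiv.neg F
  have zz : ∀ x, z * (z * x) = x := fun x => by ext; simp [z]
  have zc : ∀ x y : V ≃ₗ[F] V, x * (z * y) = z * (x * y) := fun x y => by ext; simp [z]
  have zI : z ∈ Isom B Q := ⟨by simp [z], fun v => by
    rw [show z v = (-1 : F) • v by simp [z], h.Q_smul]; simp⟩
  let N : Subgroup (V ≃ₗ[F] V) :=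
    { carrier := {x | x ∈ M ∨ z * x ∈ M}
      one_mem' := Or.inl (one_mem _)
      mul_mem' := by
        rintro x y (a | a) (b | b) <;> have := mul_mem a b
        · exact Or.inl this
        · exact Or.inr (zc x y ▸ this)
        · exact Or.inr (mul_assoc z x y ▸ this)
        · exact Or.inl (by rwa [mul_assoc, zc, zz] at this)
      inv_mem' := by
        rintro x (a | a)
        · exact Or.inl (inv_mem a)
        · refine Or.inr (inv_mem_iff.mp ?_)
          convert a using 1
          rw [inv_eq_iff_mul_eq_one, mul_assoc, zc, zz, inv_mul_cancel] }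
  have := rt_frame7 d h1 he c0 ec t2 (by omega) (N := N) (fun x a b => Or.inl (hO x a b))
    (fun x hx => hx.elim (fun a => h.om_le_isom (hM a)) fun a => zz x ▸ mul_mem zI (h.om_le_isom (hM a)))
    (fun i => Or.inr ?_) hp ht (Or.inl hg) hg'
  · refine fun x hx => (this hx).resolve_right fun a => ?_
    have := mem_SLv.mp (h.om_le_SLv (mul_mem (hM a) (inv_mem hx)))
    rw [mul_inv_cancel_right, show (z : V →ₗ[F] V) = (-1 : F) • LinearMap.id by ext; simp [z],
      LinearMap.det_smul, hd, odd.neg_one_pow, LinearMap.det_id] at this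
    exact t2 (by linear_combination -this)
  · obtain ⟨s, k1, k2, k3⟩ := sg {i}ᶜ
    have := k3 i
    rw [if_pos (by rw [Finset.card_compl, Fintype.card_fin]; exact odd.tsub_odd (by simp))] at this
    convert hO s this k2 using 1
    ext v
    have := Finset.sum_add_sum_compl {i} fun j => p j v
    rw [d.sum, Finset.sum_singleton] at this
    rw [k1, LinearEquiv.mul_apply, r_line d h1 he c0 ec t2, eq_sub_of_add_eq' this]
    simp only [z, LinearEquiv.neg_apply]; module

omit he c0 ec hO hM hc ht in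
theorem max_frame7 (ht : 10 ≤ t ∨ 7 ≤ t ∧ Odd t) : IsMaximalIn h.Om (dstab D ⊓ h.Om) := by
  have hQ : IsQuad B Q := h.form
  have ns : ∀ i, ∀ x ∈ D i, x ≠ 0 → Q x ≠ 0 := fun i x hx x0 c => x0 (d.nd i x hx fun y hy => by
    obtain ⟨s, rfl⟩ := line_mem d (h1 i) hx x0 hy
    simp [h.diag0 c])
  obtain ⟨v, hv, v0⟩ := (Submodule.ne_bot_iff _).mp (d.ne ⟨0, by omega⟩)
  choose e he ec _ using exists_val h d hv
  have c0 := ns _ v hv v0
  have q0 : ∀ i, Q (e i) ≠ 0 := fun i => by rwa [ec]
  have hn : 5 ≤ finrank F V := by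
    have := Nat.mul_le_mul_left t (Submodule.one_le_finrank_iff.mpr (d.ne ⟨0, by omega⟩))
    rw [← finrank_eq_mul d] at this; omega
  refine max_of d h hn (by omega) fun M hO hM g hg hg' => ?_
  by_contra hc
  rcases ht with ht | ⟨ht, odd⟩
  swap
  · exact hc (frame_odd d h1 he c0 ec t2 hp ht hO hM odd hg hg')
  refine hg' (stepB d h (hM.trans h.om_le_isom) (κ₀ := 5) (fun x hx i v hv q k => ?_)
    (fun m => frame_c7 d h1 he c0 ec t2 hp (by omega) hO hM hc) (fun y b y1 => ?_)
    (by omega) (by omega) (Or.inl (by omega)) (fun w b w2 k => ?_)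
    (fun i => r h (e i)) (fun i => blk_of_loc d h le_rfl (rf_mem_loc h (he i) _)) (fun i => r_r h _)
    (fun i => rk_rf h _ _) (fun i => ⟨e i, he i, ?_⟩) (fun i j => hO _
      (r_mul_mem h hn (q0 i) (q0 j) ⟨_, by rw [ec, ec]⟩)
      (mul_mem (rf_dstab h d (he i) _) (rf_dstab h d (he j) _))) hg)
  · obtain ⟨s, hs⟩ := line_mem d (h1 i) hv (ne_zero_of_Q h q) (he i)
    exact frame_star7 d h1 he c0 ec t2 hp (by omega) hO hM hc hx (j := i) (l := i)
      (by rw [← hs, map_smul, k, hs]; exact he i)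
  · obtain ⟨i, x, hx, c⟩ := exists_blk_ne d y1
    exact ⟨i, x, hx, ns i _ ((D i).sub_mem (b.blk i x hx) hx) (sub_ne_zero.mpr c)⟩
  · obtain ⟨J, e', α, β, c1, c2, c3⟩ := rk_count d k w2 (π := 1) b.blk
      fun i => Submodule.one_le_finrank_iff.mpr (d.ne i)
    have := c3 fun _ => rfl
    obtain ⟨i, hi⟩ := Finset.card_pos.mp (show 0 < J.card by omega)
    exact ⟨i, _, he i, q0 i, e' i hi _ (he i)⟩
  · rw [r_self h (q0 i), Ne, neg_eq_iff_add_eq_zero, ← two_smul F, smul_eq_zero]
    simp [t2, ne_zero_of_Q h (q0 i)]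

end Cfsg.Agent.H11.Im
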