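import Mathlib
import Cfsg.Agent.H10.Mx11
import Cfsg.Agent.H10.MxB

/-!
Reflections, local groups and block stabilisers in orthogonal and unitary spaces.
-/

set_option autoImplicit false
set_option linter.unusedSectionVars false

namespace Cfsg.Agent.H11.Im

open Module H10 H11 Cfsg.Geo

variable {F : Type*} [Field F] {V : Type*} [AddCommGroup V] [Module F V] {σ : F →+* F}

/-- The linear map `x ↦ x - c B(a,x) a`. -/
def rfL (B : V →ₛₗ[σ] V →ₗ[F] F) (a : V) (c : F) : V →ₗ[F] V :=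
  LinearMap.id - (c • B a).smulRight a

theorem rfL_apply (B : V →ₛₗ[σ] V →ₗ[F] F) (a : V) (c : F) (x : V) :
    rfL B a c x = x - (c * B a x) • a := by simp [rfL]

theorem rfL_rfL (B : V →ₛₗ[σ] V →ₗ[F] F) (a : V) (c c' : F) (x : V) :
    rfL B a c (rfL B a c' x) = x - ((c + c' - c * c' * B a a) * B a x) • a := by
  simp only [rfL_apply, map_sub, map_smul, smul_eq_mul]; module

variable {κ : F} {τ : F →+ F} {B : V →ₛₗ[σ] V →ₗ[F] F} {Q : V → F}

/-- Admissible parameters for a reflection. -/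
def Adm (_h : Cl 1 κ τ B Q) (a : V) (c : F) : Prop := τ c = σ c * c * Q a

section rf
variable (h : Cl 1 κ τ B Q)
include h

theorem symm1 (x y : V) : B y x = σ (B x y) := by rw [h.symm, one_mul]

theorem adm_tr {a : V} {c : F} (hc : Adm h a c) : c + σ c = σ c * c * B a a := by
  have := h.tr c
  rw [hc, one_mul] at this
  rw [h.form.diag]; linear_combination -this

variable {h} in
theorem Adm.sigma {a : V} {c : F} (hc : Adm h a c) : Adm h a (σ c) := by
  unfold Adm at *; rw [h.tau_sigma, h.invol, hc]; ring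

variable {h} in
theorem Adm.congr {a b : V} {c : F} (hc : Adm h a c) (e : Q b = Q a) : Adm h b c := by
  unfold Adm at *; rw [e, hc]

open Classical in
/-- The reflection with centre `a` and parameter `c`. -/
noncomputable def rf (a : V) (c : F) : V ≃ₗ[F] V :=
  if hc : Adm h a c then
    LinearEquiv.ofLinearMap (rfL B a c) (rfL B a (σ c))
      (by ext x; simp only [LinearMap.comp_apply, rfL_rfL, LinearMap.id_apply]
          rw [adm_tr h hc]; simp [mul_comm])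
      (by ext x; simp only [LinearMap.comp_apply, rfL_rfL, LinearMap.id_apply]
          rw [add_comm, adm_tr h hc]; simp)
  else 1

variable {h}

theorem Adm.apply {a : V} {c : F} (hc : Adm h a c) (x : V) : rf h a c x = x - (c * B a x) • a := by
  rw [rf, dif_pos hc]; exact rfL_apply B a c x

variable (h) in
theorem rf_fix (a : V) (c : F) {x : V} (hx : B a x = 0) : rf h a c x = x := by
  by_cases hc : Adm h a c
  · simp [hc.apply, hx]
  · rw [rf, dif_neg hc]; rfl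

theorem Adm.inv {a : V} {c : F} (hc : Adm h a c) : (rf h a c)⁻¹ = rf h a (σ c) := by
  refine inv_eq_of_mul_eq_one_right (LinearEquiv.ext fun x => ?_)
  rw [LinearEquiv.mul_apply, hc.apply, hc.sigma.apply]
  have := rfL_rfL B a c (σ c) x
  simp only [rfL_apply] at this
  rw [this, adm_tr h hc]; simp [mul_comm]

variable (h) in
theorem rf_mem_isom (a : V) (c : F) : rf h a c ∈ Isom B Q := by
  by_cases hc : Adm h a c
  · refine ⟨fun x y => ?_, fun x => ?_⟩
    · simp only [hc.apply, map_sub, map_smulₛₗ, LinearMap.sub_apply, LinearMap.smul_apply,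
        smul_eq_mul, RingHom.id_apply, map_mul, ← symm1 h a x]
      linear_combination (-(B x a * B a y)) * adm_tr h hc
    · rw [hc.apply, h.form.sub, h.Q_smul, map_smul, smul_eq_mul, symm1 h a x,
        show c * B a x * σ (B a x) = σ (B a x) * B a x * c by ring, h.tau_norm, hc, map_mul]
      ring
  · rw [rf, dif_neg hc]; exact one_mem _

variable (h) in
theorem conj_rf {g : V ≃ₗ[F] V} (hg : g ∈ Isom B Q) (a : V) (c : F) :
    g * rf h a c * g⁻¹ = rf h (g a) c := by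
  by_cases hc : Adm h a c
  · ext x
    obtain ⟨x, rfl⟩ := g.surjective x
    simp [hc.apply, (hc.congr (hg.2 a)).apply, hg.1, LinearEquiv.coe_inv]
  · have : ¬ Adm h (g a) c := fun e => hc (e.congr (hg.2 a).symm)
    rw [rf, dif_neg hc, rf, dif_neg this]; simp

theorem Adm.mul_inv {a u : V} {c : F} (hc : Adm h a c) (hu : Q u = 0) (hua : B u a = 0) :
    rf h (a + u) c * (rf h a c)⁻¹ = h.eich u (c • a) c := by
  have hc' : Adm h (a + u) c := hc.congr (by rw [h.Q_add, hu, h.refl hua]; simp)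
  ext x
  rw [hc.inv, LinearEquiv.mul_apply, hc'.apply, hc.sigma.apply, h.eich_apply hu (by simp [hua])]
  simp only [map_sub, map_add, map_smulₛₗ, LinearMap.add_apply, LinearMap.smul_apply, smul_eq_mul,
    hua, RingHom.id_apply, map_mul]
  have := adm_tr h hc
  match_scalars
  · ring
  · linear_combination (-(B a x)) * this
  · linear_combination (-(B a x)) * this

theorem Adm.mem_ar {M : Subgroup (V ≃ₗ[F] V)} {a u : V} {c : F} (hc : Adm h a c) (hu : Q u = 0)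
    (hua : B u a = 0) (h1 : rf h (a + u) c * (rf h a c)⁻¹ ∈ M) : c • a ∈ h.Ar M u :=
  (h.mem_ar hu).mpr ⟨by simp [hua], c, by rw [hc, h.Q_smul], hc.mul_inv hu hua ▸ h1⟩

end rf

/-- The isometries fixing the orthogonal complement of `X` pointwise. -/
def Loc (B : V →ₛₗ[σ] V →ₗ[F] F) (Q : V → F) (X : Submodule F V) : Subgroup (V ≃ₗ[F] V) where
  carrier := {g | g ∈ Isom B Q ∧ ∀ x, (∀ y ∈ X, B y x = 0) → g x = x}
  mul_mem' {a b} ha hb := ⟨mul_mem ha.1 hb.1, fun x hx => by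
    rw [LinearEquiv.mul_apply, hb.2 x hx, ha.2 x hx]⟩
  one_mem' := ⟨one_mem _, fun _ _ => rfl⟩
  inv_mem' {a} ha := ⟨inv_mem ha.1, fun x hx => by
    rw [LinearEquiv.coe_inv, LinearEquiv.symm_apply_eq, ha.2 x hx]⟩

theorem loc_mono {X Y : Submodule F V} (hXY : X ≤ Y) : Loc B Q X ≤ Loc B Q Y :=
  fun _ hg => ⟨hg.1, fun x hx => hg.2 x fun y hy => hx y (hXY hy)⟩

theorem inv_app (g : V ≃ₗ[F] V) (x : V) : g⁻¹ (g x) = x := g.symm_apply_apply x
theorem app_inv (g : V ≃ₗ[F] V) (x : V) : g (g⁻¹ x) = x := g.apply_symm_apply x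

theorem isom_inv {g : V ≃ₗ[F] V} (hg : g ∈ Isom B Q) (x y : V) : B x (g⁻¹ y) = B (g x) y := by
  rw [← hg.1, app_inv]

theorem conj_mem_loc {X Y : Submodule F V} {g s : V ≃ₗ[F] V} (hg : g ∈ Isom B Q)
    (hXY : ∀ x ∈ X, g x ∈ Y) (hs : s ∈ Loc B Q X) : g * s * g⁻¹ ∈ Loc B Q Y :=
  ⟨mul_mem (mul_mem hg hs.1) (inv_mem hg), fun x hx => by
    rw [LinearEquiv.mul_apply, LinearEquiv.mul_apply,
      hs.2 _ fun y hy => by rw [isom_inv hg]; exact hx _ (hXY y hy), app_inv]⟩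

section loc
variable (h : Cl 1 κ τ B Q)
include h

theorem rf_mem_loc {X : Submodule F V} {a : V} (ha : a ∈ X) (c : F) : rf h a c ∈ Loc B Q X :=
  ⟨rf_mem_isom h a c, fun _ hx => rf_fix h a c (hx a ha)⟩

theorem eich_mem_loc {X : Submodule F V} {u w : V} {c : F} (hu : u ∈ X) (hw : w ∈ X) (a : Q u = 0)
    (b : B u w = 0) (e : τ c = Q w) : h.eich u w c ∈ Loc B Q X :=
  ⟨h.eich_mem_isom a b e, fun _ hx => h.eich_fix c (hx u hu) (hx w hw)⟩

variable [FiniteDimensional F V]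

theorem loc_sub_mem {X : Submodule F V} {g : V ≃ₗ[F] V} (hg : g ∈ Loc B Q X) (v : V) :
    g v - v ∈ X :=
  h.form.mem_of_perp h.sep fun y hy => by
    have := hg.1.1 v y
    rw [hg.2 y hy] at this
    simp [this]

theorem loc_mem {X Y : Submodule F V} {g : V ≃ₗ[F] V} (hg : g ∈ Loc B Q X) (hXY : X ≤ Y) {v : V}
    (hv : v ∈ Y) : g v ∈ Y := by
  simpa using Y.add_mem (hXY (loc_sub_mem h hg v)) hv

theorem exists_loc {X : Submodule F V} (hX : NondegOn B X) {x y : V} (hx : x ∈ X) (hy : y ∈ X)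
    (hx0 : x ≠ 0) (hy0 : y ≠ 0) (e : Q y = Q x) : ∃ g ∈ Loc B Q X, g x = y := by
  have k : ∀ z ∈ X, z ≠ 0 → z ∉ perp B X := fun z hz h0 hc =>
    h0 (hX z hz fun w hw => h.refl (hc w hw))
  obtain ⟨g, hg, a, b⟩ := h.form.witt_step h.sep (perp B X) (k x hx hx0) (k y hy hy0) e
    fun z hz => by rw [h.refl (hz x hx), h.refl (hz y hy)]
  exact ⟨g, ⟨hg, fun z hz => a z hz⟩, b⟩

end loc

/-- Extension of a subgroup by a group `L`, after passing to the largest `L`-invariant part. -/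
def Ext (M L : Subgroup (V ≃ₗ[F] V)) : Subgroup (V ≃ₗ[F] V) where
  carrier := {g | ∃ s ∈ L, ∀ s' ∈ L, s' * (s * g) * s'⁻¹ ∈ M}
  one_mem' := ⟨1, one_mem _, fun s' _ => by simp⟩
  mul_mem' := by
    rintro a b ⟨s, hs, ha⟩ ⟨r, hr, hb⟩
    refine ⟨r * s, mul_mem hr hs, fun s' hs' => ?_⟩
    have := mul_mem (ha _ (mul_mem hs' hr)) (hb s' hs')
    convert this using 1; group
  inv_mem' := by
    rintro a ⟨s, hs, ha⟩
    refine ⟨s⁻¹, inv_mem hs, fun s' hs' => ?_⟩
    have := inv_mem (ha _ (mul_mem hs' (inv_mem hs)))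
    convert this using 1; group

theorem le_ext (M L : Subgroup (V ≃ₗ[F] V)) : L ≤ Ext M L :=
  fun g hg => ⟨g⁻¹, inv_mem hg, fun s' _ => by simp⟩

theorem mem_ext {M L : Subgroup (V ≃ₗ[F] V)} {g : V ≃ₗ[F] V} (hg : ∀ s ∈ L, s * g * s⁻¹ ∈ M) :
    g ∈ Ext M L := ⟨1, one_mem _, fun s hs => by simpa using hg s hs⟩

theorem ext_le {M L N : Subgroup (V ≃ₗ[F] V)} (hM : M ≤ N) (hL : L ≤ N) : Ext M L ≤ N := by
  rintro g ⟨s, hs, hg⟩
  have := mul_mem (inv_mem (hL hs)) (hM (hg 1 (one_mem _)))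
  simpa using this

theorem mem_of_ext {M L O : Subgroup (V ≃ₗ[F] V)} (hM : M ≤ O) (hL : ∀ s ∈ L, s ∈ O → s ∈ M)
    {g : V ≃ₗ[F] V} (hg : g ∈ Ext M L) (hO : g ∈ O) : g ∈ M := by
  obtain ⟨s, hs, hg⟩ := hg
  have a : s * g ∈ M := by simpa using hg 1 (one_mem _)
  have b : s ∈ O := by simpa using mul_mem (hM a) (inv_mem hO)
  simpa using mul_mem (inv_mem (hL s hs b)) a

variable {t : ℕ} {D : Fin t → Submodule F V} {p : Fin t → V →ₗ[F] V}

section dec
variable (h : Cl 1 κ τ B Q) (d : Dec B Q D p)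
include h d

omit h in
theorem B_sum (x y : V) : B x y = ∑ i, B (p i x) (p i y) := by
  conv_lhs => rw [← d.sum x, map_sum, LinearMap.sum_apply]
  exact Finset.sum_congr rfl fun i _ => (d.B_p (d.mem i x) y).symm

omit d in
theorem Q_sum_of {ι : Type*} (s : Finset ι) (v : ι → V)
    (ho : ∀ i j, i ≠ j → B (v i) (v j) = 0) : Q (∑ i ∈ s, v i) = ∑ i ∈ s, Q (v i) := by
  classical
  induction s using Finset.induction_on with
  | empty => simp [h.Q_zero]
  | insert a s ha ih =>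
    rw [Finset.sum_insert ha, Finset.sum_insert ha, h.Q_add, ih, map_sum,
      Finset.sum_eq_zero fun j hj => ho a j (by rintro rfl; exact ha hj)]
    simp

theorem Q_sum (x : V) : Q x = ∑ i, Q (p i x) := by
  conv_lhs => rw [← d.sum x]
  exact Q_sum_of h _ _ fun i j hij => d.orth i j hij _ (d.mem i x) _ (d.mem j x)

omit h in
theorem ext_p {x y : V} (e : ∀ i, p i x = p i y) : x = y := by
  rw [← d.sum x, ← d.sum y]; exact Finset.sum_congr rfl fun i _ => e i

theorem p_eq_zero {i : Fin t} {x : V} : p i x = 0 ↔ ∀ y ∈ D i, B y x = 0 :=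
  ⟨fun e y hy => by rw [← d.B_p hy, e, map_zero], fun e => by
    by_contra hc
    obtain ⟨y, hy, k⟩ := d.exists_ne (d.mem i x) hc
    exact k (h.refl (by rw [d.B_p hy]; exact e y hy))⟩

omit h in
theorem p_add {i j : Fin t} {x : V} (hx : x ∈ D j) (v : V) :
    p i (v + x) = if i = j then p i v + x else p i v := by
  split_ifs with e
  · subst e; rw [map_add, d.self _ x hx]
  · rw [map_add, d.zero i j e x hx, add_zero]

omit h in
theorem loc_fix {X : Submodule F V} {i j : Fin t} (hX : X ≤ D i) {g : V ≃ₗ[F] V}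
    (hg : g ∈ Loc B Q X) (hij : j ≠ i) {x : V} (hx : x ∈ D j) : g x = x :=
  hg.2 x fun y hy => d.orth i j hij.symm y (hX hy) x hx

theorem loc_fix' {X : Submodule F V} {i : Fin t} (hX : X ≤ D i) {g : V ≃ₗ[F] V}
    (hg : g ∈ Loc B Q X) {x : V} (hx : p i x = 0) : g x = x :=
  hg.2 x fun y hy => (p_eq_zero h d).mp hx y (hX hy)

variable [FiniteDimensional F V]

theorem loc_blk {X : Submodule F V} {i : Fin t} (hX : X ≤ D i) {g : V ≃ₗ[F] V}
    (hg : g ∈ Loc B Q X) (j : Fin t) (x : V) (hx : x ∈ D j) : g x ∈ D j := by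
  by_cases e : j = i
  · subst e; exact loc_mem h hg hX hx
  · rwa [loc_fix d hX hg e hx]

theorem loc_dstab {X : Submodule F V} {i : Fin t} (hX : X ≤ D i) {g : V ≃ₗ[F] V}
    (hg : g ∈ Loc B Q X) : g ∈ dstab D :=
  d.mem_dstab fun j => ⟨j, loc_blk h d hX hg j⟩

theorem p_loc {X : Submodule F V} {i : Fin t} (hX : X ≤ D i) {g : V ≃ₗ[F] V}
    (hg : g ∈ Loc B Q X) (j : Fin t) (x : V) :
    p j (g x) = if j = i then g (p j x) else p j x := by
  rw [d.p_comm (loc_blk h d hX hg)]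
  split_ifs with e
  · rfl
  · exact loc_fix d hX hg e (d.mem j x)

theorem rf_dstab {i : Fin t} {a : V} (ha : a ∈ D i) (c : F) : rf h a c ∈ dstab D :=
  loc_dstab h d le_rfl (rf_mem_loc h ha c)

omit h [FiniteDimensional F V] in
theorem p_perm {g : V ≃ₗ[F] V} {π : Equiv.Perm (Fin t)} (hg : ∀ i, ∀ x ∈ D i, g x ∈ D (π i))
    (i : Fin t) (v : V) : p (π i) (g v) = g (p i v) := by
  conv_lhs => rw [← d.sum v, map_sum, map_sum]
  rw [Finset.sum_eq_single i (fun j _ hj => d.zero _ _ (π.injective.ne hj.symm) _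
    (hg j _ (d.mem j v))) (by simp), d.self _ _ (hg i _ (d.mem i v))]

omit h d [FiniteDimensional F V] in
theorem dstab_perm {g : V ≃ₗ[F] V} (hg : g ∈ dstab D) :
    ∃ π : Equiv.Perm (Fin t), ∀ i, ∀ x ∈ D i, g x ∈ D (π i) := by
  obtain ⟨π, e⟩ := mem_dstab.mp hg
  exact ⟨π, fun i x hx => e i ▸ ⟨x, hx, rfl⟩⟩

omit h in
theorem onto {g : V ≃ₗ[F] V} {i j : Fin t} (hg : ∀ x ∈ D i, g x ∈ D j) {y : V} (hy : y ∈ D j) :
    g⁻¹ y ∈ D i := by
  have := map_eq_of_le' (g := g) (d.finrank_eq i j) (by rintro _ ⟨x, hx, rfl⟩; exact hg x hx)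
  obtain ⟨x, hx, rfl⟩ : y ∈ (D i).map (g : V →ₗ[F] V) := this ▸ hy
  simpa [inv_app] using hx

theorem exists_move {i j : Fin t} {x y : V} (hx : x ∈ D i) (hy : y ∈ D j) (e : Q y = Q x)
    (e0 : y = 0 ↔ x = 0) : ∃ g ∈ Isom B Q, (∀ z ∈ D i, g z ∈ D j) ∧ g x = y := by
  obtain ⟨s, hs, a⟩ : ∃ s ∈ Isom B Q, ∀ z ∈ D i, s z ∈ D j := by
    by_cases hij : i = j
    · exact ⟨1, one_mem _, fun z hz => hij ▸ hz⟩
    · obtain ⟨s, hs, a⟩ := d.exists_swap h hij; exact ⟨s, hs, a.1⟩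
  by_cases h0 : x = 0
  · exact ⟨s, hs, a, by rw [h0, e0.mpr h0, map_zero]⟩
  obtain ⟨g, hg, b⟩ := exists_loc h (d.nd j) (a x hx) hy (by simpa using h0) (mt e0.mp h0)
    (e.trans (hs.2 x).symm)
  exact ⟨g * s, mul_mem hg.1 hs, fun z hz => loc_mem h hg le_rfl (a z hz), b⟩

theorem exists_val {i : Fin t} {x : V} (hx : x ∈ D i) (j : Fin t) :
    ∃ y ∈ D j, Q y = Q x ∧ (y = 0 ↔ x = 0) := by
  obtain ⟨φ, -, e⟩ := d.iso i j
  exact ⟨φ ⟨x, hx⟩, Subtype.property _, e _, by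
    rw [Submodule.coe_eq_zero, LinearEquiv.map_eq_zero_iff, Submodule.mk_eq_zero]⟩

theorem orbit (π : Equiv.Perm (Fin t)) {a b : V} (e : ∀ i, Q (p (π i) b) = Q (p i a))
    (e0 : ∀ i, p (π i) b = 0 ↔ p i a = 0) :
    ∃ k ∈ Isom B Q, (∀ i, ∀ x ∈ D i, k x ∈ D (π i)) ∧ k a = b := by
  choose g hg h1 h2 using fun i => exists_move h d (d.mem i a) (d.mem (π i) b) (e i) (e0 i)
  let k : V →ₗ[F] V := ∑ i, (g i : V →ₗ[F] V) ∘ₗ p i
  have ka : ∀ x, k x = ∑ i, g i (p i x) := fun x => by simp [k]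
  have o : ∀ x y i j, i ≠ j → B (g i (p i x)) (g j (p j y)) = 0 := fun x y i j hij =>
    d.orth _ _ (π.injective.ne hij) _ (h1 i _ (d.mem i x)) _ (h1 j _ (d.mem j y))
  obtain ⟨s, hs, es⟩ := IsForm.exists_isom_of_linear (Q := Q) h.sep k (fun x y => by
    rw [ka, ka, map_sum, B_sum d x y]
    refine Finset.sum_congr rfl fun j _ => ?_
    rw [map_sum, LinearMap.sum_apply, Finset.sum_eq_single j (fun i _ hi => o x y i j hi) (by simp),
      (hg j).1]) (fun x => by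
    rw [ka, Q_sum_of h _ _ (o x x), Q_sum h d x]
    exact Finset.sum_congr rfl fun j _ => (hg j).2 _)
  refine ⟨s, hs, fun i x hx => ?_, ?_⟩
  · rw [es, ka, Finset.sum_eq_single i (fun j _ hj => by rw [d.zero j i hj x hx, map_zero])
      (by simp), d.self i x hx]
    exact h1 i x hx
  · rw [es, ka, ← d.sum b, ← Equiv.sum_comp π fun i => p i b]
    exact Finset.sum_congr rfl fun i _ => h2 i

omit h in
theorem perm_dstab {g : V ≃ₗ[F] V} {π : Equiv.Perm (Fin t)} (hg : ∀ i, ∀ x ∈ D i, g x ∈ D (π i)) :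
    g ∈ dstab D := d.mem_dstab fun i => ⟨π i, hg i⟩

end dec

/-- Every isometry can be corrected to lie in `Ω` by a local element. -/
def Adj (h : Cl 1 κ τ B Q) (X : Submodule F V) : Prop :=
  ∀ g ∈ Isom B Q, ∃ s ∈ Loc B Q X, g * s ∈ h.Om

/-- `M` contains the stabiliser of the decomposition in `Ω`. -/
def Ov (h : Cl 1 κ τ B Q) (D : Fin t → Submodule F V) (M : Subgroup (V ≃ₗ[F] V)) : Prop :=
  ∀ g ∈ h.Om, g ∈ dstab D → g ∈ M

/-- `M` contains the full stabiliser of the decomposition. -/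
def OvK (_h : Cl 1 κ τ B Q) (D : Fin t → Submodule F V) (M : Subgroup (V ≃ₗ[F] V)) : Prop :=
  ∀ g ∈ Isom B Q, g ∈ dstab D → g ∈ M

section ext
variable {h : Cl 1 κ τ B Q} (d : Dec B Q D p) [FiniteDimensional F V] {M : Subgroup (V ≃ₗ[F] V)}
  (hH : Ov h D M) (hM : M ≤ h.Om) {X : Submodule F V} {i : Fin t} (hX : X ≤ D i)
include d hH hX

theorem Ov.ext : Ov h D (Ext M (Loc B Q X)) := fun _ hg hg' => mem_ext fun s hs =>
  hH _ (h.conj_mem_om hs.1 hg) (by
    have := loc_dstab h d hX hs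
    exact mul_mem (mul_mem this hg') (inv_mem this))

theorem Ov.extK (ha : Adj h X) : OvK h D (Ext M (Loc B Q X)) := fun g hg hg' => by
  obtain ⟨s, hs, e⟩ := ha g hg
  have := mul_mem (hH.ext d hX _ e (mul_mem hg' (loc_dstab h d hX hs))) (inv_mem (le_ext _ _ hs))
  simpa using this

include hM

theorem Ov.mem_of_ext {g : V ≃ₗ[F] V} (hg : g ∈ Ext M (Loc B Q X)) (hO : g ∈ h.Om) : g ∈ M :=
  Im.mem_of_ext hM (fun s hs e => hH s e (loc_dstab h d hX hs)) hg hO

theorem Ov.om_le_of_ext (hO : h.Om ≤ Ext M (Loc B Q X)) : h.Om ≤ M :=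
  fun _ hg => hH.mem_of_ext d hM hX (hO hg) hg

theorem Ov.mem_ext_of_stab {g : V ≃ₗ[F] V} (hg : g ∈ M) (hgX : ∀ x ∈ X, g x ∈ X) :
    g ∈ Ext M (Loc B Q X) := mem_ext fun s hs => by
  have a : s * (g * s⁻¹ * g⁻¹) ∈ Loc B Q X :=
    mul_mem hs (conj_mem_loc (h.om_le_isom (hM hg)) hgX (inv_mem hs))
  have b : s * (g * s⁻¹ * g⁻¹) ∈ h.Om := by
    have := mul_mem (h.conj_mem_om hs.1 (hM hg)) (inv_mem (hM hg))
    simpa [mul_assoc] using this
  have := mul_mem (hH _ b (loc_dstab h d hX a)) hg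
  simpa [mul_assoc] using this

omit d hH hX in
theorem ext_le_isom : Ext M (Loc B Q X) ≤ Isom B Q :=
  ext_le (hM.trans h.om_le_isom) fun _ hg => hg.1

end ext

section adj
variable [FiniteDimensional F V] [Finite F]

theorem rf_eq_reflO {B : V →ₗ[F] V →ₗ[F] F}
    (h : Cl (σ := RingHom.id F) 1 2 (AddMonoidHom.id F) B Q) (a : V) :
    rf h a (Q a)⁻¹ = (IsQuad.reflO h.form a).1 := by
  have : Adm h a (Q a)⁻¹ := by
    by_cases e : Q a = 0 <;> simp [Adm, e]
  ext x; rw [this.apply, IsQuad.reflO_apply]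

theorem adj_quad {B : V →ₗ[F] V →ₗ[F] F}
    (h : Cl (σ := RingHom.id F) 1 2 (AddMonoidHom.id F) B Q) (hn : 5 ≤ finrank F V)
    {X : Submodule F V} (hX : NondegOn B X) (h2 : 2 ≤ finrank F X) : Adj h X := fun g hg => by
  have hQ : IsQuad B Q := h.form
  obtain ⟨s, hs, e⟩ := hQ.exists_mul_mem_of_nondeg h.sep (hQ.nonExc_of_finrank h.sep (by omega)) hX
    h2 ((Loc B Q X).subgroupOf _) (fun v hv _ => by
      rw [Subgroup.mem_subgroupOf, ← rf_eq_reflO h]; exact rf_mem_loc h hv _) ⟨g, hg⟩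
  exact ⟨s.1, hs, (mem_om_quad h hn _).mpr e⟩

theorem adj_quad_two {B : V →ₗ[F] V →ₗ[F] F}
    (h : Cl (σ := RingHom.id F) 1 2 (AddMonoidHom.id F) B Q) (hn : 5 ≤ finrank F V)
    (h2 : (2 : F) = 0) {X : Submodule F V} {a : V} (ha : a ∈ X) (hQa : Q a ≠ 0) : Adj h X :=
  fun g hg => by
  have hQ : IsQuad B Q := h.form
  have k := fun g => hQ.mem_commutator_iff_of_char_two h.sep
    (hQ.nonExc_of_finrank h.sep (by omega)) h2 g
  by_cases e : dick g = 0
  · exact ⟨1, one_mem _, by simpa using (mem_om_quad h hn ⟨g, hg⟩).mpr ((k _).mpr e)⟩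
  · refine ⟨(hQ.reflO a).1, rf_eq_reflO h a ▸ rf_mem_loc h ha _,
      (mem_om_quad h hn (⟨g, hg⟩ * hQ.reflO a)).mpr ((k _).mpr ?_)⟩
    rw [hQ.dick_mul_reflO h.sep _ hQa]
    revert e; generalize dick g = z; revert z; decide

omit [Finite F] in
theorem det_rf {h : Cl 1 κ τ B Q} {a : V} {c : F} (hc : Adm h a c) :
    LinearMap.det (rf h a c : V →ₗ[F] V) = 1 - c * B a a := by
  have k : 1 + ((-c) • B a) a ≠ 0 := by
    intro e
    have := adm_tr h hc
    have e1 : c * B a a = 1 := by simp at e; linear_combination -e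
    have : c = 0 := by linear_combination this + σ c * e1
    simp [this] at e1
  have : rf h a c = dtv a ((-c) • B a) := by
    ext x; rw [hc.apply, dtv_apply' k]; simp [sub_eq_add_neg]
  rw [this, det_dtv k]; simp [sub_eq_add_neg]

omit [FiniteDimensional F V] [Finite F] in
theorem adm_herm {h : Cl 1 1 (trHom σ) B (fun x => B x x)} {a : V} (ha : B a a ≠ 0) {ζ : F}
    (hζ : σ ζ * ζ = 1) : Adm h a ((1 - ζ) / B a a) := by
  simp only [Adm, trHom_apply, map_div₀, map_sub, map_one, ← symm1 h a a]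
  field_simp
  linear_combination -hζ

theorem adj_herm (hH : IsHerm B) (h : Cl 1 1 (trHom σ) B (fun x => B x x)) {X : Submodule F V}
    {a : V} (ha : a ∈ X) (hQa : B a a ≠ 0) : Adj h X := fun g hg => by
  have e := det_isom h.invol h.sep (g : V →ₗ[F] V) 1 (fun x y => by simpa using hg.1 x y)
  rw [one_pow] at e
  have k : Adm h a ((1 - σ (LinearMap.det (g : V →ₗ[F] V))) / B a a) :=
    adm_herm hQa (by rw [h.invol, mul_comm, e])
  refine ⟨_, rf_mem_loc h ha ((1 - σ (LinearMap.det (g : V →ₗ[F] V))) / B a a),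
    (mem_om_herm hH h).mpr ⟨(mul_mem hg (rf_mem_isom h a _)).1, ?_⟩⟩
  rw [LinearEquiv.coe_toLinearMap_mul, map_mul, det_rf k, div_mul_cancel₀ _ hQa]
  linear_combination e

end adj

end Cfsg.Agent.H11.Im
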