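import Mathlib
import Cfsg.Agent.H11.Im1

/-!
Overgroups of the full stabiliser of an orthogonal decomposition with many small members.
-/

set_option autoImplicit false
set_option linter.unusedSectionVars false

namespace Cfsg.Agent.H11.Im

open Module H10 H11 Cfsg.Geo

theorem exists_perm_move {ι : Type*} [Fintype ι] [DecidableEq ι] (A Z S : Finset ι)
    (hc : A.card ≤ Z.card) (h1 : Disjoint A S) (h2 : Disjoint Z S) :
    ∃ π : Equiv.Perm ι, (∀ i ∈ A, π i ∈ Z) ∧ ∀ i ∈ S, π i = i := by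
  obtain ⟨e⟩ : Nonempty (A ↪ Z) := Function.Embedding.nonempty_of_card_le (by simpa using hc)
  obtain ⟨π, hπ⟩ := Equiv.Perm.exists_extending_pair (α := A ⊕ S)
    (f := Sum.elim Subtype.val Subtype.val) (g := Sum.elim (fun a => (e a).1) Subtype.val)
    (Subtype.val_injective.sumElim Subtype.val_injective fun a b e =>
      Finset.disjoint_left.mp h1 a.2 (e ▸ b.2))
    ((Subtype.val_injective.comp e.injective).sumElim Subtype.val_injective fun a b e' =>
      Finset.disjoint_left.mp h2 (e a).2 (by rw [show (e a).1 = b.1 from e']; exact b.2))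
  exact ⟨π, fun i hi => by rw [show π i = _ from hπ (Sum.inl ⟨i, hi⟩)]; exact (e _).2,
    fun i hi => hπ (Sum.inr ⟨i, hi⟩)⟩

variable {F : Type*} [Field F] {V : Type*} [AddCommGroup V] [Module F V] {σ : F →+* F}
  {κ : F} {τ : F →+ F} {B : V →ₛₗ[σ] V →ₗ[F] F} {Q : V → F}
  {t : ℕ} {D : Fin t → Submodule F V} {p : Fin t → V →ₗ[F] V}

/-- `k` is an isometry fixing every member, and acting trivially outside `J`. -/
structure Blk (B : V →ₛₗ[σ] V →ₗ[F] F) (Q : V → F) (D : Fin t → Submodule F V)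
    (J : Finset (Fin t)) (k : V ≃ₗ[F] V) : Prop where
  isom : k ∈ Isom B Q
  blk : ∀ i, ∀ x ∈ D i, k x ∈ D i
  fix : ∀ i ∉ J, ∀ x ∈ D i, k x = x

theorem Blk.mono {J J' : Finset (Fin t)} {k : V ≃ₗ[F] V} (a : Blk B Q D J k) (e : J ⊆ J') :
    Blk B Q D J' k := ⟨a.isom, a.blk, fun i hi => a.fix i fun c => hi (e c)⟩

theorem Blk.mul {J : Finset (Fin t)} {k k' : V ≃ₗ[F] V} (a : Blk B Q D J k) (b : Blk B Q D J k') :
    Blk B Q D J (k * k') :=
  ⟨mul_mem a.isom b.isom, fun i x hx => a.blk i _ (b.blk i x hx), fun i hi x hx => by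
    rw [LinearEquiv.mul_apply, b.fix i hi x hx, a.fix i hi x hx]⟩

theorem Blk.mul' {J J' : Finset (Fin t)} {k k' : V ≃ₗ[F] V} (a : Blk B Q D J k)
    (b : Blk B Q D J' k') : Blk B Q D (J ∪ J') (k * k') :=
  (a.mono Finset.subset_union_left).mul (b.mono Finset.subset_union_right)

theorem blk_one (J : Finset (Fin t)) : Blk B Q D J 1 := ⟨one_mem _, fun _ _ hx => hx, fun _ _ _ _ => rfl⟩

section blk
variable (d : Dec B Q D p) {J J' : Finset (Fin t)} {k k' : V ≃ₗ[F] V}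
include d

theorem Blk.fix' (a : Blk B Q D J k) {v : V} (hv : ∀ i ∈ J, p i v = 0) : k v = v := by
  conv_lhs => rw [← d.sum v, map_sum]
  conv_rhs => rw [← d.sum v]
  refine Finset.sum_congr rfl fun i _ => ?_
  by_cases hi : i ∈ J
  · rw [hv i hi, map_zero]
  · exact a.fix i hi _ (d.mem i v)

theorem Blk.p_not (a : Blk B Q D J k) {i : Fin t} (hi : i ∉ J) (v : V) : p i (k v) = p i v := by
  rw [d.p_comm a.blk, a.fix i hi _ (d.mem i v)]

theorem Blk.add (a : Blk B Q D J k) (b : Blk B Q D J' k') (e : Disjoint J J') (v : V) :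
    k (k' v) = k v + k' v - v := by
  have := a.fix' d (v := k' v - v) fun i hi => by
    rw [map_sub, b.p_not d (Finset.disjoint_left.mp e hi), sub_self]
  rw [map_sub, sub_eq_iff_eq_add] at this
  rw [this]; abel

theorem Blk.dstab [FiniteDimensional F V] (a : Blk B Q D J k) : k ∈ dstab D :=
  d.mem_dstab fun i => ⟨i, a.blk i⟩

theorem blk_of_loc [FiniteDimensional F V] (h : Cl 1 κ τ B Q) {X : Submodule F V} {i : Fin t}
    (hX : X ≤ D i) (hk : k ∈ Loc B Q X) : Blk B Q D {i} k :=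
  ⟨hk.1, loc_blk h d hX hk, fun _ hj _ hx => loc_fix d hX hk (by simpa using hj) hx⟩

theorem mem_of_blocks {N : Submodule F V} {v : V} (hv : ∀ i, p i v ≠ 0 → D i ≤ N) : v ∈ N := by
  rw [← d.sum v]
  refine N.sum_mem fun i _ => ?_
  by_cases e : p i v = 0
  · rw [e]; exact N.zero_mem
  · exact hv i e (d.mem i v)

theorem perp_of_blocks {v w : V} (hv : ∀ i, p i v ≠ 0 → p i w = 0) : B v w = 0 := by
  rw [B_sum d]
  refine Finset.sum_eq_zero fun i _ => ?_
  by_cases e : p i v = 0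
  · simp [e]
  · simp [hv i e]

end blk

/-- Local elements on any `f` members realise all inner products. -/
def SumP (B : V →ₛₗ[σ] V →ₗ[F] F) (Q : V → F) (D : Fin t → Submodule F V)
    (p : Fin t → V →ₗ[F] V) (f : ℕ) : Prop :=
  ∀ J : Finset (Fin t), J.card = f → ∀ a, (∀ i ∈ J, p i a ≠ 0) → ∀ s,
    ∃ k, Blk B Q D J k ∧ B a (k a) - B a a = s

/-- Properties of the members of the decomposition. -/
structure Gen (h : Cl 1 κ τ B Q) (D : Fin t → Submodule F V) : Prop where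
  tau : τ ≠ 0
  adm : ∀ a, Q a ≠ 0 → ∃ c, c ≠ 0 ∧ Adm h a c
  ex : ∀ i, ∃ x ∈ D i, Q x ≠ 0
  lvl : ∀ i, ∀ x ∈ D i, x ≠ 0 → ∀ y, (∃ z ∈ D i, B z y ≠ 0) →
    ∃ b ∈ D i, b ≠ 0 ∧ Q b = Q x ∧ B b y ≠ 0
  add : ∀ i, ∀ x ∈ D i, Q x ≠ 0 →
    AddSubgroup.closure {s | ∃ b ∈ D i, Q b = Q x ∧ B x b = s} = ⊤
  np : ∀ i, ∀ x ∈ D i, x ≠ 0 → ∀ a, Q a ≠ 0 → ∃ b ∈ D i, ∃ c, c ≠ 0 ∧ Adm h a c ∧ Q b = Q x ∧
    B x b ≠ 0 ∧ b ≠ (c * B x b) • x
  p6 : (∃ a : F, a ≠ 0 ∧ a ≠ 1) ∨ ∀ i, ∀ x ∈ D i, Q x = 0 → x = 0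
  p7 : ∀ i, ∀ x ∈ D i, Q x ≠ 0 → ∀ z ∈ D i, z ∉ Submodule.span F {x} →
    ∃ v ∈ D i, Q v ≠ 0 ∧ B v x = 0 ∧ B v z ≠ 0

/-- The centres of full groups of reflections in `M`. -/
def Lam (h : Cl 1 κ τ B Q) (M : Subgroup (V ≃ₗ[F] V)) (a : V) : Prop :=
  Q a ≠ 0 ∧ ∀ c, rf h a c ∈ M

theorem Lam.map {h : Cl 1 κ τ B Q} {M : Subgroup (V ≃ₗ[F] V)} (hM : M ≤ Isom B Q) {a : V}
    (ha : Lam h M a) {g : V ≃ₗ[F] V} (hg : g ∈ M) : Lam h M (g a) :=
  ⟨by rw [(hM hg).2]; exact ha.1, fun c => by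
    rw [← conj_rf h (hM hg)]; exact mul_mem (mul_mem hg (ha.2 c)) (inv_mem hg)⟩

theorem Q_smul_ne (h : Cl 1 κ τ B Q) {x : V} (hx : Q x ≠ 0) {c : F} (hc : c ≠ 0) : Q (c • x) ≠ 0 := by
  rw [h.Q_smul]; exact mul_ne_zero (mul_ne_zero (h.sigma_ne hc) hc) hx

theorem ne_zero_of_Q (h : Cl 1 κ τ B Q) {x : V} (hx : Q x ≠ 0) : x ≠ 0 := by
  rintro rfl; exact hx h.Q_zero

theorem center_of (h : Cl 1 κ τ B Q) (hτ : τ ≠ 0) {M : Subgroup (V ≃ₗ[F] V)} {u y y' : V}
    (hu : Q u = 0) (hy : y ∈ h.Arm M u) (hy' : y' ∈ h.Arm M u) (e : B y y' ≠ 0) {c : F}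
    (hc : τ c = 0) : h.eich u 0 c ∈ M := by
  rcases h.kind with ⟨-, -, -, a⟩ | ⟨-, -, -, a⟩ | ⟨a, -, -, b⟩
  · exact absurd a hτ
  · subst a
    obtain rfl : c = 0 := hc
    rw [h.eich_zero]; exact one_mem _
  · subst b
    obtain ⟨s, rfl⟩ := exists_sub_conj a h.invol hc
    have := h.comm_mem hu (h.ar_of_arm hy) (hy' (s / B y y'))
    rwa [symm1 h y, map_smul, smul_eq_mul, div_mul_cancel₀ _ e, one_mul] at this

section gen
variable {h : Cl 1 κ τ B Q} (d : Dec B Q D p) [FiniteDimensional F V] (G : Gen h D)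
include d G

theorem Gen.ns {i : Fin t} {y : V} (hy : p i y ≠ 0) : ∃ v ∈ D i, Q v ≠ 0 ∧ B v y ≠ 0 := by
  obtain ⟨x, hx, e⟩ := G.ex i
  obtain ⟨b, hb, -, a, c⟩ := G.lvl i x hx (ne_zero_of_Q h e) y (by
    by_contra hc; push Not at hc; exact hy ((p_eq_zero h d).mpr hc))
  exact ⟨b, hb, a ▸ e, c⟩

theorem Gen.irr {i : Fin t} {A : AddSubgroup V} (hA : ∀ g ∈ Loc B Q (D i), ∀ a ∈ A, g a ∈ A)
    {y : V} (hy : y ∈ A) (hy0 : p i y ≠ 0) (x : V) (hx : x ∈ D i) : x ∈ A := by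
  have k : ∀ v ∈ D i, ∀ c, Adm h v c → ∀ a ∈ A, (c * B v a) • v ∈ A := fun v hv c hc a ha => by
    simpa [hc.apply] using A.sub_mem ha (hA _ (rf_mem_loc h hv c) a ha)
  obtain ⟨v, hv, q, e⟩ := G.ns d hy0
  obtain ⟨c, c0, hc⟩ := G.adm v q
  have q0 := Q_smul_ne h q (mul_ne_zero c0 e)
  have m0 := k v hv c hc y hy
  have n0 : (c * B v y) • v ∈ D i := (D i).smul_mem _ hv
  generalize (c * B v y) • v = x₀ at q0 m0 n0
  have k1 : ∀ b ∈ D i, Q b = Q x₀ → b ∈ A := fun b hb eb => by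
    obtain ⟨g, hg, rfl⟩ := exists_loc h (d.nd i) n0 hb (ne_zero_of_Q h q0)
      (ne_zero_of_Q h (eb ▸ q0)) eb
    exact hA g hg _ m0
  let N : Submodule F V :=
    { carrier := {x | ∀ s : F, s • x ∈ A}
      zero_mem' := fun s => by simp
      add_mem' := fun hx hy s => by rw [smul_add]; exact A.add_mem (hx s) (hy s)
      smul_mem' := fun c x hx s => by rw [smul_smul]; exact hx _ }
  have k2 : ∀ b ∈ D i, Q b = Q x₀ → b ∈ N := fun b hb eb s => by
    obtain ⟨c, c0, hc⟩ := G.adm b (eb ▸ q0)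
    let S : AddSubgroup F := A.comap ((LinearMap.toSpanSingleton F V (c • b)).toAddMonoidHom)
    have : S = ⊤ := top_le_iff.mp ((G.add i b hb (eb ▸ q0)).ge.trans ((AddSubgroup.closure_le _).mpr (by
      rintro _ ⟨b', hb', e', rfl⟩
      have := k b hb c hc b' (k1 b' hb' (e'.trans eb))
      simpa [S, smul_smul, mul_comm] using this)))
    have : s / c ∈ S := this ▸ trivial
    simpa [S, smul_smul, div_mul_cancel₀ _ c0] using this
  have : x ∈ N ⊓ D i := by
    by_contra hc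
    obtain ⟨z, -, a, b⟩ := h.exists_perp_not_in (d.nd i) inf_le_right hx hc
    obtain ⟨b', hb', -, e1, e2⟩ := G.lvl i x₀ n0 (ne_zero_of_Q h q0) z ⟨x, hx, by simp [b]⟩
    exact e2 (a b' ⟨k2 b' hb' e1, hb'⟩)
  simpa using this.1 1

variable {M : Subgroup (V ≃ₗ[F] V)} (hK : OvK h D M) (hM : M ≤ Isom B Q)
include hK hM

theorem Gen.blocks {u y : V} (hy : y ∈ h.Ar M u) {i : Fin t} (hu : p i u = 0) (hy0 : p i y ≠ 0)
    (l : Fin t) (hl : p l u = 0) : D l ≤ h.Arm M u := by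
  have k := G.irr d (i := i) (A := h.Ar M u) (fun g hg a ha => h.map_mem_ar_fix hM
    (hK g hg.1 (loc_dstab h d le_rfl hg)) (loc_fix' h d le_rfl hg hu) ha) hy hy0
  have k' : ∀ x ∈ D l, x ∈ h.Ar M u := fun x hx => by
    by_cases e : i = l
    · exact k x (e ▸ hx)
    obtain ⟨s, hs, a⟩ := d.exists_swap h e
    have : s⁻¹ u = u := by
      rw [LinearEquiv.coe_inv, LinearEquiv.symm_apply_eq]
      conv_lhs => rw [← d.sum u]
      conv_rhs => rw [← d.sum u, map_sum]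
      refine Finset.sum_congr rfl fun j _ => ?_
      by_cases e1 : j = i
      · simp [e1, hu]
      by_cases e2 : j = l
      · simp [e2, hl]
      exact (a.2.2 j e1 e2 _ (d.mem j u)).symm
    simpa [inv_app] using h.map_mem_ar_fix hM (inv_mem (hK s hs (d.swap_mem a))) this
      (k _ (a.2.1 x hx))
  exact fun x hx s => k' _ ((D l).smul_mem s hx)

theorem Gen.om_le_of_full {u : V} (hu0 : u ≠ 0) (hu : h.Full M u) : h.Om ≤ M := by
  obtain ⟨i, hi⟩ : ∃ i, p i u ≠ 0 := by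
    by_contra hc; push Not at hc; exact hu0 (ext_p d fun i => by simp [hc])
  obtain ⟨v, hv, q, e⟩ := G.ns d hi
  obtain ⟨c, c0, hc⟩ := G.adm v q
  refine h.om_le_of_full hM hu (hu.map hM (hK _ (rf_mem_isom h v c) (rf_dstab h d hv c))) ?_
  rw [hc.apply]
  simpa [h.diag0 hu.1, c0, e] using h.refl_ne e

theorem Gen.one {e y : V} {i j : Fin t} (hj : e ∈ D j) (he0 : e ≠ 0) (he : Q e = 0)
    (hy : y ∈ h.Ar M e) (hij : i ≠ j) (hy0 : p i y ≠ 0) : h.Om ≤ M := by
  have k := G.blocks d hK hM hy (d.zero i j hij e hj) hy0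
  have k0 : ∀ w ∈ D j, ∀ c, B e w = 0 → τ c = Q w → h.eich e w c ∈ M := fun w hw c a b =>
    hK _ (h.eich_mem_isom he a b) (loc_dstab h d le_rfl (eich_mem_loc h hj hw he a b))
  refine G.om_le_of_full d hK hM he0 (h.full_of_ar he (fun x hx => ?_) fun c hc =>
    k0 0 (D j).zero_mem c (by simp) (by rw [hc, h.Q_zero]))
  have a : x - p j x ∈ h.Arm M e := mem_of_blocks d fun l hl => k l (d.zero l j (by
    rintro rfl; simp [d.p_p] at hl) e hj)
  have b : p j x ∈ h.Arm M e := h.le_arm he k0 (d.mem j x) (by rw [d.B_p hj, hx])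
  simpa using h.ar_of_arm ((h.Arm M e).add_mem a b)

omit G in
theorem mv {u : V} (hu : Q u = 0) {i : Fin t} (hi : p i u = 0) (hN : D i ≤ h.Arm M u)
    {k : V ≃ₗ[F] V} (hk : k ∈ M) (hk' : ∀ x ∈ D i, k x ∈ D i) (e : B (k u) u = 0) :
    k u ∈ h.Arm M u := fun s => by
  obtain ⟨x, hx, x0⟩ := (Submodule.ne_bot_iff _).mp (d.ne i)
  obtain ⟨y, hy, e1⟩ := d.exists_ne (hk' x hx) (by simpa using x0)
  have z := (p_eq_zero h d).mp hi
  have := h.ar_move hM (e' := k u) (by rw [(hM hk).2, hu]) e (hN hy (s / B (k x) y))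
    (h.map_mem_ar hM hk (h.ar_of_arm (hN hx))) (z _ (hk' x hx)) (by
      rw [map_smul, ← isom_inv (hM hk) u, h.refl (z _ (onto d hk' hy)), smul_zero])
  rwa [map_smul, smul_eq_mul, div_mul_cancel₀ _ e1] at this

theorem Gen.full {u y : V} (hu0 : u ≠ 0) (hu : Q u = 0) (hy : y ∈ h.Ar M u) {o : Fin t}
    (ho : p o u = 0) (hy0 : p o y ≠ 0) {I : Finset (Fin t)} (hI : ∀ i, p i u ≠ 0 → i ∈ I)
    (hoI : o ∉ I) (hc : 2 * I.card ≤ t + 1) : h.Om ≤ M := by
  classical
  have hZ := G.blocks d hK hM hy ho hy0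
  have hcen : ∀ c, τ c = 0 → h.eich u 0 c ∈ M := fun c hc => by
    obtain ⟨x, hx, x0⟩ := (Submodule.ne_bot_iff _).mp (d.ne o)
    obtain ⟨y, hy, e1⟩ := d.exists_ne hx x0
    exact center_of h G.tau hu (hZ o ho hx) (hZ o ho hy) e1 hc
  by_cases hs : ∃ i, p i u ≠ 0 ∧ Q (p i u) = 0
  · obtain ⟨i, hi, qi⟩ := hs
    have hoi : o ≠ i := by rintro rfl; exact hi ho
    by_cases h1 : u ∈ D i
    · exact G.one d hK hM h1 hu0 hu hy hoi hy0
    obtain ⟨j, hji, hj⟩ : ∃ j, j ≠ i ∧ p j u ≠ 0 := by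
      by_contra hc; push Not at hc; exact h1 (d.mem_of hc)
    obtain ⟨a, a0, a1⟩ := G.p6.resolve_right fun e => hi (e i _ (d.mem i u) qi)
    obtain ⟨g, hg, eg⟩ := exists_loc h (d.nd i) (d.mem i u) ((D i).smul_mem a (d.mem i u)) hi
      (smul_ne_zero a0 hi) (by rw [h.Q_smul, qi, mul_zero])
    have b0 : B (p i u) u = 0 := by rw [← d.B_p (d.mem i u), h.diag0 qi]
    have e1 : g u = u + (a - 1) • p i u := ext_p d fun l => by
      rw [p_loc h d le_rfl hg, p_add d ((D i).smul_mem _ (d.mem i u))]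
      split_ifs with e
      · rw [e, eg]; module
      · rfl
    have k1 := mv d hK hM hu ho (hZ o ho) (hK g hg.1 (loc_dstab h d le_rfl hg))
      (loc_blk h d le_rfl hg o) (by simp [e1, b0, h.diag0 hu])
    have k2 : p i u ∈ h.Arm M u := by
      have := (h.Arm M u).smul_mem (a - 1)⁻¹ ((h.Arm M u).sub_mem k1 (h.self_mem_arm hu))
      rwa [e1, add_sub_cancel_left, smul_smul, inv_mul_cancel₀ (sub_ne_zero.mpr a1), one_smul] at this
    obtain ⟨b1, c, hc, k3⟩ := (h.mem_ar hu).mp (h.ar_of_arm k2)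
    have k4 := mul_mem k3 (hcen (-c) (by rw [map_neg, hc, qi, neg_zero]))
    rw [h.eich_mul hu b1 (by simp)] at k4
    simp only [add_zero, add_neg_cancel, map_zero, mul_zero] at k4
    rw [h.eich_swap hu qi b1] at k4
    exact G.one d hK hM (d.mem i u) hi qi ((h.mem_ar qi).mpr ⟨by simp [b0], 0, by
      rw [h.sing_smul hu, map_zero], k4⟩) hji (by simpa using hj)
  push Not at hs
  have key : ∀ i j, i ≠ j → p i u ≠ 0 → p j u ≠ 0 → ∀ x ∈ D i, x ≠ 0 → Q x = Q (p j u) →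
      ∃ x' ∈ D j, x + x' ∈ h.Arm M u ∧ B x' u = -B x u := fun i j hij hi hj x hx x0 qx => by
    obtain ⟨g, hg, g1, g2⟩ := exists_move h d (d.mem j u) hx qx (by simp [x0, hj])
    obtain ⟨ζ, z1, z2⟩ : ∃ ζ : F, σ ζ * ζ = 1 ∧ σ ζ * B u x = B x u := by
      by_cases e : B u x = 0
      · exact ⟨1, by simp, by simp [e, h.refl e]⟩
      · have e' := h.refl_ne e
        refine ⟨B u x / B x u, ?_, ?_⟩ <;>
        · rw [map_div₀, ← symm1 h, ← symm1 h]; field_simp
    obtain ⟨x', hx'⟩ : ∃ x', x' = (-ζ) • g⁻¹ (p i u) := ⟨_, rfl⟩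
    have m' : x' ∈ D j := hx' ▸ (D j).smul_mem _ (onto d g1 (d.mem i u))
    have q' : Q x' = Q (p i u) := by
      rw [hx', h.Q_smul, (inv_mem hg).2]; simp [z1]
    have b' : B x' u = -B x u := by
      rw [← d.B_p m', hx', map_smulₛₗ, LinearMap.smul_apply, ← (hg.1 _ _), app_inv, g2, d.B_p' hx]
      simp [z2]
    have n' : x' ≠ 0 := ne_zero_of_Q h (q' ▸ hs i hi)
    refine ⟨x', m', ?_, b'⟩
    obtain ⟨π, p1, p2⟩ := exists_perm_move ((I.erase i).erase j) (Iᶜ.erase o) {i, j, o} (by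
      rw [Finset.card_erase_of_mem (by simp [hij.symm, hI j hj]), Finset.card_erase_of_mem (hI i hi),
        Finset.card_erase_of_mem (by simpa using hoI), Finset.card_compl, Fintype.card_fin]
      omega) (by simp [hoI]) (by simp [hI i hi, hI j hj])
    have pi := p2 i (by simp)
    have pj := p2 j (by simp)
    have po := p2 o (by simp)
    obtain ⟨k₁, hk₁, m₁, -⟩ := orbit h d π (a := 0) (b := 0) (by simp) (by simp)
    obtain ⟨w, hw⟩ : ∃ w, w = k₁ u - p i (k₁ u) - p j (k₁ u) := ⟨_, rfl⟩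
    have wi : p i w = 0 := by simp [hw, d.p_p, d.p_p' hij]
    have wj : p j w = 0 := by simp [hw, d.p_p, d.p_p' hij.symm]
    have wl : ∀ l, l ≠ i → l ≠ j → p (π l) w = k₁ (p l u) := fun l a b => by
      rw [hw, map_sub, map_sub, p_perm d m₁, d.p_p' (pi ▸ π.injective.ne a),
        d.p_p' (pj ▸ π.injective.ne b), sub_zero, sub_zero]
    have wz : ∀ l, p l w ≠ 0 → p l u = 0 := fun l hl => by
      obtain ⟨l, rfl⟩ := π.surjective l
      have a : l ≠ i := by rintro rfl; exact hl (pi.symm ▸ wi)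
      have b : l ≠ j := by rintro rfl; exact hl (pj.symm ▸ wj)
      rw [wl l a b] at hl
      by_contra hc
      simpa [hI _ hc] using p1 l (by simp [a, b, hI l (by simpa using hl)])
    have comp : ∀ l, ∃ v, p ((π * Equiv.swap i j) l) (w + x + x') = v ∧ Q v = Q (p l u) ∧
        (v = 0 ↔ p l u = 0) := fun l => by
      rw [p_add d m', p_add d hx, Equiv.Perm.mul_apply]
      by_cases a : l = i
      · exact ⟨x', by simp [a, pj, hij.symm, wj], a ▸ q', by simp [n', a, hi]⟩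
      by_cases b : l = j
      · exact ⟨x, by simp [b, pi, hij, wi], b ▸ qx, by simp [x0, b, hj]⟩
      refine ⟨k₁ (p l u), ?_, hk₁.2 _, by simp⟩
      rw [Equiv.swap_apply_of_ne_of_ne a b, if_neg (pj ▸ π.injective.ne b),
        if_neg (pi ▸ π.injective.ne a), wl l a b]
    obtain ⟨k, hk, m, ek⟩ := orbit h d (π * Equiv.swap i j) (a := u) (b := w + x + x')
      (fun l => by obtain ⟨v, a, b, -⟩ := comp l; rw [a, b])
      (fun l => by obtain ⟨v, a, -, b⟩ := comp l; rw [a, b])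
    have oi : o ≠ i := by rintro rfl; exact hi ho
    have oj : o ≠ j := by rintro rfl; exact hj ho
    have k1 := mv d hK hM hu ho (hZ o ho) (hK k hk (perm_dstab d m))
      (fun x hx => by simpa [Equiv.swap_apply_of_ne_of_ne oi oj, po] using m o x hx)
      (by simp [ek, b', perp_of_blocks d wz])
    have k2 : w ∈ h.Arm M u := mem_of_blocks d fun l hl => hZ l (wz l hl)
    have := (h.Arm M u).sub_mem k1 k2
    rwa [ek, add_assoc, add_sub_cancel_left] at this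
  have two : ∀ i, p i u ≠ 0 → ∃ j, i ≠ j ∧ p j u ≠ 0 := fun i hi => by
    by_contra hc; push Not at hc
    exact hs i hi (by rw [d.self i u (d.mem_of fun j hj => hc j hj.symm), hu])
  refine G.om_le_of_full d hK hM hu0 (h.full_of_ar hu (fun x hx => h.ar_of_arm ?_) hcen)
  refine h.form.mem_of_perp h.sep fun z hz => ?_
  have s1 : ∀ i, ∃ s : F, s • p i u = p i z := fun i => by
    by_cases hi : p i u = 0
    · exact ⟨0, by rw [(p_eq_zero h d).mpr fun y hy => hz y (hZ i hi hy), zero_smul]⟩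
    by_contra hc
    obtain ⟨v, hv, q, e1, e2⟩ := G.p7 i _ (d.mem i u) (hs i hi) _ (d.mem i z)
      (by rwa [Submodule.mem_span_singleton])
    rw [d.B_p hv] at e1 e2
    obtain ⟨j, hij, hj⟩ := two i hi
    obtain ⟨x₀, m₀, q₀, n₀⟩ := exists_val h d (d.mem j u) i
    obtain ⟨x, hx, x0, qx, ex⟩ := G.lvl i x₀ m₀ (mt n₀.mp hj) v
      ((d.exists_ne hv (ne_zero_of_Q h q)).imp fun _ a => ⟨a.1, h.refl_ne a.2⟩)
    obtain ⟨x', m', k1, -⟩ := key i j hij hi hj x hx x0 (qx.trans q₀)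
    obtain ⟨c, c0, hc⟩ := G.adm v q
    have k2 := (h.Arm M u).sub_mem k1 (h.map_mem_arm hM (hK _ (rf_mem_isom h v c)
      (rf_dstab h d hv c)) (rf_fix h v c e1) k1)
    rw [hc.apply, sub_sub_cancel, map_add, d.orth i j hij v hv x' m', add_zero] at k2
    have := hz _ k2
    simp [c0, h.refl_ne ex, e2] at this
  choose s hs' using s1
  obtain ⟨i, hi⟩ : ∃ i, p i u ≠ 0 := by
    by_contra hc; push Not at hc; exact hu0 (ext_p d fun i => by simp [hc])
  have : z = s i • u := ext_p d fun j => by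
    rw [← hs', map_smul]
    by_cases hj : p j u = 0
    · simp [hj]
    by_cases hij : i = j
    · rw [hij]
    obtain ⟨x₀, m₀, q₀, n₀⟩ := exists_val h d (d.mem j u) i
    obtain ⟨x, hx, x0, qx, ex⟩ := G.lvl i x₀ m₀ (mt n₀.mp hj) u (by
      by_contra hc; push Not at hc; exact hi ((p_eq_zero h d).mpr hc))
    obtain ⟨x', m', k1, k2⟩ := key i j hij hi hj x hx x0 (qx.trans q₀)
    have := hz _ k1
    rw [map_add, LinearMap.add_apply, ← d.B_p hx, ← d.B_p m', ← hs', ← hs', map_smul, map_smul,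
      d.B_p hx, d.B_p m', k2] at this
    congr 1
    exact (mul_right_cancel₀ ex (by simp at this; linear_combination this)).symm
  rw [this, map_smul, h.refl hx, smul_zero]

open Classical in
theorem Gen.enlarge {a : V} (ha : Lam h M a) (h2 : 2 ≤ (Finset.univ.filter (p · a ≠ 0)).card)
    (hc : 2 * (Finset.univ.filter (p · a ≠ 0)).card ≤ t + 1) :
    ∃ b, Lam h M b ∧
      (Finset.univ.filter (p · a ≠ 0)).card < (Finset.univ.filter (p · b ≠ 0)).card := by
  set I := Finset.univ.filter (p · a ≠ 0) with hI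
  have mI : ∀ i, i ∈ I ↔ p i a ≠ 0 := fun i => by simp [hI]
  obtain ⟨i, hi, j, hj, hij⟩ := Finset.one_lt_card.mp h2
  obtain ⟨π, p1, p2⟩ := exists_perm_move (I.erase i) Iᶜ {i} (by
    rw [Finset.card_erase_of_mem hi, Finset.card_compl, Fintype.card_fin]; omega) (by simp)
    (by simp [hi])
  have pi := p2 i (by simp)
  obtain ⟨b₀, m₀, c, c0, hc, q₀, e₀, n₀⟩ := G.np i _ (d.mem i a) ((mI i).mp hi) a ha.1
  obtain ⟨k₁, hk₁, m₁, -⟩ := orbit h d π (a := 0) (b := 0) (by simp) (by simp)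
  obtain ⟨w, hw⟩ : ∃ w, w = k₁ a - p i (k₁ a) := ⟨_, rfl⟩
  have wi : p i w = 0 := by simp [hw, d.p_p]
  have wl : ∀ l, l ≠ i → p (π l) w = k₁ (p l a) := fun l e => by
    rw [hw, map_sub, p_perm d m₁, d.p_p' (pi ▸ π.injective.ne e), sub_zero]
  have wz : ∀ l, p l w ≠ 0 → p l a = 0 := fun l hl => by
    obtain ⟨l, rfl⟩ := π.surjective l
    have e : l ≠ i := by rintro rfl; exact hl (pi.symm ▸ wi)
    rw [wl l e] at hl
    simpa [mI] using p1 l (by simpa [e, mI] using hl)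
  have b0 : b₀ ≠ 0 := by rintro rfl; simp at e₀
  have comp : ∀ l, ∃ v, p (π l) (w + b₀) = v ∧ Q v = Q (p l a) ∧ (v = 0 ↔ p l a = 0) := fun l => by
    rw [p_add d m₀]
    by_cases e : l = i
    · exact ⟨b₀, by simp [e, pi, wi], e ▸ q₀, by simp [b0, e, (mI i).mp hi]⟩
    · exact ⟨k₁ (p l a), by rw [if_neg (pi ▸ π.injective.ne e), wl l e], hk₁.2 _, by simp⟩
  obtain ⟨k, hk, m, ek⟩ := orbit h d π (a := a) (b := w + b₀)
    (fun l => by obtain ⟨v, a, b, -⟩ := comp l; rw [a, b])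
    (fun l => by obtain ⟨v, a, -, b⟩ := comp l; rw [a, b])
  refine ⟨_, (ha.map hM (hK k hk (perm_dstab d m))).map hM (ha.2 c), ?_⟩
  have e1 : B a (w + b₀) = B (p i a) b₀ := by
    rw [map_add, h.refl (perp_of_blocks d wz), zero_add, d.B_p' m₀]
  have jI : π j ∉ I := by simpa using p1 j (by simp [hj, hij.symm])
  refine lt_of_lt_of_le (Finset.card_lt_card (Finset.ssubset_insert jI)) (Finset.card_le_card ?_)
  intro l hl
  rw [Finset.mem_filter, ek, hc.apply, e1, map_sub, map_smul, p_add d m₀]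
  refine ⟨by simp, ?_⟩
  rcases Finset.mem_insert.mp hl with rfl | hl
  · rw [if_neg (pi ▸ π.injective.ne hij.symm), wl j hij.symm, not_not.mp ((mI _).not.mp jI)]
    simpa [mI] using hj
  · have : p l w = 0 := by_contra fun e => (mI l).mp hl (wz l e)
    split_ifs with e
    · rw [this, zero_add, e]; exact sub_ne_zero.mpr n₀
    · simp [this, c0, e₀, (mI l).mp hl]

/-- An overgroup of the full stabiliser containing a further reflection contains `Ω`. -/
theorem Gen.main {f : ℕ} (hS : SumP B Q D p f) (ht : 2 * f + 1 ≤ t) {a : V} (ha : Lam h M a)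
    (hb : ∀ l, a ∉ D l) : h.Om ≤ M := by
  classical
  have h0 : ∀ n, n ≤ f + 2 → ∃ a, Lam h M a ∧ 2 ≤ (Finset.univ.filter (p · a ≠ 0)).card ∧
      n ≤ (Finset.univ.filter (p · a ≠ 0)).card := fun n => by
    induction n with
    | zero =>
      obtain ⟨i, j, hij, hi, hj⟩ := d.exists_two ⟨0, by omega⟩ hb
      exact fun _ => ⟨a, ha, Finset.one_lt_card.mpr ⟨i, by simpa, j, by simpa, hij⟩, by simp⟩
    | succ n ih =>
      intro hn
      obtain ⟨a, ha, h1, h2⟩ := ih (by omega)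
      by_cases e : n + 1 ≤ (Finset.univ.filter (p · a ≠ 0)).card
      · exact ⟨a, ha, h1, e⟩
      · obtain ⟨b, hb, h3⟩ := G.enlarge d hK hM ha (by convert h1) (by convert (by omega :
          2 * (Finset.univ.filter (p · a ≠ 0)).card ≤ t + 1))
        have h4 : (Finset.univ.filter (p · a ≠ 0)).card < (Finset.univ.filter (p · b ≠ 0)).card := by
          convert h3
        exact ⟨b, hb, by omega, by omega⟩
  obtain ⟨a, ha, h1, h2⟩ := h0 (f + 2) le_rfl
  obtain ⟨i, hi, j, hj, hij⟩ := Finset.one_lt_card.mp h1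
  obtain ⟨J, hJ, cJ⟩ := Finset.exists_subset_card_eq (n := f)
    (s := ((Finset.univ.filter (p · a ≠ 0)).erase i).erase j) (by
      rw [Finset.card_erase_of_mem (by simpa [hij.symm] using hj), Finset.card_erase_of_mem hi]; omega)
  have iJ : i ∉ J := fun e => by simpa using hJ e
  have jJ : j ∉ J := fun e => by simpa using hJ e
  simp only [Finset.mem_filter, Finset.mem_univ, true_and] at hi hj
  obtain ⟨v, hv, q, e⟩ := G.ns d hi
  obtain ⟨c, c0, hc⟩ := G.adm v q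
  have b0 := blk_of_loc d h le_rfl (rf_mem_loc h hv c)
  obtain ⟨k, bk, ek⟩ := hS J cJ a (fun l hl => by have := hJ hl; simp at this; exact this.2.2)
    (B a a - B a (rf h v c a))
  have b1 := bk.mul' b0
  have l1 := ha.map hM (hK _ b1.isom (b1.dstab d))
  have e1 : B a ((k * rf h v c) a) = B a a := by
    rw [LinearEquiv.mul_apply, bk.add d b0 (by simpa using iJ), map_sub, map_add]
    linear_combination ek
  have e2 : B ((k * rf h v c) a) a = B a a := by rw [symm1 h, e1, ← symm1 h]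
  obtain ⟨c', c0', hc'⟩ := G.adm a ha.1
  have qu : Q ((k * rf h v c) a - a) = 0 := by
    rw [h.form.sub, e2, h.tau_diag, b1.isom.2, sub_self]
  have jn : j ∉ J ∪ {i} := by simp [jJ, hij.symm]
  refine G.full d hK hM (u := (k * rf h v c) a - a) (fun e' => ?_) qu
    (hc'.mem_ar qu (by rw [map_sub, LinearMap.sub_apply, e2, sub_self]) (by
      rw [add_sub_cancel]; exact mul_mem (l1.2 _) (inv_mem (ha.2 _)))) (o := j)
    (by rw [map_sub, b1.p_not d jn, sub_self]) (by simp [c0', hj]) (I := J ∪ {i})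
    (fun l hl => by_contra fun hc => hl (by rw [map_sub, b1.p_not d hc, sub_self])) jn
    (by have := Finset.card_union_le J {i}; rw [Finset.card_singleton] at this; omega)
  have := congrArg (p i) e'
  rw [map_sub, LinearEquiv.mul_apply, bk.p_not d iJ, hc.apply] at this
  simp [d.self i v hv, c0, e, ne_zero_of_Q h q] at this

end gen

end Cfsg.Agent.H11.Im
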