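import Mathlib
import Cfsg.Agent.H11.Im2

/-!
Overgroups of stabilisers of orthogonal decompositions: reduction to reflection groups.
-/

set_option autoImplicit false
set_option linter.unusedSectionVars false

namespace Cfsg.Agent.H11.Im

open Module H10 H11 Cfsg.Geo

variable {F : Type*} [Field F] {V : Type*} [AddCommGroup V] [Module F V] {σ : F →+* F}
  {κ : F} {τ : F →+ F} {B : V →ₛₗ[σ] V →ₗ[F] F} {Q : V → F}
  {t : ℕ} {D : Fin t → Submodule F V} {p : Fin t → V →ₗ[F] V}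

/-- The vectors with property `P` connect and span `U`. -/
def Conn (B : V →ₛₗ[σ] V →ₗ[F] F) (U : Submodule F V) (P : V → Prop) : Prop :=
  (∃ x ∈ U, x ≠ 0 ∧ P x) ∧ ∀ X ≤ U, X ≠ ⊥ → X ≠ U → ∃ y ∈ U, P y ∧ y ∉ X ∧ ∃ x ∈ X, B x y ≠ 0

theorem Conn.mono {U : Submodule F V} {P P' : V → Prop} (c : Conn B U P) (e : ∀ x, P x → P' x) :
    Conn B U P' :=
  ⟨c.1.imp fun x a => ⟨a.1, a.2.1, e x a.2.2⟩, fun X a b f =>
    (c.2 X a b f).imp fun x a => ⟨a.1, e x a.2.1, a.2.2⟩⟩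

/-- The reflection theorem for overgroups of the full stabiliser. -/
def RT (h : Cl 1 κ τ B Q) (D : Fin t → Submodule F V) : Prop :=
  ∀ M ≤ Isom B Q, OvK h D M → ∀ a, Lam h M a → (∀ l, a ∉ D l) → h.Om ≤ M

theorem finrank_add_le [FiniteDimensional F V] (h : Cl 1 κ τ B Q) {U Z W : Submodule F V}
    (hU : NondegOn B U) (hZ : Z ≤ U) (hW : W ≤ U) (o : ∀ z ∈ Z, ∀ w ∈ W, B z w = 0) :
    finrank F Z + finrank F W ≤ finrank F U := by
  have a := h.form.finrank_perp h.sep U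
  have b := h.form.finrank_perp h.sep Z
  have c := Submodule.finrank_sup_add_finrank_inf_eq W (perp B U)
  have e : W ⊓ perp B U = ⊥ := le_bot_iff.mp ((inf_le_inf_right _ hW).trans
    (h.form.isCompl_perp h.sep hU).disjoint.le_bot)
  have f : finrank F ↥(W ⊔ perp B U) ≤ finrank F (perp B Z) :=
    Submodule.finrank_mono (sup_le (fun w hw z hz => o z hz w hw) (perp_anti hZ))
  rw [e, finrank_bot] at c
  omega

section
variable {h : Cl 1 κ τ B Q} (d : Dec B Q D p) [FiniteDimensional F V]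
include d

theorem exists_out {P : V → Prop} (c : ∀ i, Conn B (D i) P) {g : V ≃ₗ[F] V} (hg : g ∈ Isom B Q)
    (hg' : g ∉ dstab D) : ∃ i, ∃ x ∈ D i, P x ∧ ∀ l, g x ∉ D l := by
  by_contra hc
  push Not at hc
  refine hg' (d.mem_dstab fun i => ?_)
  obtain ⟨x, hx, x0, px⟩ := (c i).1
  obtain ⟨j, hj⟩ := hc i x hx px
  refine ⟨j, ?_⟩
  by_contra hn
  obtain ⟨y, hy, py, a, z, hz, b⟩ := (c i).2 (D i ⊓ (D j).comap (g : V →ₗ[F] V)) inf_le_left
    (fun e => x0 ((Submodule.eq_bot_iff _).mp e x ⟨hx, hj⟩))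
    (fun e => hn fun y hy => (e.ge hy).2)
  obtain ⟨l, hl⟩ := hc i y hy py
  refine b ?_
  rw [← hg.1]
  exact d.orth j l (by rintro rfl; exact a ⟨hy, hl⟩) _ hz.2 _ hl

theorem exists_Q_ne {a : V} (ha : Q a ≠ 0) (h : Cl 1 κ τ B Q) : ∃ j, Q (p j a) ≠ 0 := by
  by_contra hc; push Not at hc
  exact ha (by rw [Q_sum h d]; simp [hc])

theorem blk_of_rf (h2 : ∀ i, 2 ≤ finrank F (D i)) {a : V} {c : F} (hc : Adm h a c) (c0 : c ≠ 0)
    (ha : a ≠ 0) (hr : rf h a c ∈ dstab D) : ∃ l, a ∈ D l := by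
  by_contra hn; push Not at hn
  obtain ⟨i₀, -⟩ : ∃ i, p i a ≠ 0 := by
    by_contra hc; push Not at hc; exact ha (ext_p d fun i => by simp [hc])
  obtain ⟨i, j, hij, hi, hj⟩ := d.exists_two i₀ hn
  obtain ⟨z, hz, z0⟩ := exists_mem_notMem (W := D i) (Z := Submodule.span F {p i a})
    (lt_of_le_of_lt (finrank_span_one_le _) (h2 i))
  obtain ⟨φ, f0, f1⟩ := exists_dual_zero_one z0
  obtain ⟨x, hx, a1, a2⟩ := exists_mem_ne_ne (U := D i) (B a) φ
    ((d.exists_ne (d.mem i a) hi).imp fun y e => ⟨e.1, by rw [← d.B_p' e.1]; exact e.2⟩)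
    ⟨z, hz, by simp [f1]⟩
  obtain ⟨π, hπ⟩ := dstab_perm hr
  refine d.notMem hij ?_ ?_ _ (hπ i x hx) <;> rw [hc.apply, map_sub, map_smul]
  · rw [d.self i x hx, sub_ne_zero]
    exact fun e => a2 (f0 x (e ▸ Submodule.smul_mem _ _ (Submodule.mem_span_singleton_self _)))
  · simp [d.zero j i hij.symm x hx, c0, a1, hj]

variable {M : Subgroup (V ≃ₗ[F] V)} (hH : Ov h D M)
include hH

theorem Ov.eich {j : Fin t} {e w : V} (he : e ∈ D j) (hw : w ∈ D j) {c : F} (a : Q e = 0)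
    (b : B e w = 0) (f : τ c = Q w) : h.eich e w c ∈ M :=
  hH _ (h.eich_mem_om a b f) (loc_dstab h d le_rfl (eich_mem_loc h he hw a b f))

theorem Ov.fin1 [Finite F] (hM : M ≤ Isom B Q) (hb : ∀ i, h.Big (D i)) (ha : ∀ i, Adj h (D i))
    {e y : V} {i j : Fin t} (hj : e ∈ D j) (he0 : e ≠ 0) (he : Q e = 0) (hy : y ∈ h.Arm M e)
    (hij : i ≠ j) (hy0 : p i y ≠ 0) : h.Om ≤ M := by
  have k : D i ≤ h.Arm M e := h.irr (d.nd i) (hb i) (fun u hu w hw c a b f s hs =>
    h.map_mem_arm hM (hH.eich d hu hw a b f) (h.eich_fix c (d.orth i j hij u hu e hj)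
      (d.orth i j hij w hw e hj)) hs) hy (by
        by_contra hc; push Not at hc; exact hy0 ((p_eq_zero h d).mpr hc))
  have k' : ∀ l, l ≠ j → D l ≤ h.Arm M e := fun l hl x hx => by
    by_cases hil : i = l
    · exact k (hil ▸ hx)
    obtain ⟨s, hs, a⟩ := d.exists_swap h hil
    obtain ⟨r, hr, b⟩ := ha l s hs
    have m := hH _ b (mul_mem (d.swap_mem a) (loc_dstab h d le_rfl hr))
    have e1 : (s * r) e = e := by
      rw [LinearEquiv.mul_apply, loc_fix d le_rfl hr hl.symm hj, a.2.2 j hij.symm hl.symm e hj]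
    have e2 : ∀ x ∈ D i, (s * r) x ∈ D l := fun x hx => by
      rw [LinearEquiv.mul_apply, loc_fix d le_rfl hr hil hx]; exact a.1 x hx
    simpa [app_inv] using h.map_mem_arm hM m e1 (k (onto d e2 hx))
  have k0 : ∀ w ∈ D j, ∀ c, B e w = 0 → τ c = Q w → h.eich e w c ∈ M := fun w hw c a b =>
    hH.eich d hj hw he a b
  refine h.om_le_of_full_mem (d.nd j) (hb j) (fun u hu w hw c => hH.eich d hu hw) hM hj he0
    (h.full_of_ar he (fun x hx => ?_) fun c hc =>
      k0 0 (D j).zero_mem c (by simp) (by rw [hc, h.Q_zero]))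
  have a : x - p j x ∈ h.Arm M e := mem_of_blocks d fun l hl => k' l (by
    rintro rfl; simp [d.p_p] at hl)
  have b : p j x ∈ h.Arm M e := h.le_arm he k0 (d.mem j x) (by rw [d.B_p hj, hx])
  simpa using h.ar_of_arm ((h.Arm M e).add_mem a b)

/-- Large members. -/
theorem Ov.direct [Finite F] (hM : M ≤ Isom B Q) (h4 : ∀ i, 4 ≤ finrank F (D i))
    (ha : ∀ i, Adj h (D i)) {a : V} (q : Q a ≠ 0) {c : F} (hc : Adm h a c) (c0 : c ≠ 0)
    (m : rf h a c ∈ M) (hb : ∀ l, a ∉ D l) : h.Om ≤ M := by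
  obtain ⟨j, hj⟩ := exists_Q_ne d q h
  have d1 := finrank_le_inf_ker (D j) (B a)
  obtain ⟨e, ⟨he1, he2⟩, he0, he⟩ := h.exists_sing3 (W := D j ⊓ LinearMap.ker (B a))
    (by have := h4 j; omega)
  obtain ⟨y, hy, y1, y2⟩ := h.exists_perp_not_in (d.nd j)
    (Z := Submodule.span F {e}) (by simpa using he1) (d.mem j a) (fun hc => by
      obtain ⟨s, hs⟩ := Submodule.mem_span_singleton.mp hc
      exact hj (hs ▸ h.sing_smul he s))
  rw [d.B_p' hy] at y2
  have k1 := h.le_arm he (fun w hw c => hH.eich d he1 hw he) hy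
    (y1 e (Submodule.mem_span_singleton_self _))
  have k2 := (h.Arm M e).sub_mem k1 (h.map_mem_arm hM m (rf_fix h a c he2) k1)
  rw [hc.apply, sub_sub_cancel, y2, mul_one] at k2
  obtain ⟨i, hij, hi⟩ : ∃ i, i ≠ j ∧ p i a ≠ 0 := by
    by_contra hc; push Not at hc; exact hb j (d.mem_of hc)
  exact hH.fin1 d hM (fun i => Or.inl (by have := h4 i; omega)) ha he1 he0 he k2 hij
    (by simp [c0, hi])

/-- An element outside the stabiliser which stabilises a suitable subspace of a member. -/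
theorem Ov.np (hM : M ≤ h.Om) (R : RT h D) (c : ∀ i, Conn B (D i) (Q · ≠ 0)) {X : Submodule F V}
    {i : Fin t} (hX : X ≤ D i) (ha : Adj h X) {g : V ≃ₗ[F] V} (hg : g ∈ M)
    (hgX : ∀ x ∈ X, g x ∈ X) (hg' : g ∉ dstab D) : h.Om ≤ M := by
  have hK := hH.extK d hX ha
  obtain ⟨j, x, hx, q, e⟩ := exists_out d c (h.om_le_isom (hM hg)) hg'
  exact hH.om_le_of_ext d hM hX (R _ (ext_le_isom hM) hK _ (Lam.map (ext_le_isom hM)
    ⟨q, fun c => hK _ (rf_mem_isom h x c) (rf_dstab h d hx c)⟩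
      (hH.mem_ext_of_stab d hM hX hg hgX)) e)

omit hH in
/-- The parity argument. -/
theorem parity (hM : M ≤ Isom B Q) {n : ℕ} (hn : Odd n) (hn' : (n : F) = 0)
    (hI : ∀ k k', Blk B Q D Finset.univ k → Blk B Q D Finset.univ k' → k ∉ M → k' ∉ M → k * k' ∈ M)
    (hN : ∀ i, ∃ k, Blk B Q D {i} k ∧ k ∉ M) {f : ℕ} (hS : SumP B Q D p f) (ht : 2 * f + 3 ≤ t)
    (hF : ∀ i, ∀ x ∈ D i, x ≠ 0 → ∀ s, ∃ k, Blk B Q D {i} k ∧ k x ≠ x ∧ Q (k x - x) ≠ s)
    {a : V} (ha : ∀ i, p i a ≠ 0) (s : F) :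
    ∃ k ∈ M, B a (k a) = s ∧ (∃ o, p o (k a - a) = 0) ∧
      ∃ i, p i (k a - a) ≠ 0 ∧ Q (p i (k a - a)) ≠ Q a := by
  classical
  obtain ⟨J₁, -, c₁⟩ := Finset.exists_subset_card_eq (n := f) (s := (Finset.univ : Finset (Fin t)))
    (by simp; omega)
  obtain ⟨J₂, s₂, c₂⟩ := Finset.exists_subset_card_eq (n := f) (s := J₁ᶜ)
    (by rw [Finset.card_compl]; simp; omega)
  obtain ⟨i, hi, j, hj, o, ho, hij, hio, hjo⟩ := Finset.two_lt_card.mp
    (show 2 < (J₁ ∪ J₂)ᶜ.card by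
      have := Finset.card_union_le J₁ J₂
      rw [Finset.card_compl]; simp only [Fintype.card_fin]; omega)
  simp only [Finset.mem_compl, Finset.mem_union, not_or] at hi hj ho
  have d12 : Disjoint J₁ J₂ := Finset.disjoint_left.mpr fun l a b => by simpa [a] using s₂ b
  have add : ∀ {J J' : Finset (Fin t)} {k k' : V ≃ₗ[F] V}, Blk B Q D J k → Blk B Q D J' k' →
      Disjoint J J' → B a ((k * k') a) - B a a = (B a (k a) - B a a) + (B a (k' a) - B a a) :=
    fun a b e => by rw [LinearEquiv.mul_apply, a.add d b e, map_sub, map_add]; ring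
  have u : ∀ {J : Finset (Fin t)} {k : V ≃ₗ[F] V}, Blk B Q D J k → Blk B Q D Finset.univ k :=
    fun a => a.mono (Finset.subset_univ _)
  obtain ⟨γ, k, k', b, b', m, m', e, e'⟩ : ∃ γ k k', Blk B Q D (J₁ ∪ {i}) k ∧
      Blk B Q D (J₁ ∪ {i}) k' ∧ k ∈ M ∧ k' ∉ M ∧ B a (k a) - B a a = γ ∧ B a (k' a) - B a a = γ := by
    by_contra hc
    push Not at hc
    obtain ⟨r, br, mr⟩ := hN i
    have key : ∀ n : ℕ, ∃ k, Blk B Q D J₁ k ∧ (k ∈ M ↔ Even n) ∧
        B a (k a) - B a a = n * (B a (r a) - B a a) := fun n => by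
      induction n with
      | zero => exact ⟨1, blk_one _, by simp, by simp⟩
      | succ n ih =>
        obtain ⟨k, bk, mk, ek⟩ := ih
        obtain ⟨k', bk', ek'⟩ := hS J₁ c₁ a (fun l _ => ha l) ((n + 1 : ℕ) * (B a (r a) - B a a))
        have e1 : B a ((k * r) a) - B a a = (n + 1 : ℕ) * (B a (r a) - B a a) := by
          rw [add bk br (by simpa using hi.1), ek]; push_cast; ring
        refine ⟨k', bk', ?_, ek'⟩
        rw [Nat.even_add_one, ← mk]
        have bb := bk'.mono (Finset.subset_union_left (s₂ := {i}))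
        constructor
        · exact fun a b => hc _ k' (k * r) bb (bk.mul' br) a
            (fun c => mr (by simpa using mul_mem (inv_mem b) c)) ek' e1
        · exact fun a => by_contra fun b => hc _ (k * r) k' (bk.mul' br) bb
            (hI _ _ (u bk) (u br) a mr) b e1 ek'
    obtain ⟨k, bk, mk, ek⟩ := key n
    exact hc 0 1 k (blk_one _) (bk.mono Finset.subset_union_left) (one_mem _)
      (by rw [mk]; exact Nat.not_even_iff_odd.mpr hn) (by simp) (by rw [ek, hn', zero_mul])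
  obtain ⟨r, br, r1, r2⟩ := hF j _ (d.mem j a) (ha j) (Q a)
  obtain ⟨k₂, b₂, e₂⟩ := hS J₂ c₂ a (fun l _ => ha l) (s - B a a - γ - (B a (r a) - B a a))
  have b₃ := b₂.mul' br
  have e₃ := add b₂ br (by simpa using hj.2)
  have dd : Disjoint (J₁ ∪ {i}) (J₂ ∪ {j}) := by simp [d12, hj.1, hi.2, hij, hij.symm]
  obtain ⟨k, b, m, e⟩ : ∃ k, Blk B Q D (J₁ ∪ {i}) k ∧ k * (k₂ * r) ∈ M ∧ B a (k a) - B a a = γ := by
    by_cases c : k₂ * r ∈ M
    · exact ⟨k, b, mul_mem m c, e⟩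
    · exact ⟨k', b', hI _ _ (u b') (u b₃) m' c, e'⟩
  have e4 : p j ((k * (k₂ * r)) a - a) = r (p j a) - p j a := by
    rw [map_sub, LinearEquiv.mul_apply, b.p_not d (by simp [hj.1, hij.symm]), LinearEquiv.mul_apply,
      b₂.p_not d hj.2, d.p_comm br.blk]
  refine ⟨_, m, by linear_combination add b b₃ dd + e + e₃ + e₂, ⟨o, ?_⟩, j, ?_, ?_⟩
  · rw [map_sub, (b.mul' b₃).p_not d (by simp [ho.1, ho.2, hio.symm, hjo.symm]), sub_self]
  · rw [e4]; exact sub_ne_zero.mpr r1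
  · rwa [e4]

end

section quad
variable {B : V →ₗ[F] V →ₗ[F] F} (h : Cl (σ := RingHom.id F) 1 2 (AddMonoidHom.id F) B Q)

/-- The orthogonal reflection. -/
noncomputable abbrev r (a : V) : V ≃ₗ[F] V := rf h a (Q a)⁻¹

theorem adm_r (a : V) : Adm h a (Q a)⁻¹ := by by_cases e : Q a = 0 <;> simp [Adm, e]

theorem r_apply (a x : V) : r h a x = x - ((Q a)⁻¹ * B a x) • a := (adm_r h a).apply x

theorem r_isom (a : V) : r h a ∈ Isom B Q := rf_mem_isom h a _

theorem r_inv (a : V) : (r h a)⁻¹ = r h a := (adm_r h a).inv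

theorem r_r (a : V) : r h a * r h a = 1 := by nth_rewrite 1 [← r_inv]; simp

theorem r_self {a : V} (q : Q a ≠ 0) : r h a a = -a := by
  rw [r_apply, h.form.diag, show (Q a)⁻¹ * (2 * Q a) = 2 by field_simp]; module

theorem conj_r {g : V ≃ₗ[F] V} (hg : g ∈ Isom B Q) (a : V) : g * r h a * g⁻¹ = r h (g a) := by
  rw [r, conj_rf h hg, r, hg.2]

theorem lam_r {M : Subgroup (V ≃ₗ[F] V)} {a : V} (q : Q a ≠ 0) (m : r h a ∈ M) : Lam h M a :=
  ⟨q, fun c => by
    by_cases hc : Adm h a c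
    · by_cases c0 : c = 0
      · have : rf h a c = 1 := by ext x; rw [hc.apply]; simp [c0]
        rw [this]; exact one_mem _
      · have : c = (Q a)⁻¹ := by
          have : c * (c * Q a - 1) = 0 := by simp [Adm] at hc; linear_combination -hc
          field_simp; linear_combination (mul_eq_zero.mp this).resolve_left c0
        rwa [this]
    · rw [rf, dif_neg hc]; exact one_mem _⟩

variable [FiniteDimensional F V]

theorem r_mul_mem [Finite F] (hn : 5 ≤ finrank F V) {a b : V} (qa : Q a ≠ 0) (qb : Q b ≠ 0)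
    (e : IsSquare (Q a * Q b)) : r h a * r h b ∈ h.Om := by
  classical
  have := Fintype.ofFinite F
  have hQ : IsQuad B Q := h.form
  have := (mem_om_quad h hn _).mpr ((hQ.prod_mem_commutator_iff h.sep
    (hQ.nonExc_of_finrank h.sep (by omega)) [a, b] (by simp [qa, qb])).mpr (by simpa using e))
  simpa [r, rf_eq_reflO] using this

theorem idx_two [Finite F] (hn : 5 ≤ finrank F V) {a : V} (qa : Q a ≠ 0) {k k' : V ≃ₗ[F] V}
    (hk : k ∈ Isom B Q) (hk' : k' ∈ Isom B Q) : k ∈ h.Om ∨ k * r h a ∈ h.Om ∨ k' ∈ h.Om ∨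
      k' * r h a ∈ h.Om ∨ k * k' ∈ h.Om ∨ k * k' * r h a ∈ h.Om := by
  classical
  have := Fintype.ofFinite F
  have hQ : IsQuad B Q := h.form
  have hex := hQ.nonExc_of_finrank h.sep (by omega)
  have key : ∀ g : Isom B Q, g.1 ∈ h.Om ↔ dick g.1 = 0 ∧ hQ.spin h.sep hex g = 1 := fun g => by
    rw [mem_om_quad h hn, hQ.mem_commutator_iff]
  have key' : ∀ g : Isom B Q, g.1 * r h a ∈ h.Om ↔
      dick g.1 + 1 = 0 ∧ hQ.spin h.sep hex g * hQ.spin h.sep hex (hQ.reflO a) = 1 := fun g => by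
    rw [← map_mul, ← hQ.dick_mul_reflO h.sep g qa, ← key, r, rf_eq_reflO]; rfl
  have e1 := key ⟨k, hk⟩
  have e2 := key' ⟨k, hk⟩
  have e3 := key ⟨k', hk'⟩
  have e4 := key' ⟨k', hk'⟩
  have e5 := key (⟨k, hk⟩ * ⟨k', hk'⟩)
  have e6 := key' (⟨k, hk⟩ * ⟨k', hk'⟩)
  rw [hQ.dick_mul h.sep, map_mul] at e5 e6
  change k * k' ∈ _ ↔ _ at e5
  change k * k' * _ ∈ _ ↔ _ at e6
  rw [e1, e2, e3, e4, e5, e6]
  generalize dick k = x, dick k' = y
  rcases hQ.spin_dichotomy h.sep hex ⟨k, hk⟩ with a | a <;>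
  rcases hQ.spin_dichotomy h.sep hex ⟨k', hk'⟩ with b | b <;>
  rcases hQ.spin_dichotomy h.sep hex (hQ.reflO _) with c | c <;>
  · rw [a, b, c]; revert x y; decide

variable {h} (d : Dec B Q D p)
include d

/-- A rotation of a plane in the stabiliser lies in one member. -/
theorem blk_of_rot (h2 : ∀ i, 2 ≤ finrank F (D i)) {a b : V} (qa : Q a ≠ 0) (qb : Q b ≠ 0)
    (hab : B a b ≠ 0) (hb : b ∉ Submodule.span F {a}) (hr : r h a * r h b ∈ dstab D) :
    ∃ l, a ∈ D l ∧ b ∈ D l := by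
  have hQ : IsQuad B Q := h.form
  obtain ⟨x, hx⟩ : ∃ x, x = r h a * r h b := ⟨_, rfl⟩
  have iso : x ∈ Isom B Q := hx ▸ mul_mem (r_isom h a) (r_isom h b)
  rw [← hx] at hr
  set P := Submodule.span F {a, b} with hP
  have aP : a ∈ P := Submodule.subset_span (by simp)
  have bP : b ∈ P := Submodule.subset_span (by simp)
  have dP : finrank F P ≤ 2 := finrank_span_pair_le a b
  have mv : ∀ v, x v - v ∈ P := fun v => loc_sub_mem h (hx ▸ mul_mem (rf_mem_loc h aP _)
    (rf_mem_loc h bP _)) v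
  have sq : ¬ ∀ v, x (x v) = v := fun e => by
    have e1 : x a = r h b (r h a a) := by
      apply x.injective
      rw [e, hx, LinearEquiv.mul_apply, ← LinearEquiv.mul_apply (r h b), r_r, LinearEquiv.coe_one,
        id, ← LinearEquiv.mul_apply, r_r]; rfl
    rw [hx, LinearEquiv.mul_apply, r_self h qa, map_neg, r_apply h b, map_sub, map_smul,
      r_self h qa, r_apply h a, hQ.comm b] at e1
    have e2 : (2 : F) • b = ((Q a)⁻¹ * B a b) • a := by
      have : ((Q b)⁻¹ * B a b) • ((2 : F) • b - ((Q a)⁻¹ * B a b) • a) = 0 := by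
        rw [← sub_eq_zero] at e1
        rw [← neg_eq_zero, ← e1]; module
      simpa [qb, hab, sub_eq_zero] using this
    by_cases h2 : (2 : F) = 0
    · rw [h2, zero_smul] at e2
      exact smul_ne_zero (mul_ne_zero (inv_ne_zero qa) hab) (ne_zero_of_Q h qa) e2.symm
    · refine hb (Submodule.mem_span_singleton.mpr ⟨2⁻¹ * ((Q a)⁻¹ * B a b), ?_⟩)
      rw [mul_smul, ← e2, smul_smul, inv_mul_cancel₀ h2, one_smul]
  obtain ⟨π, hπ⟩ := dstab_perm hr
  by_contra hn
  refine sq fun w => ?_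
  by_cases hp : ∃ i, π i ≠ i
  · obtain ⟨i, hi⟩ := hp
    let ψ : V →ₗ[F] V := (x : V →ₗ[F] V) - LinearMap.id
    have e1 : (D i).map ψ = P := Submodule.eq_of_le_of_finrank_le
      (by rintro _ ⟨v, -, rfl⟩; exact mv v) (by
        have k := finrank_le_inf_ker_add (D i) ψ
        rw [show D i ⊓ LinearMap.ker ψ = ⊥ from (Submodule.eq_bot_iff _).mpr fun v hv => by
          have e : x v = v := by simpa [ψ, sub_eq_zero] using hv.2
          by_contra v0
          exact hi (d.eq_of_mem v0 (e ▸ hπ i v hv.1) hv.1), finrank_bot] at k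
        have := h2 i
        omega)
    have e2 : ∀ w, ∃ v ∈ D i, x v - v = x w - w := fun w => (e1.ge (mv w) :)
    have e3 : ∀ v ∈ D i, x (x v) = v := fun v hv => by
      obtain ⟨v', hv', e⟩ := e2 (x v)
      have := congrArg (p (π i)) e
      rw [map_sub, map_sub, d.self _ _ (hπ i v' hv'), d.zero _ _ hi v' hv', d.self _ _ (hπ i v hv),
        d.zero _ _ (π.injective.ne hi).symm _ (hπ _ _ (hπ i v hv)), sub_zero, zero_sub,
        ← map_neg] at this
      rw [x.injective this, map_neg] at e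
      rw [← sub_eq_zero] at e ⊢
      rw [← neg_eq_zero, ← e]; abel
    obtain ⟨v, hv, e⟩ := e2 w
    have e4 : x (w - v) = w - v := by
      rw [← sub_eq_zero] at e
      rw [map_sub, ← sub_eq_zero, ← neg_eq_zero, ← e]; abel
    rw [← sub_add_cancel w v, map_add, map_add, e4, e4, e3 v hv]
  push Not at hp
  simp only [hp] at hπ
  suffices k : ∀ i, ∀ v ∈ D i, x (x v) = v by
    conv_lhs => rw [← d.sum w, map_sum, map_sum]
    conv_rhs => rw [← d.sum w]
    exact Finset.sum_congr rfl fun i _ => k i _ (d.mem i w)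
  intro i v hv
  have d1 : finrank F ↥(P ⊓ D i) ≤ 1 := by
    have := Submodule.finrank_lt_finrank_of_lt (s := P ⊓ D i) (t := P)
      (lt_of_le_of_ne inf_le_left fun e => hn ⟨i, (e.ge aP).2, (e.ge bP).2⟩)
    omega
  have m : ∀ v ∈ D i, x v - v ∈ P ⊓ D i := fun v hv => ⟨mv v, (D i).sub_mem (hπ i v hv) hv⟩
  have q : ∀ v, B v (x v - v) + Q (x v - v) = 0 := fun v => by
    have := hQ.add' v (x v - v)
    rw [add_sub_cancel, iso.2] at this
    linear_combination -this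
  obtain ⟨z, hz⟩ : ∃ z, z = x v - v := ⟨_, rfl⟩
  have mz := hz ▸ m v hv
  have xv : x v = v + z := by rw [hz]; abel
  by_cases z0 : z = 0
  · rw [xv, z0, add_zero, xv, z0, add_zero]
  have pr : ∀ y ∈ P ⊓ D i, ∃ c : F, y = c • z := fun y hy => by
    obtain ⟨c, hc⟩ := (finrank_le_one_iff.mp d1).elim fun u hu => (show ∃ c : F, c • z = y by
      obtain ⟨c, hc⟩ := hu ⟨z, mz⟩
      obtain ⟨c', hc'⟩ := hu ⟨y, hy⟩
      have e1 : c • u.1 = z := congrArg Subtype.val hc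
      have e2 : c' • u.1 = y := congrArg Subtype.val hc'
      have : c ≠ 0 := by rintro rfl; exact z0 (by simpa using e1.symm)
      exact ⟨c' / c, by rw [← e1, smul_smul, div_mul_cancel₀ _ this, e2]⟩)
    exact ⟨c, hc.symm⟩
  have q1 := hz ▸ q v
  by_cases qz : Q z = 0
  · refine absurd (d.nd i z mz.2 fun w hw => ?_) z0
    obtain ⟨c, hc⟩ := pr _ (m w hw)
    by_cases c0 : c = 0
    · have : x w = w := by simpa [c0, sub_eq_zero] using hc
      have e := iso.1 v w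
      rw [this, xv] at e
      simpa using e
    · have := q w
      rw [hc, hQ.smul', qz] at this
      simpa [c0, hQ.comm w] using this
  obtain ⟨c, hc⟩ := pr (x z) (by simpa using (P ⊓ D i).add_mem (m z mz.2) mz)
  have e := iso.1 v z
  rw [xv, hc] at e
  simp only [map_add, map_smul, LinearMap.add_apply, smul_eq_mul, hQ.diag'] at e
  have : c = -1 := mul_right_cancel₀ qz (by linear_combination e + (1 - c) * q1)
  rw [xv, map_add, xv, hc, this]; simp

end quad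

end Cfsg.Agent.H11.Im
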