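import Mathlib
import Cfsg.Agent.H11.Im3

/-!
Overgroups of stabilisers of orthogonal decompositions: members of dimension at least three.
-/

set_option autoImplicit false
set_option linter.unusedSectionVars false

namespace Cfsg.Agent.H11.Im

open Module H10 H11 Cfsg.Geo

variable {F : Type*} [Field F] {V : Type*} [AddCommGroup V] [Module F V] {σ : F →+* F}
  {t : ℕ} {D : Fin t → Submodule F V} {p : Fin t → V →ₗ[F] V} [FiniteDimensional F V]

/-- Inner products of `x` with the vectors of the same length in `U`. -/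
def TS (B : V →ₛₗ[σ] V →ₗ[F] F) (Q : V → F) (U : Submodule F V) (x : V) : Set F :=
  {s | ∃ b ∈ U, b ≠ 0 ∧ Q b = Q x ∧ B x b = s}

section
variable {κ : F} {τ : F →+ F} {B : V →ₛₗ[σ] V →ₗ[F] F} {Q : V → F} {h : Cl 1 κ τ B Q}
  (d : Dec B Q D p)
include d

theorem finrank_le_mul (i : Fin t) : finrank F V ≤ t * finrank F (D i) := by
  have := LinearMap.finrank_le_finrank_of_injective
    (f := LinearMap.pi fun j => (p j).codRestrict (D j) (d.mem j)) fun x y e =>
      ext_p d fun j => congrArg Subtype.val (congrFun e j)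
  rw [finrank_pi_fintype, Finset.sum_congr rfl fun j _ => d.finrank_eq j i] at this
  simpa using this

theorem max_of [Finite F] (h : Cl 1 κ τ B Q) (hn : 5 ≤ finrank F V) (ht : 2 ≤ t)
    (hs : ∀ M, Ov h D M → M ≤ h.Om → ∀ g ∈ M, g ∉ dstab D → h.Om ≤ M) :
    IsMaximalIn h.Om (dstab D ⊓ h.Om) := by
  refine isMaximalIn_inf (fun hc => ?_) fun M a b => hs M (fun g x y => a ⟨y, x⟩) b
  let i : Fin t := ⟨0, by omega⟩
  have a := finrank_add_le h (Cl.nondegOn_top h.sep) le_top le_top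
    (d.orth i ⟨1, by omega⟩ (by simp [i]))
  have b := h.form.finrank_perp h.sep (D i)
  rw [finrank_top, d.finrank_eq ⟨1, _⟩ i] at a
  obtain ⟨y, hy, y0, q⟩ := h.exists_sing3 (W := perp B (D i)) (by omega)
  obtain ⟨w, hw, w0⟩ := (Submodule.ne_bot_iff _).mp (d.ne i)
  obtain ⟨x, hx, e⟩ := d.exists_ne hw w0
  obtain ⟨c, hc'⟩ := h.exists_tau w
  obtain ⟨π, hπ⟩ := dstab_perm (hc (h.eich_mem_om q (h.refl (hy w hw)) hc'))
  have k := hπ i x hx
  rw [h.eich_of_perp q (h.refl (hy w hw)) c (h.refl (hy x hx))] at k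
  have pi : p i y = 0 := (p_eq_zero h d).mpr hy
  obtain ⟨j, hj⟩ : ∃ j, p j y ≠ 0 := by
    by_contra hc; push Not at hc; exact y0 (ext_p d fun i => by simp [hc])
  have hij : i ≠ j := by rintro rfl; exact hj pi
  refine d.notMem hij ?_ ?_ _ k
  · simp only [map_add, map_smul, pi, d.self i x hx, smul_zero, add_zero]
    rintro rfl; simp at e
  · simp [d.zero j i hij.symm x hx, e, hj]

theorem blk_sum (h : Cl 1 κ τ B Q) {a : V} (J : Finset (Fin t)) (ha : ∀ i ∈ J, p i a ≠ 0)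
    (s : Fin t → F) (hs : ∀ i ∈ J, s i ∈ TS B Q (D i) (p i a)) :
    ∃ k, Blk B Q D J k ∧ B a (k a) - B a a = ∑ i ∈ J, (s i - B (p i a) (p i a)) := by
  classical
  induction J using Finset.induction_on with
  | empty => exact ⟨1, blk_one _, by simp⟩
  | insert i J hi ih =>
    obtain ⟨k, bk, ek⟩ := ih (fun j hj => ha j (by simp [hj])) fun j hj => hs j (by simp [hj])
    obtain ⟨b, hb, b0, q, e⟩ := hs i (by simp)
    obtain ⟨g, hg, eg⟩ := exists_loc h (d.nd i) (d.mem i a) hb (ha i (by simp)) b0 q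
    have bg := blk_of_loc d h le_rfl hg
    refine ⟨g * k, (bg.mul' bk).mono (by simp), ?_⟩
    have e1 : g a = a - p i a + b := by
      rw [← eg, ← loc_fix' h d le_rfl hg (x := a - p i a) (by simp [d.p_p]), ← map_add]; simp
    rw [Finset.sum_insert hi, ← ek, LinearEquiv.mul_apply, bg.add d bk (by simpa using hi), e1, ← e,
      d.B_p' hb, d.B_p' (d.mem i a)]
    simp only [map_add, map_sub]; ring

theorem sumP_one (h : Cl 1 κ τ B Q) (hT : ∀ i, ∀ x ∈ D i, x ≠ 0 → ∀ s, s ∈ TS B Q (D i) x) :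
    SumP B Q D p 1 := fun J hJ a ha s => by
  obtain ⟨i, rfl⟩ := Finset.card_eq_one.mp hJ
  simpa using blk_sum d h {i} ha (fun _ => s + B (p i a) (p i a)) fun j hj =>
    hT j _ (d.mem j a) (ha j hj) _

theorem forced (h : Cl 1 κ τ B Q) {i : Fin t} {x : V} (hx : x ∈ D i) (x0 : x ≠ 0) {s r : F}
    (hr : r ∈ TS B Q (D i) x) (h1 : r ≠ B x x) (h2 : τ (B x x) - τ r ≠ s) :
    ∃ k, Blk B Q D {i} k ∧ k x ≠ x ∧ Q (k x - x) ≠ s := by
  obtain ⟨b, hb, b0, q, rfl⟩ := hr
  obtain ⟨g, hg, rfl⟩ := exists_loc h (d.nd i) hx hb x0 b0 q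
  refine ⟨g, blk_of_loc d h le_rfl hg, fun e => h1 (by rw [e]), ?_⟩
  rwa [h.form.sub, q, h.tau_swap, ← h.tau_diag]

end

variable {B : V →ₗ[F] V →ₗ[F] F} {Q : V → F} [Finite F]

/-- Non-singular vectors in a given square class. -/
def Cls (Q : V → F) (c : F) (x : V) : Prop := Q x ≠ 0 ∧ IsSquare (Q x * c)

section
variable {h : Cl (σ := RingHom.id F) 1 2 (AddMonoidHom.id F) B Q} (d : Dec B Q D p)
  (hn : 5 ≤ finrank F V) {M : Subgroup (V ≃ₗ[F] V)} (hH : Ov h D M) (hM : M ≤ h.Om) (R : RT h D)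
  (cc : ∀ c ≠ 0, ∀ i, Conn B (D i) (Cls Q c)) (h2 : ∀ i, 2 ≤ finrank F (D i))
include d hn hH hM R cc h2

theorem Ov.stepB (par : (2 : F) = 0 ∨ (∀ i, 4 ≤ finrank F (D i)) ∨ ∃ f, SumP B Q D p f ∧
      2 * f + 3 ≤ t ∧ ∀ i, ∀ x ∈ D i, x ≠ 0 → ∀ s, ∃ k, Blk B Q D {i} k ∧ k x ≠ x ∧ Q (k x - x) ≠ s)
    {j : Fin t} {v : V} (hv : v ∈ D j) (qv : Q v ≠ 0) {x : V ≃ₗ[F] V} (hx : x ∈ M)
    (hx' : x ∉ dstab D) (hxv : x v = v) : h.Om ≤ M := by
  have hQ : IsQuad B Q := h.form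
  have c0 : ∀ i, Conn B (D i) (Q · ≠ 0) := fun i => (cc 1 one_ne_zero i).mono fun _ a => a.1
  have hX : Submodule.span F {v} ≤ D j := by simpa using hv
  have st : ∀ y ∈ Submodule.span F {v}, x y ∈ Submodule.span F {v} := fun y hy => by
    obtain ⟨s, rfl⟩ := Submodule.mem_span_singleton.mp hy
    rwa [map_smul, hxv]
  have mv := Submodule.mem_span_singleton_self (R := F) v
  by_cases t2 : (2 : F) = 0
  · exact hH.np d hM R c0 hX (adj_quad_two h hn t2 mv qv) hx st hx'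
  have ad : ∀ i, Adj h (D i) := fun i => adj_quad h hn (d.nd i) (h2 i)
  have hN := hH.ext d hX
  have NI := ext_le_isom (X := Submodule.span F {v}) hM
  have NM := fun g => hH.mem_of_ext d hM hX (g := g)
  have NO := hH.om_le_of_ext d hM hX
  have rv : r h v ∈ Ext M _ := le_ext _ _ (rf_mem_loc h mv _)
  have xN := hH.mem_ext_of_stab d hM hX hx st
  generalize Ext M _ = N at hN NI NM NO rv xN
  have cl : ∀ i, ∀ w ∈ D i, Cls Q (Q v) w → r h w ∈ N := fun i w hw c => by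
    simpa using mul_mem (hN _ (r_mul_mem h hn c.1 qv c.2)
      (mul_mem (rf_dstab h d hw _) (rf_dstab h d hv _))) (inv_mem rv)
  obtain ⟨i, w, hw, cw, out⟩ := exists_out d (cc _ qv) (NI xN) hx'
  have ra : r h (x w) ∈ N := conj_r h (NI xN) w ▸ mul_mem (mul_mem xN (cl i w hw cw)) (inv_mem xN)
  have qa : Q (x w) = Q w := (NI xN).2 w
  generalize x w = a at out ra qa
  have zero : ∀ a, Q a = Q w → r h a ∈ N → (∀ l, a ∉ D l) → ∀ o, p o a = 0 → h.Om ≤ M :=
    fun a qa ra out o ho => by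
    obtain ⟨u, hu, qu⟩ := hQ.exists_eq_on (d.nd o) (h2 o) (Q w)
    have q0 : Q a ≠ 0 := qa ▸ cw.1
    refine hH.np d hM R c0 le_rfl (ad o) (NM _ (mul_mem ra (cl o u hu ⟨qu ▸ cw.1, qu ▸ cw.2⟩))
      (r_mul_mem h hn q0 (qu ▸ cw.1) ⟨Q w, by rw [qa, qu]⟩)) (fun y hy => ?_) fun e => ?_
    · have := loc_mem h (rf_mem_loc h hu (Q u)⁻¹) le_rfl hy
      rwa [LinearEquiv.mul_apply, rf_fix h a _ (h.refl ((p_eq_zero h d).mp ho _ this))]
    · obtain ⟨l, hl⟩ := blk_of_rf d h2 (adm_r h a) (inv_ne_zero q0) (ne_zero_of_Q h q0)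
        (by simpa using mul_mem e (inv_mem (rf_dstab h d hu (Q u)⁻¹)))
      exact out l hl
  have q0 : Q a ≠ 0 := qa ▸ cw.1
  rcases par with e | h4 | ⟨f, hS, ht, hF⟩
  · exact absurd e t2
  · exact NO (hN.direct d NI h4 ad q0 (adm_r h a) (inv_ne_zero q0) ra out)
  by_cases ha : ∀ i, p i a ≠ 0
  swap
  · push Not at ha; obtain ⟨o, ho⟩ := ha; exact zero a qa ra out o ho
  by_cases hK : ∀ i, ∃ k, Blk B Q D {i} k ∧ k ∉ N
  swap
  · push Not at hK
    obtain ⟨i, hi⟩ := hK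
    refine NO (R N NI (fun g hg hg' => ?_) a (lam_r h q0 ra) out)
    obtain ⟨s, hs, e⟩ := ad i g hg
    simpa using mul_mem (hN _ e (mul_mem hg' (loc_dstab h d le_rfl hs)))
      (inv_mem (hi s (blk_of_loc d h le_rfl hs)))
  have pr := CharP.char_is_prime F (ringChar F)
  obtain ⟨k, hk, e, ⟨o, ho⟩, l, l1, l2⟩ := parity d NI (n := ringChar F)
    (pr.odd_of_ne_two fun e => t2 (by simpa [e] using CharP.cast_eq_zero F (ringChar F)))
    (CharP.cast_eq_zero F _) (fun k k' b b' m m' => by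
      have k1 : ∀ g ∈ dstab D, g * r h v ∈ h.Om → g ∈ N := fun g hg e => by
        simpa using mul_mem (hN _ e (mul_mem hg (rf_dstab h d hv _))) (inv_mem rv)
      have s := b.dstab d
      have s' := b'.dstab d
      rcases idx_two h hn qv b.isom b'.isom with e | e | e | e | e | e
      exacts [absurd (hN _ e s) m, absurd (k1 _ s e) m, absurd (hN _ e s') m',
        absurd (k1 _ s' e) m', hN _ e (mul_mem s s'), k1 _ (mul_mem s s') e]) hK hS ht hF ha (Q a)
  have e1 : r h a (k a) = k a - a := by rw [r_apply, e, inv_mul_cancel₀ q0, one_smul]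
  have m := mul_mem ra hk
  have q1 : Q (k a - a) = Q a := by rw [← e1, (r_isom h a).2, (NI hk).2]
  refine zero (k a - a) (q1.trans qa) ?_ (fun l' hl => ?_) o ho
  · rw [← e1, ← LinearEquiv.mul_apply, ← conj_r h (NI m)]
    exact mul_mem (mul_mem m ra) (inv_mem m)
  · by_cases e : l = l'
    · exact l2 (by rw [d.self l _ (e ▸ hl), q1])
    · exact l1 (d.zero l l' e _ hl)

omit hH R in
/-- A rotation outside the stabiliser. -/
theorem exists_rot (hH : Ov h D M) {g : V ≃ₗ[F] V} (hg : g ∈ M) (hg' : g ∉ dstab D) :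
    ∃ a b, Q a ≠ 0 ∧ Q b ≠ 0 ∧ b ∉ Submodule.span F {a} ∧ r h a * r h b ∈ M ∧
      r h a * r h b ∉ dstab D := by
  have gI := h.om_le_isom (hM hg)
  obtain ⟨i, a, ha, ca, out⟩ := exists_out d (cc 1 one_ne_zero) gI hg'
  obtain ⟨b, hb, cb, b1, z, hz, b2⟩ := (cc _ ca.1 i).2 (Submodule.span F {a}) (by simpa using ha)
    (by simpa using ne_zero_of_Q h ca.1) fun e => by
      have := finrank_span_one_le (F := F) a
      have := h2 i
      rw [← e] at this; omega
  obtain ⟨s, rfl⟩ := Submodule.mem_span_singleton.mp hz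
  have b3 : g b ∉ Submodule.span F {g a} := by simpa using notMem_span_map g b1
  have q1 : Q (g a) ≠ 0 := by rw [gI.2]; exact ca.1
  have q2 : Q (g b) ≠ 0 := by rw [gI.2]; exact cb.1
  refine ⟨g a, g b, q1, q2, b3, ?_, fun e => ?_⟩
  · have := mul_mem (mul_mem hg (hH _ (r_mul_mem h hn ca.1 cb.1 (by rw [mul_comm]; exact cb.2))
      (mul_mem (rf_dstab h d ha _) (rf_dstab h d hb _)))) (inv_mem hg)
    rw [← conj_r h gI, ← conj_r h gI]
    convert this using 1; group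
  · obtain ⟨l, hl, -⟩ := blk_of_rot d h2 q1 q2 (by rw [gI.1]; intro c; simp [c] at b2) b3 e
    exact out l hl

theorem Ov.step3 (h3 : ∀ i, 3 ≤ finrank F (D i)) (par : (2 : F) = 0 ∨ (∀ i, 4 ≤ finrank F (D i)) ∨
      ∃ f, SumP B Q D p f ∧ 2 * f + 3 ≤ t ∧
        ∀ i, ∀ x ∈ D i, x ≠ 0 → ∀ s, ∃ k, Blk B Q D {i} k ∧ k x ≠ x ∧ Q (k x - x) ≠ s)
    (ht : 2 ≤ t) {g : V ≃ₗ[F] V} (hg : g ∈ M) (hg' : g ∉ dstab D) : h.Om ≤ M := by
  have hQ : IsQuad B Q := h.form
  obtain ⟨a, b, qa, qb, hab, m, out⟩ := exists_rot d hn hM cc h2 hH hg hg'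
  let Z := fun i => D i ⊓ LinearMap.ker (B a) ⊓ LinearMap.ker (B b)
  have fx : ∀ i, ∀ v ∈ Z i, (r h a * r h b) v = v := fun i v hv => by
    rw [LinearEquiv.mul_apply, rf_fix h b _ hv.2, rf_fix h a _ hv.1.2]
  by_cases hz : ∃ i, ∃ v ∈ Z i, Q v ≠ 0
  · obtain ⟨i, v, hv, q⟩ := hz
    exact hH.stepB d hn hM R cc h2 par hv.1.1 q m out (fx i v hv)
  push Not at hz
  have ZD : ∀ i, Z i ≤ D i := fun i => inf_le_left.trans inf_le_left
  have dZ : ∀ i, finrank F (D i) ≤ finrank F (Z i) + 2 := fun i => by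
    have := finrank_le_inf_ker (D i) (B a)
    have := finrank_le_inf_ker (D i ⊓ LinearMap.ker (B a)) (B b)
    simp only [Z]; omega
  have ts : ∀ i, ∀ z ∈ Z i, ∀ w ∈ Z i, B z w = 0 := fun i z h1 w h2 => by
    have := hQ.add' z w
    rw [hz i _ ((Z i).add_mem h1 h2), hz i z h1, hz i w h2] at this
    simpa using this.symm
  obtain ⟨j, hj⟩ := exists_Q_ne d qa h
  have d3 : finrank F (D j) ≤ 3 := by
    have := finrank_add_le h (d.nd j) (ZD j) (W := Z j ⊔ Submodule.span F {p j a})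
      (sup_le (ZD j) (by simpa using d.mem j a)) fun z h1 w h2 => by
        obtain ⟨w, hw, y, hy, rfl⟩ := Submodule.mem_sup.mp h2
        obtain ⟨s, rfl⟩ := Submodule.mem_span_singleton.mp hy
        rw [map_add, ts j z h1 w hw, map_smul, d.B_p h1.1.1, hQ.comm, h1.1.2]; simp
    have := Submodule.finrank_lt_finrank_of_lt (s := Z j) (t := Z j ⊔ Submodule.span F {p j a})
      (lt_of_le_of_ne le_sup_left fun e => hj (hz j _ (e.ge
        (Submodule.mem_sup_right (Submodule.mem_span_singleton_self _)))))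
    have := dZ j
    omega
  have d1 : ∀ i, finrank F (Z i) ≤ 1 := fun i => by
    have := finrank_add_le h (d.nd i) (ZD i) (ZD i) (ts i)
    have := d.finrank_eq i j
    omega
  obtain ⟨e, he, e0⟩ := exists_ne_zero_of_finrank (W := Z j) (by have := dZ j; have := h3 j; omega)
  obtain ⟨w, hw, w1⟩ := exists_mem_notMem (W := D j ⊓ LinearMap.ker (B e)) (Z := Z j) (by
    have := finrank_le_inf_ker (D j) (B e)
    have := h3 j
    have := d1 j
    omega)
  have MI := hM.trans h.om_le_isom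
  have k1 := h.le_arm (hz j e he) (fun w hw c => hH.eich d he.1.1 hw (hz j e he)) hw.1 hw.2
  have k2 := (h.Arm M e).sub_mem k1 (h.map_mem_arm MI m (fx j e he) k1)
  obtain ⟨α, β, e1, e2⟩ : ∃ α β : F, w - (r h a * r h b) w = α • a + β • b ∧ (α ≠ 0 ∨ β ≠ 0) := by
    refine ⟨(Q a)⁻¹ * B a (r h b w), (Q b)⁻¹ * B b w, by
      rw [LinearEquiv.mul_apply, r_apply h a]; nth_rewrite 1 [r_apply h b]; abel, ?_⟩
    by_contra hc
    push Not at hc
    have b0 : B b w = 0 := by simpa [qb] using hc.2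
    rw [rf_fix h b _ b0] at hc
    exact w1 ⟨⟨hw.1, by simpa [qa] using hc.1⟩, b0⟩
  rw [e1] at k2
  obtain ⟨i, hij⟩ : ∃ i : Fin t, i ≠ j := by
    by_cases e : j = ⟨0, by omega⟩
    · exact ⟨⟨1, by omega⟩, by simp [e]⟩
    · exact ⟨_, Ne.symm e⟩
  refine hH.fin1 d MI (fun i => Or.inl (h3 i)) (fun i => adj_quad h hn (d.nd i) (h2 i)) he.1.1 e0
    (hz j e he) k2 hij fun e => ?_
  have k3 : ∀ y ∈ D i, α * B a y + β * B b y = 0 := fun y hy => by
    simpa [hQ.comm y] using (p_eq_zero h d).mp e y hy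
  have := h3 i
  have := d1 i
  rcases e2 with e2 | e2
  · have : D i ⊓ LinearMap.ker (B b) ≤ Z i := fun y hy => ⟨⟨hy.1, by
      have := k3 y hy.1
      rw [show B b y = 0 from hy.2] at this
      simpa [e2] using this⟩, hy.2⟩
    have := Submodule.finrank_mono this
    have := finrank_le_inf_ker (D i) (B b)
    omega
  · have : D i ⊓ LinearMap.ker (B a) ≤ Z i := fun y hy => ⟨hy, by
      have := k3 y hy.1
      rw [show B a y = 0 from hy.2] at this
      simpa [e2] using this⟩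
    have := Submodule.finrank_mono this
    have := finrank_le_inf_ker (D i) (B a)
    omega

end

end Cfsg.Agent.H11.Im
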