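import Mathlib
import Cfsg.Agent.H11.Im4

/-!
Properties of small non-degenerate quadratic spaces over finite fields.
-/

set_option autoImplicit false
set_option linter.unusedSectionVars false

namespace Cfsg.Agent.H11.Im

open Module H10 H11 Cfsg.Geo

variable {F : Type*} [Field F] {V : Type*} [AddCommGroup V] [Module F V] [FiniteDimensional F V]
  {t : ℕ} {D : Fin t → Submodule F V} {p : Fin t → V →ₗ[F] V}
  {B : V →ₗ[F] V →ₗ[F] F} {Q : V → F} [Finite F]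
  (h : Cl (σ := RingHom.id F) 1 2 (AddMonoidHom.id F) B Q)

theorem le_finrank_inf_perp {σ : F →+* F} {κ : F} {τ : F →+ F} {B : V →ₛₗ[σ] V →ₗ[F] F}
    (h : Cl 1 κ τ B Q) (U X : Submodule F V) :
    finrank F U ≤ finrank F X + finrank F ↥(U ⊓ perp B X) := by
  have := h.form.finrank_perp h.sep X
  have := Submodule.finrank_sup_add_finrank_inf_eq U (perp B X)
  have := (U ⊔ perp B X).finrank_le
  omega

include h

theorem aniso_nondeg {X : Submodule F V} (ha : ∀ x ∈ X, Q x = 0 → x = 0)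
    (h2 : (2 : F) ≠ 0 ∨ 2 ≤ finrank F X) : NondegOn B X := fun z hz e => by
  have hQ : IsQuad B Q := h.form
  by_cases t2 : (2 : F) = 0
  · by_contra z0
    obtain ⟨w, hw, w0⟩ := exists_mem_notMem (W := X) (Z := Submodule.span F {z})
      (lt_of_le_of_lt (finrank_span_one_le _) (h2.resolve_left (not_not.mpr t2)))
    obtain ⟨s, hs⟩ := FiniteField.isSquare_of_char_two (F := F)
      (CharP.ringChar_of_prime_eq_zero Nat.prime_two (by simpa using t2)) (Q w / Q z)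
    have qz : Q z ≠ 0 := fun c => z0 (ha z hz c)
    have := ha (w + s • z) (X.add_mem hw (X.smul_mem _ hz)) (by
      rw [hQ.add', hQ.smul', map_smul, hQ.comm, e w hw, ← hs]
      field_simp; linear_combination Q w * t2)
    exact w0 (Submodule.mem_span_singleton.mpr ⟨-s, by rw [eq_neg_of_add_eq_zero_left this]; simp⟩)
  · exact ha z hz (by simpa [hQ.diag', t2] using e z hz)

theorem conn_of {U : Submodule F V} (hU : NondegOn B U) (h2 : 2 ≤ finrank F U) {c : F} (c0 : c ≠ 0)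
    (H : ∀ X ≤ U, X ≠ ⊥ → X ≠ U → (∀ x ∈ X, Q x = 0 → x = 0) →
      (∀ x ∈ U ⊓ perp B X, Q x = 0 → x = 0) → ∃ y ∈ U, Cls Q c y ∧ y ∉ X ∧ ∃ x ∈ X, B x y ≠ 0) :
    Conn B U (Cls Q c) := by
  have hQ : IsQuad B Q := h.form
  have cl : ∀ y, Q y = c → Cls Q c y := fun y e => ⟨e ▸ c0, c, by rw [e]⟩
  have ne : ∀ x ∈ U, x ≠ 0 → ∃ y ∈ U, B x y ≠ 0 := fun x hx x0 => by
    by_contra hc; push Not at hc; exact x0 (hU x hx hc)
  have ln : ∀ e z, Q e = 0 → B e z ≠ 0 → Q (z + ((c - Q z) / B e z) • e) = c := fun e z a b => by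
    rw [hQ.add', hQ.smul', a, map_smul, hQ.comm z, smul_eq_mul]; field_simp; ring
  refine ⟨?_, fun X hX X0 XU => ?_⟩
  · obtain ⟨x, hx, e⟩ := hQ.exists_eq_on hU h2 c
    exact ⟨x, hx, ne_zero_of_Q h (e ▸ c0), cl x e⟩
  by_cases a1 : ∀ x ∈ X, Q x = 0 → x = 0
  swap
  · push Not at a1
    obtain ⟨e, he, q, e0⟩ := a1
    obtain ⟨z, hz, z0⟩ := SetLike.exists_of_lt (lt_of_le_of_ne hX XU)
    obtain ⟨φ, f0, f1⟩ := exists_dual_zero_one z0
    obtain ⟨z, hz, b1, b2⟩ := exists_mem_ne_ne (B e) φ (ne e (hX he) e0) ⟨z, hz, by simp [f1]⟩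
    refine ⟨_, U.add_mem hz (U.smul_mem _ (hX he)), cl _ (ln e z q b1), fun m => b2 ?_, e, he, ?_⟩
    · simpa [f0 e he] using f0 _ m
    · simpa [h.diag0 q] using b1
  by_cases a2 : ∀ x ∈ U ⊓ perp B X, Q x = 0 → x = 0
  · exact H X hX X0 XU a1 a2
  push Not at a2
  obtain ⟨e, he, q, e0⟩ := a2
  obtain ⟨x, hx, x0⟩ := (Submodule.ne_bot_iff _).mp X0
  obtain ⟨z, hz, b1, b2⟩ := exists_mem_ne_ne (B e) (B x) (ne e he.1 e0) (ne x (hX hx) x0)
  refine ⟨_, U.add_mem hz (U.smul_mem _ he.1), cl _ (ln e z q b1), fun m => b1 ?_, x, hx, ?_⟩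
  · simpa [h.diag0 q] using h.refl (he.2 _ m)
  · simpa [he.2 x hx] using b2

/-- A subspace of plus type. -/
def Plus (Q : V → F) (U : Submodule F V) : Prop :=
  ∃ W ≤ U, (∀ x ∈ W, Q x = 0) ∧ 2 * finrank F W = finrank F U

theorem conn3 {U : Submodule F V} (hU : NondegOn B U) (h3 : 3 ≤ finrank F U)
    (e3 : finrank F U = 3 → (2 : F) ≠ 0 ∧ ∃ u : F, u ≠ 0 ∧ u * u ≠ 1)
    (e4 : finrank F U = 4 → (∃ a : F, a ≠ 0 ∧ a ≠ 1) ∨ ¬ Plus Q U) {c : F} (c0 : c ≠ 0) :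
    Conn B U (Cls Q c) := conn_of h hU (by omega) c0 fun X hX X0 XU a1 a2 => by
  have hQ : IsQuad B Q := h.form
  have le : ∀ Y : Submodule F V, (∀ x ∈ Y, Q x = 0 → x = 0) → finrank F Y ≤ 2 := fun Y a => by
    by_contra hc
    obtain ⟨x, hx, x0, q⟩ := h.exists_sing3 (W := Y) (by omega)
    exact x0 (a x hx q)
  have d1 := le _ a1
  have d2 := le _ a2
  have d3 := le_finrank_inf_perp h U X
  have n1 := aniso_nondeg h a1 (by
    by_cases e : finrank F U = 3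
    · exact Or.inl (e3 e).1
    · right; omega)
  have n2 := aniso_nondeg h a2 (by
    by_cases e : finrank F U = 3
    · exact Or.inl (e3 e).1
    · right; omega)
  have key : ∀ P R : Submodule F V, NondegOn B P → 2 ≤ finrank F P → NondegOn B R →
      (∀ x ∈ R, Q x = 0 → x = 0) → 1 ≤ finrank F R → (finrank F U = 4 → 2 ≤ finrank F R) →
      (∀ x ∈ R, ∀ y ∈ P, B x y = 0) → (finrank F U = 3 ∨ ∃ a : F, a ≠ 0 ∧ a ≠ 1) →
      ∃ x ∈ R, ∃ y ∈ P, x ≠ 0 ∧ y ≠ 0 ∧ Cls Q c (x + y) := fun P R nP dP nR aR dR dR' o e => by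
    obtain ⟨x, hx, x0, γ, g1, g2, g3⟩ : ∃ x ∈ R, x ≠ 0 ∧ ∃ γ, γ ≠ Q x ∧ γ ≠ 0 ∧ IsSquare (γ * c) := by
      by_cases e' : finrank F U = 3
      · obtain ⟨u, u0, u1⟩ := (e3 e').2
        obtain ⟨x, hx, x0⟩ := exists_ne_zero_of_finrank dR
        by_cases k : c = Q x
        · refine ⟨x, hx, x0, u * u * c, fun e => u1 (mul_right_cancel₀ c0 (by rw [e, ← k, one_mul])),
            by simp [u0, c0], u * c, by ring⟩
        · exact ⟨x, hx, x0, c, k, c0, c, rfl⟩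
      · obtain ⟨a, a0, a1⟩ := e.resolve_left e'
        obtain ⟨x, hx, q⟩ := hQ.exists_eq_on nR (dR' (by omega)) (a * c)
        exact ⟨x, hx, ne_zero_of_Q h (by simp [q, a0, c0]), c, fun e => a1
          (mul_right_cancel₀ c0 (by rw [← q, ← e, one_mul])), c0, c, rfl⟩
    obtain ⟨y, hy, q⟩ := hQ.exists_eq_on nP dP (γ - Q x)
    have : Q (x + y) = γ := by rw [hQ.add', q, o x hx y hy]; ring
    exact ⟨x, hx, y, hy, x0, ne_zero_of_Q h (q ▸ sub_ne_zero.mpr g1), this ▸ g2, this ▸ g3⟩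
  have e : finrank F U = 3 ∨ ∃ a : F, a ≠ 0 ∧ a ≠ 1 := by
    by_contra hc
    push Not at hc
    refine (e4 (by omega)).resolve_left (by push Not; exact hc.2) ?_
    have t2 : (1 : F) + 1 = 0 := by_contra fun c => by simpa using hc.2 _ c
    let φ := LinearEquiv.ofFinrankEq (R := F) X ↥(U ⊓ perp B X) (by omega)
    let L : X →ₗ[F] V := X.subtype + (U ⊓ perp B X).subtype ∘ₗ (φ : X →ₗ[F] _)
    have hL : ∀ x : X, L x = x + φ x := fun x => rfl
    refine ⟨LinearMap.range L, ?_, ?_, ?_⟩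
    · rintro _ ⟨x, rfl⟩; exact U.add_mem (hX x.2) (φ x).2.1
    · rintro _ ⟨x, rfl⟩
      by_cases x0 : x = 0
      · simp [x0, h.Q_zero]
      rw [hL, hQ.add', (φ x).2.2 x x.2, hc.2 (Q x) fun c => x0 (Subtype.ext (a1 _ x.2 c)),
        hc.2 (Q (φ x)) fun c => x0 (by simpa using a2 _ (φ x).2 c), t2, add_zero]
    · rw [LinearMap.finrank_range_of_inj]
      · omega
      rw [← LinearMap.ker_eq_bot, LinearMap.ker_eq_bot']
      intro x hx
      refine Subtype.ext (n1 _ x.2 fun y hy => h.refl ?_)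
      rw [hL] at hx
      rw [eq_neg_of_add_eq_zero_left hx, map_neg, (φ x).2.2 y hy, neg_zero]
  have p1 : 1 ≤ finrank F X := Submodule.one_le_finrank_iff.mpr X0
  obtain ⟨x, hx, y, hy, x0, y0, cl⟩ : ∃ x ∈ X, ∃ y ∈ U ⊓ perp B X, x ≠ 0 ∧ y ≠ 0 ∧ Cls Q c (x + y) := by
    by_cases k : finrank F X = 2
    · obtain ⟨y, hy, x, hx, y0, x0, cl⟩ := key X _ n1 k.ge n2 a2 (by omega) (by omega)
        (fun y hy x hx => h.refl (hy.2 x hx)) e
      exact ⟨x, hx, y, hy, x0, y0, add_comm x y ▸ cl⟩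
    · exact key _ X n2 (by omega) n1 a1 p1 (by omega) (fun x hx y hy => hy.2 x hx) e
  refine ⟨x + y, U.add_mem (hX hx) hy.1, cl, fun m => y0 (n1 y (by simpa using X.sub_mem m hx)
    fun z hz => h.refl (hy.2 z hz)), ?_⟩
  by_contra hc
  push Not at hc
  exact x0 (n1 x hx fun z hz => h.refl (by simpa [hy.2 z hz] using hc z hz))

theorem conn2 {U : Submodule F V} (hU : NondegOn B U) (h2 : finrank F U = 2)
    (np : ∀ x ∈ U, Q x ≠ 0 → ∃ b ∈ U, Q b = Q x ∧ B x b ≠ 0 ∧ b ∉ Submodule.span F {x})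
    {c : F} (c0 : c ≠ 0) : Conn B U (Cls Q c) := conn_of h hU h2.ge c0 fun X hX X0 XU _ _ => by
  have hQ : IsQuad B Q := h.form
  have cl : ∀ y, Q y = c → Cls Q c y := fun y e => ⟨e ▸ c0, c, by rw [e]⟩
  have one : ∀ Y < U, ∀ y ∈ Y, y ≠ 0 → Y = Submodule.span F {y} := fun Y hY y hy y0 =>
    (Submodule.eq_of_le_of_finrank_le (by simpa using hy) (by
      have := Submodule.finrank_lt_finrank_of_lt hY
      rw [finrank_span_singleton y0]; omega)).symm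
  obtain ⟨y, hy, q⟩ := hQ.exists_eq_on hU h2.ge c
  obtain ⟨b, hb, qb, e, n⟩ := np y hy (q ▸ c0)
  have y0 := ne_zero_of_Q h (q ▸ c0)
  by_cases m : y ∈ X
  · exact ⟨b, hb, cl b (qb.trans q), one X (lt_of_le_of_ne hX XU) y m y0 ▸ n, y, m, e⟩
  by_cases m' : ∃ x ∈ X, B x y ≠ 0
  · exact ⟨y, hy, cl y q, m, m'⟩
  push Not at m'
  refine ⟨b, hb, cl b (qb.trans q), fun k => e (h.refl (m' b k)), ?_⟩
  by_contra hc
  push Not at hc
  obtain ⟨x, hx, x0⟩ := (Submodule.ne_bot_iff _).mp X0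
  exact n (one (U ⊓ perp B X) (lt_of_le_of_ne inf_le_left fun k => x0 (hU x (hX hx) fun z hz =>
    (k.ge hz).2 x hx)) y ⟨hy, m'⟩ y0 ▸ ⟨hb, hc⟩)

theorem ts_sing {U : Submodule F V} (hU : NondegOn B U) {x : V} (hx : x ∈ U) (x0 : x ≠ 0)
    (q : Q x = 0) (s : F) : s ∈ TS B Q U x := by
  by_cases s0 : s = 0
  · exact ⟨x, hx, x0, rfl, by rw [s0, h.diag0 q]⟩
  obtain ⟨f, hf, a, b⟩ := h.exists_partner_in' hU hx q x0
  refine ⟨s • f, U.smul_mem _ hf, smul_ne_zero s0 (by rintro rfl; simp at b), ?_, by simp [b]⟩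
  rw [h.sing_smul a, q]

theorem nondeg_perp_one {σ : F →+* F} {κ : F} {τ : F →+ F} {B : V →ₛₗ[σ] V →ₗ[F] F}
    (h : Cl 1 κ τ B Q) {U : Submodule F V} (hU : NondegOn B U) {x : V} (hx : x ∈ U)
    (q : B x x ≠ 0) : NondegOn B (U ⊓ LinearMap.ker (B x)) := fun z hz e => hU z hz.1 fun y hy => by
  have := e (y - (B x y / B x x) • x) ⟨U.sub_mem hy (U.smul_mem _ hx), by simp [div_mul_cancel₀ _ q]⟩
  simpa [h.refl hz.2] using this

theorem ts_three (t2 : (2 : F) ≠ 0) {U : Submodule F V} (hU : NondegOn B U) (h3 : 3 ≤ finrank F U)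
    {x : V} (hx : x ∈ U) (x0 : x ≠ 0) (s : F) : s ∈ TS B Q U x := by
  have hQ : IsQuad B Q := h.form
  by_cases q : Q x = 0
  · exact ts_sing h hU hx x0 q s
  have := finrank_le_inf_ker U (B x)
  obtain ⟨w, hw, e⟩ := hQ.exists_eq_on (nondeg_perp_one h h hU hx (by simp [hQ.diag', t2, q]))
    (by omega) (Q x - (s / (2 * Q x)) * (s / (2 * Q x)) * Q x)
  have e1 : Q ((s / (2 * Q x)) • x + w) = Q x := by
    rw [hQ.add', hQ.smul', e]; simp [show B x w = 0 from hw.2]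
  refine ⟨_, U.add_mem (U.smul_mem _ hx) hw.1, ne_zero_of_Q h (by rwa [e1]), e1, ?_⟩
  simp only [map_add, map_smul, show B x w = 0 from hw.2, hQ.diag', smul_eq_mul]
  field_simp; ring

theorem exists_ns (t2 : (2 : F) ≠ 0) {W : Submodule F V} (hW : NondegOn B W) {z : V}
    (hz : ∃ w ∈ W, B z w ≠ 0) : ∃ v ∈ W, Q v ≠ 0 ∧ B z v ≠ 0 := by
  have hQ : IsQuad B Q := h.form
  by_contra hc
  push Not at hc
  obtain ⟨w, hw, e⟩ := hz
  obtain ⟨y, hy, a, b⟩ := exists_mem_ne_ne (B w) (B z) (U := W) (by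
    by_contra k; push Not at k; exact e (by simp [hW w hw k])) ⟨w, hw, e⟩
  have q1 : Q w = 0 := by_contra fun c => e (hc w hw c)
  have q2 : Q y = 0 := by_contra fun c => b (hc y hy c)
  have k1 := hc _ (W.add_mem hw hy) (by simpa [hQ.add', q1, q2] using a)
  have k2 := hc _ (W.add_mem hw (W.neg_mem hy)) (by
    rw [hQ.add', ← neg_one_smul F y, hQ.smul']; simpa [q1, q2] using a)
  simp only [map_add, map_neg] at k1 k2
  exact e (mul_left_cancel₀ t2 (by linear_combination k1 + k2))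

theorem p7_odd (t2 : (2 : F) ≠ 0) {U : Submodule F V} (hU : NondegOn B U) {x : V} (hx : x ∈ U)
    (q : Q x ≠ 0) {z : V} (hz : z ∈ U) (n : z ∉ Submodule.span F {x}) :
    ∃ v ∈ U, Q v ≠ 0 ∧ B v x = 0 ∧ B v z ≠ 0 := by
  have hQ : IsQuad B Q := h.form
  obtain ⟨y, hy, a, b⟩ := h.exists_perp_not_in hU (by simpa using hx) hz n
  obtain ⟨v, hv, c, e⟩ := exists_ns h t2 (nondeg_perp_one h h hU hx (by simp [hQ.diag', t2, q]))
    (z := z) ⟨y, ⟨hy, a x (Submodule.mem_span_singleton_self _)⟩, by simp [b]⟩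
  exact ⟨v, hv.1, c, h.refl hv.2, h.refl_ne e⟩

theorem np_of {x b : V} (q : Q b = Q x) (h0 : B x b ≠ 0) (h1 : B x b ≠ B x x) (h2 : B x b ≠ -B x x) :
    b ∉ Submodule.span F {x} := fun m => by
  have hQ : IsQuad B Q := h.form
  obtain ⟨s, rfl⟩ := Submodule.mem_span_singleton.mp m
  rw [hQ.smul'] at q
  rw [map_smul, smul_eq_mul] at h0 h1 h2
  have qx : Q x ≠ 0 := fun c => h0 (by rw [h.diag0 c, mul_zero])
  rcases mul_self_eq_one_iff.mp (mul_right_cancel₀ qx (q.trans (one_mul _).symm)) with e | e <;>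
    simp [e] at h1 h2

theorem gen_quad (d : Dec B Q D p) (h2 : ∀ i, 2 ≤ finrank F (D i))
    (np : ∀ i, ∀ x ∈ D i, x ≠ 0 → ∃ s ∈ TS B Q (D i) x, s ≠ 0 ∧ s ≠ B x x ∧ s ≠ -B x x)
    (lvl : ∀ i, ∀ x ∈ D i, Q x ≠ 0 → ∀ y, (∃ z ∈ D i, B z y ≠ 0) → ∃ b ∈ D i, Q b = Q x ∧ B b y ≠ 0)
    (add : ∀ i, ∀ x ∈ D i, Q x ≠ 0 → AddSubgroup.closure (TS B Q (D i) x) = ⊤)
    (p6 : (∃ a : F, a ≠ 0 ∧ a ≠ 1) ∨ ∀ i, ∀ x ∈ D i, Q x = 0 → x = 0)
    (p7 : ∀ i, ∀ x ∈ D i, Q x ≠ 0 → ∀ z ∈ D i, z ∉ Submodule.span F {x} →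
      ∃ v ∈ D i, Q v ≠ 0 ∧ B v x = 0 ∧ B v z ≠ 0) : Gen h D where
  tau e := by simpa using DFunLike.congr_fun e 1
  adm a q := ⟨_, inv_ne_zero q, adm_r h a⟩
  ex i := by
    obtain ⟨x, hx, e⟩ := IsQuad.exists_eq_on h.form (d.nd i) (h2 i) 1
    exact ⟨x, hx, by simp [e]⟩
  lvl i x hx x0 y hy := by
    by_cases q : Q x = 0
    · obtain ⟨u, hu, a, b⟩ := h.exists_sing_not_perp' (d.nd i) hx q x0 hy
      exact ⟨u, hu, by rintro rfl; simp at b, a.trans q.symm, b⟩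
    · obtain ⟨b, hb, a, c⟩ := lvl i x hx q y hy
      exact ⟨b, hb, ne_zero_of_Q h (a ▸ q), a, c⟩
  add i x hx q := top_le_iff.mp ((add i x hx q).ge.trans (AddSubgroup.closure_mono
    fun _ ⟨b, a1, _, a2⟩ => ⟨b, a1, a2⟩))
  np i x hx x0 a q := by
    obtain ⟨_, ⟨b, hb, -, e, rfl⟩, a1, a2, a3⟩ := np i x hx x0
    exact ⟨b, hb, _, inv_ne_zero q, adm_r h a, e, a1, fun k => np_of h e a1 a2 a3
      (k ▸ Submodule.smul_mem _ _ (Submodule.mem_span_singleton_self _))⟩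
  p6 := p6
  p7 := p7

omit h in
theorem exists_ne_three (t2 : (2 : F) ≠ 0) {u : F} (u0 : u ≠ 0) (u1 : u * u ≠ 1) (a b c : F) :
    ∃ s, s ≠ a ∧ s ≠ b ∧ s ≠ c := by
  classical
  have := Fintype.ofFinite F
  have k : ({0, 1, -1, u} : Finset F).card = 4 := by
    rw [Finset.card_eq_four]
    refine ⟨0, 1, -1, u, zero_ne_one, by simp, u0.symm, fun e => t2 (by linear_combination e),
      ?_, ?_, rfl⟩ <;> rintro rfl <;> simp at u1
  obtain ⟨s, -, hs⟩ := Finset.exists_mem_notMem_of_card_lt_card (s := {a, b, c})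
    (t := {0, 1, -1, u}) (lt_of_le_of_lt Finset.card_le_three (by omega))
  exact ⟨s, by simpa [not_or] using hs⟩

/-- Maximality for members of dimension at least three. -/
theorem max_quad3 (d : Dec B Q D p) (hn : 13 ≤ finrank F V) (ht : 2 ≤ t)
    (h3 : ∀ i, 3 ≤ finrank F (D i))
    (e3 : ∀ i, finrank F (D i) = 3 → (2 : F) ≠ 0 ∧ ∃ u : F, u ≠ 0 ∧ u * u ≠ 1)
    (e4 : ∀ i, finrank F (D i) = 4 → (∃ a : F, a ≠ 0 ∧ a ≠ 1) ∨ ¬ Plus Q (D i)) :
    IsMaximalIn h.Om (dstab D ⊓ h.Om) := by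
  have hQ : IsQuad B Q := h.form
  have h2 : ∀ i, 2 ≤ finrank F (D i) := fun i => by have := h3 i; omega
  have cc : ∀ c ≠ 0, ∀ i, Conn B (D i) (Cls Q c) := fun c c0 i =>
    conn3 h (d.nd i) (h3 i) (e3 i) (e4 i) c0
  refine max_of d h (by omega) ht fun M hH hM g hg hg' => ?_
  by_cases h4 : ∀ i, 4 ≤ finrank F (D i)
  · exact hH.step3 d (by omega) hM (fun N NI hK a ha out => Ov.direct d
      (fun g x => hK g (h.om_le_isom x)) NI h4 (fun i => adj_quad h (by omega) (d.nd i) (h2 i)) ha.1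
      (adm_r h a) (inv_ne_zero ha.1) (ha.2 _) out) cc h2 h3 (Or.inr (Or.inl h4)) ht hg hg'
  push Not at h4
  obtain ⟨i, hi⟩ := h4
  obtain ⟨t2, u, u0, u1⟩ := e3 i (by have := h3 i; omega)
  have T : ∀ i, ∀ x ∈ D i, x ≠ 0 → ∀ s, s ∈ TS B Q (D i) x := fun i x hx x0 =>
    ts_three h t2 (d.nd i) (h3 i) hx x0
  have t5 : 5 ≤ t := by
    have := finrank_le_mul d i
    by_contra hc
    have : t * finrank F (D i) ≤ 4 * 3 := Nat.mul_le_mul (by omega) (by omega)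
    omega
  have G : Gen h D := gen_quad h d h2 (fun i x hx x0 => by
      obtain ⟨s, a⟩ := exists_ne_three t2 u0 u1 0 (B x x) (-B x x)
      exact ⟨s, T i x hx x0 s, a⟩)
    (fun i x hx q y hy => by
      by_contra hc
      push Not at hc
      obtain ⟨z, hz, e⟩ := hy
      have := h.irr (d.nd i) (Or.inl (h3 i)) (S := Submodule.span F {b | b ∈ D i ∧ Q b = Q x})
        (fun u hu w hw c a1 a2 a3 s hs => Submodule.span_induction (fun b hb =>
          Submodule.subset_span ⟨h.eich_apply_mem c hu hw hb.1, by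
            rw [(h.eich_mem_isom a1 a2 a3).2, hb.2]⟩) (by simp)
          (fun _ _ _ _ a b => by rw [map_add]; exact add_mem a b)
          (fun _ _ _ a => by rw [map_smul]; exact Submodule.smul_mem _ _ a) hs)
        (Submodule.subset_span ⟨hx, rfl⟩) ((d.exists_ne hx (ne_zero_of_Q h q)).imp
          fun _ a => ⟨a.1, h.refl_ne a.2⟩) hz
      exact e (h.refl ((Submodule.span_le (p := LinearMap.ker (B y))).mpr
        (fun b hb => h.refl (hc b hb.1 hb.2)) this)))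
    (fun i x hx q => top_le_iff.mp fun s _ =>
      AddSubgroup.subset_closure (T i x hx (ne_zero_of_Q h q) s))
    (Or.inl ⟨u, u0, by rintro rfl; simp at u1⟩) fun i x hx q z hz => p7_odd h t2 (d.nd i) hx q hz
  refine hH.step3 d (by omega) hM (fun N NI hK a => G.main d hK NI (sumP_one d h T) (by omega))
    cc h2 h3 (Or.inr (Or.inr ⟨1, sumP_one d h T, by omega, fun i x hx x0 s => ?_⟩)) ht hg hg'
  obtain ⟨r, a, b, -⟩ := exists_ne_three t2 u0 u1 (B x x) (B x x - s) 0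
  exact forced d h hx x0 (T i x hx x0 r) a fun e => b (by simp at e; linear_combination -e)

end Cfsg.Agent.H11.Im
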