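import Mathlib
import Cfsg.Agent.H11.Im5

/-!
Translation of decompositions and some facts on small fields.
-/

set_option autoImplicit false
set_option linter.unusedSectionVars false

namespace Cfsg.Agent.H11.Im

open Module H10 H11 Cfsg.Geo

variable {F : Type*} [Field F] {t : ℕ}

theorem finrank_eq_mul {V : Type*} [AddCommGroup V] [Module F V] [FiniteDimensional F V]
    {σ : F →+* F} {B : V →ₛₗ[σ] V →ₗ[F] F} {Q : V → F} {D : Fin t → Submodule F V}
    {p : Fin t → V →ₗ[F] V} (d : Dec B Q D p) (i : Fin t) :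
    finrank F V = t * finrank F (D i) := by
  refine le_antisymm (finrank_le_mul d i) ?_
  have := LinearMap.finrank_le_finrank_of_surjective
    (f := LinearMap.pi fun j => (p j).codRestrict (D j) (d.mem j)) fun x =>
      ⟨∑ j, (x j).1, funext fun j => Subtype.ext (by
        change p j _ = _
        rw [map_sum, Finset.sum_eq_single j (fun l _ hl => d.zero j l hl.symm _ (x l).2) (by simp),
          d.self j _ (x j).2])⟩
  rw [finrank_pi_fintype, Finset.sum_congr rfl fun j _ => d.finrank_eq j i] at this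
  simpa using this

theorem exists_ne_of_card [Fintype F] (s : Finset F) (hs : s.card < Fintype.card F) : ∃ a, a ∉ s := by
  obtain ⟨a, -, ha⟩ := Finset.exists_mem_notMem_of_card_lt_card (t := Finset.univ) hs
  exact ⟨a, ha⟩

theorem exists_ne01 [Fintype F] (h : Fintype.card F ≠ 2) : ∃ a : F, a ≠ 0 ∧ a ≠ 1 := by
  classical
  have := Fintype.one_lt_card (α := F)
  obtain ⟨a, ha⟩ := exists_ne_of_card ({0, 1} : Finset F)
    (lt_of_le_of_lt Finset.card_le_two (by omega))
  exact ⟨a, by simpa [not_or] using ha⟩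

theorem exists_sq_ne [Fintype F] (h : 4 ≤ Fintype.card F) : ∃ u : F, u ≠ 0 ∧ u * u ≠ 1 := by
  classical
  obtain ⟨a, ha⟩ := exists_ne_of_card ({0, 1, -1} : Finset F)
    (lt_of_le_of_lt Finset.card_le_three (by omega))
  exact ⟨a, by simpa [not_or, mul_self_eq_one_iff] using ha⟩

variable {ι : Type} [Fintype ι] [DecidableEq ι] [Finite F] {B : (ι → F) →ₗ[F] (ι → F) →ₗ[F] F}
  {Q : (ι → F) → F} (h : Cl (σ := RingHom.id F) 1 2 (AddMonoidHom.id F) B Q)
  {D : Fin t → Submodule F (ι → F)} {k : ℕ}
include h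

theorem dec_of_orth (hD : IsOrthogonalMDecomposition Q k D) : ∃ p, Dec B Q D p := by
  have hQ : IsQuad B Q := h.form
  have e : ∀ x y, QuadraticMap.polar Q x y = B x y := fun x y => by
    rw [QuadraticMap.polar, hQ.add']; ring
  refine h.exists_dec (fun i => nondegOn_of (Or.inl e) (hD.decomp.nondegenerate i)) (fun i hi => ?_)
    (fun i j hij x hx y hy => e x y ▸ hD.decomp.orthogonal i j hij x hx y hy)
    hD.decomp.decomp.iSup_eq_top fun i j => ?_
  · have h1 := hD.decomp.decomp.finrank_eq i
    have h2 := hD.decomp.decomp.pos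
    rw [hi] at h1; simp at h1; omega
  · obtain ⟨φ, hφ⟩ := hD.isometric i j
    refine ⟨φ, fun x y => ?_, hφ⟩
    have := hφ (x + y)
    rw [map_add, Submodule.coe_add, Submodule.coe_add, hQ.add', hQ.add', hφ, hφ] at this
    exact add_left_cancel this

theorem max_gl_quad (hn : 5 ≤ Fintype.card ι) (H : IsMaximalIn h.Om (dstab D ⊓ h.Om)) :
    IsMaximalIn (omegaGL Q) (decompositionStabilizer D ⊓ omegaGL Q) :=
  isMaximalIn_gl (mem_omegaGL_iff h hn) (fun g _ => mem_decompositionStabilizer_iff D g) H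

end Cfsg.Agent.H11.Im
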