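import Cfsg.Agent.H11.Bfb6c0
import Cfsg.Agent.H23.Bfb6a

set_option autoImplicit false

namespace Cfsg.Agent.H7.Bf
open Subgroup Cfsg.Agent.H19.Gt Cfsg.Agent.H1.G2
universe u
variable {G : Type u} {K : Type*} [Group G] [Finite G] [CommGroup K] {τ : K × K →* G} {u v : G} {z : K} {S : Sylow 2 G}

theorem b6c (h : Cw S τ u v z) (hO : oddCore G = ⊥) (hM : h.gz.M.Normal) (h3 : 3 ∣ Nat.card G)
    (X : Sylow 3 G) : h.gz.M ⊓ centralizer ((X : Subgroup G) : Set G) = zpowers (τ (z, z)) :=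
  b6c_of h hM h3 X (fun _ ho hn => b6a h hO hM ho hn)

end Cfsg.Agent.H7.Bf
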