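import Mathlib
import Cfsg.Agent.H26.F3c
import Cfsg.Agent.H11.ImB

/-!
Overgroups of an orthogonal group over an extension field: basic tools.
-/

set_option autoImplicit false
set_option linter.unusedSectionVars false

namespace Cfsg.Agent.H11.Fx

open Module H10 H11 H26
open scoped commutatorElement
open H26.MX hiding finrank_le_inf_ker finrank_span_pair_le finrank_span_one_le SLv mem_SLv
  map_eq_of_le

variable {F : Type*} [Field F] {V : Type*} [AddCommGroup V] [Module F V]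
  {E : Type*} [Field E] [Algebra F E] [Module E V] [IsScalarTower F E V]
  {B : V →ₗ[F] V →ₗ[F] F} {M : Subgroup (V ≃ₗ[F] V)} {b : V →ₗ[E] V →ₗ[E] E} {Q : V → F} {q : V → E}
  [Finite E] [Module.Finite F E] [Module.Finite E V]

local notation "𝔱" => Algebra.trace F E

/-- an overgroup of the orthogonal group over the extension field -/
structure OvO (B : V →ₗ[F] V →ₗ[F] F) (Q : V → F) (b : V →ₗ[E] V →ₗ[E] E) (q : V → E)
    (M : Subgroup (V ≃ₗ[F] V)) : Prop where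
  cl : Cl (σ := RingHom.id F) 1 2 (AddMonoidHom.id F) B Q
  cl' : Cl (σ := RingHom.id E) 1 2 (AddMonoidHom.id E) b q
  tr : ∀ x y, Algebra.trace F E (b x y) = B x y
  trq : ∀ x, Algebra.trace F E (q x) = Q x
  two : (2 : E) ≠ 0
  pr : (finrank F E).Prime
  m4 : 4 ≤ finrank E V
  le : M ≤ Isom B Q
  ov : ∀ s : V ≃ₗ[E] V, rs F s ∈ cl.Om → rs F s ∈ M

namespace OvO

variable (o : OvO B Q b q M)
include o

theorem hq : IsQuad b q := o.cl'.form

theorem n5 : 5 ≤ finrank F V := by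
  rw [← finrank_mul_finrank F E V]; nlinarith [o.pr.two_le, o.m4]

theorem z0 {x y : V} (h : b x y = 0) : B x y = 0 := by rw [← o.tr, h, map_zero]

theorem trs (k : E) (x y : V) : B (k • x) y = 𝔱 (k * b x y) := by simp [← o.tr]

theorem trs' (k : E) (x y : V) : B x (k • y) = 𝔱 (k * b x y) := by simp [← o.tr]

theorem bz {x y : V} (h : ∀ k : E, B (k • x) y = 0) : b x y = 0 :=
  trace_ext (F := F) fun k => by rw [← o.trs, h]; simp

theorem sQ {x : V} (h : q x = 0) : Q x = 0 := by rw [← o.trq, h, map_zero]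

theorem ea {u w : V} (hu : q u = 0) (huw : b u w = 0) (c : E) (x : V) :
    o.cl'.eich u w c x = x + b w x • u - b u x • w - (c * b u x) • u := by
  rw [o.cl'.eich_apply hu huw, one_mul]

/-- restriction of scalars on isometry groups -/
def res : Isom b q →* Isom B Q := ((rs F).comp (Isom b q).subtype).codRestrict _ fun s =>
  ⟨fun x y => by simp [← o.tr, s.2.1], fun x => by simp [← o.trq, s.2.2]⟩

theorem mem_of_comm (s : Isom b q) (h : o.res s ∈ commutator (Isom B Q)) : rs F s.1 ∈ M := by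
  have : Module.Finite F V := Module.Finite.trans E V
  have := finite_of_algebra F E
  exact o.ov _ ((mem_om_quad o.cl o.n5 (o.res s)).2 h)

theorem eich {u w : V} (hu : q u = 0) (huw : b u w = 0) : rs F (o.cl'.eich u w (q w)) ∈ M := by
  have : Module.Finite F V := Module.Finite.trans E V
  have := finite_of_algebra F E
  have hQ : IsQuad B Q := o.cl.form
  have h1 : b u ((2 : E)⁻¹ • w) = 0 := by simp [huw]
  let s : Isom b q := ⟨_, o.cl'.eich_mem_isom (c := q ((2 : E)⁻¹ • w)) hu h1 rfl⟩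
  have h2 := o.mem_of_comm (s * s) (by
    rw [map_mul]
    exact hQ.mul_self_mem_commutator o.cl.sep (hQ.nonExc_of_finrank o.cl.sep (by
      have := o.n5; omega)) _)
  have h3 : (s * s).1 = o.cl'.eich u w (q w) := by
    change o.cl'.eich _ _ _ * o.cl'.eich _ _ _ = _
    rw [o.cl'.eich_mul hu h1 h1]
    have := o.two
    congr 1
    · match_scalars; field_simp; ring
    · simp only [o.hq.smul', map_smul, LinearMap.smul_apply, smul_eq_mul, o.hq.diag']
      field_simp; ring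
  rwa [h3] at h2

theorem rr {a a' : V} (ha : q a ≠ 0) (h : q a' = q a) :
    rs F ((o.hq.reflO a').1 * (o.hq.reflO a).1) ∈ M := by
  have h0 : a ≠ 0 := by rintro rfl; exact ha o.cl'.Q_zero
  have h1 : a' ≠ 0 := by rintro rfl; exact ha (h ▸ o.cl'.Q_zero)
  obtain ⟨g, hg, e⟩ := o.cl'.form.witt_one o.cl'.sep h0 h1 h
  have h2 := o.hq.conj_reflO ⟨g, hg⟩ a
  rw [show ((⟨g, hg⟩ : Isom b q)).1 a = a' from e] at h2
  have h3 : o.hq.reflO a' * o.hq.reflO a = ⁅(⟨g, hg⟩ : Isom b q), o.hq.reflO a⁆ := by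
    rw [← h2, commutatorElement_def, inv_eq_of_mul_eq_one_right (o.hq.reflO_mul_self a)]
  refine o.mem_of_comm (o.hq.reflO a' * o.hq.reflO a) ?_
  rw [h3, map_commutatorElement]
  exact Subgroup.commutator_mem_commutator trivial trivial

theorem nd_perp {z : V} (hz : q z ≠ 0) :
    NondegOn b (LinearMap.ker (b z)) ∧ 3 ≤ finrank E (LinearMap.ker (b z)) := by
  have h1 := Im.nondeg_perp_one o.cl' o.cl' (Cl.nondegOn_top o.cl'.sep) (x := z) trivial
    (by simp [o.hq.diag', o.two, hz])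
  have h2 := H10.finrank_le_inf_ker ⊤ (b z)
  have := o.m4
  rw [top_inf_eq] at h1 h2
  rw [finrank_top] at h2
  exact ⟨h1, by omega⟩

theorem trans1 {e e' : V} (he : q e = 0) (he' : q e' = 0) (h : b e e' ≠ 0) :
    ∃ s : V ≃ₗ[E] V, rs F s ∈ M ∧ s ∈ Isom b q ∧ s e = e' := by
  obtain ⟨h1, h2⟩ := o.nd_perp (z := e - e') (by simpa [o.hq.sub', he, he'] using h)
  obtain ⟨u, h3, h4, h5⟩ := o.cl'.exists_sing_not_perp h1 (Or.inl h2) (s := e) ⟨e + e', by
    simp [o.cl'.diag0 he, o.cl'.diag0 he', o.hq.comm e' e], by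
    simpa [o.cl'.diag0 he, o.hq.comm e' e] using h⟩
  have h6 : b u e = b u e' := by
    have : b (e - e') u = 0 := h3
    rw [o.hq.comm, map_sub] at this; exact sub_eq_zero.1 this
  obtain ⟨w, c, h7, h8, h9⟩ := o.cl'.exists_eich_apply h4 (he.trans he'.symm) h6 h5
  obtain rfl : c = q w := h8
  exact ⟨_, o.eich h4 h7, o.cl'.eich_mem_isom h4 h7 rfl, h9⟩

theorem trans {e e' : V} (he : q e = 0) (he' : q e' = 0) (h0 : e ≠ 0) (h0' : e' ≠ 0) :
    ∃ s : V ≃ₗ[E] V, rs F s ∈ M ∧ s ∈ Isom b q ∧ s e = e' := by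
  by_cases h7 : b e' e = 0
  swap
  · exact o.trans1 he he' (o.cl'.refl_ne h7)
  obtain ⟨f, h1, h2, h3⟩ : ∃ f, q f = 0 ∧ b e f ≠ 0 ∧ b e' f ≠ 0 := by
    obtain ⟨f, h1, h2⟩ := o.cl'.form.exists_partner o.cl'.sep he h0
    obtain ⟨f', h3, h4⟩ := o.cl'.form.exists_partner o.cl'.sep he' h0'
    by_cases h5 : b e' f = 0
    swap
    · exact ⟨f, h1, by simp [h2], h5⟩
    by_cases h6 : b e f' = 0
    swap
    · exact ⟨f', h3, h6, by simp [h4]⟩
    refine ⟨f + f' - b f f' • e, ?_, by simp [h2, h6, o.cl'.diag0 he], by simp [h4, h5, h7]⟩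
    simp [o.hq.sub', o.hq.add', o.hq.smul', he, h1, h3, o.hq.comm f e, o.hq.comm f' e, h2, h6]
  obtain ⟨s, a1, a2, a3⟩ := o.trans1 he h1 h2
  obtain ⟨s', b1, b2, b3⟩ := o.trans1 h1 he' (o.cl'.refl_ne h3)
  exact ⟨s' * s, by rw [map_mul]; exact mul_mem b1 a1, mul_mem b2 a2, by rw [mul_app, a3, b3]⟩

theorem esub {U : Submodule E V} (hU : NondegOn b U) (h3 : 3 ≤ finrank E U) {S : AddSubgroup V}
    (hS : ∀ u ∈ U, ∀ w ∈ U, q u = 0 → b u w = 0 → ∀ s ∈ S, o.cl'.eich u w (q w) s ∈ S)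
    {y : V} (hy : y ∈ S) (h : ∃ x ∈ U, b x y ≠ 0) : ∀ x ∈ U, x ∈ S := by
  obtain ⟨u, h1, h2, h4⟩ := o.cl'.exists_sing_not_perp hU (Or.inl h3) h
  have h5 := H10.finrank_le_inf_ker U (b u)
  have h6 := H10.finrank_span_one_le (F := E) u
  obtain ⟨w, ⟨h7, h8⟩, h9⟩ := exists_mem_notMem (W := U ⊓ LinearMap.ker (b u))
    (Z := Submodule.span E {u}) (by omega)
  replace h8 : b u w = 0 := h8
  let S' : Submodule E V :=
    { carrier := {y | ∀ k : E, k • y ∈ S}
      zero_mem' := fun k => by simp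
      add_mem' := fun ha hb k => by rw [smul_add]; exact add_mem (ha k) (hb k)
      smul_mem' := fun c x hx k => by rw [smul_smul]; exact hx _ }
  have h10 : b w y • u - b u y • w ∈ S' := fun k => by
    have a1 : ∀ j : E, b u (j • w) = 0 := fun j => by simp [h8]
    have := sub_mem (hS u h1 _ (U.smul_mem (k / 2) h7) h2 (a1 _) y hy)
      (hS u h1 _ (U.smul_mem (-(k / 2)) h7) h2 (a1 _) y hy)
    rw [o.ea h2 (a1 _), o.ea h2 (a1 _)] at this
    convert this using 1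
    have := o.two
    simp only [o.hq.smul', map_smul, LinearMap.smul_apply, smul_eq_mul]
    match_scalars <;> field_simp <;> ring
  have h11 : b w y • u - b u y • w ∈ U := sub_mem (U.smul_mem _ h1) (U.smul_mem _ h7)
  intro x hx
  have := o.cl'.irr hU (Or.inl h3) (S := S') (fun u hu w hw c a1 a2 a3 s hs k => by
    obtain rfl : c = q w := a3
    rw [← map_smul]; exact hS u hu w hw a1 a2 _ (hs k)) h10 (by
      by_contra a
      push Not at a
      have a2 := hU _ h11 fun z hz => o.cl'.refl (a z hz)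
      exact h9 (Submodule.mem_span_singleton.2 ⟨b w y / b u y, by
        rw [div_eq_inv_mul, mul_smul, inv_smul_eq_iff₀ h4]; exact sub_eq_zero.1 a2⟩)) hx
  simpa using this 1

theorem mem_line {z y : V} (h : ∀ x, b z x = 0 → b x y = 0) : y ∈ Ln F E z :=
  o.cl'.form.mem_of_perp o.cl'.sep (W := Submodule.span E {z}) fun x hx =>
    o.cl'.refl (h x (hx z (Submodule.mem_span_singleton_self z)))

theorem esub_fix {z : V} (hz : q z ≠ 0) {S : AddSubgroup V}
    (hS : ∀ g ∈ M, g z = z → ∀ s ∈ S, g s ∈ S) {y : V} (hy : y ∈ S) (h : y ∉ Ln F E z) :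
    ∀ x, b z x = 0 → x ∈ S := by
  obtain ⟨h1, h2⟩ := o.nd_perp hz
  refine o.esub h1 h2 (fun u hu w hw a1 a2 s hs => hS _ (o.eich a1 a2)
    (o.cl'.eich_fix _ (o.cl'.refl hu) (o.cl'.refl hw)) s hs) hy ?_
  by_contra a
  push Not at a
  exact h (o.mem_line a)

theorem iso {g : V ≃ₗ[F] V} (hg : g ∈ M) {e : V} (he : q e = 0) {x y : V}
    (hx : x ∈ (Ln F E e).map (g : V →ₗ[F] V)) (hy : y ∈ (Ln F E e).map (g : V →ₗ[F] V)) :
    B x y = 0 := by
  obtain ⟨x, hx, rfl⟩ := hx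
  obtain ⟨y, hy, rfl⟩ := hy
  obtain ⟨i, rfl⟩ := mem_Ln.1 hx
  obtain ⟨j, rfl⟩ := mem_Ln.1 hy
  exact ((o.le hg).1 _ _).trans (o.z0 (by simp [o.cl'.diag0 he]))

theorem nrmE_of_lines (h : ∀ g ∈ M, ∀ e, q e = 0 → q (g e) = 0 → ∀ k : E, g (k • e) ∈ Ln F E (g e))
    {g : V ≃ₗ[F] V} (hg : g ∈ M) : NrmE E g := by
  have : Module.Finite F V := Module.Finite.trans E V
  have h1 : ∀ g ∈ M, ∀ e, q e = 0 → q (g e) = 0 := fun g hg e he => by
    by_contra hw
    have e0 : e ≠ 0 := by rintro rfl; exact hw (by simp [o.cl'.Q_zero])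
    by_cases a : ∀ y ∈ (Ln F E e).map (g : V →ₗ[F] V), y ∈ Ln F E (g e)
    · have a1 : (Ln F E e).map (g : V →ₗ[F] V) = Ln F E (g e) :=
        Submodule.eq_of_le_of_finrank_eq a (by
          rw [finrank_map, finrank_Ln e0, finrank_Ln (app_ne_zero g e0)])
      have a2 := o.bz (x := g e) (y := g e) fun k =>
        o.iso hg he (a1 ▸ smul_mem_Ln k _) (a1 ▸ self_mem_Ln _)
      rw [o.hq.diag'] at a2
      exact mul_ne_zero o.two hw a2
    push Not at a
    obtain ⟨y, a1, a2⟩ := a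
    have a3 := o.esub_fix hw (S := ((Ln F E e).map (g : V →ₗ[F] V)).toAddSubgroup)
      (fun s hs a4 x hx => by
        obtain ⟨x, hx, rfl⟩ := hx
        obtain ⟨k, rfl⟩ := mem_Ln.1 hx
        have a5 : (g⁻¹ * s * g) e = e := by simp [mul_app, a4]
        have a6 := h _ (mul_mem (mul_mem (inv_mem hg) hs) hg) e he (by rw [a5, he]) k
        rw [a5] at a6
        exact mem_map_iff.2 a6) a1 a2
    obtain ⟨a4, a5⟩ := o.nd_perp hw
    obtain ⟨x, a6, a7⟩ := exists_ne_zero_of_finrank (W := LinearMap.ker (b (g e))) (by omega)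
    exact a7 (a4 x a6 fun z hz => o.bz fun k => o.iso hg he (a3 _ (Submodule.smul_mem _ k a6)) (a3 z hz))
  refine nrmE_of (by have := o.m4; omega) fun z k => ?_
  by_cases hz : q z = 0
  · exact h g hg z hz (h1 g hg z hz) k
  have z0 : z ≠ 0 := by rintro rfl; exact hz o.cl'.Q_zero
  have a1 : ∀ j : E, g⁻¹ (j • g z) ∈ Ln F E z := fun j => o.mem_line fun x hx => by
    obtain ⟨a4, a5⟩ := o.nd_perp hz
    by_contra a
    obtain ⟨u, a6, a7, a8⟩ := o.cl'.exists_sing_not_perp a4 (Or.inl a5) ⟨x, hx, a⟩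
    replace a6 : b z u = 0 := a6
    refine a8 (o.bz fun i => ?_)
    have u0 : u ≠ 0 := by rintro rfl; simp at a8
    have a9 : (Ln F E u).map (g : V →ₗ[F] V) = Ln F E (g u) :=
      MX.map_eq_of_le (by rw [finrank_Ln u0, finrank_Ln (app_ne_zero g u0)]) fun y hy => by
        obtain ⟨l, rfl⟩ := mem_Ln.1 hy; exact h g hg u a7 (h1 g hg u a7) l
    obtain ⟨l, hl⟩ := mem_Ln.1 (h g hg u a7 (h1 g hg u a7) i)
    obtain ⟨_, a10, a11⟩ := a9.ge (smul_mem_Ln (j * l) (g u))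
    obtain ⟨l', rfl⟩ := mem_Ln.1 a10
    replace a11 : g (l' • u) = (j * l) • g u := a11
    rw [← (o.le hg).1, app_inv, ← hl, o.trs', map_smul, LinearMap.smul_apply, smul_eq_mul,
      ← mul_assoc, ← o.trs, ← a11, (o.le hg).1, o.trs, o.cl'.refl a6]
    simp
  have a2 : (Ln F E (g z)).map ((g⁻¹ : V ≃ₗ[F] V) : V →ₗ[F] V) = Ln F E z :=
    MX.map_eq_of_le (by rw [finrank_Ln z0, finrank_Ln (app_ne_zero g z0)]) fun y hy => by
      obtain ⟨l, rfl⟩ := mem_Ln.1 hy; exact a1 l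
  simpa using mem_map_iff.1 (a2.ge (smul_mem_Ln k z))

end OvO

end Cfsg.Agent.H11.Fx
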