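import Mathlib
import Cfsg.Agent.H11.Fx1

/-!
Overgroups of an orthogonal group over an extension field: maximal intersections.
-/

set_option autoImplicit false
set_option linter.unusedSectionVars false

namespace Cfsg.Agent.H11.Fx

open Module H10 H11 H26
open H26.MX hiding finrank_le_inf_ker finrank_span_pair_le finrank_span_one_le SLv mem_SLv
  map_eq_of_le

variable {F : Type*} [Field F] {V : Type*} [AddCommGroup V] [Module F V]
  {E : Type*} [Field E] [Algebra F E] [Module E V] [IsScalarTower F E V]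
  {B : V →ₗ[F] V →ₗ[F] F} {M : Subgroup (V ≃ₗ[F] V)} {b : V →ₗ[E] V →ₗ[E] E} {Q : V → F} {q : V → E}
  [Finite E] [Module.Finite F E] [Module.Finite E V]

local notation "𝔱" => Algebra.trace F E

/-- the translates of the singular lines over the extension field -/
def Fam (q : V → E) (M : Subgroup (V ≃ₗ[F] V)) : Set (Submodule F V) :=
  {W | ∃ y ∈ M, ∃ v, q v = 0 ∧ v ≠ 0 ∧ W = (Ln F E v).map (y : V →ₗ[F] V)}

theorem Fam.dim {W : Submodule F V} (h : W ∈ Fam q M) : finrank F W = finrank F E := by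
  obtain ⟨y, -, v, -, h0, rfl⟩ := h
  rw [finrank_map, finrank_Ln h0]

theorem normal_pair {v : V} {s : V ≃ₗ[F] V} (hs : s ∈ M) {W : Submodule F V}
    (h : MaxPr M (Fam q M) ((Ln F E v).map (s : V →ₗ[F] V)) W) :
    MaxPr M (Fam q M) (Ln F E v) (W.map ((s⁻¹ : V ≃ₗ[F] V) : V →ₗ[F] V)) := by
  have h4 := h.map (inv_mem hs)
  rwa [map_map', inv_mul_cancel, show (Ln F E v).map ((1 : V ≃ₗ[F] V) : V →ₗ[F] V) = _ from
    Submodule.map_id _] at h4

namespace OvO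

variable (o : OvO B Q b q M)
include o

theorem exists_nf : ∃ k : E, k ∉ (⊥ : Subalgebra F E) :=
  let ⟨k, _, h⟩ := exists_norm_one (F := F) (E := E) o.pr.two_le; ⟨k, h⟩

theorem perp2 (v x : V) : 2 ≤ finrank E ↥(LinearMap.ker (b v) ⊓ LinearMap.ker (b x)) := by
  have h1 := H10.finrank_le_inf_ker ⊤ (b v)
  have h2 := H10.finrank_le_inf_ker (LinearMap.ker (b v)) (b x)
  have := o.m4
  rw [top_inf_eq, finrank_top] at h1
  omega

theorem exists_perp2 (v x : V) : ∃ u, b v u = 0 ∧ b x u = 0 ∧ u ∉ Ln F E v := by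
  have := o.perp2 v x
  have := H10.finrank_span_one_le (F := E) v
  obtain ⟨u, h1, h2⟩ := exists_mem_notMem (W := LinearMap.ker (b v) ⊓ LinearMap.ker (b x))
    (Z := Submodule.span E {v}) (by omega)
  exact ⟨u, h1.1, h1.2, h2⟩

theorem nd2 {v x : V} (hv : q v = 0) (h : b v x ≠ 0) :
    NondegOn b (LinearMap.ker (b v) ⊓ LinearMap.ker (b x)) := fun z hz a => by
  obtain ⟨i, j, rfl⟩ := Submodule.mem_span_pair.1 (o.cl'.form.mem_of_perp o.cl'.sep
    (W := Submodule.span E {v, x}) (x := z) fun y hy =>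
      a y ⟨hy v (Submodule.subset_span (by simp)), hy x (Submodule.subset_span (by simp))⟩)
  obtain ⟨h1, h2⟩ := hz
  obtain rfl : j = 0 := by simpa [o.cl'.diag0 hv, h] using h1
  obtain rfl : i = 0 := by simpa [o.cl'.refl_ne h] using h2
  simp

theorem exists_other {T : Submodule E V} (hT : NondegOn b T) (h2 : 2 ≤ finrank E T) {a : V}
    (ha : a ∈ T) (qa : q a ≠ 0) : ∃ a' ∈ T, q a' = q a ∧ ∃ c, b c a = 0 ∧ b c a' ≠ 0 := by
  have h1 := H10.finrank_le_inf_ker T (b a)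
  obtain ⟨c, ⟨h3, h4⟩, h5⟩ := o.hq.exists_nonsingular (Im.nondeg_perp_one o.cl' o.cl' hT ha
    (by simp [o.hq.diag', o.two, qa])) (fun h => by rw [h, finrank_bot] at h1; omega)
  replace h4 : b a c = 0 := h4
  obtain ⟨l, l0, hl⟩ : ∃ l : E, l ≠ 0 ∧ q a + l * l * q c ≠ 0 := by
    by_cases h6 : q a + q c = 0
    · obtain ⟨k, hk⟩ := o.exists_nf
      refine ⟨k, by rintro rfl; exact hk (zero_mem _), fun h7 => hk ?_⟩
      have : k * k = 1 := mul_left_cancel₀ h5 (by linear_combination h7 - h6)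
      rcases mul_self_eq_one_iff.1 this with rfl | rfl
      · exact one_mem _
      · exact neg_mem (one_mem _)
    · exact ⟨1, one_ne_zero, by simpa using h6⟩
  have h6 : q (a + l • c) = q a + l * l * q c := by simp [o.hq.add', o.hq.smul', h4]
  refine ⟨(o.hq.reflO (a + l • c)).1 a, ?_, (o.hq.reflO (a + l • c)).2.2 a, c, o.cl'.refl h4, ?_⟩
  · rw [o.hq.reflO_apply]
    exact sub_mem ha (T.smul_mem _ (add_mem ha (T.smul_mem _ h3)))
  · simp [o.hq.reflO_apply, h6, o.cl'.refl h4, o.hq.diag', o.two, hl, qa, h5, l0]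

variable {v : V} {W : Submodule F V} (hv : q v = 0) (v0 : v ≠ 0)
  (hP : MaxPr M (Fam q M) (Ln F E v) W)
include hv v0 hP

omit o hv v0 in
theorem stabE {s : V ≃ₗ[E] V} (hs : rs F s ∈ M) (h : s v = v) {x : V} (hx : x ∈ W)
    (hx' : x ∉ Ln F E v) (h1 : s x ∈ W) : ∀ y ∈ W, s y ∈ W := by
  have : Module.Finite F V := Module.Finite.trans E V
  have e : ∀ y ∈ Ln F E v, s y = y := fun y hy => by
    obtain ⟨k, rfl⟩ := mem_Ln.1 hy; rw [map_smul, h]
  exact hP.stab hs (fun y hy _ => e y hy) hx (fun h2 => hx' (s.injective (e _ h2) ▸ h2)) h1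

theorem b1 {x : V} (hx : x ∈ W) (h : b v x ≠ 0) {y : V} (hy : y ∈ W) (h1 : b v y = 0) :
    y ∈ Ln F E v := by
  have : Module.Finite F V := Module.Finite.trans E V
  by_contra hy'
  obtain ⟨u, h2, h3, h4⟩ := o.exists_perp2 v y
  have a1 : ∀ j : E, b v (j • u) = 0 := fun j => by simp [h2]
  have h5 : ∀ j : E, o.cl'.eich v (j • u) (q (j • u)) x ∈ W := fun j =>
    stabE hP (o.eich hv (a1 j)) (o.cl'.eich_fix _ (o.cl'.diag0 hv) (o.cl'.refl (a1 j))) hy hy'
      (by rwa [o.cl'.eich_fix _ h1 (by simp [o.cl'.refl h3])]) x hx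
  have h6 : ∀ k : E, k • (b u x • v - b v x • u) ∈ W := fun k => by
    have := sub_mem (h5 (k / 2)) (h5 (-(k / 2)))
    rw [o.ea hv (a1 _), o.ea hv (a1 _)] at this
    convert this using 1
    have := o.two
    simp only [o.hq.smul', map_smul, LinearMap.smul_apply, smul_eq_mul]
    match_scalars <;> field_simp <;> ring
  have h7 : ∀ k : E, k ≠ 0 → k • (b u x • v - b v x • u) ∉ Ln F E v := fun k k0 a => h4 (by
    obtain ⟨j, hj⟩ := mem_Ln.1 a
    refine mem_Ln.2 ⟨(k * b u x - j) / (k * b v x), ?_⟩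
    rw [div_eq_inv_mul, mul_smul, inv_smul_eq_iff₀ (mul_ne_zero k0 h)]
    linear_combination (norm := module) -hj)
  have h8 : Ln F E (b u x • v - b v x • u) = W := by
    by_contra a
    exact not_Ln_le a ((finrank_Ln fun c => h7 1 one_ne_zero (by simp [c])).trans
      (Fam.dim hP.right).symm) h6
  obtain ⟨z, ⟨h9, h10⟩, h11⟩ := (Submodule.ne_bot_iff _).1 hP.inf
  obtain ⟨k, rfl⟩ := mem_Ln.1 (h8.ge h10)
  exact h7 k (by rintro rfl; simp at h11) h9

theorem b2 {x : V} (hx : x ∈ W) (h : b v x ≠ 0) {y : V} (hy : y ∈ W) {u : V} (h1 : b v u = 0)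
    (h2 : b x u = 0) : b u y = 0 := by
  by_contra h3
  have hT := o.nd2 hv h
  obtain ⟨a, ha, qa, h4⟩ := Im.exists_ns o.cl' o.two hT (z := y) ⟨u, ⟨h1, h2⟩, o.cl'.refl_ne h3⟩
  obtain ⟨a', ha', qa', c, h5, h6⟩ := o.exists_other hT (o.perp2 v x) ha qa
  have e : ∀ z, b a z = 0 → b a' z = 0 → ((o.hq.reflO a').1 * (o.hq.reflO a).1) z = z :=
    fun z a1 a2 => by simp [mul_app, o.hq.reflO_apply, a1, a2]
  have hx' : x ∉ Ln F E v := fun a => by
    obtain ⟨k, rfl⟩ := mem_Ln.1 a; simp [o.cl'.diag0 hv] at h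
  have h7 := stabE hP (o.rr qa qa') (e v (o.cl'.refl ha.1) (o.cl'.refl ha'.1)) hx hx'
    (by rwa [e x (o.cl'.refl ha.2) (o.cl'.refl ha'.2)]) y hy
  rw [mul_app, o.hq.reflO_apply] at h7
  generalize (q a')⁻¹ * b a' _ = m at h7
  rw [o.hq.reflO_apply] at h7
  have a1 : b v a = 0 := ha.1
  have a2 : b v a' = 0 := ha'.1
  have a3 : b x a = 0 := ha.2
  have a4 : b x a' = 0 := ha'.2
  obtain ⟨k, hk⟩ := mem_Ln.1 (o.b1 hv v0 hP hx h (sub_mem h7 hy) (by simp [a1, a2]))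
  have h8 := congrArg (b x) hk
  obtain rfl : k = 0 := by simpa [a3, a4, o.cl'.refl_ne h] using h8
  have h9 := congrArg (b c) hk
  obtain rfl : m = 0 := by simpa [h5, h6] using h9
  have h10 := congrArg (b a) hk
  simp [o.hq.diag', o.two, qa, o.cl'.refl_ne h4] at h10

theorem b3 {x : V} (hx : x ∈ W) (h : b v x ≠ 0) : ∃ W', MaxPr M (Fam q M) W W' ∧
    ∃ y ∈ W', y ∉ W ∧ ∀ z ∈ W, B z y = 0 := by
  have : Module.Finite F V := Module.Finite.trans E V
  obtain ⟨z, ⟨h1, h2⟩, h3⟩ := (Submodule.ne_bot_iff _).1 hP.inf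
  obtain ⟨a, rfl⟩ := mem_Ln.1 h1
  have a0 : a ≠ 0 := by rintro rfl; simp at h3
  obtain ⟨u, ⟨h4, h5⟩, h6⟩ := o.hq.exists_eq_on (o.nd2 hv h) (o.perp2 v x) (a / b v x)
  replace h4 : b v u = 0 := h4
  replace h5 : b x u = 0 := h5
  have ht := o.eich hv h4
  have h7 : rs F (o.cl'.eich v u (q u)) (x + a • v) = x - b v x • u := by
    rw [rs_apply, o.ea hv h4, h6]
    simp only [map_add, map_smul, o.cl'.refl h4, o.cl'.refl h5, o.cl'.diag0 hv, smul_eq_mul]
    match_scalars <;> field_simp <;> ring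
  have h8 : x - b v x • u ∉ W := fun c => by
    have := o.b2 hv v0 hP hx h c h4 h5
    simp [o.cl'.refl h5, o.hq.diag', h6, h, a0, o.two] at this
  have h9 : x - b v x • u ∈ W.map (rs F (o.cl'.eich v u (q u)) : V →ₗ[F] V) :=
    ⟨_, add_mem hx h2, h7⟩
  have h10 : Ln F E v ⊓ W ≤ W ⊓ W.map (rs F (o.cl'.eich v u (q u)) : V →ₗ[F] V) := fun y hy =>
    ⟨hy.2, y, hy.2, by
      obtain ⟨k, rfl⟩ := mem_Ln.1 hy.1
      exact o.cl'.eich_fix _ (by simp [o.cl'.diag0 hv]) (by simp [o.cl'.refl h4])⟩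
  have h11 : W ≠ W.map (rs F (o.cl'.eich v u (q u)) : V →ₗ[F] V) := fun c => h8 (c ▸ h9)
  have h12 := hP.inv _ ht _ hP.right
  refine ⟨_, ⟨hP.inv, hP.right, h12, h11, fun c => hP.inf (eq_bot_iff.2 (c ▸ h10)),
    fun U hU U' hU' c => hP.max U hU U' hU' ((Submodule.finrank_mono h10).trans_lt c)⟩,
    _, h9, h8, fun z hz => ?_⟩
  obtain ⟨s, hs, w, hw, -, rfl⟩ := hP.right
  rw [map_sub, o.iso hs hw hz hx, o.trs', o.cl'.refl (o.b2 hv v0 hP hx h hz h4 h5)]
  simp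

omit hv v0 hP in
theorem exists_perp_pair {U U' : Submodule F V} (h : MaxPr M (Fam q M) U U') :
    ∃ v W, q v = 0 ∧ v ≠ 0 ∧ MaxPr M (Fam q M) (Ln F E v) W ∧ ∀ y ∈ W, b v y = 0 := by
  obtain ⟨s, hs, v, hv, v0, rfl⟩ := h.left
  have h1 := normal_pair hs h
  generalize U'.map ((s⁻¹ : V ≃ₗ[F] V) : V →ₗ[F] V) = W at h1
  by_cases h2 : ∀ y ∈ W, b v y = 0
  · exact ⟨v, W, hv, v0, h1, h2⟩
  push Not at h2
  obtain ⟨x, hx, h2⟩ := h2
  obtain ⟨W', h3, y, h4, h5, h6⟩ := o.b3 hv v0 h1 hx h2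
  obtain ⟨t, ht, w, hw, w0, rfl⟩ := h1.right
  have h7 := normal_pair ht h3
  refine ⟨w, _, hw, w0, h7, fun z hz => by_contra fun c => h5 (mem_map_iff.2 ?_)⟩
  refine o.b1 hw w0 h7 hz c ⟨y, h4, rfl⟩ (o.bz fun k => ?_)
  rw [← (o.le ht).1, app_inv]
  exact h6 _ ⟨_, smul_mem_Ln k w, rfl⟩

omit hv v0 hP in
theorem comm_elt {w u : V} (hw : q w = 0) (hu : b w u = 0) {g : V ≃ₗ[F] V} (hg : g ∈ M)
    (h : ∀ k : E, g (k • w) = k • w) : ∃ z ∈ M, ∀ y,
      z y = y + (b u (g⁻¹ (b w y • u)) - b u (g (b w y • u))) • w := by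
  have h' : ∀ k : E, g⁻¹ (k • w) = k • w := fun k => inv_eq_of (h k)
  have h1 : ∀ y, b w (g y) = b w y := fun y => trace_ext (F := F) fun k => by
    rw [← o.trs, ← o.trs, ← h k, (o.le hg).1, h k]
  have h2 : ∀ y, b w (g⁻¹ y) = b w y := fun y => by rw [← h1, app_inv]
  have ha := o.eich hw hu
  have e1 : ∀ y, rs F (o.cl'.eich w u (q u)) y =
      y + b u y • w - b w y • u - (q u * b w y) • w := fun y => o.ea hw hu _ y
  generalize rs F (o.cl'.eich w u (q u)) = a at ha e1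
  have e2 : ∀ y, (g * a * g⁻¹) y =
      y + b u (g⁻¹ y) • w - g (b w y • u) - (q u * b w y) • w := fun y => by
    rw [mul_app, mul_app, e1, h2]; simp [h]
  have ha' := mul_mem (mul_mem hg ha) (inv_mem hg)
  generalize g * a * g⁻¹ = a' at ha' e2
  have d := o.cl'.diag0 hw
  have d' := o.cl'.refl hu
  have e3 : ∀ y, b w (a y) = b w y := fun y => by simp [e1, d, hu]
  have e4 : ∀ y, b w (a' y) = b w y := fun y => by simp [e2, d, hu, h1]
  refine ⟨a * a' * (a' * a)⁻¹, mul_mem (mul_mem ha ha') (inv_mem (mul_mem ha' ha)), fun y => ?_⟩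
  obtain ⟨y, rfl⟩ := (a' * a).surjective y
  rw [mul_app, inv_app, mul_app, mul_app, e4, e3, e1 (a' y), e2 (a y), e3, e4, e1 y, e2 y]
  simp only [map_add, map_sub, h', map_smul (b u), d', smul_eq_mul, mul_zero]
  module

theorem caseA (h : ∀ y ∈ W, b v y = 0) :
    ∃ κ : E, κ ∉ (⊥ : Subalgebra F E) ∧ ∃ e, q e = 0 ∧ e ≠ 0 ∧ κ • e ∈ o.cl.Arm M e := by
  have : Module.Finite F V := Module.Finite.trans E V
  have hd := (finrank_Ln (F := F) (E := E) v0).trans (Fam.dim hP.right).symm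
  have h1 := not_Ln_le hP.ne hd
  obtain ⟨x, hx, hx'⟩ := SetLike.not_le_iff_exists.1 fun h : W ≤ Ln F E v =>
    hP.ne (Submodule.eq_of_le_of_finrank_eq h hd.symm).symm
  have h2 := hyper_of_key o.pr hP.inf h1 hx' fun φ h4 h5 y hy => by
    obtain ⟨u, rfl⟩ := o.cl'.exists_B φ
    have h6 := o.cl'.refl h4
    have h3 : ∀ y ∈ W, o.cl'.eich v u (q u) y = y + b u y • v := fun y hy =>
      o.cl'.eich_of_perp hv h6 _ (h y hy)
    simpa [h3 y hy, W.add_mem_iff_right hy] using stabE hP (o.eich hv h6)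
      (o.cl'.eich_fix _ (o.cl'.diag0 hv) h4) hx hx' (h3 x hx ▸ add_mem hx h5) y hy
  push Not at h1
  obtain ⟨k₀, hk₀⟩ := h1
  obtain ⟨μ', ν, hA⟩ := exists_adj hd hx hx' h2 (smul_mem_Ln k₀ v) hk₀
  obtain ⟨μ, hμ⟩ := H26.exists_trace_eq (F := F) (E := E)
    (μ' ∘ₗ (LinearMap.toSpanSingleton E V v).restrictScalars F)
  replace hμ : ∀ k, 𝔱 (k * μ) = μ' (k • v) := hμ
  have μ0 : μ ≠ 0 := by rintro rfl; simpa [hA.μw] using hμ k₀
  have h3 : ∀ Y, (∀ z ∈ W, B z Y = 0) → b v Y = B (k₀ • v) Y • μ := fun Y hY =>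
    trace_ext (F := F) fun k => by
      have := hY _ (hA.left _ (smul_mem_Ln k v))
      rw [map_sub, map_smul B (μ' _), LinearMap.sub_apply, LinearMap.smul_apply, sub_eq_zero] at this
      rw [← o.trs, this, mul_smul_comm, map_smul 𝔱, hμ, smul_eq_mul, smul_eq_mul, mul_comm]
  obtain ⟨κ, hκ⟩ := o.exists_nf
  obtain ⟨t, h4, h5, h6⟩ : ∃ t, b v t = 0 ∧ b x t = 0 ∧ ∀ c : F, t - c • k₀ • v ∉ W := by
    by_contra a
    push Not at a
    have a1 : ∀ t, b v t = 0 → b x t = 0 → ∃ d : F, t - d • x ∈ Ln F E v := fun t a2 a3 => by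
      obtain ⟨c, hc⟩ := a t a2 a3
      obtain ⟨d, hd⟩ := h2 _ hc
      exact ⟨d, by simpa [sub_right_comm] using add_mem hd (Submodule.smul_mem _ c (smul_mem_Ln k₀ v))⟩
    obtain ⟨t, a2, a3, a4⟩ := o.exists_perp2 v x
    obtain ⟨d, hd⟩ := a1 t a2 a3
    obtain ⟨d', hd'⟩ := a1 (κ • t) (by simp [a2]) (by simp [a3])
    have d0 : d ≠ 0 := by rintro rfl; exact a4 (by simpa using hd)
    obtain ⟨i, hi⟩ := mem_Ln.1 hd
    obtain ⟨j, hj⟩ := mem_Ln.1 hd'
    have a5 : κ * algebraMap F E d - algebraMap F E d' ≠ 0 := fun c => hκ ⟨d' / d, by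
      have : algebraMap F E d ≠ 0 := by simpa using d0
      simp only [AlgHom.toRingHom_eq_coe, RingHom.coe_coe, Algebra.ofId_apply, map_div₀]
      field_simp; linear_combination -c⟩
    refine hx' (mem_Ln.2 ⟨(j - κ * i) / (κ * algebraMap F E d - algebraMap F E d'), ?_⟩)
    rw [div_eq_inv_mul, mul_smul, inv_smul_eq_iff₀ a5]
    rw [← algebraMap_smul E] at hi hj
    linear_combination (norm := module) hj - κ • hi
  obtain ⟨s, hs, w, hw, w0, rfl⟩ := hP.right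
  obtain ⟨u, h7, h8, h9⟩ : ∃ u, b w u = 0 ∧ b (s⁻¹ (k₀ • v)) u = 1 ∧
      b (s⁻¹ t) u ∉ (⊥ : Subalgebra F E) := by
    obtain ⟨u, a1, a2⟩ := o.cl'.form.exists_perp_not o.cl'.sep (W := Submodule.span E {w})
      (x := s⁻¹ (k₀ • v)) fun c => hk₀ (mem_map_iff.2 c)
    replace a1 := a1 w (Submodule.mem_span_singleton_self w)
    by_cases a3 : b (s⁻¹ t) u ∈ (⊥ : Subalgebra F E)
    swap
    · exact ⟨u, a1, a2, a3⟩
    obtain ⟨c, hc⟩ := a3
    replace hc : algebraMap F E c = b (s⁻¹ t) u := hc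
    obtain ⟨u', a4, a5⟩ := o.cl'.form.exists_perp_not o.cl'.sep (W := Submodule.span E {w})
      (x := s⁻¹ (t - c • k₀ • v)) fun a => h6 c (mem_map_iff.2 a)
    replace a4 := a4 w (Submodule.mem_span_singleton_self w)
    rw [map_sub, map_smul, ← algebraMap_smul E, map_sub, map_smul, LinearMap.sub_apply,
      LinearMap.smul_apply, smul_eq_mul, hc] at a5
    generalize s⁻¹ (k₀ • v) = z at a2 a5 ⊢
    refine ⟨u + κ • (u' - b z u' • u), by simp [a1, a4], by simp [a2], fun a => hκ ?_⟩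
    convert sub_mem a (algebraMap_mem _ c) using 1
    simp only [map_add, map_sub, map_smul, smul_eq_mul, hc]
    linear_combination (-κ) * a5
  refine ⟨_, h9, w, hw, w0, fun a => (o.cl.mem_ar (o.sQ hw)).2 ?_⟩
  have two : (2 : F) ≠ 0 := fun c => o.two (by rw [← map_ofNat (algebraMap F E), c, map_zero])
  have hw' : B w (a • b (s⁻¹ t) u • w) = 0 := by simp [o.trs', o.cl'.diag0 hw]
  refine ⟨hw', 0, (o.cl.sing_smul (o.sQ (o.cl'.sing_smul hw _)) _).symm, ?_⟩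
  obtain ⟨p, hp⟩ : ∃ p : V, p = (algebraMap F E (-a / 2) * μ⁻¹) • t := ⟨_, rfl⟩
  have h10 : b v p = 0 := by simp [hp, h4]
  have h11 : ∀ y ∈ (Ln F E w).map (s : V →ₗ[F] V), o.cl'.eich v p (q p) y = y := fun y hy => by
    obtain ⟨c, hc⟩ := h2 y hy
    obtain ⟨k, hk⟩ := mem_Ln.1 hc
    refine o.cl'.eich_fix _ (h y hy) ?_
    rw [show y = k • v + c • x by rw [hk]; simp, ← algebraMap_smul E c]
    simp [hp, o.cl'.refl h4, o.cl'.refl h5]
  have hr := o.eich hv h10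
  obtain ⟨z, hz, h12⟩ := o.comm_elt hw h7 (mul_mem (mul_mem (inv_mem hs) hr) hs) fun k => by
    rw [mul_app, mul_app, rs_apply, h11 (s _) ⟨_, smul_mem_Ln k w, rfl⟩, inv_app]
  convert hz using 1
  ext y
  rw [h12, o.cl.eich_apply (o.sQ hw) hw']
  generalize hk : b w y = k
  have h13 : ∀ j : E, b v (s (j • u)) = 𝔱 j • μ := fun j => by
    rw [h3 _ fun z hz => by
      obtain ⟨z, hz, rfl⟩ := hz
      obtain ⟨i, rfl⟩ := mem_Ln.1 hz
      exact ((o.le hs).1 _ _).trans (o.z0 (by simp [h7])),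
      ← app_inv s (k₀ • v), (o.le hs).1, o.trs', h8, mul_one]
  have h14 : ∀ j : E, 𝔱 (b t (s (j • u))) = 𝔱 (j * b (s⁻¹ t) u) := fun j => by
    rw [o.tr, ← app_inv s t, (o.le hs).1, o.trs', inv_app]
  have h15 : b u ((s⁻¹ * rs F (o.cl'.eich v p (q p)) * s)⁻¹ (k • u)) -
      b u ((s⁻¹ * rs F (o.cl'.eich v p (q p)) * s) (k • u)) =
      (a * 𝔱 (k * b (s⁻¹ t) u)) • (1 : E) - (a * 𝔱 k) • b (s⁻¹ t) u := trace_ext (F := F) fun j => by
    have hg := o.le (mul_mem (mul_mem (inv_mem hs) hr) hs)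
    rw [mul_sub, map_sub, ← o.trs, ← o.trs, ← hg.1 (j • u), app_inv, mul_app, mul_app,
      mul_app, mul_app, ← (o.le hs).1 (s⁻¹ _), ← (o.le hs).1 _ (s⁻¹ _), app_inv, app_inv, rs_apply,
      rs_apply, o.ea hv h10, o.ea hv h10, ← o.tr, ← o.tr]
    have c1 := h14 j
    have c2 := h14 k
    simp only [map_add, map_sub, map_smul, LinearMap.add_apply, LinearMap.sub_apply,
      LinearMap.smul_apply, smul_eq_mul, o.hq.comm (s _) v, o.hq.comm (s _) p, h13]
    simp only [hp, map_smul, LinearMap.smul_apply, smul_eq_mul]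
    have c3 : ∀ (c d : F) (m : E), algebraMap F E c * μ⁻¹ * m * d • μ = (c * d) • m := fun c d m => by
      simp only [Algebra.smul_def, map_mul]; field_simp
    have c4 : ∀ (c d : F) (m : E), d • μ * (algebraMap F E c * μ⁻¹ * m) = (c * d) • m := fun c d m => by
      rw [mul_comm, c3]
    simp only [c3, c4, map_smul, c1, c2, mul_sub, map_sub, mul_smul_comm, smul_mul_assoc, mul_one,
      smul_eq_mul]
    field_simp
    ring
  rw [h15]
  simp only [map_smul, LinearMap.smul_apply, o.trs, ← o.tr w y, hk, one_mul, zero_mul, smul_eq_mul,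
    mul_comm (b (s⁻¹ t) u) k, sub_smul, smul_assoc, one_smul, zero_smul, sub_zero, mul_smul]
  module

end OvO

end Cfsg.Agent.H11.Fx
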