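import Mathlib
import Cfsg.Agent.H11.Fx2

/-!
The extension field subgroups `O_{n/r}(q^r).r` of the orthogonal groups are maximal (`n/r ≥ 4`).
-/

set_option autoImplicit false
set_option linter.unusedSectionVars false

namespace Cfsg.Agent.H11.Fx

open Module H10 H11 H26
open H26.MX hiding finrank_le_inf_ker finrank_span_pair_le finrank_span_one_le SLv mem_SLv
  map_eq_of_le

variable {F : Type*} [Field F] {V : Type*} [AddCommGroup V] [Module F V]
  {E : Type*} [Field E] [Algebra F E] [Module E V] [IsScalarTower F E V]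
  {B : V →ₗ[F] V →ₗ[F] F} {M : Subgroup (V ≃ₗ[F] V)} {b : V →ₗ[E] V →ₗ[E] E} {Q : V → F} {q : V → E}
  [Finite E] [Module.Finite F E] [Module.Finite E V]

local notation "𝔱" => Algebra.trace F E

namespace OvO

variable (o : OvO B Q b q M)
include o

theorem arm_all {κ : E} (hκ : κ ∉ (⊥ : Subalgebra F E)) {e : V} (he : q e = 0) (e0 : e ≠ 0)
    (h : κ • e ∈ o.cl.Arm M e) (k : E) {v : V} (hv : q v = 0) : k • v ∈ o.cl.Arm M v := by
  let J : Submodule F E :=
    { carrier := {k | ∀ v, q v = 0 → k • v ∈ o.cl.Arm M v}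
      zero_mem' := fun v _ => by simp
      add_mem' := fun ha hb v hv => by rw [add_smul]; exact add_mem (ha v hv) (hb v hv)
      smul_mem' := fun c k hk v hv => by rw [smul_assoc]; exact Submodule.smul_mem _ c (hk v hv) }
  have j1 : (1 : E) ∈ J := fun v hv => by rw [one_smul]; exact o.cl.self_mem_arm (o.sQ hv)
  have jκ : κ ∈ J := fun v hv a => by
    by_cases v0 : v = 0
    · simp [v0]
    obtain ⟨s, h1, -, rfl⟩ := o.trans he hv e0 v0
    simpa using o.cl.map_mem_ar o.le h1 (h a)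
  have z : ∀ (v : V) (i j : E), q v = 0 → B (i • v) (j • v) = 0 := fun v i j hv =>
    o.z0 (by simp [o.cl'.diag0 hv])
  have sq : ∀ (v : V) (i : E), q v = 0 → Q (i • v) = 0 := fun v i hv => o.sQ (o.cl'.sing_smul hv i)
  have jinv : ∀ k ∈ J, k⁻¹ ∈ J := fun k hk v hv a => by
    by_cases k0 : k = 0
    · simp [k0]
    obtain ⟨h1, c, h2, h3⟩ := (o.cl.mem_ar (sq v _ hv)).1 (hk (k⁻¹ • v) (o.cl'.sing_smul hv _) (-a))
    rw [smul_inv_smul₀ k0] at h1 h2 h3
    obtain rfl : c = 0 := h2.trans (o.cl.sing_smul (o.sQ hv) _)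
    have h4 : B v (k⁻¹ • v) = 0 := by simpa using z v 1 k⁻¹ hv
    rw [o.cl.eich_swap (sq v _ hv) (o.cl.sing_smul (o.sQ hv) _) h1,
      o.cl.eich_smul_left (o.sQ hv) (by simp [h4])] at h3
    refine (o.cl.mem_ar (o.sQ hv)).2 ⟨by simp [h4], 0, (o.cl.sing_smul (sq v _ hv) _).symm, ?_⟩
    simpa using h3
  have jsq : ∀ k ∈ J, k * k ∈ J := fun k hk => by
    by_cases k0 : k = 0
    · simp [k0]
    by_cases k1 : k = 1
    · simpa [k1] using j1
    convert sub_mem hk (jinv _ (add_mem (jinv _ hk) (jinv _ (sub_mem j1 hk)))) using 1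
    have : 1 - k ≠ 0 := sub_ne_zero.2 (Ne.symm k1)
    field_simp; ring
  have two : (2 : F) ≠ 0 := fun c => o.two (by rw [← map_ofNat (algebraMap F E), c, map_zero])
  let A : Subalgebra F E :=
    { carrier := J
      mul_mem' := fun {x y} hx hy => by
        have e : x * y = (2 : F)⁻¹ • ((x + y) * (x + y) - x * x - y * y) := by
          have := o.two
          rw [Algebra.smul_def, map_inv₀, map_ofNat]; field_simp; ring
        exact e ▸ J.smul_mem _ (sub_mem (sub_mem (jsq _ (add_mem hx hy)) (jsq _ hx)) (jsq _ hy))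
      add_mem' := fun hx hy => add_mem hx hy
      algebraMap_mem' := fun c => by simpa [Algebra.smul_def] using J.smul_mem c j1 }
  exact (eq_top_of_prime o.pr (A := A) jκ hκ).ge (Algebra.mem_top (x := k)) v hv

theorem exists_conf : ∃ (e f : V) (κ k : E), q e = 0 ∧ q f = 0 ∧ b e f = κ ∧ κ ≠ 0 ∧ 𝔱 κ = 0 ∧
    𝔱 (k * κ) = 1 ∧ (∀ j : E, o.cl.eich f (k • f) 0 (j • e) =
      j • e + (algebraMap F E (𝔱 (k * κ * j)) - algebraMap F E (𝔱 (κ * j)) * k) • f) ∧
    o.cl.eich f (k • f) 0 e = e + f ∧ o.cl.eich f (k • f) 0 (k • e) ∉ Ln F E (e + f) := by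
  obtain ⟨e, -, e0, he⟩ := o.cl'.exists_sing3 (W := ⊤) (by have := o.m4; rw [finrank_top]; omega)
  obtain ⟨f, hf, h1⟩ := o.cl'.form.exists_partner o.cl'.sep he e0
  obtain ⟨κ, h2, κ0⟩ := (Submodule.ne_bot_iff _).1 (LinearMap.ker_ne_bot_of_finrank_lt
    (f := 𝔱) (by simpa using o.pr.one_lt))
  replace h2 : 𝔱 κ = 0 := h2
  obtain ⟨i, hi⟩ := exists_trace_one (F := F) (E := E)
  have h3 : 𝔱 (i / κ * κ) = 1 := by rw [div_mul_cancel₀ _ κ0, hi]
  generalize i / κ = k at h3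
  have h4 : q (κ • f) = 0 := o.cl'.sing_smul hf κ
  have h5 : b e (κ • f) = κ := by simp [h1]
  generalize κ • f = f at h4 h5
  have h6 : ∀ j : E, o.cl.eich f (k • f) 0 (j • e) =
      j • e + (algebraMap F E (𝔱 (k * κ * j)) - algebraMap F E (𝔱 (κ * j)) * k) • f := fun j => by
    rw [o.cl.eich_apply (o.sQ h4) (o.z0 (by simp [o.cl'.diag0 h4])), o.trs, o.trs', map_smul,
      o.hq.comm f e, h5, smul_eq_mul, mul_comm j κ, ← mul_assoc]
    simp only [one_mul, zero_mul, zero_smul, sub_zero, sub_smul, mul_smul, algebraMap_smul]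
    abel
  refine ⟨e, f, κ, k, he, h4, h5, κ0, h2, h3, h6, by simpa [h2, h3] using h6 1, fun c => ?_⟩
  obtain ⟨j, hj⟩ := mem_Ln.1 c
  rw [h6, mul_comm κ k, h3] at hj
  have h7 := congrArg (b e) hj
  have h8 := congrArg (b f) hj
  simp only [map_smul, map_add, o.cl'.diag0 he, o.cl'.diag0 h4, h5, o.hq.comm f e, smul_eq_mul,
    zero_add, add_zero, mul_zero, mul_left_inj' κ0, map_one, one_mul] at h7 h8
  have two : (2 : F) ≠ 0 := fun c => o.two (by rw [← map_ofNat (algebraMap F E), c, map_zero])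
  have h9 : k = algebraMap F E (𝔱 (k * κ * k) / 2) := by
    have := o.two
    rw [map_div₀, map_ofNat, eq_div_iff this]; linear_combination h7 - h8
  rw [h9, ← Algebra.smul_def, map_smul, h2] at h3
  simp at h3

theorem exists_not : ∃ g ∈ o.cl.Om, ¬ NrmE E g := by
  obtain ⟨e, f, κ, k, -, hf, -, -, -, -, -, h1, h2⟩ := o.exists_conf
  refine ⟨_, o.cl.eich_mem_om (c := 0) (o.sQ hf) (o.z0 (x := f) (y := k • f)
    (by simp [o.cl'.diag0 hf])) (o.sQ (o.cl'.sing_smul hf k)).symm, fun h => h2 ?_⟩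
  obtain ⟨j, hj⟩ := h k
  rw [hj, h1]; exact smul_mem_Ln _ _

theorem om_le_of_arm (h : ∀ (k : E) v, q v = 0 → k • v ∈ o.cl.Arm M v) : o.cl.Om ≤ M := by
  have : Module.Finite F V := Module.Finite.trans E V
  obtain ⟨e, f, κ, k, he, hf, h1, κ0, h2, h3, h4, h5, h6⟩ := o.exists_conf
  obtain ⟨-, c, h7, hg⟩ := (o.cl.mem_ar (o.sQ hf)).1 (o.cl.ar_of_arm (h k f hf))
  obtain rfl : c = 0 := h7.trans (o.sQ (o.cl'.sing_smul hf k))
  generalize o.cl.eich f (k • f) 0 = g at h4 h5 h6 hg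
  have h8 : ∀ j : E, g (j • e) ∈ o.cl.Ar M (e + f) := fun j =>
    h5 ▸ o.cl.map_mem_ar o.le hg (o.cl.ar_of_arm (h j e he))
  have h9 : q (e + f) = κ := by simp [o.hq.add', he, hf, h1]
  have h10 := o.esub_fix (h9.trans_ne κ0) (S := o.cl.Ar M (e + f))
    (fun s hs a x hx => o.cl.map_mem_ar_fix o.le hs a hx) (h8 k) h6
  have two : (2 : F) ≠ 0 := fun c => o.two (by rw [← map_ofNat (algebraMap F E), c, map_zero])
  have h11 : o.cl.Full M (e + f) := o.cl.full_of_ar (by rw [← o.trq, h9, h2]) (fun y hy => by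
    rw [← o.tr] at hy
    generalize ht : b (e + f) y = t at hy
    have a1 : 𝔱 (κ * (t / κ - algebraMap F E (𝔱 (k * t) / 2))) = 0 := by
      rw [mul_sub, mul_div_cancel₀ _ κ0, map_sub, hy, mul_comm κ, ← Algebra.smul_def, map_smul, h2]
      simp
    have a2 : 𝔱 (k * κ * (t / κ - algebraMap F E (𝔱 (k * t) / 2))) = 𝔱 (k * t) / 2 := by
      rw [mul_sub, mul_assoc, mul_div_cancel₀ _ κ0, map_sub, mul_comm (k * κ), ← Algebra.smul_def,
        map_smul, h3, smul_eq_mul]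
      field_simp; ring
    have a3 := add_mem (h10 (y - g ((t / κ - algebraMap F E (𝔱 (k * t) / 2)) • e)) (by
      rw [map_sub, ht, h4, a1, a2]
      simp only [map_add, map_smul, LinearMap.add_apply, o.cl'.diag0 he, o.cl'.diag0 hf, h1,
        o.hq.comm f e, smul_eq_mul, map_zero]
      field_simp; ring)) (h8 (t / κ - algebraMap F E (𝔱 (k * t) / 2)))
    rwa [sub_add_cancel] at a3) fun c hc => by
      rw [show c = 0 from hc, o.cl.eich_zero]; exact one_mem _
  have h12 : o.cl.Full M e := by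
    simpa [← h5] using h11.map o.le (inv_mem hg)
  have h13 : B e (k • f) = 1 := by rw [o.trs', h1, h3]
  obtain ⟨s, h14, -, h15⟩ := o.trans he (o.cl'.sing_smul hf k) (by rintro rfl; simp at h13)
    (fun c => by simp [c] at h13)
  exact o.cl.om_le_of_full o.le h12 (h12.map o.le h14) (by simp [h15, h13])

theorem om_le {g : V ≃ₗ[F] V} (hg : g ∈ M) (hg' : ¬ NrmE E g) : o.cl.Om ≤ M := by
  have : Module.Finite F V := Module.Finite.trans E V
  have : Finite V := Module.finite_of_finite E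
  obtain ⟨g, hg, v, hv, h1, k, hk⟩ : ∃ g ∈ M, ∃ e, q e = 0 ∧ q (g e) = 0 ∧
      ∃ k : E, g (k • e) ∉ Ln F E (g e) := by
    by_contra a
    push Not at a
    exact hg' (o.nrmE_of_lines a hg)
  have v0 : v ≠ 0 := by rintro rfl; simp at hk
  obtain ⟨U, U', hP⟩ := exists_maxPr (M := M) (S := Fam q M) (W := Ln F E (g v)) (by
    rintro g hg _ ⟨y, hy, β, hβ, h0, rfl⟩
    exact ⟨g * y, mul_mem hg hy, β, hβ, h0, map_map' _ _ _⟩)
    ⟨1, one_mem _, _, h1, app_ne_zero g v0, (Submodule.map_id _).symm⟩ ⟨g, hg, v, hv, v0, rfl⟩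
    (fun h => hk (h ▸ ⟨_, smul_mem_Ln k v, rfl⟩)) ((Submodule.ne_bot_iff _).2
      ⟨g v, ⟨self_mem_Ln _, _, self_mem_Ln _, rfl⟩, app_ne_zero g v0⟩)
  obtain ⟨v, W, h2, h3, h4, h5⟩ := o.exists_perp_pair hP
  obtain ⟨κ, h6, e, h7, h8, h9⟩ := o.caseA h2 h3 h4 h5
  exact o.om_le_of_arm fun k v hv => o.arm_all h6 h7 h8 h9 k hv

end OvO

theorem o_fld_max (h : Cl (σ := RingHom.id F) 1 2 (AddMonoidHom.id F) B Q)
    (hr : (finrank F E).Prime) (h2 : (2 : F) ≠ 0) (ha : ∀ (k : E) u v, B (k • u) v = B u (k • v))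
    (hm : 4 ≤ finrank E V) : (∃ g ∈ h.Om, ¬ NrmE E g) ∧ ∀ M ≤ h.Om,
      (∀ g ∈ h.Om, NrmE E g → g ∈ M) → ∀ g ∈ M, ¬ NrmE E g → h.Om ≤ M := by
  obtain ⟨b, h1⟩ := exists_lift (σ := RingHom.id E) (B := B) ha
  have h3 : ∀ x y, b y x = b x y := fun x y => by
    simpa using lift_symm h1 (fun _ => rfl) (fun _ => rfl) h.symm x y
  have h2' : (2 : E) ≠ 0 := by rw [← map_ofNat (algebraMap F E)]; simpa using h2
  have hq : IsQuad b fun x => b x x / 2 := IsQuad.of_add_smul (fun x y => by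
    simp only [map_add, LinearMap.add_apply, h3 x y]; field_simp; ring) fun c x => by
    simp only [map_smul, LinearMap.smul_apply, smul_eq_mul]; ring
  have hQ : IsQuad B Q := h.form
  have o : ∀ M ≤ h.Om, (∀ g ∈ h.Om, NrmE E g → g ∈ M) → OvO B Q b (fun x => b x x / 2) M :=
    fun M hM hN => ⟨h, clQuad hq (lift_sep h1 h.sep), h1, fun x => by
      rw [show b x x / 2 = (2 : F)⁻¹ • b x x by
        rw [Algebra.smul_def, map_inv₀, map_ofNat, div_eq_inv_mul], map_smul, h1, hQ.diag']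
      simp [h2], h2', hr, hm, hM.trans h.om_le_isom, fun s hs => hN _ hs (nrmE_rs s)⟩
  exact ⟨(o _ le_rfl fun _ a _ => a).exists_not, fun M hM hN g hg hg' => (o M hM hN).om_le hg hg'⟩

open Matrix Geo

omit [Module.Finite E V] in
theorem o_fld_mat {ι : Type} [Fintype ι] [DecidableEq ι] (φ : E →ₐ[F] Matrix ι ι F)
    {B : (ι → F) →ₗ[F] (ι → F) →ₗ[F] F} {Q : (ι → F) → F}
    (h : Cl (σ := RingHom.id F) 1 2 (AddMonoidHom.id F) B Q) (hr : (finrank F E).Prime)
    (h2 : (2 : F) ≠ 0) (hn : 3 * finrank F E < Fintype.card ι)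
    (ha : IsSelfAdjointFor (QuadraticMap.polar Q) φ.range) :
    IsMaximalIn (omegaGL Q) (subalgebraNormalizer φ.range ⊓ omegaGL Q) := by
  have h1 := EV.finrank_mul φ
  have := finite_of_algebra F E
  have hQ : IsQuad B Q := h.form
  have := hr.two_le
  obtain ⟨h3, h4⟩ := o_fld_max (E := E) (h.pullback (EV.eq φ)) hr h2 (fun k u v => by
    have := ha _ ⟨k, rfl⟩ (EV.eq φ u) (EV.eq φ v)
    rw [hQ.polar_eq, hQ.polar_eq] at this
    exact this) (by
      by_contra c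
      have : finrank E (EV φ) ≤ 3 := by omega
      nlinarith)
  exact fld_max_of (fun g => (mem_omegaGL_iff h (by omega) g).trans (mem_om_gE φ _ g)) h3 h4

end Cfsg.Agent.H11.Fx
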