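import Mathlib
import Cfsg.Agent.H11.Fx3
import Cfsg.Agent.H11.OrthOrder
import Cfsg.Agent.H16.FreeEx
import Cfsg.Agent.S0035
import Cfsg.Agent.S0039

/-!
Small algebraic lemmas for the extension field subgroups `O₃(q^r).r`.
-/

set_option autoImplicit false
set_option linter.unusedSectionVars false

namespace Cfsg.Agent.H11.Fy

open Module H10 H11 H26

theorem frob_cyclic {G : Type*} [Group G] [Finite G] {H : Subgroup G}
    (hH : Cfsg.IsFrobeniusComplement H) [IsMulCommutative H] : IsCyclic H := by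
  obtain ⟨N, -, hN, hc⟩ := Cfsg.Agent.S0035.result H hH
  have h0 : N ≠ ⊥ := by
    rintro rfl
    exact hH.2.1 (Subgroup.isComplement'_bot_left.1 hc)
  have := (Subgroup.nontrivial_iff_ne_bot N).2 h0
  have h1 := (Cfsg.Agent.S0039.result N H hc h0 hH.1).1 hH
  refine H16.FreeAut.isCyclic_of_comm (φ := (MulAut.conjNormal (H := N)).comp H.subtype)
    fun g hg k e => Subtype.ext ?_
  have h2 : k.1 ∈ N ⊓ Subgroup.centralizer {g.1} := ⟨k.2, Subgroup.mem_centralizer_singleton_iff.2 (by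
    have := congrArg Subtype.val e
    simp only [MonoidHom.comp_apply, Subgroup.subtype_apply, MulAut.conjNormal_apply] at this
    exact (mul_inv_eq_iff_eq_mul.1 this).symm)⟩
  rw [h1 g g.2 (fun c => hg (Subtype.ext c))] at h2
  exact h2

variable {F : Type*} [Field F] {E : Type*} [Field E] [Algebra F E] [Finite E] [Module.Finite F E]

theorem alg_top (hr : (finrank F E).Prime) {A : Subalgebra F (End F E)}
    (hE : ∀ k, LinearMap.mul F E k ∈ A) {α : End F E} (hα : α ∈ A)
    (h0 : ∀ k, α ≠ LinearMap.mul F E k) : A = ⊤ := by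
  have sm : ∀ (a : A) (x : E), a • x = a.1 x := fun _ _ => rfl
  have : IsSimpleModule A E := by
    refine { toIsSimpleOrder := { eq_bot_or_eq_top := fun S => ?_ } }
    refine or_iff_not_imp_left.2 fun h => eq_top_iff.2 fun y _ => ?_
    obtain ⟨x, hx, x0⟩ := (Submodule.ne_bot_iff S).1 h
    have := S.smul_mem ⟨_, hE (y / x)⟩ hx
    rwa [sm, LinearMap.mul_apply', div_mul_cancel₀ _ x0] at this
  have h1 : ∀ φ : End A E, ∀ x, φ x = φ 1 * x := fun φ x => by
    have := φ.map_smul ⟨_, hE x⟩ 1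
    rwa [sm, sm, LinearMap.mul_apply', LinearMap.mul_apply', mul_one, mul_comm] at this
  let D : Subalgebra F E :=
    { carrier := {c | ∀ x, α (c * x) = c * α x}
      mul_mem' := fun {a b} ha hb x => by rw [mul_assoc, ha, hb, mul_assoc]
      add_mem' := fun {a b} ha hb x => by rw [add_mul, map_add, ha, hb, add_mul]
      algebraMap_mem' := fun c x => by rw [← Algebra.smul_def, map_smul, Algebra.smul_def] }
  have h2 : ∀ φ : End A E, ∃ c : F, φ 1 = algebraMap F E c := fun φ => by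
    by_contra c
    have h3 : D = ⊤ := MX.eq_top_of_prime hr (β := φ 1) (fun x => by
      have := φ.map_smul ⟨α, hα⟩ x
      rw [sm, sm, h1 φ x, h1 φ (α x)] at this
      exact this.symm) fun ⟨d, hd⟩ => c ⟨d, hd.symm⟩
    exact h0 (α 1) (LinearMap.ext fun x => by
      simpa [mul_comm] using (h3.ge (Algebra.mem_top (x := x)) : x ∈ D) 1)
  refine eq_top_iff.2 fun f _ => ?_
  let f' : End (End A E) E :=
    { toFun := f
      map_add' := f.map_add
      map_smul' := fun φ x => by
        obtain ⟨c, hc⟩ := h2 φ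
        change f (φ x) = φ (f x)
        rw [h1 φ x, h1 φ (f x), hc, ← Algebra.smul_def, ← Algebra.smul_def, map_smul] }
  have := Fintype.ofFinite E
  obtain ⟨a, ha⟩ := jacobson_density (R := A) (M := E) f' Finset.univ
  exact (show f = a.1 from LinearMap.ext fun x => ha x (Finset.mem_univ x)) ▸ a.2

theorem exists_sq_mul (ho : Odd (finrank F E)) (h2 : (2 : F) ≠ 0) {k : E} (hk : k ≠ 0) :
    ∃ (a : E) (l : F), l ≠ 0 ∧ a * a * k = algebraMap F E l := by
  have := finite_of_algebra F E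
  have := Fintype.ofFinite F
  have h1 : Odd (Nat.card F) := by
    rw [Nat.card_eq_fintype_card]; exact H26.two_ne_zero_iff_odd.1 h2
  have h3 : Odd (∑ i ∈ Finset.range (finrank F E), Nat.card F ^ i) := by
    rw [Finset.odd_sum_iff_odd_card_odd, Finset.filter_true_of_mem fun i _ => h1.pow]
    simpa using ho
  obtain ⟨m, hm⟩ := h3
  refine ⟨k ^ m, Algebra.norm F k, Algebra.norm_ne_zero_iff.2 hk, ?_⟩
  rw [FiniteField.algebraMap_norm_eq_pow_sum, hm]; ring

theorem sq_notMem (ho : Odd (finrank F E)) (hr : (finrank F E).Prime) {k : E}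
    (hk : k ∉ (⊥ : Subalgebra F E)) : k * k ∉ (⊥ : Subalgebra F E) := by
  rintro ⟨c, hc⟩
  replace hc : algebraMap F E c = k * k := hc
  let A : Subalgebra F E :=
    { carrier := {x | ∃ a b : F, x = a • (1 : E) + b • k}
      mul_mem' := by
        rintro _ _ ⟨a, b, rfl⟩ ⟨a', b', rfl⟩
        refine ⟨a * a' + b * b' * c, a * b' + b * a', ?_⟩
        simp only [Algebra.smul_def, map_add, map_mul, hc]; ring
      add_mem' := by
        rintro _ _ ⟨a, b, rfl⟩ ⟨a', b', rfl⟩
        exact ⟨a + a', b + b', by module⟩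
      algebraMap_mem' := fun a => ⟨a, 0, by simp [Algebra.smul_def]⟩ }
  have h1 : A = ⊤ := MX.eq_top_of_prime hr (β := k) ⟨0, 1, by simp⟩ hk
  have h2 := H10.finrank_span_pair_le (F := F) (1 : E) k
  rw [show Submodule.span F {(1 : E), k} = ⊤ from eq_top_iff.2 fun x _ => by
    obtain ⟨a, b, rfl⟩ : x ∈ A := h1.ge Algebra.mem_top
    exact Submodule.mem_span_pair.2 ⟨a, b, rfl⟩, finrank_top] at h2
  have := hr.two_le
  obtain ⟨m, hm⟩ := ho
  omega

theorem exists_nonsq (ho : Odd (finrank F E)) (h2 : (2 : F) ≠ 0) :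
    ∃ l : F, ¬ IsSquare (algebraMap F E l) := by
  have h2' : (2 : E) ≠ 0 := by rw [← map_ofNat (algebraMap F E)]; simpa using h2
  have := Fintype.ofFinite E
  obtain ⟨k, hk⟩ := FiniteField.exists_nonsquare (F := E) (fun c => h2' (by
    exact_mod_cast (ringChar.spec E 2).2 (c ▸ dvd_rfl)))
  have k0 : k ≠ 0 := by rintro rfl; exact hk IsSquare.zero
  obtain ⟨a, l, l0, h⟩ := exists_sq_mul ho h2 k0
  have a0 : a ≠ 0 := by rintro rfl; exact l0 (by simpa using h.symm)
  refine ⟨l, fun ⟨s, hs⟩ => hk ⟨s / a, ?_⟩⟩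
  field_simp; linear_combination h.trans hs

omit [Algebra F E] [Finite E] [Module.Finite F E] in
theorem two_fixed {V : Type*} [AddCommGroup V] [Module F V] [FiniteDimensional F V]
    {X : Submodule F V} (h4 : 4 ≤ finrank F X) {N : End F V} (h1 : ∀ x ∈ X, N x ∈ X)
    (h3 : ∀ x ∈ X, N (N (N x)) = 0) :
    ∃ x ∈ X, ∃ y ∈ X, N x = 0 ∧ N y = 0 ∧ x ≠ 0 ∧ y ∉ Submodule.span F {x} := by
  have a1 := finrank_le_inf_ker_add X N
  have a2 := finrank_le_inf_ker_add (X.map N) N
  have a3 := finrank_le_inf_ker_add ((X.map N).map N) N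
  have b1 : X.map N ≤ X := by rintro _ ⟨x, hx, rfl⟩; exact h1 x hx
  have b2 := Submodule.finrank_mono (inf_le_inf_right (LinearMap.ker N) b1)
  have b3 := Submodule.finrank_mono (inf_le_inf_right (LinearMap.ker N)
    ((Submodule.map_mono b1).trans b1))
  rw [show ((X.map N).map N).map N = ⊥ from eq_bot_iff.2 (by
    rintro _ ⟨_, ⟨_, ⟨x, hx, rfl⟩, rfl⟩, rfl⟩; exact h3 x hx), finrank_bot] at a3
  obtain ⟨x, hx, x0⟩ := exists_mem_notMem (W := X ⊓ LinearMap.ker N) (Z := ⊥) (by simp; omega)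
  have := H10.finrank_span_one_le (F := F) x
  obtain ⟨y, hy, y0⟩ := exists_mem_notMem (W := X ⊓ LinearMap.ker N) (Z := Submodule.span F {x})
    (by omega)
  exact ⟨x, hx.1, y, hy.1, hx.2, hy.2, by simpa using x0, y0⟩

omit [Algebra F E] [Finite E] [Module.Finite F E] in
theorem card_sing_odd [Finite F] {V : Type*} [AddCommGroup V] [Module F V] [FiniteDimensional F V]
    {B : V →ₗ[F] V →ₗ[F] F} {Q : V → F} (h : IsQuad B Q) (hB : B.SeparatingLeft) {m : ℕ}
    (hn : finrank F V = 2 * m + 1) : Nat.card {v : V // Q v = 0 ∧ v ≠ 0} + 1 = Nat.card F ^ (2 * m) := by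
  have : Finite V := Module.finite_of_finite F
  obtain ⟨ν, hν⟩ := IsForm.exists_wittIdx h
  have h1 := IsQuad.finrank_le_wittIdx' h hB hν
  have h2 := IsForm.two_mul_wittIdx_le h hB hν
  obtain rfl : ν = m := by omega
  rw [h.card_nonzero_singular]
  exact_mod_cast IsQuad.card_singular_odd ν h hB hν hn

end Cfsg.Agent.H11.Fy
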