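import Mathlib
import Cfsg.Agent.H11.Fy2
import Cfsg.Agent.H10.Alt

/-!
Overgroups of `Ω₃(q^r)` in `Ω_{3r}(q)`: the stabiliser of a singular line.
-/

set_option autoImplicit false
set_option linter.unusedSectionVars false

namespace Cfsg.Agent.H11.Fy

open Module H10 H11 H26
open Cfsg.Agent.H11.Fx (Fam normal_pair)
open H26.MX hiding finrank_le_inf_ker finrank_span_pair_le finrank_span_one_le SLv mem_SLv
  map_eq_of_le

variable {F : Type*} [Field F] {V : Type*} [AddCommGroup V] [Module F V]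
  {E : Type*} [Field E] [Algebra F E] [Module E V] [IsScalarTower F E V]
  {B : V →ₗ[F] V →ₗ[F] F} {M : Subgroup (V ≃ₗ[F] V)} {b : V →ₗ[E] V →ₗ[E] E} {Q : V → F} {q : V → E}
  [Finite E] [Module.Finite F E] [Module.Finite E V]

local notation "𝔱" => Algebra.trace F E

/-- the action of the unipotent radical on the middle factor -/
def FF (E : Type*) [Field E] [Algebra F E] [Module E V] (M : Subgroup (V ≃ₗ[F] V)) (v u : V) :
    AddSubgroup (End F E) where
  carrier := {f | ∃ ρ ∈ M, (∀ k : E, ρ (k • v) = k • v) ∧ ∀ k : E, ρ (k • u) = k • u + f k • v}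
  zero_mem' := ⟨1, one_mem _, fun _ => rfl, fun _ => by simp⟩
  add_mem' := by
    rintro f f' ⟨ρ, h1, h2, h3⟩ ⟨ρ', h4, h5, h6⟩
    exact ⟨ρ * ρ', mul_mem h1 h4, fun k => by rw [mul_app, h5, h2], fun k => by
      rw [mul_app, h6, map_add, h3, h2, LinearMap.add_apply, add_smul, add_assoc]⟩
  neg_mem' := by
    rintro f ⟨ρ, h1, h2, h3⟩
    exact ⟨ρ⁻¹, inv_mem h1, fun k => inv_eq_of (h2 k), fun k => inv_eq_of (by
      rw [map_add, h3, h2]; simp)⟩

namespace Ov3

variable (o : Ov3 B Q b q M) {v u w : V} (f : Fr b q v u w)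
include o

/-- the root elements over the extension field -/
noncomputable def tau (v u : V) (j : E) : V ≃ₗ[F] V := rs F (o.cl'.eich v (j • u) (q (j • u)))

include f

theorem tau_mem (j : E) : o.tau v u j ∈ M := o.eich f.qv (by simp [f.vu])

theorem tau_apply (j c a k : E) : o.tau v u j (c • w + a • u + k • v) =
    c • w + (a - j * c) • u + (k + 2 * j * a * q u - j * j * q u * c) • v := by
  rw [tau, rs_apply, o.ea f.qv (by simp [f.vu]), o.hq.smul']
  simp only [map_add, map_smul, LinearMap.smul_apply, smul_eq_mul, f.vw, f.vu, f.vv, f.uw, f.uu, f.uv]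
  module

theorem tau_v (j k : E) : o.tau v u j (k • v) = k • v := by simpa using o.tau_apply f j 0 0 k

theorem tau_u (j a : E) : o.tau v u j (a • u) = a • u + (2 * j * a * q u) • v := by
  simpa using o.tau_apply f j 0 a 0

theorem coord {c a k c' a' k' : E} (h : c • w + a • u + k • v = c' • w + a' • u + k' • v) :
    c = c' ∧ a = a' ∧ k = k' :=
  ⟨by simpa [f.vw, f.vu, f.vv] using congrArg (b v) h,
    by simpa [f.uw, f.uu, f.uv, o.two, f.qu] using congrArg (b u) h,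
    by simpa [f.ww, f.wu, f.wv] using congrArg (b w) h⟩

theorem tau_fix {j : E} (hj : j ≠ 0) {x : V} (h : o.tau v u j x = x) : x ∈ Ln F E v := by
  obtain ⟨c, a, k, rfl⟩ := f.dec x
  rw [o.tau_apply f] at h
  obtain ⟨-, h1, h2⟩ := o.coord f h
  obtain rfl : c = 0 := by simpa [hj] using h1
  obtain rfl : a = 0 := by simpa [hj, o.two, f.qu] using h2
  simpa using smul_mem_Ln k v

theorem mul_mem_FF (j : E) : LinearMap.mul F E j ∈ FF E M v u :=
  ⟨_, o.tau_mem f (j / (2 * q u)), o.tau_v f _, fun k => by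
    have := o.two; have := f.qu
    rw [o.tau_u f, LinearMap.mul_apply']; congr 2; field_simp⟩

omit f in
theorem perp_stab {ρ : V ≃ₗ[F] V} (hρ : ρ ∈ M) (h : ∀ k : E, ρ (k • v) ∈ Ln F E v) {y : V}
    (hy : b v y = 0) : b v (ρ⁻¹ y) = 0 := o.bz fun k => by
  obtain ⟨j, hj⟩ := mem_Ln.1 (h k)
  rw [← (o.le hρ).1, app_inv, ← hj, o.trs, hy, mul_zero, map_zero]

theorem conj_mem {ρ : V ≃ₗ[F] V} (hρ : ρ ∈ M) {g : E ≃ₗ[F] E} (h : ∀ k : E, ρ (k • v) = g k • v)
    (k : E) {φ : End F E} (hφ : φ ∈ FF E M v u) :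
    (g.toLinearMap * LinearMap.mul F E k * g.symm.toLinearMap) * φ ∈ FF E M v u := by
  have h' : ∀ k : E, ρ⁻¹ (k • v) = g.symm k • v := fun k => inv_eq_of (by rw [h]; simp)
  have h1 : ∀ t : E, (g.toLinearMap * LinearMap.mul F E (t * t) * g.symm.toLinearMap) * φ ∈
      FF E M v u := fun t => by
    by_cases ht : t = 0
    · simp [ht]
    obtain ⟨s, h1, -, h2, h3⟩ := o.torus f ht
    obtain ⟨σ, h4, h5, h6⟩ := hφ
    have hη := mul_mem (mul_mem hρ h1) (inv_mem hρ)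
    have e1 : ∀ k : E, (ρ * rs F s * ρ⁻¹) (k • v) = g (t * t * g.symm k) • v := fun k => by
      rw [mul_app, mul_app, h', rs_apply, map_smul, h2, smul_smul, h, mul_comm]
    have e2 : ∀ k : E, ∃ χ : E, (ρ * rs F s * ρ⁻¹) (k • u + χ • v) = k • u := fun k => by
      obtain ⟨a, χ, e⟩ := f.perp (o.perp_stab hρ (fun k => h k ▸ smul_mem_Ln _ _) (y := k • u)
        (by simp [f.vu]))
      refine ⟨g ((t * t)⁻¹ * χ - χ), ?_⟩
      rw [mul_app, mul_app, map_add, e, h', g.symm_apply_apply, rs_apply, ← app_inv ρ (k • u), e]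
      congr 1
      simp only [map_add, map_smul, h2, h3]
      match_scalars <;> field_simp; ring
    generalize ρ * rs F s * ρ⁻¹ = η at hη e1 e2
    refine ⟨η * σ * η⁻¹, mul_mem (mul_mem hη h4) (inv_mem hη), fun k => ?_, fun k => ?_⟩
    · obtain ⟨j, hj⟩ : ∃ j : E, η (j • v) = k • v :=
        ⟨g ((t * t)⁻¹ * g.symm k), by
          rw [e1, g.symm_apply_apply, mul_inv_cancel_left₀ (mul_ne_zero ht ht), g.apply_symm_apply]⟩
      rw [mul_app, mul_app, inv_eq_of hj, h5, hj]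
    · obtain ⟨χ, e⟩ := e2 k
      rw [mul_app, mul_app, inv_eq_of e, map_add, h5, h6, add_right_comm, map_add, e, e1]; rfl
  convert sub_mem (h1 ((k + 1) / 2)) (h1 ((k - 1) / 2)) using 1
  have := o.two
  rw [← sub_mul, ← sub_mul, ← mul_sub, ← map_sub]
  congr 4; field_simp; ring

theorem zform {z : V ≃ₗ[F] V} (hz : z ∈ M) (h : ∀ y, b v y = 0 → z y = y) :
    ∃ ζ : End F E, ∀ x, z x = x + ζ (b v x) • v := by
  refine ⟨(b w).restrictScalars F ∘ₗ z.toLinearMap ∘ₗ (LinearMap.toSpanSingleton E V w).restrictScalars F,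
    fun x => ?_⟩
  obtain ⟨c, a, k, rfl⟩ := f.dec x
  have h1 : ∀ y, b v y = 0 → b y (z (c • w) - c • w) = 0 := fun y hy => o.bz fun j => by
    rw [map_sub, ← h (j • y) (by simp [hy]), (o.le hz).1, h (j • y) (by simp [hy]), sub_self]
  obtain ⟨j, hj⟩ := mem_Ln.1 (o.mem_line h1)
  rw [add_assoc, map_add, h (a • u + k • v) (by simp [f.vu, f.vv]), ← eq_sub_iff_add_eq.1 hj]
  simp [f.vw, f.vu, f.vv, ← eq_sub_iff_add_eq.1 hj, f.wv, f.ww]; abel

theorem comm {φ : End F E} (hφ : φ ∈ FF E M v u) (i : E) : ∃ z ∈ M, ∃ ζ : End F E,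
    (∀ x, z x = x + ζ (b v x) • v) ∧ ∀ c c', 𝔱 (c' * ζ c) = 𝔱 (c * φ (i * c')) - 𝔱 (c' * φ (i * c)) := by
  obtain ⟨ρ, h1, h2, h3⟩ := hφ
  have ht := o.tau_mem f i
  have hz := mul_mem (mul_mem h1 ht) (inv_mem (mul_mem ht h1))
  have h4 : ∀ g ∈ M, (∀ k : E, g (k • v) = k • v) → ∀ x, b v (g x) = b v x := fun g hg a x =>
    trace_ext (F := F) fun k => by rw [← o.trs, ← o.trs, ← a k, (o.le hg).1, a k]
  have h5 : ∀ x, b v ((o.tau v u i * ρ) x) = b v x := fun x => by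
    rw [mul_app, h4 _ ht (o.tau_v f i), h4 _ h1 h2]
  obtain ⟨ζ, h6⟩ := o.zform f hz fun y hy => by
    obtain ⟨y, rfl⟩ := (o.tau v u i * ρ).surjective y
    rw [h5] at hy
    obtain ⟨a, k, rfl⟩ := f.perp hy
    rw [mul_app, inv_app]
    simp only [mul_app, map_add, h2, h3, o.tau_v f, o.tau_u f]; abel
  refine ⟨_, hz, ζ, h6, fun c c' => ?_⟩
  have h7 := h6 ((o.tau v u i * ρ) (c • w))
  rw [mul_app, inv_app, h5] at h7
  obtain ⟨c₁, a, χ, e⟩ := f.dec (ρ (c • w))
  obtain rfl : c₁ = c := by simpa [e, f.vw, f.vu, f.vv] using h4 _ h1 h2 (c • w)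
  have h8 := o.tau_apply f i c₁ 0 0
  simp only [zero_smul, add_zero] at h8
  rw [mul_app, mul_app, h8, e, o.tau_apply f, map_add, map_add, e, h2, h3] at h7
  have h9 : ζ c₁ = -φ (i * c₁) - 2 * i * a * q u := by
    have := congrArg (b w) h7
    simp only [map_add, map_smul, f.ww, f.wu, f.wv, f.vw, smul_eq_mul, zero_sub, map_neg] at this
    simp only [mul_one, mul_zero] at this
    linear_combination -this
  have h10 := (o.le h1).1 (c₁ • w) ((i * c') • u)
  rw [e, h3, ← o.tr, ← o.tr] at h10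
  simp only [map_add, map_smul, LinearMap.add_apply, LinearMap.smul_apply, f.wu, f.wv, f.uu, f.uv,
    f.vu, f.vv, smul_eq_mul, mul_zero, map_zero, add_zero, zero_add, mul_one] at h10
  rw [h9, mul_sub, map_sub, mul_neg, map_neg, mul_comm c₁,
    show c' * (2 * i * a * q u) = i * c' * (a * (2 * q u)) by ring]
  linear_combination -h10

theorem om_le_of_top (h : ∀ φ, φ ∈ FF E M v u) : o.cl.Om ≤ M := by
  have h1 : ∀ κ : E, κ • v ∈ o.cl.Ar M v := fun κ => by
    obtain ⟨z, hz, ζ, h1, h2⟩ := o.comm f (h ((𝔱).smulRight κ)) 1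
    have h3 : B v (κ • v) = 0 := o.z0 (by simp [f.vv])
    refine (o.cl.mem_ar (o.sQ f.qv)).2 ⟨h3, 0, (o.sQ (o.cl'.sing_smul f.qv κ)).symm, ?_⟩
    convert hz using 1
    ext x
    rw [h1, o.cl.eich_apply (o.sQ f.qv) h3, o.trs, ← o.tr, show ζ (b v x) =
      𝔱 (κ * b v x) • (1 : E) - 𝔱 (b v x) • κ from trace_ext (F := F) fun k => by
        simp [h2, mul_sub, mul_comm]]
    simp [sub_smul]; abel
  refine o.om_le_of_arm fun k e he a => ?_
  by_cases e0 : e = 0
  · simp [e0]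
  obtain ⟨s, h2, l, l0, h3⟩ := o.trans f.qv he f.ne e0
  have h4 := o.cl.map_mem_ar o.le h2 (h1 ((l⁻¹ * l⁻¹ * a) • k))
  rw [rs_apply, rs_apply, map_smul, h3] at h4
  convert o.cl.mem_ar_smul (o.sQ he) l h4 l0 using 1
  simp only [RingHom.id_apply]
  have : algebraMap F E l ≠ 0 := by simpa using l0
  match_scalars; simp only [Algebra.smul_def, map_mul, map_inv₀]; field_simp

variable (hM : ¬ o.cl.Om ≤ M)
include hM

theorem key0 {ρ : V ≃ₗ[F] V} (hρ : ρ ∈ M) (h : ∀ k : E, ρ (k • v) ∈ Ln F E v) {ε : F} {i j : E}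
    (h1 : ρ (i • v) = ε • i • v) (h2 : ρ (j • v) = ε • j • v) (h3 : i • v ≠ 0)
    (h4 : j • v ∉ Submodule.span F {i • v}) (k : E) : ρ (k • v) = ε • k • v := by
  let g₀ : End F E := (b w).restrictScalars F ∘ₗ ρ.toLinearMap ∘ₗ
    (LinearMap.toSpanSingleton E V v).restrictScalars F
  have e₀ : ∀ k : E, ρ (k • v) = g₀ k • v := fun k => by
    obtain ⟨j, hj⟩ := mem_Ln.1 (h k)
    simp [g₀, ← hj, f.wv]
  obtain ⟨g, e⟩ : ∃ g : E ≃ₗ[F] E, ∀ k : E, ρ (k • v) = g k • v :=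
    ⟨LinearEquiv.ofInjectiveEndo g₀ ((injective_iff_map_eq_zero _).2 fun k hk => by
      simpa [hk, f.ne] using e₀ k), e₀⟩
  have i0 : i ≠ 0 := by rintro rfl; simp at h3
  have inj := smul_left_injective E f.ne
  rw [e, ← smul_assoc] at h1 h2
  replace h1 : g i = ε • i := inj h1
  replace h2 : g j = ε • j := inj h2
  let A : Subalgebra F (End F E) :=
    { carrier := {α | ∀ φ ∈ FF E M v u, α * φ ∈ FF E M v u}
      mul_mem' := fun {α β} ha hb φ hφ => by rw [mul_assoc]; exact ha _ (hb φ hφ)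
      add_mem' := fun {α β} ha hb φ hφ => by rw [add_mul]; exact add_mem (ha φ hφ) (hb φ hφ)
      algebraMap_mem' := fun c φ hφ => by
        convert o.conj_mem f (one_mem M) (g := LinearEquiv.refl F E) (fun _ => rfl)
          (algebraMap F E c) hφ using 2
        ext; simp [Algebra.smul_def] }
  obtain ⟨θ, hθ⟩ : ∃ θ, g.toLinearMap * LinearMap.mul F E (j / i) * g.symm.toLinearMap =
      LinearMap.mul F E θ := by
    by_contra c
    push Not at c
    have h5 : A = ⊤ := alg_top o.pr (fun k φ hφ => by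
      convert o.conj_mem f (one_mem M) (g := LinearEquiv.refl F E) (fun _ => rfl) k hφ using 2
      ext; simp)
      (fun φ hφ => o.conj_mem f hρ e (j / i) hφ) c
    exact hM (o.om_le_of_top f fun φ => by
      convert (h5.ge (Algebra.mem_top (x := φ)) : φ ∈ A) _ (o.mul_mem_FF f 1) using 1
      ext; simp)
  replace hθ : ∀ x, g (j / i * x) = θ * g x := fun x => by
    simpa using LinearMap.congr_fun hθ (g x)
  have h5 : θ = j / i := by
    have := hθ i
    rw [div_mul_cancel₀ _ i0, h1, h2, mul_smul_comm] at this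
    have ε0 : ε ≠ 0 := by rintro rfl; exact i0 (by simpa using h1)
    rw [eq_div_iff i0]; exact (smul_right_injective E ε0 this).symm
  let D : Subalgebra F E :=
    { carrier := {c | ∀ x, g (c * x) = c * g x}
      mul_mem' := fun {a b} ha hb x => by rw [mul_assoc, ha, hb, mul_assoc]
      add_mem' := fun {a b} ha hb x => by rw [add_mul, map_add, ha, hb, add_mul]
      algebraMap_mem' := fun c x => by rw [← Algebra.smul_def, map_smul, Algebra.smul_def] }
  have h6 : D = ⊤ := eq_top_of_prime o.pr (β := j / i) (fun x => h5 ▸ hθ x) fun ⟨c, hc⟩ =>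
    h4 (Submodule.mem_span_singleton.2 ⟨c, by
      rw [← algebraMap_smul E, show algebraMap F E c = j / i from hc, smul_smul, div_mul_cancel₀ _ i0]⟩)
  have h7 := (h6.ge (Algebra.mem_top (x := k / i)) : _ ∈ D) i
  rw [div_mul_cancel₀ _ i0, h1, mul_smul_comm, div_mul_cancel₀ _ i0] at h7
  rw [e, h7, smul_assoc]

omit f in
theorem key {X : Submodule F V} (hX : X ∈ Fam q M) {ρ : V ≃ₗ[F] V} (hρ : ρ ∈ M)
    (h : ∀ x ∈ X, ρ x ∈ X) {ε : F} {x y : V} (hx : x ∈ X) (hy : y ∈ X) (h1 : ρ x = ε • x)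
    (h2 : ρ y = ε • y) (h3 : x ≠ 0) (h4 : y ∉ Submodule.span F {x}) : ∀ z ∈ X, ρ z = ε • z := by
  obtain ⟨s, hs, v, hv, v0, rfl⟩ := hX
  obtain ⟨u, w, f⟩ := o.exists_fr' hv v0
  obtain ⟨x, hx, rfl⟩ := hx
  obtain ⟨y, hy, rfl⟩ := hy
  obtain ⟨i, rfl⟩ := mem_Ln.1 hx
  obtain ⟨j, rfl⟩ := mem_Ln.1 hy
  rintro _ ⟨z, hz, rfl⟩
  obtain ⟨k, rfl⟩ := mem_Ln.1 hz
  simp only [LinearEquiv.coe_coe] at h1 h2 h3 h4 ⊢
  have := o.key0 f hM (mul_mem (mul_mem (inv_mem hs) hρ) hs)
    (fun k => mem_map_iff.1 (h _ ⟨_, smul_mem_Ln k v, rfl⟩)) (ε := ε) (i := i) (j := j)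
    (by rw [mul_app, mul_app, h1, map_smul, inv_app]) (by rw [mul_app, mul_app, h2, map_smul, inv_app])
    (by simpa using h3) (fun c => h4 (by
      obtain ⟨a, c⟩ := Submodule.mem_span_singleton.1 c
      exact Submodule.mem_span_singleton.2 ⟨a, by rw [← c, map_smul s a]⟩)) k
  rw [← map_smul, ← this, mul_app, mul_app, app_inv]

theorem tau_stab {X : Submodule F V} (hX : X ∈ Fam q M) {j : E} (hj : j ≠ 0)
    (h : ∀ x ∈ X, o.tau v u j x ∈ X) : Ln F E v = X := by
  have : Module.Finite F V := Module.Finite.trans E V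
  obtain ⟨x, hx, y, hy, h1, h2, h3, h4⟩ := two_fixed (X := X) (by rw [Fx.Fam.dim hX]; exact o.r4)
    (N := (o.tau v u j).toLinearMap - 1) (fun x hx => sub_mem (h x hx) hx) fun x _ => by
      have e : ∀ c a k : E, ((o.tau v u j).toLinearMap - 1 : End F V) (c • w + a • u + k • v) =
          (0 : E) • w + (-(j * c)) • u + (2 * j * a * q u - j * j * q u * c) • v := fun c a k => by
        simp only [LinearMap.sub_apply, LinearEquiv.coe_coe, o.tau_apply f, End.one_apply]; module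
      obtain ⟨c, a, k, rfl⟩ := f.dec x
      rw [e, e, e]; simp
  have h5 := o.key hM hX (o.tau_mem f j) h (ε := 1) hx hy (by simpa [sub_eq_zero] using h1)
    (by simpa [sub_eq_zero] using h2) h3 h4
  exact (Submodule.eq_of_le_of_finrank_eq (fun z hz => o.tau_fix f hj (by simpa using h5 z hz))
    ((Fx.Fam.dim hX).trans (finrank_Ln f.ne).symm)).symm

variable {W : Submodule F V} (hP : MaxPr M (Fam q M) (Ln F E v) W)
include hP

omit f hM in
theorem stabv {g : V ≃ₗ[F] V} (hg : g ∈ M) (h : ∀ k : E, g (k • v) = k • v) {x : V} (hx : x ∈ W)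
    (hx' : x ∉ Ln F E v) (h1 : g x ∈ W) : ∀ y ∈ W, g y ∈ W := by
  have : Module.Finite F V := Module.Finite.trans E V
  have e : ∀ y ∈ Ln F E v, g y = y := fun y hy => by obtain ⟨k, rfl⟩ := mem_Ln.1 hy; exact h k
  exact hP.stab hg (fun y hy _ => e y hy) hx (fun h2 => hx' (g.injective (e _ h2) ▸ h2)) h1

omit f hM in
theorem exists_inf : ∃ d : E, d • v ≠ 0 ∧ d • v ∈ W := by
  obtain ⟨z, ⟨h1, h2⟩, h3⟩ := (Submodule.ne_bot_iff _).1 hP.inf
  obtain ⟨d, rfl⟩ := mem_Ln.1 h1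
  exact ⟨d, h3, h2⟩

theorem opp {y : V} (hy : y ∈ W) (h : b v y = 0) : y ∈ Ln F E v := by
  by_contra hy'
  obtain ⟨d, d0, hd⟩ := o.exists_inf hP
  obtain ⟨a, k, rfl⟩ := f.perp h
  have a0 : a ≠ 0 := by rintro rfl; exact hy' (by simpa using smul_mem_Ln k v)
  have := o.two
  have := f.qu
  refine hP.ne (o.tau_stab f hM hP.right (j := d / (2 * a * q u)) (by
    simp [a0, o.two, f.qu, show d ≠ 0 by rintro rfl; simp at d0])
    (o.stabv hP (o.tau_mem f _) (o.tau_v f _) hy hy' ?_))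
  rw [map_add, o.tau_v f, o.tau_u f, add_right_comm,
    show 2 * (d / (2 * a * q u)) * a * q u = d by field_simp]
  exact add_mem hy hd

theorem two_dim : ∃ x ∈ W, ∃ x' ∈ W, b v x ≠ 0 ∧ b v x' / b v x ∉ (⊥ : Subalgebra F E) := by
  have : Module.Finite F V := Module.Finite.trans E V
  have := finite_of_algebra F E
  by_contra hc
  push Not at hc
  obtain ⟨x, hx, hx'⟩ := SetLike.not_le_iff_exists.1 fun h : W ≤ Ln F E v =>
    hP.ne (Submodule.eq_of_le_of_finrank_eq h ((Fx.Fam.dim hP.right).trans (finrank_Ln f.ne).symm)).symm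
  have c0 : b v x ≠ 0 := fun c => hx' (o.opp f hM hP hx c)
  obtain ⟨_, h1, h2, h3⟩ := o.cl.exists_sing3 (W := Ln F E u) (by
    rw [finrank_Ln (by rintro rfl; exact f.qu o.cl'.Q_zero)]; have := o.r4; omega)
  obtain ⟨i, rfl⟩ := mem_Ln.1 h1
  have j0 : i / b v x ≠ 0 := div_ne_zero (by rintro rfl; simp at h2) c0
  have ht := o.tau_mem f (i / b v x)
  have h10 : Ln F E v ⊓ W ≤ W ⊓ W.map (o.tau v u (i / b v x) : V →ₗ[F] V) := fun y hy =>
    ⟨hy.2, y, hy.2, by obtain ⟨k, rfl⟩ := mem_Ln.1 hy.1; exact o.tau_v f _ k⟩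
  have h11 : o.tau v u (i / b v x) x ∉ W := fun c =>
    hP.ne (o.tau_stab f hM hP.right j0 (o.stabv hP ht (o.tau_v f _) hx hx' c))
  have h12 : MaxPr M (Fam q M) W (W.map (o.tau v u (i / b v x) : V →ₗ[F] V)) :=
    ⟨hP.inv, hP.right, hP.inv _ ht _ hP.right, fun c => h11 (c ▸ ⟨x, hx, rfl⟩),
      fun c => hP.inf (eq_bot_iff.2 (c ▸ h10)),
      fun U hU U' hU' c => hP.max U hU U' hU' ((Submodule.finrank_mono h10).trans_lt c)⟩
  have h13 : ∀ y ∈ W, ∃ (a : F) (d : E), d • v ∈ W ∧ y = a • x + d • v := fun y hy => by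
    obtain ⟨a, ha⟩ := hc x hx y hy c0
    replace ha : algebraMap F E a = b v y / b v x := ha
    have := sub_mem hy (W.smul_mem a hx)
    obtain ⟨d, hd⟩ := mem_Ln.1 (o.opp f hM hP this (by
      rw [map_sub, ← algebraMap_smul E, map_smul, ha, smul_eq_mul, div_mul_cancel₀ _ c0, sub_self]))
    exact ⟨a, d, hd ▸ this, by rw [hd]; abel⟩
  obtain ⟨s, hs, e, he, e0, rfl⟩ := hP.right
  obtain ⟨u', w', f'⟩ := o.exists_fr' he e0
  refine h11 (mem_map_iff.2 (o.opp f' hM (normal_pair hs h12) ⟨_, ⟨x, hx, rfl⟩, rfl⟩ (o.bz fun k => ?_)))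
  obtain ⟨a, d, h4, h5⟩ := h13 _ ⟨_, smul_mem_Ln k e, rfl⟩
  rw [← (o.le hs).1, app_inv, show s (k • e) = _ from h5, map_add, map_smul, LinearMap.add_apply,
    LinearMap.smul_apply, ← o.tau_v f (i / b v x) d, (o.le ht).1, o.iso hs he h4 hx, add_zero]
  have h6 := o.iso hs he hx hx
  rw [← o.trq, o.hq.smul'] at h3
  obtain ⟨c, a', k', rfl⟩ := f.dec x
  have h7 : b v (c • w + a' • u + k' • v) = c := by simp [f.vw, f.vu, f.vv]
  rw [h7] at c0 ⊢
  rw [o.tau_apply f, ← o.tr, show b (c • w + a' • u + k' • v) (c • w +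
    (a' - i / c * c) • u + (k' + 2 * (i / c) * a' * q u - i / c * (i / c) * q u * c) • v) =
    b (c • w + a' • u + k' • v) (c • w + a' • u + k' • v) - i * i * q u by
      simp [f.vw, f.vu, f.vv, f.ww, f.wu, f.wv, f.uu, f.uv, f.uw]; field_simp; ring,
    map_sub, o.tr, h6, h3]
  simp

theorem zeta {z : V ≃ₗ[F] V} (hz : z ∈ M) {ζ : End F E} (h : ∀ x, z x = x + ζ (b v x) • v) :
    ζ = 0 := by
  have : Module.Finite F V := Module.Finite.trans E V
  have h1 : ∀ c c', 𝔱 (c' * ζ c) + 𝔱 (c * ζ c') = 0 := fun c c' => by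
    have := (o.le hz).1 (c • w) (c' • w)
    rw [h, h, ← o.tr, ← o.tr] at this
    simpa [f.vw, f.ww, f.wv, f.vv, mul_comm, add_comm] using this
  obtain ⟨x₀, x0, h2⟩ : ∃ x₀, x₀ ≠ 0 ∧ ζ x₀ = 0 := by
    by_contra c
    push Not at c
    let β : LinearMap.BilinForm F E := (Algebra.traceForm F E).compl₁₂ ζ LinearMap.id
    have hβ : β.IsAlt := fun x => by
      have := h1 x x
      rw [← two_mul] at this
      simpa [β, mul_comm, o.two'] using this
    refine Nat.not_even_iff_odd.2 o.odd (even_finrank_of_alt (B := β)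
      (hβ.isRefl.nondegenerate_iff_separatingLeft.2 fun x hx => by_contra fun x0 => c x x0
        (trace_ext (F := F) fun k => by simpa [β, mul_comm] using hx k)) hβ)
  have h3 : ∀ W', MaxPr M (Fam q M) (Ln F E v) W' → ∀ x ∈ W', b v x ≠ 0 → ζ (b v x) = 0 →
      ∀ x' ∈ W', ζ (b v x') = 0 := fun W' hP' x hx a1 a2 x' hx' => by
    have a3 : ∀ k : E, z (k • v) = k • v := fun k => by simp [h, f.vv]
    have a4 : x ∉ Ln F E v := fun c => a1 (by obtain ⟨k, rfl⟩ := mem_Ln.1 c; simp [f.vv])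
    have a5 : z x = x := by simp [h, a2]
    obtain ⟨d, d0, hd⟩ := o.exists_inf hP'
    have := o.key hM hP'.right hz (o.stabv hP' hz a3 hx a4 (by rwa [a5])) (ε := 1) hd hx
      (by simp [a3]) (by simp [a5]) d0 (fun c => a4 ((Submodule.span_singleton_le_iff_mem _ _).2
        (smul_mem_Ln d v) c)) x' hx'
    simpa [h, f.ne] using this
  obtain ⟨x, hx, x', hx', c0, h4⟩ := o.two_dim f hM hP
  let A : Subalgebra F E :=
    { carrier := {μ | ∀ x, ζ x = 0 → ζ (μ * x) = 0}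
      mul_mem' := fun {i j} hi hj x hx => by rw [mul_assoc]; exact hi _ (hj x hx)
      add_mem' := fun {i j} hi hj x hx => by rw [add_mul, map_add, hi x hx, hj x hx, add_zero]
      algebraMap_mem' := fun c x hx => by rw [← Algebra.smul_def, map_smul, hx, smul_zero] }
  have h5 : A = ⊤ := eq_top_of_prime o.pr (β := b v x' / b v x) (fun y hy => by
    by_cases y0 : y = 0
    · simp [y0]
    obtain ⟨t, l, l0, e⟩ := exists_sq_mul o.odd o.two' (div_ne_zero y0 c0)
    have t0 : t ≠ 0 := by rintro rfl; exact l0 (by simpa using e.symm)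
    obtain ⟨s, a1, a2, a3, -⟩ := o.torus f t0
    have a4 := hP.map a1
    rw [show (Ln F E v).map (rs F s : V →ₗ[F] V) = Ln F E v from MX.map_eq_of_le rfl fun y hy => by
      obtain ⟨k, rfl⟩ := mem_Ln.1 hy
      rw [rs_apply, map_smul, a3, smul_smul]; exact smul_mem_Ln _ _] at a4
    have a5 : ∀ x₁, b v (s (l • x₁)) = b v x₁ / b v x * y := fun x₁ => by
      have := a2.1 v (l • x₁)
      rw [a3, ← algebraMap_smul E l, ← e] at this
      simp only [map_smul, LinearMap.smul_apply, smul_eq_mul] at this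
      rw [← algebraMap_smul E l, ← e, map_smul, map_smul, smul_eq_mul]
      field_simp at this ⊢
      linear_combination this
    rw [← a5]
    exact h3 _ a4 _ ⟨_, W.smul_mem l hx, rfl⟩ (by
      change b v (s (l • x)) ≠ 0; rw [a5]; simp [c0, y0]) (by
      change ζ (b v (s (l • x))) = 0; rw [a5]; simp [c0, hy]) _ ⟨_, W.smul_mem l hx', rfl⟩) h4
  ext k
  simpa [x0] using (h5.ge (Algebra.mem_top (x := k / x₀)) : _ ∈ A) x₀ h2

theorem ff_eq {φ : End F E} (hφ : φ ∈ FF E M v u) (k : E) : φ k = k * φ 1 := by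
  have h1 : ∀ i c, 𝔱 (φ (i * c)) = 𝔱 (c * φ i) := fun i c => by
    obtain ⟨z, hz, ζ, h1, h2⟩ := o.comm f hφ i
    have := h2 1 c
    rw [o.zeta f hM hP hz h1] at this
    simpa [sub_eq_zero] using this.symm
  exact trace_ext (F := F) fun c => by rw [← h1, ← mul_assoc, ← h1, one_mul, mul_comm]

end Ov3

end Cfsg.Agent.H11.Fy
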