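import Mathlib
import Cfsg.Agent.H11.Fy3

/-!
The extension field subgroups `O₃(q^r).r` of the orthogonal groups are maximal (`r ≥ 5`).
-/

set_option autoImplicit false
set_option linter.unusedSectionVars false

namespace Cfsg.Agent.H11.Fy

open Module H10 H11 H26
open Cfsg.Agent.H11.Fx (Fam normal_pair)
open H26.MX hiding finrank_le_inf_ker finrank_span_pair_le finrank_span_one_le SLv mem_SLv
  map_eq_of_le

variable {F : Type*} [Field F] {V : Type*} [AddCommGroup V] [Module F V]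
  {E : Type*} [Field E] [Algebra F E] [Module E V] [IsScalarTower F E V]
  {B : V →ₗ[F] V →ₗ[F] F} {M : Subgroup (V ≃ₗ[F] V)} {b : V →ₗ[E] V →ₗ[E] E} {Q : V → F} {q : V → E}
  [Finite E] [Module.Finite F E] [Module.Finite E V]

local notation "𝔱" => Algebra.trace F E

theorem one_lt_finrank [FiniteDimensional F V] {U : Submodule F V} {x y : V} (hx : x ∈ U) (hy : y ∈ U)
    (x0 : x ≠ 0) (h : y ∉ Submodule.span F {x}) : 1 < finrank F U := by
  rw [← finrank_span_singleton (K := F) x0]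
  exact Submodule.finrank_lt_finrank_of_lt
    (lt_of_le_of_ne ((Submodule.span_singleton_le_iff_mem _ _).2 hx) fun c => h (c ▸ hy))

theorem ln_mem {v : V} (hv : q v = 0) (v0 : v ≠ 0) : Ln F E v ∈ Fam q M :=
  ⟨1, one_mem _, v, hv, v0, (Submodule.map_id _).symm⟩

theorem fam_map {g : V ≃ₗ[F] V} (hg : g ∈ M) {X : Submodule F V} (h : X ∈ Fam q M) :
    X.map (g : V →ₗ[F] V) ∈ Fam q M := by
  obtain ⟨y, hy, β, hβ, h0, rfl⟩ := h
  exact ⟨g * y, mul_mem hg hy, β, hβ, h0, map_map' _ _ _⟩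

namespace Ov3

variable (o : Ov3 B Q b q M)
include o

theorem det_eq {g : V ≃ₗ[F] V} (hg : g ∈ M) : LinearMap.det (g : V →ₗ[F] V) = 1 := by
  have : Module.Finite F V := Module.Finite.trans E V
  have := finite_of_algebra F E
  have h1 := Abelianization.commutator_subset_ker
    ((LinearEquiv.det (R := F) (M := V)).comp (Isom B Q).subtype)
    ((mem_om_quad o.cl o.n5 ⟨g, o.le hg⟩).1 (o.le' hg))
  simpa using congrArg Units.val h1

section
variable {v u w : V} (f : Fr b q v u w)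
include f

theorem tau_mul (i j : E) : o.tau v u i * o.tau v u j = o.tau v u (i + j) := by
  ext x
  obtain ⟨c, a, k, rfl⟩ := f.dec x
  rw [mul_app, o.tau_apply f, o.tau_apply f, o.tau_apply f]; module

theorem tau_zero : o.tau v u 0 = 1 := by
  ext x
  obtain ⟨c, a, k, rfl⟩ := f.dec x
  rw [o.tau_apply f]; simp

variable (hM : ¬ o.cl.Om ≤ M) {W : Submodule F V} (hP : MaxPr M (Fam q M) (Ln F E v) W)
include hM hP

theorem eq_one {z : V ≃ₗ[F] V} (hz : z ∈ M) (h : ∀ k : E, z (k • v) = k • v)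
    (h' : ∀ k : E, z (k • u) = k • u) : z = 1 := by
  obtain ⟨ζ, h1⟩ := o.zform f hz fun y hy => by
    obtain ⟨a, k, rfl⟩ := f.perp hy
    rw [map_add, h, h']
  ext x
  simp [h1, o.zeta f hM hP hz h1]

theorem eq_tau {g : V ≃ₗ[F] V} (hg : g ∈ M) (h : ∀ k : E, g (k • v) = k • v) :
    ∃ j, g = o.tau v u j := by
  have : Module.Finite F V := Module.Finite.trans E V
  have t2 := o.two
  have qu := f.qu
  have h1 : ∀ x, b v (g x) = b v x := fun x =>
    trace_ext (F := F) fun k => by rw [← o.trs, ← o.trs, ← h k, (o.le hg).1, h k]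
  let L : E →ₗ[F] V := g.toLinearMap ∘ₗ (LinearMap.toSpanSingleton E V u).restrictScalars F
  obtain ⟨γ, χ, h2⟩ : ∃ γ χ : End F E, ∀ k : E, g (k • u) = γ k • u + χ k • v :=
    ⟨((2 * q u)⁻¹ • b u).restrictScalars F ∘ₗ L, (b w).restrictScalars F ∘ₗ L, fun k => by
      obtain ⟨a, j, e⟩ := f.perp (x := g (k • u)) (by simp [h1, f.vu])
      simp [L, e, f.uu, f.uv, f.wu, f.wv]; field_simp⟩
  have h3 : γ ∈ FF E M v u := ⟨_, mul_mem (mul_mem (inv_mem hg) (o.tau_mem f (2 * q u)⁻¹)) hg,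
    fun k => by rw [mul_app, mul_app, h, o.tau_v f, inv_eq_of (h k)], fun k => by
      rw [mul_app, mul_app]
      refine inv_eq_of ?_
      rw [map_add, h2, h, map_add, o.tau_u f, o.tau_v f]
      match_scalars <;> field_simp; ring⟩
  have h4 := o.ff_eq f hM hP h3
  generalize γ 1 = μ at h4
  simp only [h4] at h2
  have h5 : μ * μ = 1 := mul_left_cancel₀ (mul_ne_zero t2 qu) (trace_ext (F := F) fun k => by
    have := (o.le hg).1 (k • u) ((1 : E) • u)
    rw [h2, h2, ← o.tr, ← o.tr] at this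
    simp only [map_add, map_smul, LinearMap.add_apply, LinearMap.smul_apply, f.uu, f.uv, f.vu, f.vv,
      smul_eq_mul, mul_zero, add_zero, one_mul, map_zero] at this
    rw [mul_one, ← this]; congr 1; ring)
  rcases mul_self_eq_one_iff.1 h5 with rfl | rfl
  · have h6 := o.ff_eq f hM hP (φ := χ) ⟨g, hg, h, by simpa using h2⟩
    refine ⟨χ 1 / (2 * q u), mul_inv_eq_one.1 (o.eq_one f hM hP (mul_mem hg (inv_mem (o.tau_mem f _)))
      (fun k => by rw [mul_app, inv_eq_of (o.tau_v f _ k), h]) fun k => ?_)⟩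
    rw [mul_app, inv_eq_of (x := k • u - χ k • v), map_sub, h2, h, mul_one, add_sub_cancel_right]
    rw [map_sub, o.tau_u f, o.tau_v f, h6 k]
    match_scalars <;> field_simp; ring
  exfalso
  have h6 : g * g = 1 := o.eq_one f hM hP (mul_mem hg hg) (fun k => by rw [mul_app, h, h]) fun k => by
    rw [mul_app, h2, map_add, h, h2]; simp
  let Y : E →ₗ[F] V := (LinearMap.toSpanSingleton E V u).restrictScalars F -
    ((2 : E)⁻¹ • LinearMap.toSpanSingleton E V v).restrictScalars F ∘ₗ χ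
  have h7 : ∀ k, Y k = k • u - (2 : E)⁻¹ • χ k • v := fun _ => rfl
  have h8 : ∀ k, g (Y k) = -Y k := fun k => by
    rw [h7, map_sub, h2, smul_smul, h]; match_scalars <;> field_simp; ring
  have h9 : Function.Injective Y := (injective_iff_map_eq_zero _).2 fun k hk => by
    simpa [h7, f.uu, f.uv, t2, qu] using congrArg (b u) hk
  have h10 : ∀ x, g x - x ∈ LinearMap.range Y := fun x => by
    obtain ⟨a, k, e⟩ := f.perp (x := g x - x) (by simp [h1])
    have e' : g (g x - x) = -(g x - x) := by rw [map_sub, ← mul_app, h6, one_app, neg_sub]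
    rw [e, map_add, h2, h] at e'
    refine ⟨a, ?_⟩
    have := congrArg (b w) e'
    simp only [map_add, map_smul, map_neg, f.wu, f.wv, smul_eq_mul] at this
    rw [h7, e, show χ a = -2 * k by linear_combination this]
    match_scalars <;> field_simp
  have h11 : LinearMap.range Y ≤ (LinearMap.range Y).comap (g : V →ₗ[F] V) := by
    rintro _ ⟨k, rfl⟩
    exact ⟨-k, by simp [h8]⟩
  have h12 := LinearMap.det_eq_det_mul_det _ _ h11
  rw [o.det_eq hg, show (g : V →ₗ[F] V).restrict h11 = (-1 : F) • LinearMap.id from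
      LinearMap.ext fun y => Subtype.ext (by obtain ⟨_, k, rfl⟩ := y; simp [h8]),
    show (LinearMap.range Y).mapQ _ (g : V →ₗ[F] V) h11 = LinearMap.id from
      Submodule.linearMap_qext _ (LinearMap.ext fun x => (Submodule.Quotient.eq _).2 (h10 x)),
    LinearMap.det_smul, LinearMap.finrank_range_of_inj h9, o.odd.neg_one_pow] at h12
  exact o.two' (by simp at h12; linear_combination h12)

theorem not_two {i j : E} (hi : i • v ∈ W) (hj : j • v ∈ W) (h1 : i • v ≠ 0)
    (h2 : j • v ∉ Submodule.span F {i • v}) : False := by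
  have : Module.Finite F V := Module.Finite.trans E V
  have : Finite V := Module.finite_of_finite E
  have : Finite (V ≃ₗ[F] V) := Finite.of_injective _ DFunLike.coe_injective
  let G : Subgroup (V ≃ₗ[F] V) := M ⊓ (MulAction.stabilizer _ (i • v) ⊓ MulAction.stabilizer _ (j • v))
  let T : Multiplicative E →* G := MonoidHom.mk' (fun k => ⟨o.tau v u k.toAdd, o.tau_mem f _,
    o.tau_v f _ _, o.tau_v f _ _⟩) fun k l => Subtype.ext (o.tau_mul f _ _).symm
  have hT : ∀ k : E, (T (Multiplicative.ofAdd k)).1 = o.tau v u k := fun _ => rfl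
  have h3 : ∀ k : E, o.tau v u k = 1 → k = 0 := fun k hk => by
    have := o.tau_u f k 1
    rw [hk, one_app] at this
    simpa [o.two, f.qu, f.ne] using this
  have h4 : ∀ g : G, (∀ k : E, g.1 (k • v) ∈ Ln F E v) → g ∈ T.range := fun g h => by
    obtain ⟨k, hk⟩ := o.eq_tau f hM hP g.2.1 fun k => by
      simpa using o.key0 f hM g.2.1 h (ε := 1) (by simpa using g.2.2.1) (by simpa using g.2.2.2) h1 h2 k
    exact ⟨Multiplicative.ofAdd k, Subtype.ext hk.symm⟩
  have h5 : Cfsg.IsFrobeniusComplement T.range := by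
    refine ⟨fun c => one_ne_zero (h3 (1 : E) ?_), fun c => ?_, fun g hg => eq_bot_iff.2 ?_⟩
    · have : T (Multiplicative.ofAdd 1) = 1 := Subgroup.mem_bot.1 (c.le ⟨_, rfl⟩)
      rw [← hT, this]; rfl
    · obtain ⟨s, hs, e, he, e0, rfl⟩ := hP.right
      obtain ⟨u', w', f'⟩ := o.exists_fr' he e0
      have a1 : ∀ y ∈ (Ln F E e).map (s : V →ₗ[F] V), (s * o.tau e u' 1 * s⁻¹) y = y := by
        rintro _ ⟨y, hy, rfl⟩
        obtain ⟨k, rfl⟩ := mem_Ln.1 hy
        rw [LinearEquiv.coe_coe, mul_app, inv_app, mul_app, o.tau_v f']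
      obtain ⟨k, hk⟩ := c.ge (Subgroup.mem_top (⟨s * o.tau e u' 1 * s⁻¹,
        M.mul_mem (M.mul_mem hs (o.tau_mem f' 1)) (M.inv_mem hs), a1 _ hi, a1 _ hj⟩ : G))
      replace hk : o.tau v u k.toAdd = s * o.tau e u' 1 * s⁻¹ := congrArg Subtype.val hk
      refine hP.ne (o.tau_stab f hM hP.right (j := k.toAdd) (fun c => ?_) fun x hx => by
        rwa [hk, a1 x hx])
      rw [c, o.tau_zero f, eq_comm, conj_eq_one_iff] at hk
      have := o.tau_u f' 1 1
      rw [hk, one_app] at this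
      simpa [o.two, f'.qu, e0] using this
    · rintro _ ⟨⟨k, rfl⟩, a1⟩
      obtain ⟨_, ⟨l, rfl⟩, a2⟩ := (Subgroup.mem_smul_pointwise_iff_exists _ _ _).1 a1
      replace a2 : g.1 * o.tau v u l.toAdd * g.1⁻¹ = o.tau v u k.toAdd := congrArg Subtype.val a2
      by_contra a3
      refine hg (h4 g fun m => o.tau_fix f (j := k.toAdd) (fun c => a3 ?_) ?_)
      · rw [show k = 1 from c, map_one]; exact one_mem _
      · rw [← a2, mul_app, inv_app, mul_app, o.tau_v f]
  have : IsMulCommutative T.range := ⟨⟨by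
    rintro ⟨_, k, rfl⟩ ⟨_, l, rfl⟩
    exact Subtype.ext (show T k * T l = T l * T k by rw [← map_mul, mul_comm, map_mul])⟩⟩
  obtain ⟨⟨_, k, rfl⟩, hk⟩ := (frob_cyclic h5).exists_generator
  have h6 : ∀ l : E, ∃ n : ℤ, n * k.toAdd = l := fun l => by
    obtain ⟨n, hn⟩ := hk ⟨_, Multiplicative.ofAdd l, rfl⟩
    have a1 : T (k ^ n) = T (Multiplicative.ofAdd l) := by
      rw [map_zpow]; exact congrArg Subtype.val hn
    rw [← mul_inv_eq_one, ← map_inv, ← map_mul] at a1
    have a2 := h3 (k ^ n * (Multiplicative.ofAdd l)⁻¹).toAdd (by rw [← hT, ofAdd_toAdd, a1]; rfl)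
    exact ⟨n, by simpa [← sub_eq_add_neg, sub_eq_zero] using a2⟩
  obtain ⟨κ, hκ⟩ := o.exists_nf
  obtain ⟨n, hn⟩ := h6 1
  obtain ⟨m, hm⟩ := h6 (κ * k.toAdd)
  have k0 : k.toAdd ≠ 0 := fun c => by simp [c] at hn
  exact hκ (mul_right_cancel₀ k0 hm ▸ intCast_mem _ m)

end

variable (hM : ¬ o.cl.Om ≤ M)
  (hd : ∀ U ∈ Fam q M, ∀ U' ∈ Fam q M, 1 < finrank F ↥(U ⊓ U') → U = U')
include hM hd

theorem sing2 {X : Submodule F V} (hX : X ∈ Fam q M) {v x : V} (hv : q v = 0) (v0 : v ≠ 0)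
    (hx : q x = 0) (h1 : v ∈ X) (h2 : x ∈ X) (h3 : x ∉ Submodule.span F {v}) : X = Ln F E v := by
  have : Module.Finite F V := Module.Finite.trans E V
  by_cases c0 : b v x = 0
  · exact hd _ hX _ (ln_mem hv v0)
      (one_lt_finrank ⟨h1, self_mem_Ln v⟩ ⟨h2, o.line_of_perp hv v0 hx c0⟩ v0 h3)
  exfalso
  obtain ⟨u, f⟩ := o.exists_fr (w := (b v x)⁻¹ • x) hv (o.cl'.sing_smul hx _) (by simp [c0])
  obtain ⟨k, l, l0, e⟩ := exists_sq_mul o.odd o.two' (div_ne_zero f.qu c0)
  have k0 : k ≠ 0 := by rintro rfl; exact l0 (by simpa using e.symm)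
  obtain ⟨s, a1, -, a2, a3, a4⟩ := o.swap f k0
  have a5 : ∀ y, s (s y) = y := fun y => by
    obtain ⟨c, a, j, rfl⟩ := f.dec y
    have := f.qu
    generalize (b v x)⁻¹ • x = w at a2 a3
    simp only [map_add, map_smul, map_neg, a2, a3, a4]
    match_scalars <;> field_simp
  have a6 : s v = -l • x := by
    rw [a2, smul_smul, ← algebraMap_smul E (-l), map_neg, ← e]; congr 1; ring
  have a7 : s (l • x) = -v := by rw [← a5 v, a6, neg_smul, map_neg, neg_neg]
  have a8 : X.map (rs F s : V →ₗ[F] V) = X := hd _ (fam_map a1 hX) _ hX (one_lt_finrank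
    ⟨⟨-(l • x), neg_mem (X.smul_mem l h2), show s (-(l • x)) = v by rw [map_neg, a7, neg_neg]⟩, h1⟩
    ⟨⟨-l⁻¹ • v, X.smul_mem _ h1, show rs F s (-l⁻¹ • v) = x by
      rw [map_smul, rs_apply, a6, smul_smul]; simp [l0]⟩, h2⟩ v0 h3)
  have a9 : ∀ y ∈ X, rs F s y ∈ X := fun y hy => a8.le ⟨y, hy, rfl⟩
  have b1 : rs F s (v - l • x) = (1 : F) • (v - l • x) := by
    rw [rs_apply, map_sub, a6, a7]; module
  have b2 : rs F s (v + l • x) = (-1 : F) • (v + l • x) := by
    rw [rs_apply, map_add, a6, a7]; module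
  have b3 : ∀ ε : F, ε ≠ 0 → v + ε • x ≠ 0 := fun ε h c => by
    have := congrArg (b v) c
    rw [← algebraMap_smul E] at this
    simp [f.vv, h, c0] at this
  have b4 : v - l • x ≠ 0 := by simpa [sub_eq_add_neg] using b3 (-l) (by simpa)
  have m1 := sub_mem h1 (X.smul_mem l h2)
  have m2 := add_mem h1 (X.smul_mem l h2)
  have t2 : ∀ y : V, (1 : F) • y = (-1 : F) • y → y = 0 := fun y c =>
    (smul_eq_zero.1 (show (2 : F) • y = 0 by linear_combination (norm := module) c)).resolve_left o.two'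
  have := H10.finrank_span_pair_le (F := F) v x
  obtain ⟨y, hy, hy'⟩ := exists_mem_notMem (W := X) (Z := Submodule.span F {v, x}) (by
    rw [Fx.Fam.dim hX]; have := o.r4; omega)
  by_cases c1 : y + s y ∈ Submodule.span F {v - l • x}
  swap
  · exact b3 l l0 (t2 _ ((o.key hM hX a1 a9 m1 (add_mem hy (a9 y hy)) b1 (by
      simp [a5, add_comm]) b4 c1 _ m2).symm.trans b2))
  by_cases c2 : y - s y ∈ Submodule.span F {v + l • x}
  swap
  · exact b4 (t2 _ (b1.symm.trans (o.key hM hX a1 a9 m2 (sub_mem hy (a9 y hy)) b2 (by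
      simp [a5]) (b3 l l0) c2 _ m1)))
  obtain ⟨i, hi⟩ := Submodule.mem_span_singleton.1 c1
  obtain ⟨j, hj⟩ := Submodule.mem_span_singleton.1 c2
  refine hy' (Submodule.mem_span_pair.2 ⟨(i + j) / 2, (j - i) * l / 2, ?_⟩)
  have := o.two'
  rw [← smul_right_inj this]
  linear_combination (norm := skip) hi + hj
  match_scalars <;> field_simp <;> ring

theorem not_one {v : V} {W : Submodule F V} (hv : q v = 0) (v0 : v ≠ 0) (hW : W ∈ Fam q M)
    (h1 : v ∈ W) (h2 : Ln F E v ≠ W) : False := by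
  classical
  have : Module.Finite F V := Module.Finite.trans E V
  have : Finite V := Module.finite_of_finite E
  have := finite_of_algebra F E
  have := Fintype.ofFinite V
  have := Fintype.ofFinite E
  have := Fintype.ofFinite F
  have := Fintype.ofFinite (Submodule F V)
  obtain ⟨u, w, f⟩ := o.exists_fr' hv v0
  let 𝔉 := Finset.univ.filter (· ∈ Fam q M)
  let S : V → Finset (Submodule F V) := fun x => 𝔉.filter (x ∈ ·)
  have a1 : ∀ g ∈ M, ∀ x, (S x).card ≤ (S (g x)).card := fun g hg x =>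
    Finset.card_le_card_of_injOn (fun X => X.map (g : V →ₗ[F] V)) (fun X hX => by
      simp only [S, 𝔉, Finset.coe_filter, Finset.mem_filter, Finset.mem_univ, true_and,
        Set.mem_ofPred_eq] at hX ⊢
      exact ⟨fam_map hg hX.1, x, hX.2, rfl⟩)
      fun X _ Y _ h => Submodule.map_injective_of_injective g.injective h
  have a2 : ∀ e e', q e = 0 → q e' = 0 → e ≠ 0 → e' ≠ 0 → (S e).card ≤ (S e').card :=
    fun e e' b1 b2 b3 b4 => by
      obtain ⟨s, b5, l, l0, b6⟩ := o.trans b1 b2 b3 b4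
      refine (a1 _ b5 e).trans (le_of_eq ?_)
      simp [S, b6, Submodule.smul_mem_iff _ l0]
  have a3 : ∀ x, x ≠ 0 → (S x).card ≤ (S v).card := fun x x0 => by
    rcases (S x).eq_empty_or_nonempty with c | ⟨X, hX⟩
    · simp [c]
    simp only [S, 𝔉, Finset.mem_filter, Finset.mem_univ, true_and] at hX
    obtain ⟨⟨s, hs, e, he, -, rfl⟩, hx⟩ := hX
    obtain ⟨k, hk⟩ := mem_Ln.1 (mem_map_iff.1 hx)
    exact (a1 _ (inv_mem hs) x).trans (a2 _ _ (hk ▸ o.cl'.sing_smul he k) hv (app_ne_zero _ x0) v0)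
  have a4 : Fintype.card E ≤ (S v).card :=
    Finset.card_le_card_of_injOn (fun j => W.map (o.tau v u j : V →ₗ[F] V)) (fun j _ => by
      simp only [S, 𝔉, Finset.coe_filter, Finset.mem_filter, Finset.mem_univ, true_and,
        Set.mem_ofPred_eq]
      exact ⟨fam_map (o.tau_mem f j) hW, v, h1, by simpa using o.tau_v f j 1⟩) fun i _ j _ h => by
      by_contra c
      refine h2 (o.tau_stab f hM hW (sub_ne_zero.2 c) fun x hx => ?_)
      have := mem_map_iff.1 (h.le ⟨x, hx, rfl⟩)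
      rwa [show (o.tau v u j)⁻¹ = o.tau v u (-j) from inv_eq_of_mul_eq_one_right (by
        rw [o.tau_mul f, add_neg_cancel, o.tau_zero f]), LinearEquiv.coe_coe, ← mul_app, o.tau_mul f,
        neg_add_eq_sub] at this
  have a5 := Finset.card_mul_le_card_mul (s := 𝔉) (t := Finset.univ.filter fun x => Q x = 0 ∧ x ≠ 0)
    (fun X x => x ∈ X) (m := Fintype.card E - 1) (n := (S v).card) (fun X hX => by
      obtain ⟨s, hs, e, he, e0, rfl⟩ := (Finset.mem_filter.1 hX).2
      rw [← Finset.card_univ, ← Finset.card_erase_of_mem (Finset.mem_univ (0 : E))]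
      refine Finset.card_le_card_of_injOn (fun k => s (k • e)) (fun k hk => ?_)
        fun i _ j _ h => smul_left_injective E e0 (s.injective h)
      simp only [Finset.coe_erase, Finset.coe_univ, Set.mem_sdiff, Set.mem_singleton_iff] at hk
      simp only [Finset.bipartiteAbove, Finset.coe_filter, Finset.mem_filter, Finset.mem_univ,
        true_and, Set.mem_ofPred_eq]
      exact ⟨⟨by rw [(o.le hs).2, o.sQ (o.cl'.sing_smul he k)], by simp [hk.2, e0]⟩, _,
        smul_mem_Ln k e, rfl⟩) fun x hx => a3 x (Finset.mem_filter.1 hx).2.2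
  have a6 := Finset.card_mul_le_card_mul (s := Finset.univ.filter fun x => q x = 0 ∧ x ≠ 0) (t := 𝔉)
    (fun x X => x ∈ X ∧ X ≠ Ln F E x) (m := (S v).card - 1) (n := Fintype.card F - 1) (fun x hx => by
      obtain ⟨b1, b2⟩ := (Finset.mem_filter.1 hx).2
      refine (Nat.sub_le_sub_right (a2 _ _ hv b1 v0 b2) 1).trans
        (Finset.pred_card_le_card_erase.trans (Finset.card_le_card (s := (S x).erase (Ln F E x))
          fun X hX => ?_))
      simp only [S, Finset.mem_erase, Finset.mem_filter] at hX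
      exact Finset.mem_filter.2 ⟨hX.2.1, hX.2.2, hX.1⟩) fun X hX => by
      rcases (Finset.bipartiteBelow (fun x X => x ∈ X ∧ X ≠ Ln F E x)
        (Finset.univ.filter fun x => q x = 0 ∧ x ≠ 0) X).eq_empty_or_nonempty with c | ⟨x, hx⟩
      · simp [c]
      simp only [Finset.bipartiteBelow, Finset.mem_filter, Finset.mem_univ, true_and] at hx
      rw [← Finset.card_univ, ← Finset.card_erase_of_mem (Finset.mem_univ (0 : F))]
      refine (Finset.card_le_card fun y hy => ?_).trans (Finset.card_image_le (f := fun c : F => c • x))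
      simp only [Finset.bipartiteBelow, Finset.mem_filter, Finset.mem_univ, true_and] at hy
      obtain ⟨c, rfl⟩ := Submodule.mem_span_singleton.1 (by_contra fun c => hx.2.2
        (o.sing2 hM hd (Finset.mem_filter.1 hX).2 hx.1.1 hx.1.2 hy.1.1 hx.2.1 hy.2.1 c))
      exact Finset.mem_image.2 ⟨c, by simpa using fun c0 => hy.1.2 (by simp [c0]), rfl⟩
  obtain ⟨m, hm⟩ := o.odd
  have a7 := card_sing_odd o.hq o.cl'.sep (m := 1) o.m3
  have a8 := card_sing_odd (show IsQuad B Q from o.cl.form) o.cl.sep (m := 3 * m + 1)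
    (by rw [o.dim, hm]; ring)
  have a9 := Module.card_eq_pow_finrank (K := F) (V := E)
  rw [Nat.card_eq_fintype_card, Nat.card_eq_fintype_card, Fintype.card_subtype] at a7 a8
  have b1 : 2 ≤ Fintype.card F := Fintype.one_lt_card
  have b2 : 2 ≤ Fintype.card F ^ (2 * m) := b1.trans (Nat.le_self_pow (by have := o.r4; omega) _)
  rw [show Fintype.card F ^ (2 * (3 * m + 1)) = Fintype.card E ^ 2 * Fintype.card F ^ (2 * m) by
    rw [a9, hm]; ring] at a8
  rw [hm, pow_succ] at a9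
  generalize Fintype.card F ^ (2 * m) = P at *
  generalize Fintype.card F = p at *
  generalize Fintype.card E = N at *
  generalize (S v).card = s at *
  generalize 𝔉.card = φ at *
  generalize (Finset.univ.filter fun x => Q x = 0 ∧ x ≠ 0).card = n at *
  generalize (Finset.univ.filter fun x => q x = 0 ∧ x ≠ 0).card = a at *
  have b3 : 4 ≤ N := by nlinarith
  zify [show 1 ≤ N by omega, show 1 ≤ s by omega, show 1 ≤ p by omega] at a4 a5 a6 a7 a8 a9 b1 b2 b3
  have c1 : (a : ℤ) * (s - 1) * (N - 1) ≤ n * s * (p - 1) := by nlinarith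
  have c2 : (a : ℤ) * (N - 1) - n * (p - 1) = N ^ 2 * (P - 1) - N + p := by
    rw [eq_sub_of_add_eq a7, eq_sub_of_add_eq a8]; linear_combination (N : ℤ) ^ 2 * a9
  have c3 : (n : ℤ) * (p - 1) = N ^ 3 - N ^ 2 * P - p + 1 := by
    rw [eq_sub_of_add_eq a8]; linear_combination (-(N : ℤ) ^ 2) * a9
  have c4 : (0 : ℤ) ≤ N ^ 2 * (P - 1) - N + p := by nlinarith
  have c5 : ((N : ℤ) - 1) * (N ^ 2 * (P - 1) - N + p) ≤ (s - 1) * (N ^ 2 * (P - 1) - N + p) :=
    mul_le_mul_of_nonneg_right (by omega) c4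
  have c6 : (0 : ℤ) ≤ N ^ 3 * (P - 2) := by positivity
  nlinarith

omit hd in
theorem eq_of_mem {U U' : Submodule F V} (hU : U ∈ Fam q M) (hU' : U' ∈ Fam q M) {x : V} (x0 : x ≠ 0)
    (h : x ∈ U) (h' : x ∈ U') : U = U' := by
  have : Module.Finite F V := Module.Finite.trans E V
  have : Finite V := Module.finite_of_finite E
  by_contra c
  obtain ⟨U, U', hP⟩ := exists_maxPr (M := M) (S := Fam q M) (fun g hg _ => fam_map hg) hU hU' c
    ((Submodule.ne_bot_iff _).2 ⟨x, ⟨h, h'⟩, x0⟩)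
  obtain ⟨s, hs, v, hv, v0, rfl⟩ := hP.left
  replace hP := normal_pair hs hP
  generalize U'.map ((s⁻¹ : V ≃ₗ[F] V) : V →ₗ[F] V) = W at hP
  obtain ⟨u, w, f⟩ := o.exists_fr' hv v0
  obtain ⟨d, d0, hd⟩ := o.exists_inf hP
  by_cases k : Ln F E v ⊓ W ≤ Submodule.span F {d • v}
  · have h1 := (Submodule.finrank_mono k).trans (H10.finrank_span_one_le _)
    refine o.not_one hM (fun X hX Y hY a => hP.max X hX Y hY (by omega)) (o.cl'.sing_smul hv d) d0
      hP.right hd fun a => hP.ne (Submodule.eq_of_le_of_finrank_eq (fun y hy => ?_)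
        ((finrank_Ln v0).trans (Fx.Fam.dim hP.right).symm))
    obtain ⟨j, rfl⟩ := mem_Ln.1 hy
    have : d ≠ 0 := by rintro rfl; simp at d0
    exact a ▸ mem_Ln.2 ⟨j / d, by rw [smul_smul, div_mul_cancel₀ _ this]⟩
  · obtain ⟨y, ⟨h1, h2⟩, h3⟩ := SetLike.not_le_iff_exists.1 k
    obtain ⟨j, rfl⟩ := mem_Ln.1 h1
    exact o.not_two f hM hP hd h2 d0 h3

omit hd in
theorem line_map {g : V ≃ₗ[F] V} (hg : g ∈ M) {e : V} (he : q e = 0) (e0 : e ≠ 0) :
    q (g e) = 0 ∧ (Ln F E e).map (g : V →ₗ[F] V) = Ln F E (g e) := by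
  have : Module.Finite F V := Module.Finite.trans E V
  have hX : (Ln F E e).map (g : V →ₗ[F] V) ∈ Fam q M := ⟨g, hg, e, he, e0, rfl⟩
  have h1 : g e ∈ (Ln F E e).map (g : V →ₗ[F] V) := ⟨e, self_mem_Ln e, rfl⟩
  have h0 := app_ne_zero g e0
  suffices h : q (g e) = 0 from ⟨h, o.eq_of_mem hM hX (ln_mem h h0) h0 h1 (self_mem_Ln _)⟩
  by_contra hz
  have h2 : b (g e) (g e) ≠ 0 := by simp [o.hq.diag', o.two, hz]
  obtain ⟨y, hy, hy'⟩ := SetLike.not_le_iff_exists.1 fun h :
      (Ln F E e).map (g : V →ₗ[F] V) ≤ Ln F E (g e) => h2 (o.bz fun k => o.iso hg he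
    ((Submodule.eq_of_le_of_finrank_eq h ((Fx.Fam.dim hX).trans (finrank_Ln h0).symm)).ge
      (smul_mem_Ln k _)) h1)
  obtain ⟨y, y0, h3, h4, -⟩ := o.esub hz (fun t ht a x hx => (o.eq_of_mem hM (fam_map ht hX) hX h0
    ⟨_, h1, a⟩ h1).le ⟨x, hx, rfl⟩) hy hy'
  have h5 : Ln F E y = (Ln F E e).map (g : V →ₗ[F] V) := by
    by_contra a
    exact not_Ln_le a ((finrank_Ln y0).trans (Fx.Fam.dim hX).symm) h4
  obtain ⟨k, hk⟩ := mem_Ln.1 (h5.ge h1)
  exact h2 (by nth_rw 2 [← hk]; rw [map_smul, h3, smul_zero])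

omit hd in
theorem nrmE {g : V ≃ₗ[F] V} (hg : g ∈ M) : NrmE E g := by
  obtain ⟨v, -, v0, hv⟩ := o.cl'.exists_sing3 (W := ⊤) (by rw [finrank_top, o.m3])
  obtain ⟨u, w, f⟩ := o.exists_fr' hv v0
  have w0 : w ≠ 0 := by rintro rfl; simpa using f.vw
  obtain ⟨a1, a2⟩ := o.line_map hM hg hv v0
  obtain ⟨a3, a4⟩ := o.line_map hM hg f.qw w0
  have β0 : b (g v) (g w) ≠ 0 := fun c => by
    obtain ⟨k, hk⟩ := mem_Ln.1 (mem_map_iff.1 (a2.ge (o.line_of_perp a1 (app_ne_zero g v0) a3 c)))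
    simpa [f.vv, f.vw] using congrArg (b v) hk
  obtain ⟨u', f'⟩ := o.exists_fr (w := (b (g v) (g w))⁻¹ • g w) a1 (o.cl'.sing_smul a3 _)
    (by simp [β0])
  have a5 : ∀ {e}, b e u = 0 → (Ln F E e).map (g : V →ₗ[F] V) = Ln F E (g e) → ∀ k : E,
      b (g e) (g (k • u)) = 0 := fun {e} h1 h2 k => o.bz fun i => by
    obtain ⟨y, hy, h3⟩ := h2.ge (smul_mem_Ln i (g e))
    obtain ⟨j, rfl⟩ := mem_Ln.1 hy
    rw [← h3, LinearEquiv.coe_coe, (o.le hg).1]; exact o.z0 (by simp [h1])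
  choose θ₀ h0 using fun k : E => show ∃ a : E, g (k • u) = a • u' by
    obtain ⟨a, j, h⟩ := f'.perp (a5 f.vu a2 k)
    have := a5 f.wu a4 k
    have h1 := f'.wu
    have h2 := f'.wv
    simp only [map_smul, LinearMap.smul_apply, smul_eq_mul, mul_eq_zero, inv_eq_zero, β0,
      false_or] at h1 h2
    rw [h, map_add, map_smul, map_smul, h1, o.hq.comm (g w)] at this
    exact ⟨a, by rw [h, show j = 0 by simpa [β0] using this]; simp⟩
  choose θ₂ h2 using fun k : E => mem_Ln.1 (a2.le ⟨_, smul_mem_Ln k v, rfl⟩)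
  choose θ₁ h1 using fun k : E => mem_Ln.1 (a4.le ⟨_, smul_mem_Ln k w, rfl⟩)
  simp only [LinearEquiv.coe_coe] at h1 h2
  have hw : g w = b (g v) (g w) • (b (g v) (g w))⁻¹ • g w := by simp [β0]
  generalize (b (g v) (g w))⁻¹ • g w = w' at hw f'
  generalize b (g v) (g w) = β at hw β0
  have a6 : ∀ k t : E, θ₀ (k * t) = θ₁ k * θ₀ t ∧ θ₂ (k * (-(t * t * q u))) =
      θ₁ k * θ₂ (-(t * t * q u)) := fun k t => by
    have e1 : q ((1 : E) • w + t • u + (-(t * t * q u)) • v) = 0 := by rw [o.qdec f]; ring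
    obtain ⟨l, hl⟩ := mem_Ln.1 ((o.line_map hM hg e1 fun c => by
      simpa [f.vw, f.vu, f.vv] using congrArg (b v) c).2.le ⟨_, smul_mem_Ln k _, rfl⟩)
    simp only [LinearEquiv.coe_coe, smul_add, smul_smul, map_add, h0, ← h1, ← h2] at hl
    simp only [hw, smul_smul] at hl
    obtain ⟨b1, b2, b3⟩ := o.coord f' hl
    have b4 : θ₁ 1 = 1 := smul_left_injective E (app_ne_zero g w0) (by simp [h1])
    rw [mul_one, b4, mul_one, mul_left_inj' β0] at b1
    exact ⟨by rw [← b1, b2], by rw [← b1, b3]⟩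
  have a7 : θ₀ 1 ≠ 0 := fun c => by
    have := h0 1
    rw [c, zero_smul, one_smul, map_eq_zero_iff _ g.injective] at this
    exact f.qu (this ▸ o.cl'.Q_zero)
  have a8 : ∀ k j : E, g ((k * j) • v) = θ₁ k • g (j • v) := fun k j => by
    have e : ∀ t : E, g ((k * (-(t * t * q u))) • v) = θ₁ k • g ((-(t * t * q u)) • v) := fun t => by
      rw [← h2, ← h2, (a6 k t).2, mul_smul]
    have := o.two
    have := f.qu
    rw [show j = -((1 - j / q u) / 2 * ((1 - j / q u) / 2) * q u) -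
      -((1 + j / q u) / 2 * ((1 + j / q u) / 2) * q u) by field_simp; ring, mul_sub, sub_smul,
      sub_smul, map_sub, map_sub, e, e, smul_sub]
  refine fun k => ⟨θ₁ k, fun x => ?_⟩
  obtain ⟨c, a, j, rfl⟩ := f.dec x
  have a9 : θ₁ (k * c) = θ₁ k * θ₁ c := mul_right_cancel₀ a7 (by
    rw [← (a6 _ 1).1, mul_one, (a6 k c).1, mul_assoc, ← (a6 c 1).1, mul_one])
  simp only [smul_add, smul_smul, map_add, a8, h0, ← h1, a9, (a6 k a).1]

end Ov3

theorem o3_fld_max (h : Cl (σ := RingHom.id F) 1 2 (AddMonoidHom.id F) B Q)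
    (hr : (finrank F E).Prime) (h2 : (2 : F) ≠ 0) (ha : ∀ (k : E) u v, B (k • u) v = B u (k • v))
    (h4 : 4 ≤ finrank F E) (hm : finrank E V = 3) : (∃ g ∈ h.Om, ¬ NrmE E g) ∧ ∀ M ≤ h.Om,
      (∀ g ∈ h.Om, NrmE E g → g ∈ M) → ∀ g ∈ M, ¬ NrmE E g → h.Om ≤ M := by
  obtain ⟨b, h1⟩ := exists_lift (σ := RingHom.id E) (B := B) ha
  have h3 : ∀ x y, b y x = b x y := fun x y => by
    simpa using lift_symm h1 (fun _ => rfl) (fun _ => rfl) h.symm x y
  have h2' : (2 : E) ≠ 0 := by rw [← map_ofNat (algebraMap F E)]; simpa using h2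
  have hq : IsQuad b fun x => b x x / 2 := IsQuad.of_add_smul (fun x y => by
    simp only [map_add, LinearMap.add_apply, h3 x y]; field_simp; ring) fun c x => by
    simp only [map_smul, LinearMap.smul_apply, smul_eq_mul]; ring
  have hQ : IsQuad B Q := h.form
  have o : ∀ M ≤ h.Om, (∀ g ∈ h.Om, NrmE E g → g ∈ M) → Ov3 B Q b (fun x => b x x / 2) M :=
    fun M hM hN => ⟨h, clQuad hq (lift_sep h1 h.sep), h1, fun x => by
      rw [show b x x / 2 = (2 : F)⁻¹ • b x x by
        rw [Algebra.smul_def, map_inv₀, map_ofNat, div_eq_inv_mul], map_smul, h1, hQ.diag']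
      simp [h2], h2', hr, h4, hm, hM, fun s hs => hN _ hs (nrmE_rs s)⟩
  exact ⟨(o _ le_rfl fun _ a _ => a).exists_not, fun M hM hN g hg hg' =>
    by_contra fun c => hg' ((o M hM hN).nrmE c hg)⟩

open Matrix Geo

omit [Module.Finite E V] in
theorem o3_fld_mat {ι : Type} [Fintype ι] [DecidableEq ι] (φ : E →ₐ[F] Matrix ι ι F)
    {B : (ι → F) →ₗ[F] (ι → F) →ₗ[F] F} {Q : (ι → F) → F}
    (h : Cl (σ := RingHom.id F) 1 2 (AddMonoidHom.id F) B Q) (hr : (finrank F E).Prime)
    (h2 : (2 : F) ≠ 0) (h4 : 4 ≤ finrank F E) (hn : 3 * finrank F E = Fintype.card ι)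
    (ha : IsSelfAdjointFor (QuadraticMap.polar Q) φ.range) :
    IsMaximalIn (omegaGL Q) (subalgebraNormalizer φ.range ⊓ omegaGL Q) := by
  have h1 := EV.finrank_mul φ
  have := finite_of_algebra F E
  have hQ : IsQuad B Q := h.form
  obtain ⟨h3, h5⟩ := o3_fld_max (E := E) (h.pullback (EV.eq φ)) hr h2 (fun k u v => by
    have := ha _ ⟨k, rfl⟩ (EV.eq φ u) (EV.eq φ v)
    rw [hQ.polar_eq, hQ.polar_eq] at this
    exact this) h4 (by
      rw [← hn, mul_comm 3] at h1
      exact Nat.eq_of_mul_eq_mul_left (by omega) h1)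
  exact fld_max_of (fun g => (mem_omegaGL_iff h (by omega) g).trans (mem_om_gE φ _ g)) h3 h5

end Cfsg.Agent.H11.Fy
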