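import Mathlib
import Cfsg.Agent.H11.Fy1

/-!
Overgroups of `Ω₃(q³)` in `Ω₉(q)`: basic tools.
-/

set_option autoImplicit false
set_option linter.unusedSectionVars false

namespace Cfsg.Agent.H11.Fz

open Module H10 H11 H26 Fy
open scoped commutatorElement
open H26.MX hiding finrank_le_inf_ker finrank_span_pair_le finrank_span_one_le SLv mem_SLv
  map_eq_of_le

variable {F : Type*} [Field F] {V : Type*} [AddCommGroup V] [Module F V]
  {E : Type*} [Field E] [Algebra F E] [Module E V] [IsScalarTower F E V]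
  {B : V →ₗ[F] V →ₗ[F] F} {M : Subgroup (V ≃ₗ[F] V)} {b : V →ₗ[E] V →ₗ[E] E} {Q : V → F} {q : V → E}
  [Finite E] [Module.Finite F E] [Module.Finite E V]

local notation "𝔱" => Algebra.trace F E

/-- an overgroup of the three-dimensional orthogonal group over the extension field -/
structure Ov3 (B : V →ₗ[F] V →ₗ[F] F) (Q : V → F) (b : V →ₗ[E] V →ₗ[E] E) (q : V → E)
    (M : Subgroup (V ≃ₗ[F] V)) : Prop where
  cl : Cl (σ := RingHom.id F) 1 2 (AddMonoidHom.id F) B Q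
  cl' : Cl (σ := RingHom.id E) 1 2 (AddMonoidHom.id E) b q
  tr : ∀ x y, Algebra.trace F E (b x y) = B x y
  trq : ∀ x, Algebra.trace F E (q x) = Q x
  two : (2 : E) ≠ 0
  pr : (finrank F E).Prime
  r3 : finrank F E = 3
  m3 : finrank E V = 3
  le' : M ≤ cl.Om
  ov : ∀ s : V ≃ₗ[E] V, rs F s ∈ cl.Om → rs F s ∈ M

/-- a standard basis -/
structure Fr (b : V →ₗ[E] V →ₗ[E] E) (q : V → E) (v u w : V) : Prop where
  qv : q v = 0
  qw : q w = 0
  qu : q u ≠ 0
  vv : b v v = 0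
  ww : b w w = 0
  uu : b u u = 2 * q u
  vw : b v w = 1
  wv : b w v = 1
  vu : b v u = 0
  uv : b u v = 0
  wu : b w u = 0
  uw : b u w = 0
  dec : ∀ x, ∃ c a k : E, x = c • w + a • u + k • v

theorem Fr.ne {v u w : V} (f : Fr b q v u w) : v ≠ 0 := by
  rintro rfl; simpa using f.vw

theorem Fr.perp {v u w : V} (f : Fr b q v u w) {x : V} (h : b v x = 0) :
    ∃ a k : E, x = a • u + k • v := by
  obtain ⟨c, a, k, rfl⟩ := f.dec x
  obtain rfl : c = 0 := by simpa [f.vv, f.vw, f.vu] using h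
  exact ⟨a, k, by simp⟩

namespace Ov3

variable (o : Ov3 B Q b q M)
include o

theorem le : M ≤ Isom B Q := o.le'.trans o.cl.om_le_isom

theorem hq : IsQuad b q := o.cl'.form

theorem odd : Odd (finrank F E) := o.pr.odd_of_ne_two (by have := o.r3; omega)

theorem two' : (2 : F) ≠ 0 := fun c => o.two (by rw [← map_ofNat (algebraMap F E), c, map_zero])

theorem dim : finrank F V = 3 * finrank F E := by
  rw [← finrank_mul_finrank F E V, o.m3, mul_comm]

theorem n5 : 5 ≤ finrank F V := by have := o.r3; rw [o.dim]; omega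

theorem z0 {x y : V} (h : b x y = 0) : B x y = 0 := by rw [← o.tr, h, map_zero]

theorem trs (k : E) (x y : V) : B (k • x) y = 𝔱 (k * b x y) := by simp [← o.tr]

theorem trs' (k : E) (x y : V) : B x (k • y) = 𝔱 (k * b x y) := by simp [← o.tr]

theorem bz {x y : V} (h : ∀ k : E, B (k • x) y = 0) : b x y = 0 :=
  trace_ext (F := F) fun k => by rw [← o.trs, h]; simp

theorem sQ {x : V} (h : q x = 0) : Q x = 0 := by rw [← o.trq, h, map_zero]

theorem ea {u w : V} (hu : q u = 0) (huw : b u w = 0) (c : E) (x : V) :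
    o.cl'.eich u w c x = x + b w x • u - b u x • w - (c * b u x) • u := by
  rw [o.cl'.eich_apply hu huw, one_mul]

/-- restriction of scalars on isometry groups -/
def res : Isom b q →* Isom B Q := ((rs F).comp (Isom b q).subtype).codRestrict _ fun s =>
  ⟨fun x y => by simp [← o.tr, s.2.1], fun x => by simp [← o.trq, s.2.2]⟩

theorem mem_of_comm (s : Isom b q) (h : o.res s ∈ commutator (Isom B Q)) : rs F s.1 ∈ M := by
  have : Module.Finite F V := Module.Finite.trans E V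
  have := finite_of_algebra F E
  exact o.ov _ ((mem_om_quad o.cl o.n5 (o.res s)).2 h)

theorem eich {u w : V} (hu : q u = 0) (huw : b u w = 0) : rs F (o.cl'.eich u w (q w)) ∈ M := by
  have : Module.Finite F V := Module.Finite.trans E V
  have := finite_of_algebra F E
  have hQ : IsQuad B Q := o.cl.form
  have h1 : b u ((2 : E)⁻¹ • w) = 0 := by simp [huw]
  let s : Isom b q := ⟨_, o.cl'.eich_mem_isom (c := q ((2 : E)⁻¹ • w)) hu h1 rfl⟩
  have h2 := o.mem_of_comm (s * s) (by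
    rw [map_mul]
    exact hQ.mul_self_mem_commutator o.cl.sep (hQ.nonExc_of_finrank o.cl.sep (by
      have := o.n5; omega)) _)
  have h3 : (s * s).1 = o.cl'.eich u w (q w) := by
    change o.cl'.eich _ _ _ * o.cl'.eich _ _ _ = _
    rw [o.cl'.eich_mul hu h1 h1]
    have := o.two
    congr 1
    · match_scalars; field_simp; ring
    · simp only [o.hq.smul', map_smul, LinearMap.smul_apply, smul_eq_mul, o.hq.diag']
      field_simp; ring
  rwa [h3] at h2

theorem rr {a a' : V} (ha : q a ≠ 0) (h : q a' = q a) :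
    rs F ((o.hq.reflO a').1 * (o.hq.reflO a).1) ∈ M := by
  have h0 : a ≠ 0 := by rintro rfl; exact ha o.cl'.Q_zero
  have h1 : a' ≠ 0 := by rintro rfl; exact ha (h ▸ o.cl'.Q_zero)
  obtain ⟨g, hg, e⟩ := o.cl'.form.witt_one o.cl'.sep h0 h1 h
  have h2 := o.hq.conj_reflO ⟨g, hg⟩ a
  rw [show ((⟨g, hg⟩ : Isom b q)).1 a = a' from e] at h2
  have h3 : o.hq.reflO a' * o.hq.reflO a = ⁅(⟨g, hg⟩ : Isom b q), o.hq.reflO a⁆ := by
    rw [← h2, commutatorElement_def, inv_eq_of_mul_eq_one_right (o.hq.reflO_mul_self a)]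
  refine o.mem_of_comm (o.hq.reflO a' * o.hq.reflO a) ?_
  rw [h3, map_commutatorElement]
  exact Subgroup.commutator_mem_commutator trivial trivial

theorem mem_line {z y : V} (h : ∀ x, b z x = 0 → b x y = 0) : y ∈ Ln F E z :=
  o.cl'.form.mem_of_perp o.cl'.sep (W := Submodule.span E {z}) fun x hx =>
    o.cl'.refl (h x (hx z (Submodule.mem_span_singleton_self z)))

theorem iso {g : V ≃ₗ[F] V} (hg : g ∈ M) {e : V} (he : q e = 0) {x y : V}
    (hx : x ∈ (Ln F E e).map (g : V →ₗ[F] V)) (hy : y ∈ (Ln F E e).map (g : V →ₗ[F] V)) :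
    B x y = 0 := by
  obtain ⟨x, hx, rfl⟩ := hx
  obtain ⟨y, hy, rfl⟩ := hy
  obtain ⟨i, rfl⟩ := mem_Ln.1 hx
  obtain ⟨j, rfl⟩ := mem_Ln.1 hy
  exact ((o.le hg).1 _ _).trans (o.z0 (by simp [o.cl'.diag0 he]))

theorem exists_nf : ∃ k : E, k ∉ (⊥ : Subalgebra F E) :=
  let ⟨k, _, h⟩ := exists_norm_one (F := F) (E := E) o.pr.two_le; ⟨k, h⟩

theorem span3 {x y z x' y' z' : V} (h1 : b x' x ≠ 0) (h2 : b y' y ≠ 0) (h3 : b z' z ≠ 0)
    (h4 : b x' y = 0) (h5 : b x' z = 0) (h6 : b y' z = 0) (v : V) :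
    ∃ c a k : E, v = c • x + a • y + k • z := by
  have li : LinearIndependent E ![x, y, z] := Fintype.linearIndependent_iff.mpr fun c hc => by
    simp only [Fin.sum_univ_three, Matrix.cons_val] at hc
    have e0 : c 0 = 0 := by simpa [h1, h4, h5] using congrArg (b x') hc
    have e1 : c 1 = 0 := by simpa [h2, h6, e0] using congrArg (b y') hc
    have e2 : c 2 = 0 := by simpa [h3, e1, e0] using congrArg (b z') hc
    intro i; fin_cases i <;> assumption
  obtain ⟨c, hc⟩ := (Submodule.mem_span_range_iff_exists_fun E).1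
    ((li.span_eq_top_of_card_eq_finrank' (by simp [o.m3])).ge (Submodule.mem_top (x := v)))
  exact ⟨c 0, c 1, c 2, by simpa [Fin.sum_univ_three] using hc.symm⟩

theorem exists_fr {v w : V} (hv : q v = 0) (hw : q w = 0) (h : b v w = 1) : ∃ u, Fr b q v u w := by
  have h1 := H10.finrank_le_inf_ker ⊤ (b v)
  have h2 := H10.finrank_le_inf_ker (LinearMap.ker (b v)) (b w)
  rw [top_inf_eq, finrank_top, o.m3] at h1
  have h' := o.cl'.flip_one h
  obtain ⟨u, ⟨h3, h4⟩, h5⟩ := o.hq.exists_nonsingular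
    (W := LinearMap.ker (b v) ⊓ LinearMap.ker (b w)) (fun z hz a => by
      obtain ⟨i, j, rfl⟩ := Submodule.mem_span_pair.1 (o.cl'.form.mem_of_perp o.cl'.sep
        (W := Submodule.span E {v, w}) (x := z) fun y hy =>
          a y ⟨hy v (Submodule.subset_span (by simp)), hy w (Submodule.subset_span (by simp))⟩)
      obtain ⟨h1, h2⟩ := hz
      obtain rfl : j = 0 := by simpa [o.cl'.diag0 hv, h] using h1
      obtain rfl : i = 0 := by simpa [h'] using h2
      simp) (fun c => by rw [c, finrank_bot] at h2; omega)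
  replace h3 : b v u = 0 := h3
  replace h4 : b w u = 0 := h4
  exact ⟨u, hv, hw, h5, o.cl'.diag0 hv, o.cl'.diag0 hw, o.hq.diag' u, h, h', h3, o.cl'.refl h3, h4,
    o.cl'.refl h4, o.span3 (x' := v) (y' := u) (z' := w) (by simp [h])
      (by simp [o.hq.diag', o.two, h5]) (by simp [h']) h3 (o.cl'.diag0 hv) (o.cl'.refl h3)⟩

theorem exists_fr' {v : V} (hv : q v = 0) (v0 : v ≠ 0) : ∃ u w, Fr b q v u w := by
  obtain ⟨w, hw, h⟩ := o.cl'.form.exists_partner o.cl'.sep hv v0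
  exact (o.exists_fr hv hw h).imp fun u h => ⟨w, h⟩

theorem qdec {v u w : V} (f : Fr b q v u w) (c a k : E) :
    q (c • w + a • u + k • v) = c * k + a * a * q u := by
  simp [o.hq.add', o.hq.smul', f.qv, f.qw, f.wu, f.wv, f.uv]; ring

theorem line_of_perp {v x : V} (hv : q v = 0) (v0 : v ≠ 0) (hx : q x = 0) (h : b v x = 0) :
    x ∈ Ln F E v := by
  obtain ⟨u, w, f⟩ := o.exists_fr' hv v0
  obtain ⟨a, k, rfl⟩ := f.perp h
  have := o.qdec f 0 a k
  rw [zero_smul, zero_add, hx] at this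
  obtain rfl : a = 0 := by simpa [f.qu] using this
  simpa using smul_mem_Ln k v

theorem torus {v u w : V} (f : Fr b q v u w) {t : E} (ht : t ≠ 0) :
    ∃ h : V ≃ₗ[E] V, rs F h ∈ M ∧ h ∈ Isom b q ∧ h v = (t * t) • v ∧ h u = u := by
  have h1 : q (v - w) = -1 := by simp [o.hq.sub', f.qv, f.qw, f.vw]
  have h2 : q (t • v - t⁻¹ • w) = -1 := by simp [o.hq.sub', o.hq.smul', f.qv, f.qw, f.vw, ht]
  refine ⟨_, o.rr (a := v - w) (a' := t • v - t⁻¹ • w) (by simp [h1]) (by rw [h1, h2]),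
    mul_mem (o.hq.reflO _).2 (o.hq.reflO _).2, ?_, ?_⟩
  · simp only [mul_app, o.hq.reflO_apply, h1, h2]
    simp [f.vv, f.wv, f.vw, f.ww]
    match_scalars <;> field_simp <;> ring
  · simp [mul_app, o.hq.reflO_apply, f.vu, f.wu]

theorem swap {v u w : V} (f : Fr b q v u w) {k : E} (hk : k ≠ 0) :
    ∃ s : V ≃ₗ[E] V, rs F s ∈ M ∧ s ∈ Isom b q ∧ s v = -(k * k * q u) • w ∧
      s w = -(k * k * q u)⁻¹ • v ∧ s u = -u := by
  have h0 : k * k * q u ≠ 0 := by simp [hk, f.qu]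
  have h1 : q (k • u) = k * k * q u := o.hq.smul' _ _
  have h2 : q (v + (k * k * q u) • w) = k * k * q u := by
    simp [o.hq.add', o.hq.smul', f.qv, f.qw, f.vw]
  have := f.qu
  refine ⟨_, o.rr (a := k • u) (a' := v + (k * k * q u) • w) (by rwa [h1]) (by rw [h1, h2]),
    mul_mem (o.hq.reflO _).2 (o.hq.reflO _).2, ?_, ?_, ?_⟩ <;>
  · simp only [mul_app, o.hq.reflO_apply, h1, h2]
    simp [f.vv, f.wv, f.vw, f.ww, f.uv, f.uw, f.uu, f.vu, f.wu]
    match_scalars <;> field_simp <;> ring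

theorem trans {e e' : V} (he : q e = 0) (he' : q e' = 0) (h0 : e ≠ 0) (h0' : e' ≠ 0) :
    ∃ s : V ≃ₗ[E] V, rs F s ∈ M ∧ ∃ l : F, l ≠ 0 ∧ s e = l • e' := by
  have h1 : ∀ k : E, k ≠ 0 → ∃ s : V ≃ₗ[E] V, rs F s ∈ M ∧ ∃ l : F, l ≠ 0 ∧ s (k • e') = l • e' :=
    fun k hk => by
      obtain ⟨u, w, f⟩ := o.exists_fr' he' h0'
      obtain ⟨a, l, l0, h⟩ := exists_sq_mul o.odd o.two' hk
      obtain ⟨s, h1, -, h2, -⟩ := o.torus f (t := a) (by rintro rfl; exact l0 (by simpa using h.symm))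
      exact ⟨s, h1, l, l0, by rw [map_smul, h2, smul_smul, mul_comm, h, algebraMap_smul]⟩
  by_cases h : b e' e = 0
  · obtain ⟨k, rfl⟩ := mem_Ln.1 (o.line_of_perp he' h0' he h)
    exact h1 k (by rintro rfl; simp at h0)
  obtain ⟨u, f⟩ := o.exists_fr (w := (b e' e)⁻¹ • e') he (o.cl'.sing_smul he' _)
    (by simp [o.hq.comm e e', h])
  obtain ⟨s, h2, -, h3, -⟩ := o.swap f one_ne_zero
  obtain ⟨s', h4, l, l0, h5⟩ := h1 (-(1 * 1 * q u) * (b e' e)⁻¹) (by simp [h, f.qu])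
  exact ⟨s' * s, by rw [map_mul]; exact mul_mem h4 h2, l, l0, by rw [mul_app, h3, smul_smul, h5]⟩

theorem rot {z : V} (hz : q z ≠ 0) : ∃ t : V ≃ₗ[E] V, rs F t ∈ M ∧ t ∈ Isom b q ∧ t z = z ∧
    ∃ τ : E, τ ∉ (⊥ : Subalgebra F E) ∧ ∀ x, b z x = 0 → t x + t⁻¹ x = τ • x := by
  have ns : ∀ {x}, q x ≠ 0 → b x x ≠ 0 := fun hx => by simp [o.hq.diag', o.two, hx]
  have h1 := Im.nondeg_perp_one o.cl' o.cl' (Cl.nondegOn_top o.cl'.sep) (x := z) trivial (ns hz)
  have h2 := H10.finrank_le_inf_ker ⊤ (b z)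
  rw [finrank_top, o.m3] at h2
  obtain ⟨a, ha, qa⟩ := o.hq.exists_nonsingular h1 (fun c => by rw [c, finrank_bot] at h2; omega)
  have h3 := H10.finrank_le_inf_ker (⊤ ⊓ LinearMap.ker (b z)) (b a)
  obtain ⟨c, ⟨hc, ac⟩, qc⟩ := o.hq.exists_nonsingular (Im.nondeg_perp_one o.cl' o.cl' h1 ha (ns qa))
    (fun c => by rw [c, finrank_bot] at h3; omega)
  have za : b z a = 0 := ha.2
  have zc : b z c = 0 := hc.2
  replace ac : b a c = 0 := ac
  obtain ⟨l, hl⟩ : ∃ l : E, l * l * (q c / q a) ∉ (⊥ : Subalgebra F E) := by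
    by_cases k : q c / q a ∈ (⊥ : Subalgebra F E)
    · obtain ⟨l, hl⟩ := o.exists_nf
      refine ⟨l, fun k' => sq_notMem o.odd o.pr hl ?_⟩
      have := mul_mem k' (Subalgebra.inv_mem_of_algebraic _ (x := ⟨_, k⟩) (Algebra.IsAlgebraic.isAlgebraic _))
      rwa [mul_inv_cancel_right₀ (div_ne_zero qc qa)] at this
    · exact ⟨1, by simpa using k⟩
  obtain ⟨m, hm⟩ : ∃ m, m = l * l * (q c / q a) := ⟨_, rfl⟩
  rw [← hm] at hl
  have m1 : m + 1 ≠ 0 := fun k => hl (by rw [eq_neg_of_add_eq_zero_left k]; exact neg_mem (one_mem _))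
  obtain ⟨α, γ, e1, e2⟩ : ∃ α γ : E, α * α * q a + γ * γ * q c = q a ∧ α ∉ (⊥ : Subalgebra F E) := by
    refine ⟨(m - 1) / (m + 1), 2 * l / (m + 1), ?_, fun k => hl ?_⟩
    · field_simp; rw [hm]; field_simp; ring
    · have k1 : 1 - (m - 1) / (m + 1) ≠ 0 := by
        rw [sub_ne_zero, Ne, eq_div_iff m1]; exact fun k => o.two (by linear_combination k)
      have := mul_mem (add_mem (one_mem _) k) (Subalgebra.inv_mem_of_algebraic _
        (x := ⟨_, sub_mem (one_mem _) k⟩) (Algebra.IsAlgebraic.isAlgebraic _))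
      convert this using 1
      rw [eq_mul_inv_iff_mul_eq₀ k1]; field_simp; ring
  have e3 : q (α • a + γ • c) = q a := by simp [o.hq.add', o.hq.smul', ac, e1]
  refine ⟨_, o.rr qa e3, mul_mem (o.hq.reflO _).2 (o.hq.reflO _).2, by
    simp [mul_app, o.hq.reflO_apply, o.cl'.refl za, o.cl'.refl zc], 4 * (α * α) - 2, fun k => ?_,
    fun x hx => ?_⟩
  · refine sq_notMem o.odd o.pr e2 ?_
    have := Subalgebra.smul_mem _ (add_mem k (ofNat_mem _ 2)) (4 : F)⁻¹
    convert this using 1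
    have : (4 : E) ≠ 0 := by rw [show (4 : E) = 2 * 2 by norm_num]; simp [o.two]
    rw [Algebra.smul_def, map_inv₀, map_ofNat]; field_simp; ring
  obtain ⟨k, i, j, rfl⟩ := o.span3 (ns hz) (ns qa) (ns qc) za zc ac x
  obtain rfl : k = 0 := by simpa [za, zc, ns hz] using hx
  have inv : ∀ y, (o.hq.reflO y).1⁻¹ = (o.hq.reflO y).1 := fun y =>
    inv_eq_of_mul_eq_one_right (congrArg Subtype.val (o.hq.reflO_mul_self y))
  rw [mul_inv_rev, inv, inv]
  simp only [mul_app, o.hq.reflO_apply, e3, zero_smul, zero_add, map_add, map_sub, map_smul,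
    LinearMap.add_apply, LinearMap.smul_apply, ac, o.cl'.refl ac, o.hq.diag', smul_eq_mul]
  match_scalars
  · field_simp; ring
  · field_simp; linear_combination (-4 * j * q a) * e1

theorem esub {z : V} (hz : q z ≠ 0) {S : Submodule F V}
    (hS : ∀ g ∈ M, g z = z → ∀ s ∈ S, g s ∈ S) {y : V} (hy : y ∈ S) (h : y ∉ Ln F E z) :
    ∃ y, y ≠ 0 ∧ b z y = 0 ∧ (∀ k : E, k • y ∈ S) ∧ (q y ≠ 0 → ∀ x, b z x = 0 → x ∈ S) := by
  obtain ⟨t, h1, h2, h3, τ, h4, h5⟩ := o.rot hz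
  have ns : b z z ≠ 0 := by simp [o.hq.diag', o.two, hz]
  have h6 : ∀ s ∈ S, t s ∈ S := hS _ h1 h3
  have h7 : ∀ s ∈ S, t⁻¹ s ∈ S := hS (rs F t⁻¹) (by rw [map_inv]; exact inv_mem h1)
    (inv_eq_of (g := t) h3)
  have h8 : ∀ x, b z (t x) = b z x := fun x => by rw [← h2.1 z x, h3]
  let A : Subalgebra F E :=
    { carrier := {k | ∀ x ∈ S, b z x = 0 → k • x ∈ S}
      mul_mem' := fun {i j} hi hj x hx a => by rw [mul_smul]; exact hi _ (hj x hx a) (by simp [a])
      add_mem' := fun {i j} hi hj x hx a => by rw [add_smul]; exact add_mem (hi x hx a) (hj x hx a)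
      algebraMap_mem' := fun c x hx _ => by rw [algebraMap_smul]; exact S.smul_mem c hx }
  have h9 : ∀ k : E, ∀ x ∈ S, b z x = 0 → k • x ∈ S := fun k =>
    (eq_top_of_prime o.pr (A := A) (β := τ) (fun x hx a => h5 x a ▸ add_mem (h6 x hx) (h7 x hx))
      h4).ge (Algebra.mem_top (x := k))
  have h10 : ∀ x (μ : E), x ≠ 0 → b z x = 0 → μ * μ = 1 → t x ≠ μ • x := fun x μ x0 a c d => by
    have e := h5 x a
    rw [show t⁻¹ x = μ • x from inv_eq_of (by rw [map_smul, d, smul_smul, c, one_smul]), d,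
      ← add_smul] at e
    refine h4 (smul_left_injective E x0 e ▸ ?_)
    rcases mul_self_eq_one_iff.1 c with rfl | rfl
    · exact add_mem (one_mem _) (one_mem _)
    · exact add_mem (neg_mem (one_mem _)) (neg_mem (one_mem _))
  have h11 : t y - y ≠ 0 := fun c => h10 (y - (b z y / b z z) • z) 1
    (fun d => h (mem_Ln.2 ⟨_, (sub_eq_zero.1 d).symm⟩)) (by simp [ns]) (one_mul 1) (by
      rw [map_sub, map_smul, h3, sub_eq_zero.1 c, one_smul])
  have h12 : b z (t y - y) = 0 := by simp [h8]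
  have h13 := sub_mem (h6 y hy) hy
  generalize t y - y = y at h11 h12 h13
  refine ⟨y, h11, h12, fun k => h9 k y h13 h12, fun qy x hx => ?_⟩
  have ns' : b y y ≠ 0 := by simp [o.hq.diag', o.two, qy]
  obtain ⟨y', hy'⟩ : ∃ y', y' = t y - (b y (t y) / b y y) • y := ⟨_, rfl⟩
  have h14 : y' ≠ 0 := fun c => by
    rw [c, eq_comm, sub_eq_zero] at hy'
    refine h10 y _ h11 h12 (mul_right_cancel₀ qy ?_) hy'
    rw [← o.hq.smul', ← hy', h2.2, one_mul]
  obtain ⟨y'', h15⟩ := o.cl'.exists_ne h14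
  have h16 : b z y' = 0 := by simp [hy', h8, h12]
  obtain ⟨k, i, j, rfl⟩ := o.span3 ns ns' (o.cl'.refl_ne h15) h12 h16 (by simp [hy', ns']) x
  obtain rfl : k = 0 := by simpa [h12, h16, ns] using hx
  simpa using add_mem (h9 i y h13 h12) (h9 j y' (hy' ▸ sub_mem (h6 y h13) (h9 _ y h13 h12)) h16)

theorem exists_conf : ∃ (e f : V) (κ k : E), q e = 0 ∧ q f = 0 ∧ b e f = κ ∧ κ ≠ 0 ∧ 𝔱 κ = 0 ∧
    𝔱 (k * κ) = 1 ∧ (∀ j : E, o.cl.eich f (k • f) 0 (j • e) =
      j • e + (algebraMap F E (𝔱 (k * κ * j)) - algebraMap F E (𝔱 (κ * j)) * k) • f) ∧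
    o.cl.eich f (k • f) 0 e = e + f ∧ o.cl.eich f (k • f) 0 (k • e) ∉ Ln F E (e + f) ∧
    ∀ y, b (e + f) y = 0 → q y = 0 → y = 0 := by
  obtain ⟨e, -, e0, he⟩ := o.cl'.exists_sing3 (W := ⊤) (by rw [finrank_top, o.m3])
  obtain ⟨u, f, fr⟩ := o.exists_fr' he e0
  obtain ⟨κ, h2, κ0, κs⟩ : ∃ κ : E, 𝔱 κ = 0 ∧ κ ≠ 0 ∧ ¬ IsSquare (κ * q u) := by
    obtain ⟨κ, h2, κ0⟩ := (Submodule.ne_bot_iff _).1 (LinearMap.ker_ne_bot_of_finrank_lt
      (f := 𝔱) (by simpa using o.pr.one_lt))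
    by_cases k : IsSquare (κ * q u)
    · obtain ⟨l, hl⟩ := exists_nonsq o.odd o.two'
      have l0 : l ≠ 0 := by rintro rfl; simp at hl
      refine ⟨l • κ, by rw [map_smul, show 𝔱 κ = 0 from h2, smul_zero], by simp [l0, κ0],
        fun k' => hl ?_⟩
      have := k'.div k
      rwa [Algebra.smul_def, mul_assoc, mul_div_cancel_right₀ _ (mul_ne_zero κ0 fr.qu)] at this
    · exact ⟨κ, h2, κ0, k⟩
  obtain ⟨i, hi⟩ := exists_trace_one (F := F) (E := E)
  have h3 : 𝔱 (i / κ * κ) = 1 := by rw [div_mul_cancel₀ _ κ0, hi]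
  generalize i / κ = k at h3
  have h4 : q (κ • f) = 0 := o.cl'.sing_smul fr.qw κ
  have h5 : b e (κ • f) = κ := by simp [fr.vw]
  have h0 : ∀ y, b (e + κ • f) y = 0 → q y = 0 → y = 0 := fun y a1 a2 => by
    obtain ⟨c, a, j, rfl⟩ := fr.dec y
    rw [o.qdec fr] at a2
    simp [fr.vv, fr.vw, fr.vu, fr.wv, fr.ww, fr.wu] at a1
    by_cases j0 : j = 0
    · obtain rfl : c = 0 := by simpa [j0] using a1
      obtain rfl : a = 0 := by simpa [fr.qu] using a2
      simp [j0]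
    · refine absurd ⟨a * q u / j, ?_⟩ κs
      field_simp; linear_combination (j * q u) * a1 - q u * a2
  generalize κ • f = f at h4 h5 h0
  have h6 : ∀ j : E, o.cl.eich f (k • f) 0 (j • e) =
      j • e + (algebraMap F E (𝔱 (k * κ * j)) - algebraMap F E (𝔱 (κ * j)) * k) • f := fun j => by
    rw [o.cl.eich_apply (o.sQ h4) (o.z0 (by simp [o.cl'.diag0 h4])), o.trs, o.trs', map_smul,
      o.hq.comm f e, h5, smul_eq_mul, mul_comm j κ, ← mul_assoc]
    simp only [one_mul, zero_mul, zero_smul, sub_zero, sub_smul, mul_smul, algebraMap_smul]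
    abel
  refine ⟨e, f, κ, k, he, h4, h5, κ0, h2, h3, h6, by simpa [h2, h3] using h6 1, fun c => ?_, h0⟩
  obtain ⟨j, hj⟩ := mem_Ln.1 c
  rw [h6, mul_comm κ k, h3] at hj
  have h7 := congrArg (b e) hj
  have h8 := congrArg (b f) hj
  simp only [map_smul, map_add, o.cl'.diag0 he, o.cl'.diag0 h4, h5, o.hq.comm f e, smul_eq_mul,
    zero_add, add_zero, mul_zero, mul_left_inj' κ0, map_one, one_mul] at h7 h8
  have two := o.two'
  have h9 : k = algebraMap F E (𝔱 (k * κ * k) / 2) := by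
    have := o.two
    rw [map_div₀, map_ofNat, eq_div_iff this]; linear_combination h7 - h8
  rw [h9, ← Algebra.smul_def, map_smul, h2] at h3
  simp at h3

theorem exists_not : ∃ g ∈ o.cl.Om, ¬ NrmE E g := by
  obtain ⟨e, f, κ, k, -, hf, -, -, -, -, -, h1, h2, -⟩ := o.exists_conf
  refine ⟨_, o.cl.eich_mem_om (c := 0) (o.sQ hf) (o.z0 (x := f) (y := k • f)
    (by simp [o.cl'.diag0 hf])) (o.sQ (o.cl'.sing_smul hf k)).symm, fun h => h2 ?_⟩
  obtain ⟨j, hj⟩ := h k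
  rw [hj, h1]; exact smul_mem_Ln _ _

theorem om_le_of_arm (h : ∀ (k : E) v, q v = 0 → k • v ∈ o.cl.Arm M v) : o.cl.Om ≤ M := by
  have : Module.Finite F V := Module.Finite.trans E V
  obtain ⟨e, f, κ, k, he, hf, h1, κ0, h2, h3, h4, h5, h6, h0⟩ := o.exists_conf
  obtain ⟨-, c, h7, hg⟩ := (o.cl.mem_ar (o.sQ hf)).1 (o.cl.ar_of_arm (h k f hf))
  obtain rfl : c = 0 := h7.trans (o.sQ (o.cl'.sing_smul hf k))
  generalize o.cl.eich f (k • f) 0 = g at h4 h5 h6 hg
  have h8 : ∀ j : E, g (j • e) ∈ o.cl.Arm M (e + f) := fun j a => by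
    rw [← map_smul, ← h5]; exact o.cl.map_mem_ar o.le hg (h j e he a)
  have h9 : q (e + f) = κ := by simp [o.hq.add', he, hf, h1]
  obtain ⟨y, y0, y1, -, h10⟩ := o.esub (h9.trans_ne κ0) (S := o.cl.Arm M (e + f))
    (fun s hs a x hx => o.cl.map_mem_arm o.le hs a hx) (h8 k) h6
  replace h10 := h10 fun c => y0 (h0 y y1 c)
  have two := o.two'
  have h11 : o.cl.Full M (e + f) := o.cl.full_of_ar (by rw [← o.trq, h9, h2]) (fun y hy => by
    rw [← o.tr] at hy
    generalize ht : b (e + f) y = t at hy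
    have a1 : 𝔱 (κ * (t / κ - algebraMap F E (𝔱 (k * t) / 2))) = 0 := by
      rw [mul_sub, mul_div_cancel₀ _ κ0, map_sub, hy, mul_comm κ, ← Algebra.smul_def, map_smul, h2]
      simp
    have a2 : 𝔱 (k * κ * (t / κ - algebraMap F E (𝔱 (k * t) / 2))) = 𝔱 (k * t) / 2 := by
      rw [mul_sub, mul_assoc, mul_div_cancel₀ _ κ0, map_sub, mul_comm (k * κ), ← Algebra.smul_def,
        map_smul, h3, smul_eq_mul]
      field_simp; ring
    have a3 := add_mem (h10 (y - g ((t / κ - algebraMap F E (𝔱 (k * t) / 2)) • e)) (by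
      rw [map_sub, ht, h4, a1, a2]
      simp only [map_add, map_smul, LinearMap.add_apply, o.cl'.diag0 he, o.cl'.diag0 hf, h1,
        o.hq.comm f e, smul_eq_mul, map_zero]
      field_simp; ring)) (h8 (t / κ - algebraMap F E (𝔱 (k * t) / 2)))
    rw [sub_add_cancel] at a3
    exact o.cl.ar_of_arm a3) fun c hc => by
      rw [show c = 0 from hc, o.cl.eich_zero]; exact one_mem _
  have h12 : o.cl.Full M e := by
    simpa [← h5] using h11.map o.le (inv_mem hg)
  have h13 : B e (k • f) = 1 := by rw [o.trs', h1, h3]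
  obtain ⟨s, h14, l, l0, h15⟩ := o.trans he (o.cl'.sing_smul hf k) (by rintro rfl; simp at h13)
    (fun c => by simp [c] at h13)
  exact o.cl.om_le_of_full o.le h12 (h12.map o.le h14) (by simp [h15, h13, l0])

end Ov3

end Cfsg.Agent.H11.Fz
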