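import Mathlib
import Cfsg.Agent.H11.ImB

/-!
Non-degenerate planes over finite fields: inner products of vectors of equal length.
-/

set_option autoImplicit false
set_option linter.unusedSectionVars false

namespace Cfsg.Agent.H11.Im

open Module H10 H11 Cfsg.Geo

variable {F : Type*} [Field F] [Fintype F]

theorem sum_two (A C : Finset F) (h : Fintype.card F < A.card + C.card) (s : F) :
    ∃ a ∈ A, ∃ c ∈ C, a + c = s := by
  classical
  by_contra hc
  push Not at hc
  have := Finset.card_le_univ (A ∪ C.image (s - ·))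
  rw [Finset.card_union_of_disjoint (Finset.disjoint_left.mpr fun a ha k => by
    obtain ⟨c, h1, rfl⟩ := Finset.mem_image.mp k
    exact hc _ ha c h1 (by ring)), Finset.card_image_of_injective _ sub_right_injective] at this
  omega

theorem sum_three (A C : Finset F) (hA : Fintype.card F ≤ 2 * A.card)
    (hC : Fintype.card F ≤ 2 * C.card) {E : Set F} (h0 : 0 ∈ E) (hE : AddSubgroup.closure E = ⊤)
    (t2 : (2 : F) = 0) (s : F) : ∃ a ∈ A, ∃ c ∈ C, ∃ e ∈ E, a + c + e = s := by
  classical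
  by_contra hc
  push Not at hc
  have k : ∀ e ∈ E, A.image (s - e - ·) = Cᶜ := fun e he => Finset.eq_of_subset_of_card_le
    (fun z hz => by
      obtain ⟨a, ha, rfl⟩ := Finset.mem_image.mp hz
      exact Finset.mem_compl.mpr fun c => hc a ha _ c e he (by ring))
    (by rw [Finset.card_image_of_injective _ sub_right_injective, Finset.card_compl]; omega)
  have k1 : ∀ z ∈ AddSubgroup.closure E, ∀ a ∈ A, a + z ∈ A := fun z hz => by
    induction hz using AddSubgroup.closure_induction with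
    | mem e he =>
      intro a ha
      obtain ⟨a', h1, h2⟩ := Finset.mem_image.mp
        (((k e he).trans (k 0 h0).symm).le (Finset.mem_image_of_mem _ ha))
      rwa [show a + e = a' by linear_combination h2]
    | zero => simp
    | add x y _ _ a b => exact fun c hc => add_assoc c x y ▸ b _ (a c hc)
    | neg x _ a => rwa [show -x = x by linear_combination -x * t2]
  have := Fintype.card_pos (α := F)
  obtain ⟨a, ha⟩ := Finset.card_pos.mp (show 0 < A.card by omega)
  obtain ⟨c, hc'⟩ := Finset.card_pos.mp (show 0 < C.card by omega)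
  exact hc _ (k1 (s - c - a) (hE ▸ trivial) a ha) c hc' 0 h0 (by ring)

theorem index_le_of (S : AddSubgroup F) (T : Finset F) (hT : ∀ x ∈ T, x ∈ S) :
    S.index * T.card ≤ Fintype.card F := by
  classical
  rw [← Nat.card_eq_fintype_card, ← S.index_mul_card]
  refine Nat.mul_le_mul_left _ ?_
  rw [← Fintype.card_coe, ← Nat.card_eq_fintype_card]
  exact Nat.card_le_card_of_injective (fun x : T => (⟨x.1, hT x.1 x.2⟩ : S)) fun x y e =>
    Subtype.ext (congrArg Subtype.val e :)

theorem eq_top_of_half (S : AddSubgroup F) (T : Finset F) (hT : ∀ x ∈ T, x ∈ S)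
    (h : Fintype.card F < 2 * T.card) : S = ⊤ := by
  have := index_le_of S T hT
  have := S.index_ne_zero_of_finite
  rw [← AddSubgroup.index_eq_one]
  by_contra hc
  have : 2 * T.card ≤ S.index * T.card := Nat.mul_le_mul_right _ (by omega)
  omega

theorem top_of_inv (h5 : 5 ≤ Fintype.card F) (T : Finset F) (hT : Fintype.card F ≤ 2 * T.card)
    (hT' : ∀ x ∈ T, ∃ s, s ≠ 0 ∧ s + s⁻¹ = x) :
    AddSubgroup.closure {x : F | ∃ s, s ≠ 0 ∧ s + s⁻¹ = x} = ⊤ := by
  classical
  set S := AddSubgroup.closure {x : F | ∃ s, s ≠ 0 ∧ s + s⁻¹ = x}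
  have mul : ∀ a ∈ S, ∀ b ∈ S, a * b ∈ S := fun a ha b hb => by
    induction ha using AddSubgroup.closure_induction with
    | mem a ha =>
      induction hb using AddSubgroup.closure_induction with
      | mem b hb =>
        obtain ⟨s, s0, rfl⟩ := ha
        obtain ⟨r, r0, rfl⟩ := hb
        rw [show (s + s⁻¹) * (r + r⁻¹) = (s * r + (s * r)⁻¹) + (s / r + (s / r)⁻¹) by
          field_simp; ring]
        exact add_mem (AddSubgroup.subset_closure ⟨_, mul_ne_zero s0 r0, rfl⟩)
          (AddSubgroup.subset_closure ⟨_, div_ne_zero s0 r0, rfl⟩)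
      | zero => simp
      | add x y _ _ a b => rw [mul_add]; exact add_mem a b
      | neg x _ a => rw [mul_neg]; exact neg_mem a
    | zero => simp
    | add x y _ _ a b => rw [add_mul]; exact add_mem a b
    | neg x _ a => rw [neg_mul]; exact neg_mem a
  have m : ∀ x ∈ T, x ∈ S := fun x hx => AddSubgroup.subset_closure (hT' x hx)
  by_contra hc
  have i2 : S.index = 2 := by
    have := index_le_of S T m
    have := S.index_ne_zero_of_finite
    have := mt AddSubgroup.index_eq_one.mp hc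
    by_contra hc
    have : 3 * T.card ≤ S.index * T.card := Nat.mul_le_mul_right _ (by omega)
    omega
  obtain ⟨z, hz⟩ : ∃ z, z ∉ S := by
    by_contra k; push Not at k; exact hc ((AddSubgroup.eq_top_iff' S).mpr k)
  have k : ∀ a ∈ S, a ≠ 0 → a * z ∉ S := fun a ha a0 e => by
    obtain ⟨y, hy⟩ := (Finite.injective_iff_surjective (f := fun y : S => (⟨a * y, mul a ha y y.2⟩ : S))).mp
      (fun x y e => Subtype.ext (mul_left_cancel₀ a0 (congrArg Subtype.val e :))) ⟨_, e⟩
    exact hz (mul_left_cancel₀ a0 (congrArg Subtype.val hy :) ▸ y.2)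
  obtain ⟨a, ha, b, hb, hab⟩ := Finset.one_lt_card.mp (show 1 < (T.erase 0).card by
    have := Finset.pred_card_le_card_erase (s := T) (a := 0); omega)
  rw [Finset.mem_erase] at ha hb
  refine k (a - b) (sub_mem (m a ha.2) (m b hb.2)) (sub_ne_zero.mpr hab) ?_
  rw [sub_mul, sub_eq_add_neg, AddSubgroup.add_mem_iff_of_index_two i2, neg_mem_iff]
  exact iff_of_false (k a (m a ha.2) ha.1) (k b (m b hb.2) hb.1)

variable {V : Type*} [AddCommGroup V] [Module F V] [FiniteDimensional F V]
  {t : ℕ} {D : Fin t → Submodule F V} {p : Fin t → V →ₗ[F] V}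
  {B : V →ₗ[F] V →ₗ[F] F} {Q : V → F}
  (h : Cl (σ := RingHom.id F) 1 2 (AddMonoidHom.id F) B Q)

theorem span_pair_eq {U : Submodule F V} (h2 : finrank F U = 2) {x y : V} (hx : x ∈ U) (hy : y ∈ U)
    (x0 : x ≠ 0) (n : y ∉ Submodule.span F {x}) {z : V} (hz : z ∈ U) : ∃ a b : F, a • x + b • y = z := by
  have : Submodule.span F {x} < Submodule.span F {x, y} := lt_of_le_of_ne
    (Submodule.span_mono (by simp)) fun e => n (e ▸ Submodule.subset_span (by simp))
  have := Submodule.finrank_lt_finrank_of_lt this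
  rw [finrank_span_singleton x0] at this
  have e : Submodule.span F {x, y} = U := Submodule.eq_of_le_of_finrank_le
    (by simp [Submodule.span_le, Set.insert_subset_iff, hx, hy]) (by omega)
  exact Submodule.mem_span_pair.mp (e ▸ hz)

include h

section
variable {U : Submodule F V} (hU : NondegOn B U) (h2 : finrank F U = 2)
include hU h2

theorem plane_perp {x w : V} (hx : x ∈ U) (q : Q x ≠ 0) (hw : w ∈ U) (e : B x w = 0) (qw : Q w = 0) :
    w = 0 := by_contra fun w0 => w0 (hU w hw fun z hz => by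
  obtain ⟨a, b, rfl⟩ := span_pair_eq h2 hw hx w0 (fun m => by
    obtain ⟨s, rfl⟩ := Submodule.mem_span_singleton.mp m
    exact q (h.sing_smul qw s)) hz
  simp [h.diag0 qw, h.refl e])

theorem ts_fin {x : V} (hx : x ∈ U) (x0 : x ≠ 0) : ∃ T : Finset F, (∀ s ∈ T, s ∈ TS B Q U x) ∧
    Fintype.card F ≤ 2 * T.card ∧ ((∀ y ∈ U, Q y = 0 → y = 0) → Fintype.card F + 2 ≤ 2 * T.card) := by
  classical
  have hQ : IsQuad B Q := h.form
  by_cases q : Q x = 0
  · exact ⟨Finset.univ, fun s _ => ts_sing h hU hx x0 q s, by simp; omega, fun a => absurd (a x hx q) x0⟩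
  have : Finite V := Module.finite_of_finite F
  have := Fintype.ofFinite V
  let L := Finset.univ.filter fun b => b ∈ U ∧ Q b = Q x
  have mL : ∀ b, b ∈ L ↔ b ∈ U ∧ Q b = Q x := fun b => by simp [L]
  obtain ⟨w, hw, w0⟩ := exists_ne_zero_of_finrank (W := U ⊓ LinearMap.ker (B x)) (by
    have := finrank_le_inf_ker U (B x); omega)
  have qw : Q w ≠ 0 := fun c => w0 (plane_perp h hU h2 hx q hw.1 hw.2 c)
  have k1 : (L.erase x).card ≤ 2 * ((L.erase x).image (B x ·)).card :=
    Finset.card_le_mul_card_image _ _ fun s hs => by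
      obtain ⟨b, hb, rfl⟩ := Finset.mem_image.mp hs
      refine le_trans (Finset.card_le_card (t := {b, b + (-(B b w) / Q w) • w}) fun b' hb' => ?_)
        Finset.card_le_two
      simp only [Finset.mem_filter, Finset.mem_erase, mL] at hb hb'
      obtain ⟨s, e⟩ : ∃ s : F, s • w = b' - b := by
        by_contra hc
        refine x0 (hU x hx fun z hz => ?_)
        obtain ⟨α, β, rfl⟩ := span_pair_eq h2 hw.1 (U.sub_mem hb'.1.2.1 hb.2.1) w0
          (by rwa [Submodule.mem_span_singleton]) hz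
        simp [show B x w = 0 from hw.2, hb'.2]
      have e1 : b' = b + s • w := by rw [e]; abel
      have e2 := hb'.1.2.2
      rw [e1, hQ.add', hQ.smul', hb.2.2, map_smul, smul_eq_mul] at e2
      rw [e1]
      by_cases s0 : s = 0
      · simp [s0]
      · have : s = -(B b w) / Q w := by
          field_simp; exact mul_left_cancel₀ s0 (by linear_combination e2)
        simp [← this]
  have k2 : B x x ∉ (L.erase x).image (B x ·) := fun m => by
    obtain ⟨b, hb, e⟩ := Finset.mem_image.mp m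
    simp only [Finset.mem_erase, mL] at hb
    refine hb.1 (sub_eq_zero.mp (plane_perp h hU h2 hx q (U.sub_mem hb.2.1 hx) (by simp [e]) ?_))
    rw [h.form.sub, hb.2.2, hQ.comm, e, hQ.diag']; simp; ring
  have k3 := Finset.card_erase_of_mem ((mL x).mpr ⟨hx, rfl⟩)
  have k4 : (∀ y ∈ U, Q y = 0 → y = 0) → Fintype.card F + 1 ≤ L.card := fun a => by
    have h1 := h.restrict hU
    rw [← Nat.card_eq_fintype_card, ← IsQuad.card_level_aniso h1.form h1.sep h2
      (fun y e => Subtype.ext (a y y.2 e)) q, ← Fintype.card_coe, ← Nat.card_eq_fintype_card]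
    exact Nat.card_le_card_of_injective (fun y => ⟨y.1.1, (mL _).mpr ⟨y.1.2, y.2⟩⟩) fun a b e =>
      Subtype.ext (Subtype.ext (congrArg Subtype.val e :))
  have k5 : Fintype.card F ≤ L.card + 1 := by
    by_cases a : ∀ y ∈ U, Q y = 0 → y = 0
    · have := k4 a; omega
    push Not at a
    obtain ⟨e, he, qe, e0⟩ := a
    obtain ⟨f, hf, qf, ef⟩ := h.exists_partner_in' hU he qe e0
    have := Finset.card_le_card_of_injOn (s := Finset.univ.erase (0 : F)) (t := L)
      (fun s => s • f + (Q x / s) • e) (fun s hs => (mL _).mpr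
        ⟨U.add_mem (U.smul_mem _ hf) (U.smul_mem _ he), by
          have : s ≠ 0 := by simpa using hs
          simp only [hQ.add', hQ.smul', qe, qf, map_smul, LinearMap.smul_apply, hQ.comm f, ef,
            smul_eq_mul]
          field_simp; ring⟩) fun s _ r _ k => by simpa [ef, h.diag0 qe] using congrArg (B e) k
    rw [Finset.card_erase_of_mem (by simp), Finset.card_univ] at this
    omega
  refine ⟨insert (B x x) ((L.erase x).image (B x ·)), fun s hs => ?_, ?_, fun a => ?_⟩
  · rcases Finset.mem_insert.mp hs with rfl | hs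
    · exact ⟨x, hx, x0, rfl, rfl⟩
    · obtain ⟨b, hb, rfl⟩ := Finset.mem_image.mp hs
      simp only [Finset.mem_erase, mL] at hb
      exact ⟨b, hb.2.1, ne_zero_of_Q h (hb.2.2 ▸ q), hb.2.2, rfl⟩
  · rw [Finset.card_insert_of_notMem k2]; omega
  · have := k4 a
    rw [Finset.card_insert_of_notMem k2]; omega

theorem ts_odd (t2 : (2 : F) ≠ 0) {x : V} (hx : x ∈ U) (x0 : x ≠ 0) :
    ∃ T : Finset F, (∀ s ∈ T, s ∈ TS B Q U x) ∧ Fintype.card F < 2 * T.card := by
  obtain ⟨T, a, b, -⟩ := ts_fin h hU h2 hx x0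
  have := FiniteField.odd_card_of_char_ne_two (F := F) fun e =>
    t2 (by simpa [e] using CharP.cast_eq_zero F (ringChar F))
  exact ⟨T, a, by omega⟩

variable (ok : 6 ≤ Fintype.card F ∨ (∀ y ∈ U, Q y = 0 → y = 0) ∧ Fintype.card F ≠ 3)
include ok

theorem ts_avoid (t2 : (2 : F) ≠ 0) {x : V} (hx : x ∈ U) (x0 : x ≠ 0) (a b c : F) :
    ∃ s ∈ TS B Q U x, s ≠ a ∧ s ≠ b ∧ s ≠ c := by
  classical
  obtain ⟨T, h1, h3, h4⟩ := ts_fin h hU h2 hx x0
  have := FiniteField.odd_card_of_char_ne_two (F := F) fun e =>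
    t2 (by simpa [e] using CharP.cast_eq_zero F (ringChar F))
  have := Fintype.one_lt_card (α := F)
  obtain ⟨s, hs, k⟩ := Finset.exists_mem_notMem_of_card_lt_card (s := {a, b, c}) (t := T)
    (lt_of_le_of_lt Finset.card_le_three (by
      rcases ok with e | e
      · omega
      · have := h4 e.1; have := e.2; omega))
  exact ⟨s, h1 s hs, by simpa [not_or] using k⟩

theorem ts_np {x : V} (hx : x ∈ U) (x0 : x ≠ 0) :
    ∃ s ∈ TS B Q U x, s ≠ 0 ∧ s ≠ B x x ∧ s ≠ -B x x := by
  by_cases t2 : (2 : F) = 0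
  swap
  · exact ts_avoid h hU h2 ok t2 hx x0 _ _ _
  obtain ⟨T, h1, h3, h4⟩ := ts_fin h hU h2 hx x0
  have := Fintype.one_lt_card (α := F)
  obtain ⟨s, hs, k⟩ := Finset.exists_mem_notMem_of_card_lt_card (s := {0}) (t := T) (by
    rw [Finset.card_singleton]
    rcases ok with e | e
    · omega
    · have := h4 e.1; omega)
  exact ⟨s, h1 s hs, by simpa [h.form.diag, t2] using k⟩

theorem plane_np {x : V} (hx : x ∈ U) (x0 : x ≠ 0) :
    ∃ b ∈ U, Q b = Q x ∧ B x b ≠ 0 ∧ b ∉ Submodule.span F {x} := by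
  obtain ⟨_, ⟨b, hb, -, e, rfl⟩, a1, a2, a3⟩ := ts_np h hU h2 ok hx x0
  exact ⟨b, hb, e, a1, np_of h e a1 a2 a3⟩

theorem ts_closure {x : V} (hx : x ∈ U) (x0 : x ≠ 0) : AddSubgroup.closure (TS B Q U x) = ⊤ := by
  classical
  have hQ : IsQuad B Q := h.form
  obtain ⟨T, h1, h3, h4⟩ := ts_fin h hU h2 hx x0
  by_cases a : ∀ y ∈ U, Q y = 0 → y = 0
  · exact eq_top_of_half _ T (fun s hs => AddSubgroup.subset_closure (h1 s hs)) (by
      have := h4 a; omega)
  by_cases q : Q x = 0
  · exact top_le_iff.mp fun s _ => AddSubgroup.subset_closure (ts_sing h hU hx x0 q s)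
  have h6 := ok.resolve_right fun e => a e.1
  push Not at a
  obtain ⟨e, he, qe, e0⟩ := a
  obtain ⟨f, hf, qf, ef⟩ := h.exists_partner_in' hU he qe e0
  have co : ∀ z ∈ U, ∃ a b : F, a • e + b • f = z := fun z hz => span_pair_eq h2 he hf e0 (fun m => by
    obtain ⟨s, rfl⟩ := Submodule.mem_span_singleton.mp m
    simp [h.diag0 qe] at ef) hz
  have c1 : ∀ a b : F, Q (a • e + b • f) = a * b := fun a b => by
    simp [hQ.add', hQ.smul', qe, qf, ef, mul_comm]
  have c2 : ∀ a b a' b' : F, B (a • e + b • f) (a' • e + b' • f) = a * b' + b * a' := fun a b a' b' => by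
    simp [h.diag0 qe, h.diag0 qf, ef, hQ.comm f e]
  obtain ⟨α, β, rfl⟩ := co x hx
  rw [c1] at q
  obtain ⟨a0, b0⟩ := mul_ne_zero_iff.mp q
  have k := top_of_inv (by omega) (T.image (· / (α * β)))
    (by rwa [Finset.card_image_of_injective _ fun _ _ e => (div_left_inj' q).mp e]) fun s hs => by
      obtain ⟨r, hr, rfl⟩ := Finset.mem_image.mp hs
      obtain ⟨b, hb, -, e1, rfl⟩ := h1 _ hr
      obtain ⟨a, b, rfl⟩ := co b hb
      rw [c1, c1] at e1
      obtain ⟨a1, b1⟩ := mul_ne_zero_iff.mp (e1 ▸ q)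
      refine ⟨a / α, div_ne_zero a1 a0, ?_⟩
      rw [c2]; field_simp; linear_combination (-α) * e1
  refine top_le_iff.mp fun s _ => ?_
  have : s / (α * β) ∈ (AddSubgroup.closure (TS B Q U (α • e + β • f))).comap
      (AddMonoidHom.mulLeft (α * β)) := by
    refine (AddSubgroup.closure_le _).mpr ?_ (k.ge trivial)
    rintro _ ⟨s, s0, rfl⟩
    refine AddSubgroup.subset_closure ⟨(s * α) • e + (s⁻¹ * β) • f,
      U.add_mem (U.smul_mem _ he) (U.smul_mem _ hf), ne_zero_of_Q h ?_, ?_, ?_⟩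
    · rw [c1]; simp [s0, a0, b0]
    · rw [c1, c1]; field_simp
    · rw [c2]; simp; ring
  simpa [mul_div_cancel₀ _ q] using this

end

variable (d : Dec B Q D p) (h2 : ∀ i, finrank F (D i) = 2)
  (ok : ∀ i, 6 ≤ Fintype.card F ∨ (∀ y ∈ D i, Q y = 0 → y = 0) ∧ Fintype.card F ≠ 3)
include d h2

theorem sumP_two (t2 : (2 : F) ≠ 0) : SumP B Q D p 2 := fun J hJ a ha s => by
  classical
  obtain ⟨i, j, hij, rfl⟩ := Finset.card_eq_two.mp hJ
  obtain ⟨A, a1, a2⟩ := ts_odd h (d.nd i) (h2 i) t2 (d.mem i a) (ha i (by simp))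
  obtain ⟨C, c1, c2⟩ := ts_odd h (d.nd j) (h2 j) t2 (d.mem j a) (ha j (by simp))
  obtain ⟨x, hx, y, hy, e⟩ := sum_two A C (by omega)
    (s + B (p i a) (p i a) + B (p j a) (p j a))
  obtain ⟨k, b, ek⟩ := blk_sum d h {i, j} ha (fun l => if l = i then x else y) (by
    simp [hij.symm, a1 x hx, c1 y hy])
  exact ⟨k, b, by rw [ek, Finset.sum_pair hij]; simp [hij.symm]; linear_combination e⟩

include ok

theorem sumP_three (t2 : (2 : F) = 0) : SumP B Q D p 3 := fun J hJ a ha s => by
  classical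
  obtain ⟨i, j, l, hij, hil, hjl, rfl⟩ := Finset.card_eq_three.mp hJ
  obtain ⟨A, a1, a2, -⟩ := ts_fin h (d.nd i) (h2 i) (d.mem i a) (ha i (by simp))
  obtain ⟨C, c1, c2, -⟩ := ts_fin h (d.nd j) (h2 j) (d.mem j a) (ha j (by simp))
  have z : ∀ v, B v v = 0 := fun v => by rw [h.form.diag, t2, zero_mul]
  obtain ⟨x, hx, y, hy, w, hw, e⟩ := sum_three A C a2 c2 (E := TS B Q (D l) (p l a))
    ⟨_, d.mem l a, ha l (by simp), rfl, z _⟩
    (ts_closure h (d.nd l) (h2 l) (ok l) (d.mem l a) (ha l (by simp))) t2 s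
  obtain ⟨k, b, ek⟩ := blk_sum d h {i, j, l} ha
    (fun o => if o = i then x else if o = j then y else w) (by
      simp [hij.symm, hil.symm, hjl.symm, a1 x hx, c1 y hy, hw])
  refine ⟨k, b, ?_⟩
  rw [ek, Finset.sum_insert (by simp [hij, hil]), Finset.sum_pair hjl]
  simp [hij.symm, hil.symm, hjl.symm, z]; linear_combination e

theorem gen_plane : Gen h D := gen_quad h d (fun i => (h2 i).ge)
  (fun i x hx x0 => ts_np h (d.nd i) (h2 i) (ok i) hx x0)
  (fun i x hx q y ⟨z, hz, e⟩ => by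
    obtain ⟨b, hb, e1, -, n⟩ := plane_np h (d.nd i) (h2 i) (ok i) hx (ne_zero_of_Q h q)
    by_contra hc
    push Not at hc
    obtain ⟨α, β, rfl⟩ := span_pair_eq (h2 i) hx hb (ne_zero_of_Q h q) n hz
    simp [hc x hx rfl, hc b hb e1] at e)
  (fun i x hx q => ts_closure h (d.nd i) (h2 i) (ok i) hx (ne_zero_of_Q h q))
  (by
    by_cases e : Fintype.card F = 2
    · exact Or.inr fun i => ((ok i).resolve_left (by omega)).1
    · exact Or.inl (exists_ne01 e))
  fun i x hx q z hz n => by
    by_cases t2 : (2 : F) = 0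
    · have e : B x x = 0 := by rw [h.form.diag, t2, zero_mul]
      refine ⟨x, hx, q, e, fun c => ne_zero_of_Q h q (d.nd i x hx fun y hy => ?_)⟩
      obtain ⟨α, β, rfl⟩ := span_pair_eq (h2 i) hx hz (ne_zero_of_Q h q) n hy
      simp [e, c]
    · exact p7_odd h t2 (d.nd i) hx q hz n

end Cfsg.Agent.H11.Im
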