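import Mathlib
import Cfsg.Agent.H11.Im6

/-!
A dihedral argument for overgroups of stabilisers of decompositions with small members.
-/

set_option autoImplicit false
set_option linter.unusedSectionVars false

namespace Cfsg.Agent.H11.Im

open Module H10 H11 Cfsg.Geo

theorem dihedral {G : Type*} [Group G] [Finite G] {M : Subgroup G} {a b : G} (ha : a ∈ M)
    (hb : b ∈ M) (a2 : a * a = 1) (b2 : b * b = 1) : (∃ m ∈ M, m * a * m⁻¹ = b) ∨
      ∃ w ∈ M, w ≠ 1 ∧ w * w = 1 ∧ w * a = a * w ∧ w * b = b * w ∧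
        (∃ m ∈ M, w * a = m * a * m⁻¹ ∨ w * a = m * b * m⁻¹) ∧
        ∃ m ∈ M, w * b = m * a * m⁻¹ ∨ w * b = m * b * m⁻¹ := by
  obtain ⟨c, hc⟩ : ∃ c, c = a * b := ⟨_, rfl⟩
  have cM : c ∈ M := hc ▸ mul_mem ha hb
  have ai : a⁻¹ = a := inv_eq_of_mul_eq_one_right a2
  have bi : b⁻¹ = b := inv_eq_of_mul_eq_one_right b2
  have k : ∀ x, x * c * x⁻¹ = c⁻¹ → ∀ j : ℕ, x * (c ^ j)⁻¹ = c ^ j * x := fun x hx j => by
    have : x * c⁻¹ * x⁻¹ = c := by rw [← inv_inj]; nth_rewrite 2 [← hx]; group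
    rw [← inv_pow, ← mul_inv_eq_iff_eq_mul, ← conj_pow, this]
  have ka := k a (by rw [hc, mul_inv_rev, ai, bi, ← mul_assoc, a2, one_mul])
  have kb := k b (by rw [hc, mul_inv_rev, ai, bi, mul_assoc, mul_assoc, b2, mul_one])
  have ea : ∀ j : ℕ, c ^ j * a * (c ^ j)⁻¹ = c ^ (j + j) * a := fun j => by
    rw [mul_assoc, ka, ← mul_assoc, pow_add]
  have eb : ∀ j : ℕ, c ^ j * b * (c ^ j)⁻¹ = c ^ (j + j) * b := fun j => by
    rw [mul_assoc, kb, ← mul_assoc, pow_add]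
  have cb : c * b = a := by rw [hc, mul_assoc, b2, mul_one]
  have o := pow_orderOf_eq_one c
  have o0 := orderOf_pos c
  rcases Nat.even_or_odd' (orderOf c) with ⟨m, e | e⟩
  · have w2 : c ^ m * c ^ m = 1 := by rw [← pow_add, ← two_mul, ← e, o]
    have wi : (c ^ m)⁻¹ = c ^ m := inv_eq_of_mul_eq_one_right w2
    refine Or.inr ⟨c ^ m, pow_mem cM m, pow_ne_one_of_lt_orderOf (by omega) (by omega), w2,
      by rw [← ka, wi], by rw [← kb, wi], ?_⟩
    rcases Nat.even_or_odd' m with ⟨j, rfl | rfl⟩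
    · exact ⟨⟨_, pow_mem cM j, Or.inl (by rw [ea, two_mul])⟩,
        ⟨_, pow_mem cM j, Or.inr (by rw [eb, two_mul])⟩⟩
    · refine ⟨⟨_, pow_mem cM (j + 1), Or.inr ?_⟩, ⟨_, pow_mem cM j, Or.inl ?_⟩⟩
      · rw [eb, ← cb, ← mul_assoc, ← pow_succ]; congr 2; ring
      · rw [ea, ← cb, ← mul_assoc, ← pow_succ, two_mul]
  · refine Or.inl ⟨_, pow_mem cM m, ?_⟩
    rw [ea, ← cb, ← mul_assoc, ← pow_succ, ← two_mul, ← e, o, one_mul]

variable {F : Type*} [Field F] {V : Type*} [AddCommGroup V] [Module F V] {σ : F →+* F}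
  {t : ℕ} {D : Fin t → Submodule F V} {p : Fin t → V →ₗ[F] V} [FiniteDimensional F V]
  {κ : F} {τ : F →+ F} {B : V →ₛₗ[σ] V →ₗ[F] F} {Q : V → F}

/-- The commutator space of `y` has dimension at most `r`. -/
def Rk (y : V ≃ₗ[F] V) (r : ℕ) : Prop := ∃ Y : Submodule F V, finrank F Y ≤ r ∧ ∀ v, y v - v ∈ Y

theorem Rk.mono {y : V ≃ₗ[F] V} {r s : ℕ} (a : Rk y r) (e : r ≤ s) : Rk y s :=
  a.imp fun _ b => ⟨b.1.trans e, b.2⟩

theorem Rk.conj {y : V ≃ₗ[F] V} {r : ℕ} (a : Rk y r) (m : V ≃ₗ[F] V) : Rk (m * y * m⁻¹) r := by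
  obtain ⟨Y, a, b⟩ := a
  exact ⟨Y.map (m : V →ₗ[F] V), (Submodule.finrank_map_le _ _).trans a, fun v =>
    ⟨_, b (m⁻¹ v), by simp [app_inv]⟩⟩

theorem Rk.mul {x y : V ≃ₗ[F] V} {r s : ℕ} (a : Rk x r) (b : Rk y s) : Rk (x * y) (r + s) := by
  obtain ⟨X, a, a'⟩ := a
  obtain ⟨Y, b, b'⟩ := b
  refine ⟨X ⊔ Y, (Submodule.finrank_add_le_finrank_add_finrank _ _).trans (by omega), fun v => ?_⟩
  simpa using Submodule.add_mem_sup (a' (y v)) (b' v)

theorem rk_rf (h : Cl 1 κ τ B Q) (a : V) (c : F) : Rk (rf h a c) 1 :=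
  ⟨_, finrank_span_one_le a, loc_sub_mem h (rf_mem_loc h (Submodule.mem_span_singleton_self _) c)⟩

section
variable (d : Dec B Q D p)
include d

theorem rk_sum {y : V ≃ₗ[F] V} {r : ℕ} (hy : Rk y r) {π : Equiv.Perm (Fin t)}
    (hπ : ∀ i, ∀ x ∈ D i, y x ∈ D (π i)) (S : Finset (Fin t)) (hS : ∀ i ∈ S, π i ∈ S → π i = i)
    (X : Fin t → Submodule F V) (hX : ∀ i, X i ≤ D i) (hi : ∀ i ∈ S, ∀ x ∈ X i, y x = x → x = 0) :
    ∑ i ∈ S, finrank F (X i) ≤ r := by
  obtain ⟨Y, a, b⟩ := hy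
  let L : (∀ i : S, X i) →ₗ[F] V := ∑ i : S, (X i).subtype ∘ₗ LinearMap.proj i
  have hL : ∀ x, L x = ∑ i : S, (x i).1 := fun x => by simp [L]
  have := LinearMap.finrank_le_finrank_of_injective
    (f := (((y : V →ₗ[F] V) - LinearMap.id) ∘ₗ L).codRestrict Y fun x => b _) (by
      rw [← LinearMap.ker_eq_bot, LinearMap.ker_eq_bot']
      intro x hx
      have e : y (L x) = L x := sub_eq_zero.mp (congrArg Subtype.val hx :)
      have pL : ∀ j : S, p j (L x) = x j := fun j => by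
        rw [hL, map_sum, Finset.sum_eq_single j (fun l _ hl => d.zero _ _
          (fun c => hl (Subtype.ext c).symm) _ (hX _ (x l).2)) (by simp), d.self _ _ (hX _ (x j).2)]
      funext j
      have k := p_perm d hπ j (L x)
      rw [e, pL] at k
      by_cases c : π j ∈ S
      · rw [hS j j.2 c, pL] at k
        exact Subtype.ext (hi j j.2 _ (x j).2 k.symm)
      · rw [hL, map_sum, Finset.sum_eq_zero fun l _ => d.zero _ _ (by
          intro e; exact c (e ▸ l.2)) _ (hX _ (x l).2)] at k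
        exact Subtype.ext (by simpa using k.symm))
  rw [finrank_pi_fintype, Finset.sum_coe_sort S fun i => finrank F (X i)] at this
  omega

theorem rk_count {y : V ≃ₗ[F] V} {r : ℕ} (hy : Rk y r) (y2 : y * y = 1) {π : Equiv.Perm (Fin t)}
    (hπ : ∀ i, ∀ x ∈ D i, y x ∈ D (π i)) {k : ℕ} (hk : ∀ i, k ≤ finrank F (D i)) :
    ∃ J : Finset (Fin t), (∀ i ∈ J, ∀ x ∈ D i, y x = x) ∧
      ∃ α β, t ≤ J.card + α + 2 * β ∧ α + k * β ≤ r ∧ ((∀ i, π i = i) → β = 0) := by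
  classical
  have ππ : ∀ i, π (π i) = i := fun i => by
    obtain ⟨x, hx, x0⟩ := (Submodule.ne_bot_iff _).mp (d.ne i)
    have := hπ _ _ (hπ i x hx)
    rw [← LinearEquiv.mul_apply, y2] at this
    exact d.eq_of_mem x0 this hx
  let J := Finset.univ.filter fun i => ∀ x ∈ D i, y x = x
  let A := Finset.univ.filter fun i => π i = i ∧ i ∉ J
  let C := Finset.univ.filter fun i => i < π i
  have ex : ∀ i, ∃ x ∈ D i, i ∉ J → y x ≠ x := fun i => by
    by_cases e : i ∈ J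
    · exact ⟨0, zero_mem _, fun c => absurd e c⟩
    · simp only [J, Finset.mem_filter, Finset.mem_univ, true_and, not_forall] at e
      obtain ⟨x, hx, e⟩ := e
      exact ⟨x, hx, fun _ => e⟩
  choose x hx e using ex
  have dAC : Disjoint A C := Finset.disjoint_left.mpr fun i a b => by
    simp only [A, C, Finset.mem_filter] at a b
    exact b.2.ne' a.2.1
  have := rk_sum d hy hπ (A ∪ C) (fun i a b => by
      simp only [A, C, Finset.mem_union, Finset.mem_filter, Finset.mem_univ, true_and, ππ] at a b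
      omega)
    (fun i => if π i = i then Submodule.span F {x i} else D i)
    (fun i => by split_ifs <;> simp [hx]) (fun i hi z hz ez => by
      split_ifs at hz with c
      · obtain ⟨s, rfl⟩ := Submodule.mem_span_singleton.mp hz
        have : i ∉ J := by
          simp only [A, C, Finset.mem_union, Finset.mem_filter, Finset.mem_univ, true_and, c,
            lt_irrefl, or_false] at hi
          exact hi
        by_contra s0
        exact e i this (smul_right_injective V (left_ne_zero_of_smul s0) (by simpa using ez))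
      · by_contra z0
        exact c (d.eq_of_mem z0 (ez ▸ hπ i z hz) hz))
  rw [Finset.sum_union dAC] at this
  have a1 : A.card ≤ ∑ i ∈ A, finrank F ↥(if π i = i then Submodule.span F {x i} else D i) := by
    rw [Finset.card_eq_sum_ones]
    refine Finset.sum_le_sum fun i hi => ?_
    simp only [A, Finset.mem_filter, Finset.mem_univ, true_and] at hi
    rw [if_pos hi.1, finrank_span_singleton fun c => e i hi.2 (by simp [c])]
  have a2 : k * C.card ≤ ∑ i ∈ C, finrank F ↥(if π i = i then Submodule.span F {x i} else D i) := by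
    rw [mul_comm, ← smul_eq_mul, ← Finset.sum_const]
    refine Finset.sum_le_sum fun i hi => ?_
    simp only [C, Finset.mem_filter, Finset.mem_univ, true_and] at hi
    rw [if_neg hi.ne']; exact hk i
  refine ⟨J, fun i hi => by simpa [J] using hi, A.card, C.card, ?_, by omega, fun k => by
    simp [C, k]⟩
  have : Finset.univ ⊆ J ∪ A ∪ C ∪ C.image π := fun i _ => by
    simp only [A, C, Finset.mem_union, Finset.mem_filter, Finset.mem_univ, true_and,
      Finset.mem_image]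
    rcases lt_trichotomy i (π i) with c | c | c
    · tauto
    · by_cases e : i ∈ J
      · tauto
      · exact Or.inl (Or.inl (Or.inr ⟨c.symm, e⟩))
    · exact Or.inr ⟨π i, by rwa [ππ], ππ i⟩
  have := Finset.card_le_card this
  have := Finset.card_union_le (J ∪ A ∪ C) (C.image π)
  have := Finset.card_union_le (J ∪ A) C
  have := Finset.card_union_le J A
  have := Finset.card_image_le (s := C) (f := π)
  simp only [Finset.card_univ, Fintype.card_fin] at *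
  omega

theorem fix_of_p {s : V ≃ₗ[F] V} {J : Finset (Fin t)} (hs : ∀ i ∉ J, ∀ x ∈ D i, s x = x) {v : V}
    (hv : ∀ i ∈ J, p i v = 0) : s v = v := by
  conv_lhs => rw [← d.sum v, map_sum]
  conv_rhs => rw [← d.sum v]
  refine Finset.sum_congr rfl fun i _ => ?_
  by_cases hi : i ∈ J
  · rw [hv i hi, map_zero]
  · exact hs i hi _ (d.mem i v)

theorem p_sub_eq (h : Cl 1 κ τ B Q) {y : V ≃ₗ[F] V} (hy : y ∈ Isom B Q) {j : Fin t}
    (e : ∀ x ∈ D j, y x = x) (v : V) : p j (y v - v) = 0 :=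
  (p_eq_zero h d).mpr fun z hz => by rw [map_sub, ← hy.1 z v, e z hz, sub_self]

theorem comm_of (h : Cl 1 κ τ B Q) {y s : V ≃ₗ[F] V} (hy : y ∈ Isom B Q) (hs : s ∈ Isom B Q)
    {J : Finset (Fin t)} (e : ∀ i ∈ J, ∀ x ∈ D i, y x = x) (e' : ∀ i ∉ J, ∀ x ∈ D i, s x = x) :
    s * y = y * s := by
  classical
  ext v
  have a := fix_of_p d e' fun i hi => p_sub_eq d h hy (e i hi) v
  have b := fix_of_p d (J := Jᶜ) (by simpa using e) fun i hi =>
    p_sub_eq d h hs (e' i (by simpa using hi)) v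
  rw [map_sub, sub_eq_iff_eq_add] at a b
  rw [LinearEquiv.mul_apply, LinearEquiv.mul_apply, a, b]; abel

theorem Blk.conj {y m : V ≃ₗ[F] V} (a : Blk B Q D Finset.univ y) (hm : m ∈ Isom B Q)
    (hm' : m ∈ H10.dstab D) : Blk B Q D Finset.univ (m * y * m⁻¹) := by
  obtain ⟨π, hπ⟩ := dstab_perm hm'
  refine ⟨mul_mem (mul_mem hm a.isom) (inv_mem hm), fun i x hx => ?_, by simp⟩
  obtain ⟨i, rfl⟩ := π.surjective i
  exact hπ i _ (a.blk i _ (onto d (hπ i) hx))

theorem not_rk {y : V ≃ₗ[F] V} {r : ℕ} (a : Blk B Q D Finset.univ y) (S : Finset (Fin t))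
    (hS : r < S.card) (e : ∀ i ∈ S, ∃ x ∈ D i, y x ≠ x) : ¬ Rk y r := fun hy => by
  classical
  choose! x hx e using e
  have := rk_sum d hy (π := 1) a.blk S (fun _ _ _ => rfl)
    (fun i => if i ∈ S then Submodule.span F {x i} else ⊥)
    (fun i => by split_ifs with c <;> simp [hx, c]) (fun i hi z hz ez => by
      rw [if_pos hi] at hz
      obtain ⟨s, rfl⟩ := Submodule.mem_span_singleton.mp hz
      by_contra s0
      exact e i hi (smul_right_injective V (left_ne_zero_of_smul s0) (by simpa using ez)))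
  rw [Finset.sum_congr rfl (g := fun _ => 1) fun i hi => by
    rw [if_pos hi, finrank_span_singleton fun c => e i hi (by simp [c])]] at this
  simp at this; omega

/-- The dihedral argument. -/
theorem stepA [Finite F] (h : Cl 1 κ τ B Q) {M : Subgroup (V ≃ₗ[F] V)} (hM : M ≤ Isom B Q) {κ₀ k : ℕ}
    (star : ∀ x ∈ M, ∀ i, ∀ v ∈ D i, Q v ≠ 0 → x v = v → x ∈ dstab D)
    (hc : ∀ m ∈ M, ∀ J : Finset (Fin t), κ₀ ≤ J.card → (∀ s ∈ M, s ∈ dstab D →
      (∀ i ∉ J, ∀ x ∈ D i, s x = x) → m * s * m⁻¹ ∈ dstab D) → m ∈ dstab D)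
    (ns : ∀ y, Blk B Q D Finset.univ y → y ≠ 1 → ∃ i, ∃ x ∈ D i, Q (y x - x) ≠ 0)
    (hk : ∀ i, k ≤ finrank F (D i)) (ht : κ₀ + 6 ≤ t) (ht' : 2 ≤ k ∨ 1 ≤ k ∧ κ₀ + 8 ≤ t)
    {a a' : V ≃ₗ[F] V} (ha : a ∈ M) (ba : Blk B Q D Finset.univ a) (a1 : a ≠ 1) (a2 : a * a = 1)
    (ra : Rk a 2) (ha' : a' ∈ M) (ba' : Blk B Q D Finset.univ a') (a2' : a' * a' = 1)
    (ra' : Rk a' 4) (na' : ¬ Rk a' 2) : M ≤ dstab D := fun g hg => by
  have : Finite V := Module.finite_of_finite F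
  have : Finite (V ≃ₗ[F] V) := DFunLike.finite _
  have diag : ∀ y, Blk B Q D Finset.univ y → y * y = 1 → Rk y 6 →
      ∃ J : Finset (Fin t), κ₀ ≤ J.card ∧ ∀ i ∈ J, ∀ x ∈ D i, y x = x := fun y b y2 r => by
    obtain ⟨J, e, α, β, c1, c2, c3⟩ := rk_count d r y2 (π := 1) b.blk hk
    have := c3 fun _ => rfl
    exact ⟨J, by omega, e⟩
  have cen : ∀ y, Blk B Q D Finset.univ y → y ≠ 1 → y * y = 1 → Rk y 6 → ∀ m ∈ M,
      m * y = y * m → m ∈ dstab D := fun y b y1 y2 r m hm e => by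
    obtain ⟨J, c, e'⟩ := diag y b y2 r
    obtain ⟨i, x, hx, q⟩ := ns y b y1
    refine hc m hm J c fun s hs _ fs => star _ (mul_mem (mul_mem hm hs) (inv_mem hm)) i _
      ((D i).sub_mem (b.blk i x hx) hx) q ?_
    have : m⁻¹ (y x - x) = y (m⁻¹ x) - m⁻¹ x := by
      rw [map_sub, ← LinearEquiv.mul_apply, ← LinearEquiv.mul_apply y,
        show m⁻¹ * y = y * m⁻¹ by rw [inv_mul_eq_iff_eq_mul, ← mul_assoc, e, mul_inv_cancel_right]]
    rw [LinearEquiv.mul_apply, LinearEquiv.mul_apply, this,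
      fix_of_p d fs fun j hj => p_sub_eq d h b.isom (e' j hj) _, ← this, app_inv]
  have P : ∀ y, Blk B Q D Finset.univ y → y ≠ 1 → y * y = 1 → Rk y 4 → ∀ m ∈ M,
      m * y * m⁻¹ ∈ dstab D → Blk B Q D Finset.univ (m * y * m⁻¹) := fun y b y1 y2 r m hm e => by
    obtain ⟨π, hπ⟩ := dstab_perm e
    obtain ⟨J, e', α, β, c1, c2, -⟩ := rk_count d (r.conj m) (by
      rw [show m * y * m⁻¹ * (m * y * m⁻¹) = m * (y * y) * m⁻¹ by group, y2]; simp) hπ hk
    refine b.conj d (hM hm) (inv_mem_iff.mp (hc _ (inv_mem hm) J ?_ fun s hs _ fs =>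
      cen y b y1 y2 (r.mono (by omega)) _ (mul_mem (mul_mem (inv_mem hm) hs) (by simpa using hm)) ?_))
    · rcases ht' with c | c
      · have : 2 * β ≤ k * β := Nat.mul_le_mul_right _ c
        omega
      · have : 1 * β ≤ k * β := Nat.mul_le_mul_right _ c.1
        omega
    · have := comm_of d h (mul_mem (mul_mem (hM hm) b.isom) (inv_mem (hM hm))) (hM hs) e' fs
      calc _ = m⁻¹ * (s * (m * y * m⁻¹)) * m := by group
        _ = _ := by rw [this]; group
  have a1' : a' ≠ 1 := by rintro rfl; exact na' ⟨⊥, by simp, by simp⟩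
  rcases dihedral ha (mul_mem (mul_mem hg ha') (inv_mem hg)) a2 (by
    rw [show g * a' * g⁻¹ * (g * a' * g⁻¹) = g * (a' * a') * g⁻¹ by group, a2']; simp) with
    ⟨m, -, e⟩ | ⟨w, hw, w1, w2, wa, wb, ⟨m, hm, e⟩, m', hm', e'⟩
  · refine absurd ?_ na'
    have := (ra.conj m).conj g⁻¹
    rwa [e, show g⁻¹ * (g * a' * g⁻¹) * g⁻¹⁻¹ = a' by group] at this
  have wK := mul_mem (cen a ba a1 a2 (ra.mono (by omega)) w hw wa) (ba.dstab d)
  obtain ⟨b1, r1⟩ : Blk B Q D Finset.univ (w * a) ∧ Rk (w * a) 4 := by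
    rcases e with e | e
    · rw [e] at wK ⊢
      exact ⟨P a ba a1 a2 (ra.mono (by omega)) m hm wK, (ra.conj m).mono (by omega)⟩
    · rw [e, show m * (g * a' * g⁻¹) * m⁻¹ = (m * g) * a' * (m * g)⁻¹ by group] at wK ⊢
      exact ⟨P a' ba' a1' a2' ra' _ (mul_mem hm hg) wK, ra'.conj _⟩
  have e1 : w * a * a = w := by rw [mul_assoc, a2, mul_one]
  have bw := e1 ▸ b1.mul ba
  have rw6 : Rk w 6 := e1 ▸ r1.mul ra
  have hw' := mul_mem (mul_mem (inv_mem hg) hw) (inv_mem (inv_mem hg))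
  have wK' := mul_mem (cen a' ba' a1' a2' (ra'.mono (by omega)) _ hw' (by
    calc _ = g⁻¹ * (w * (g * a' * g⁻¹)) * g := by group
      _ = _ := by rw [wb]; group)) (ba'.dstab d)
  have e2 : g⁻¹ * w * g⁻¹⁻¹ * a' = g⁻¹ * (w * (g * a' * g⁻¹)) * g := by group
  have b2 : Blk B Q D Finset.univ (g⁻¹ * w * g⁻¹⁻¹ * a') := by
    rw [e2] at wK' ⊢
    rcases e' with e' | e'
    · rw [e', show g⁻¹ * (m' * a * m'⁻¹) * g = (g⁻¹ * m') * a * (g⁻¹ * m')⁻¹ by group] at wK' ⊢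
      exact P a ba a1 a2 (ra.mono (by omega)) _ (mul_mem (inv_mem hg) hm') wK'
    · rw [e', show g⁻¹ * (m' * (g * a' * g⁻¹) * m'⁻¹) * g =
        (g⁻¹ * m' * g) * a' * (g⁻¹ * m' * g)⁻¹ by group] at wK' ⊢
      exact P a' ba' a1' a2' ra' _ (mul_mem (mul_mem (inv_mem hg) hm') hg) wK'
  have b3 := b2.mul ba'
  rw [mul_assoc _ a', a2', mul_one] at b3
  obtain ⟨J, c, eJ⟩ := diag _ b3 (by
    rw [show g⁻¹ * w * g⁻¹⁻¹ * (g⁻¹ * w * g⁻¹⁻¹) = g⁻¹ * (w * w) * g by group, w2]; simp)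
    (rw6.conj _)
  refine hc g hg J c fun s hs _ fs => cen w bw w1 w2 rw6 _ (mul_mem (mul_mem hg hs) (inv_mem hg)) ?_
  have := comm_of d h b3.isom (hM hs) eJ fs
  calc _ = g * (s * (g⁻¹ * w * g⁻¹⁻¹)) * g⁻¹ := by group
    _ = _ := by rw [this]; group

end

end Cfsg.Agent.H11.Im
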