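import Mathlib
import Cfsg.Agent.H11.Im7

/-!
Maximality of stabilisers of decompositions of orthogonal spaces into planes.
-/

set_option autoImplicit false
set_option linter.unusedSectionVars false

namespace Cfsg.Agent.H11.Im

open Module H10 H11 Cfsg.Geo

variable {F : Type*} [Field F] {V : Type*} [AddCommGroup V] [Module F V] {σ : F →+* F}
  {t : ℕ} {D : Fin t → Submodule F V} {p : Fin t → V →ₗ[F] V} [FiniteDimensional F V]

section
variable {κ : F} {τ : F →+ F} {B : V →ₛₗ[σ] V →ₗ[F] F} {Q : V → F} (d : Dec B Q D p)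
include d

theorem Blk.comm {J J' : Finset (Fin t)} {k k' : V ≃ₗ[F] V} (a : Blk B Q D J k) (b : Blk B Q D J' k')
    (e : Disjoint J J') : k * k' = k' * k := by
  ext v
  rw [LinearEquiv.mul_apply, LinearEquiv.mul_apply, a.add d b e, b.add d a e.symm, add_comm]

theorem exists_to {i l : Fin t} (h : Cl 1 κ τ B Q) {v w : V} (hv : v ∈ D i) (hw : w ∈ D l)
    (e : Q v = Q w) (v0 : v ≠ 0) (w0 : w ≠ 0) : ∃ k ∈ Isom B Q, k ∈ dstab D ∧ k w = v := by
  have k : ∀ j, j ≠ l → p (Equiv.swap l i j) v = 0 ∧ p j w = 0 := fun j hj =>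
    ⟨d.zero _ i (by rwa [Ne, Equiv.swap_apply_eq_iff, Equiv.swap_apply_right]) v hv,
      d.zero j l hj w hw⟩
  obtain ⟨k, hk, m, e⟩ := orbit h d (Equiv.swap l i) (a := w) (b := v) (fun j => by
    by_cases c : j = l
    · simp [c, d.self i v hv, d.self l w hw, e]
    · rw [(k j c).1, (k j c).2]) fun j => by
    by_cases c : j = l
    · simp [c, d.self i v hv, d.self l w hw, v0, w0]
    · rw [(k j c).1, (k j c).2]
  exact ⟨k, hk, perm_dstab d m, e⟩

theorem stepA' [Finite F] (h : Cl 1 κ τ B Q) {M : Subgroup (V ≃ₗ[F] V)} (hM : M ≤ Isom B Q)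
    {κ₀ k : ℕ} (star : ∀ x ∈ M, ∀ i, ∀ v ∈ D i, Q v ≠ 0 → x v = v → x ∈ dstab D)
    (hc : ∀ m ∈ M, ∀ J : Finset (Fin t), κ₀ ≤ J.card → (∀ s ∈ M, s ∈ dstab D →
      (∀ i ∉ J, ∀ x ∈ D i, s x = x) → m * s * m⁻¹ ∈ dstab D) → m ∈ dstab D)
    (ns : ∀ y, Blk B Q D Finset.univ y → y ≠ 1 → ∃ i, ∃ x ∈ D i, Q (y x - x) ≠ 0)
    (hk : ∀ i, k ≤ finrank F (D i)) (ht : κ₀ + 6 ≤ t) (ht' : 2 ≤ k ∨ 1 ≤ k ∧ κ₀ + 8 ≤ t)
    (ρ : Fin t → V ≃ₗ[F] V) (b : ∀ i, Blk B Q D {i} (ρ i)) (r2 : ∀ i, ρ i * ρ i = 1)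
    (r1 : ∀ i, Rk (ρ i) 1) (ne : ∀ i, ∃ x ∈ D i, ρ i x ≠ x) (m : ∀ i j, ρ i * ρ j ∈ M) :
    M ≤ dstab D := by
  classical
  obtain ⟨S, -, hS⟩ := Finset.exists_subset_card_eq (n := 4) (s := (Finset.univ : Finset (Fin t)))
    (by simp; omega)
  obtain ⟨i, j, k, l, hij, hik, hil, hjk, hjl, hkl, -⟩ := Finset.card_eq_four.mp hS
  have inv : ∀ {x y : V ≃ₗ[F] V}, x * x = 1 → y * y = 1 → x * y = y * x → x * y * (x * y) = 1 :=
    fun {x y} a b e => by
      rw [mul_assoc, ← mul_assoc y, ← e, mul_assoc x, b, mul_one, a]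
  have a2 : ∀ i j, i ≠ j → ρ i * ρ j * (ρ i * ρ j) = 1 := fun i j e =>
    inv (r2 i) (r2 j) ((b i).comm d (b j) (by simpa using e))
  have b1 := (b i).mul' (b j)
  have b2 := (b k).mul' (b l)
  have f1 : ∀ i j, i ≠ j → ∃ x ∈ D i, (ρ i * ρ j) x ≠ x := fun i j e => by
    obtain ⟨x, hx, c⟩ := ne i
    exact ⟨x, hx, by rwa [LinearEquiv.mul_apply, (b j).fix i (by simpa using e) x hx]⟩
  refine stepA d h hM star hc ns hk ht ht' (m i j) (b1.mono (by simp)) (fun e => ?_) (a2 i j hij)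
    ((r1 i).mul (r1 j)) (mul_mem (m i j) (m k l)) ((b1.mul' b2).mono (by simp))
    (inv (a2 i j hij) (a2 k l hkl) (b1.comm d b2 (by
      simp [hik.symm, hil.symm, hjk.symm, hjl.symm])))
    (((r1 i).mul (r1 j)).mul ((r1 k).mul (r1 l))) (not_rk d ((b1.mul' b2).mono (by simp)) {i, j, k}
      (by rw [Finset.card_eq_three.mpr ⟨i, j, k, hij, hik, hjk, rfl⟩]; omega) ?_)
  · obtain ⟨x, -, c⟩ := f1 i j hij
    exact c (by rw [e]; rfl)
  simp only [Finset.mem_insert, Finset.mem_singleton, forall_eq_or_imp, forall_eq]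
  refine ⟨?_, ?_, ?_⟩
  · obtain ⟨x, hx, c⟩ := f1 i j hij
    exact ⟨x, hx, by rwa [LinearEquiv.mul_apply, b2.fix i (by simp [hik, hil]) x hx]⟩
  · obtain ⟨x, hx, c⟩ := f1 j i hij.symm
    exact ⟨x, hx, by rwa [LinearEquiv.mul_apply, b2.fix j (by simp [hjk, hjl]) x hx,
      (b i).comm d (b j) (by simpa using hij)]⟩
  · obtain ⟨x, hx, c⟩ := f1 k l hkl
    exact ⟨x, hx, by
      rwa [LinearEquiv.mul_apply, b1.fix k (by simp [hik.symm, hjk.symm]) _ (b2.blk k x hx)]⟩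

theorem exists_blk_ne {y : V ≃ₗ[F] V} (y1 : y ≠ 1) : ∃ i, ∃ x ∈ D i, y x ≠ x := by
  by_contra hc
  push Not at hc
  exact y1 (LinearEquiv.ext fun v => fix_of_p d (J := ∅) (fun i _ => hc i) (by simp))

end

variable {B : V →ₗ[F] V →ₗ[F] F} {Q : V → F} [Fintype F]
  (h : Cl (σ := RingHom.id F) 1 2 (AddMonoidHom.id F) B Q) (d : Dec B Q D p)
include h d

theorem ns_plane (h2 : ∀ i, finrank F (D i) = 2) {y : V ≃ₗ[F] V} (b : Blk B Q D Finset.univ y)
    (y1 : y ≠ 1) : ∃ i, ∃ x ∈ D i, Q (y x - x) ≠ 0 := by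
  have hQ : IsQuad B Q := h.form
  obtain ⟨i, v, hv, e⟩ := exists_blk_ne d y1
  by_contra hc
  push Not at hc
  have m : ∀ v ∈ D i, y v - v ∈ D i := fun v hv => (D i).sub_mem (b.blk i v hv) hv
  have z0 := sub_ne_zero.mpr e
  refine z0 (d.nd i _ (m v hv) fun w hw => ?_)
  have o : B (y v - v) (y w - w) = 0 := by
    have := hc i _ ((D i).add_mem hv hw)
    rw [show y (v + w) - (v + w) = (y v - v) + (y w - w) by rw [map_add]; abel, hQ.add',
      hc i v hv, hc i w hw] at this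
    simpa using this
  by_cases n : y w - w ∈ Submodule.span F {y v - v}
  · obtain ⟨c, hc'⟩ := Submodule.mem_span_singleton.mp n
    by_cases c0 : c = 0
    · have : y w = w := by simpa [c0, sub_eq_zero] using hc'.symm
      have e := b.isom.1 v w
      rw [this] at e
      simp [e]
    · have := hQ.add' w (y w - w)
      rw [add_sub_cancel, b.isom.2, hc i w hw, ← hc'] at this
      simpa [c0, hQ.comm w] using this
  · obtain ⟨α, β, e⟩ := span_pair_eq (h2 i) (m v hv) (m w hw) z0 n hw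
    rw [← e, map_add, map_smul, map_smul, h.diag0 (hc i v hv), o]; simp

/-- Maximality for planes. -/
theorem max_quad2 (ht : 7 ≤ t) (h2 : ∀ i, finrank F (D i) = 2)
    (ok : ∀ i, 6 ≤ Fintype.card F ∨ (∀ y ∈ D i, Q y = 0 → y = 0) ∧ Fintype.card F ≠ 3) :
    IsMaximalIn h.Om (dstab D ⊓ h.Om) := by
  have hQ : IsQuad B Q := h.form
  have hn : 5 ≤ finrank F V := by
    have := finrank_eq_mul d ⟨0, by omega⟩
    rw [h2] at this; omega
  have h2' := fun i => (h2 i).ge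
  have np := fun i x hx (q : Q x ≠ 0) => plane_np h (d.nd i) (h2 i) (ok i) hx (ne_zero_of_Q h q)
  have cc : ∀ c ≠ 0, ∀ i, Conn B (D i) (Cls Q c) := fun c c0 i => conn2 h (d.nd i) (h2 i) (np i) c0
  have G := gen_plane h d h2 ok
  have R : RT h D := fun N NI hK a => by
    by_cases t2 : (2 : F) = 0
    · exact G.main d hK NI (sumP_three h d h2 ok t2) (by omega)
    · exact G.main d hK NI (sumP_two h d h2 t2) (by omega)
  refine max_of d h hn (by omega) fun M hH hM g hg hg' => by_contra fun hc => hg' ?_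
  have MI := hM.trans h.om_le_isom
  have star : ∀ x ∈ M, ∀ i, ∀ v ∈ D i, Q v ≠ 0 → x v = v → x ∈ dstab D := fun x hx i v hv q e =>
    by_contra fun hx' => hc (hH.stepB d hn hM R cc h2' (by
      by_cases t2 : (2 : F) = 0
      · exact Or.inl t2
      refine Or.inr (Or.inr ⟨2, sumP_two h d h2 t2, by omega, fun i x hx x0 s => ?_⟩)
      obtain ⟨r, m, a, b, -⟩ := ts_avoid h (d.nd i) (h2 i) (ok i) t2 hx x0 (B x x) (B x x - s) 0
      exact forced d h hx x0 m a fun e => b (by simp at e; linear_combination -e)) hv q hx hx' e)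
  choose u hu qu using fun i => hQ.exists_eq_on (d.nd i) (h2' i) 1
  have q0 : ∀ i, Q (u i) ≠ 0 := fun i => by simp [qu]
  refine stepA' d h MI (κ₀ := 1) star (fun m hm J c e => ?_) (fun y => ns_plane h d h2) h2' (by omega)
    (Or.inl le_rfl) (fun i => r h (u i)) (fun i => blk_of_loc d h le_rfl (rf_mem_loc h (hu i) _))
    (fun i => r_r h _) (fun i => rk_rf h _ _) (fun i => ?_) (fun i j => hH _
      (r_mul_mem h hn (q0 i) (q0 j) (by simp [qu]))
      (mul_mem (rf_dstab h d (hu i) _) (rf_dstab h d (hu j) _))) hg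
  · obtain ⟨j, hj⟩ := Finset.card_pos.mp c
    obtain ⟨b, hb, qb, e1, e2⟩ := np j _ (hu j) (q0 j)
    have mI := MI hm
    have s1 := mul_mem (rf_mem_loc h (hu j) (Q (u j))⁻¹) (rf_mem_loc h hb (Q b)⁻¹)
    have s2 := loc_dstab h d le_rfl s1
    have := e _ (hH _ (r_mul_mem h hn (q0 j) (qb ▸ q0 j) (by simp [qu, qb])) s2) s2
      fun i hi x hx => loc_fix d le_rfl s1 (by rintro rfl; exact hi hj) hx
    rw [show ∀ x y : V ≃ₗ[F] V, m * (x * y) * m⁻¹ = m * x * m⁻¹ * (m * y * m⁻¹) from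
      fun x y => by group, conj_r h mI, conj_r h mI] at this
    obtain ⟨l, hl, -⟩ := blk_of_rot d h2' (by rw [mI.2]; exact q0 j) (by rw [mI.2, qb]; exact q0 j)
      (by rwa [mI.1]) (by simpa using notMem_span_map m e2) this
    have u0 := ne_zero_of_Q h (q0 j)
    obtain ⟨k, k1, k2, k3⟩ := exists_to d h (hu j) hl (mI.2 _).symm u0 (by simpa using u0)
    have : Nontrivial (Fin t) := Fin.nontrivial_iff_two_le.mpr (by omega)
    obtain ⟨o, ho⟩ := exists_ne l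
    obtain ⟨s, hs, es⟩ := adj_quad h hn (d.nd o) (h2' o) k k1
    have k4 := mul_mem k2 (loc_dstab h d le_rfl hs)
    have := mul_mem (inv_mem k4) (star _ (mul_mem (hH _ es k4) hm) j _ (hu j) (q0 j) (by
      rw [LinearEquiv.mul_apply, LinearEquiv.mul_apply, loc_fix d le_rfl hs ho.symm hl, k3]))
    rwa [inv_mul_cancel_left] at this
  · obtain ⟨x, hx, e⟩ := d.exists_ne (hu i) (ne_zero_of_Q h (q0 i))
    exact ⟨x, hx, by simp [r_apply, e, q0, ne_zero_of_Q h (q0 i)]⟩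

theorem plus_of_plus {i : Fin t} (e : Plus Q (D i)) (j : Fin t) : Plus Q (D j) := by
  by_cases hij : i = j
  · exact hij ▸ e
  obtain ⟨s, hs, a⟩ := d.exists_swap h hij
  obtain ⟨W, h1, h2, h3⟩ := e
  refine ⟨W.map (s : V →ₗ[F] V), ?_, ?_, by rw [LinearEquiv.finrank_map_eq, h3, d.finrank_eq i j]⟩
  · rintro _ ⟨x, hx, rfl⟩; exact a.1 x (h1 hx)
  · rintro _ ⟨x, hx, rfl⟩; exact (hs.2 x).trans (h2 x hx)

/-- Maximality for members of dimension at least two. -/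
theorem max_quad (hn : 13 ≤ finrank F V) (ht : 2 ≤ t) {k : ℕ} (hk : 2 ≤ k)
    (e : ∀ i, finrank F (D i) = k) (hko : k = 3 → Odd (Fintype.card F))
    (hex : ¬ ((k = 2 ∧ (Fintype.card F = 3 ∨ ((∀ i, Plus Q (D i)) ∧ (Fintype.card F = 2 ∨
      Fintype.card F = 4 ∨ Fintype.card F = 5)))) ∨ (k = 3 ∧ Fintype.card F = 3) ∨
      (k = 4 ∧ Fintype.card F = 2 ∧ ∀ i, Plus Q (D i)))) : IsMaximalIn h.Om (dstab D ⊓ h.Om) := by
  have hc := Fintype.one_lt_card (α := F)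
  by_cases h2 : k = 2
  · subst h2
    have := finrank_eq_mul d ⟨0, by omega⟩
    rw [e] at this
    refine max_quad2 h d (by omega) e fun i => or_iff_not_imp_left.mpr fun c =>
      ⟨fun y hy q => by_contra fun y0 => hex (Or.inl ⟨rfl, or_iff_not_imp_left.mpr fun c' =>
        ⟨plus_of_plus h d (i := i) ⟨Submodule.span F {y}, by simpa using hy, fun x hx => ?_, by
          rw [finrank_span_singleton y0, e]⟩, by omega⟩⟩), fun c => hex (Or.inl ⟨rfl, Or.inl c⟩)⟩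
    obtain ⟨s, rfl⟩ := Submodule.mem_span_singleton.mp hx
    exact h.sing_smul q s
  refine max_quad3 h d hn ht (fun i => by rw [e]; omega) (fun i hi => ?_) fun i hi => ?_
  · rw [e] at hi
    obtain ⟨r, hr⟩ := hko hi
    exact ⟨two_ne_zero_of_odd_card (hko hi), exists_sq_ne (by omega)⟩
  · rw [e] at hi
    by_cases c : Fintype.card F = 2
    · exact Or.inr fun a => hex (Or.inr (Or.inr ⟨hi, c, plus_of_plus h d a⟩))
    · exact Or.inl (exists_ne01 c)

end Cfsg.Agent.H11.Im
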