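import Mathlib
import Cfsg.Agent.H11.Im8

/-!
Stabilisers of orthogonal decompositions of unitary spaces: the reflection theorem.
-/

set_option autoImplicit false
set_option linter.unusedSectionVars false

namespace Cfsg.Agent.H11.Im

open Module H10 H11 Cfsg.Geo

variable {F : Type*} [Field F] {σ : F →+* F} {q : ℕ}

theorem card_le_two_of_quad (S : Finset F) {a b c : F} (a0 : a ≠ 0)
    (hS : ∀ x ∈ S, a * x * x + b * x + c = 0) : S.card ≤ 2 := by
  by_contra hc
  obtain ⟨x, hx, y, hy, z, hz, xy, xz, yz⟩ := Finset.two_lt_card.mp (not_le.mp hc)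
  have e1 : a * (x + y) + b = 0 := mul_left_cancel₀ (sub_ne_zero.mpr xy)
    (by linear_combination hS x hx - hS y hy)
  have e2 : a * (x + z) + b = 0 := mul_left_cancel₀ (sub_ne_zero.mpr xz)
    (by linear_combination hS x hx - hS z hz)
  exact yz (mul_left_cancel₀ a0 (by linear_combination e1 - e2))

section
variable [Fintype F] (hq : QConj σ q)
include hq

open Classical in
theorem card_circle : (Finset.univ.filter fun z => σ z * z = 1).card = q + 1 := by
  rw [← hq.card_norm one_ne_zero (map_one σ), Nat.card_eq_fintype_card, Fintype.card_subtype]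

theorem exists_circle (S : Finset F) (hS : S.card ≤ q) : ∃ z, σ z * z = 1 ∧ z ∉ S := by
  classical
  obtain ⟨z, a, b⟩ := Finset.exists_mem_notMem_of_card_lt_card (s := S)
    (t := Finset.univ.filter fun z => σ z * z = 1) (by rw [card_circle hq]; omega)
  exact ⟨z, by simpa using a, b⟩

theorem exists_zeta : ∃ z, σ z * z = 1 ∧ σ z ≠ z := by
  classical
  obtain ⟨z, a, b⟩ := exists_circle hq {1, -1} (Finset.card_le_two.trans hq.two_le)
  exact ⟨z, a, fun e => b (by rw [e] at a; simpa [mul_self_eq_one_iff] using a)⟩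

theorem two_circles {α β : F} (a0 : α ≠ 0) (b0 : β ≠ 0) (ha : σ α = α) (hb : σ β = β) :
    ∃ A : Finset F, Fintype.card F < 2 * A.card ∧
      ∀ s ∈ A, ∃ x y, σ x * x = 1 ∧ σ y * y = 1 ∧ x * α + y * β = s := by
  classical
  let C := Finset.univ.filter fun z => σ z * z = 1
  let P := C.sigma fun x => C.erase (-(x * α) / β)
  have mP : ∀ z, z ∈ P ↔ σ z.1 * z.1 = 1 ∧ z.2 ≠ -(z.1 * α) / β ∧ σ z.2 * z.2 = 1 := fun z => by
    simp [P, C]
  have c1 : (q + 1) * q ≤ P.card := by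
    rw [Finset.card_sigma, ← card_circle hq, ← smul_eq_mul, ← Finset.sum_const]
    exact Finset.sum_le_sum fun x _ => by
      have := Finset.pred_card_le_card_erase (s := C) (a := -(x * α) / β)
      rwa [card_circle hq] at this
  have c2 : P.card ≤ 2 * (P.image fun z => z.1 * α + z.2 * β).card :=
    Finset.card_le_mul_card_image _ _ fun s hs => by
      obtain ⟨z, hz, rfl⟩ := Finset.mem_image.mp hs
      have s0 : z.1 * α + z.2 * β ≠ 0 := fun e => ((mP z).mp hz).2.1 (by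
        field_simp; linear_combination e)
      generalize z.1 * α + z.2 * β = s at s0
      rw [← Finset.card_image_of_injOn (f := fun z => z.1) fun x hx y hy e => by
        have e' : x.1 = y.1 := e
        refine Sigma.ext e (heq_of_eq (mul_right_cancel₀ b0 ?_))
        linear_combination (Finset.mem_filter.mp hx).2 - (Finset.mem_filter.mp hy).2 - α * e']
      refine card_le_two_of_quad _ (a := α * σ s) (b := -(σ s * s + α * α - β * β)) (c := α * s)
        (mul_ne_zero a0 ((map_ne_zero σ).mpr s0)) fun x hx => ?_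
      obtain ⟨z, hz, rfl⟩ := Finset.mem_image.mp hx
      rw [Finset.mem_filter, mP] at hz
      obtain ⟨⟨e1, -, e2⟩, rfl⟩ := hz
      simp only [map_add, map_mul, ha, hb]
      linear_combination (-(α * β * z.2)) * e1 - z.1 * β * β * e2
  refine ⟨_, lt_of_lt_of_le ?_ (c1.trans c2), fun s hs => ?_⟩
  · have := hq.two_le
    rw [← Nat.card_eq_fintype_card, hq.card]; nlinarith
  · obtain ⟨z, hz, rfl⟩ := Finset.mem_image.mp hs
    exact ⟨_, _, ((mP z).mp hz).1, ((mP z).mp hz).2.2, rfl⟩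

theorem four_circles (α : Fin 4 → F) (a0 : ∀ i, α i ≠ 0) (ha : ∀ i, σ (α i) = α i) (s : F) :
    ∃ z : Fin 4 → F, (∀ i, σ (z i) * z i = 1) ∧ ∑ i, z i * α i = s := by
  obtain ⟨A, a1, a2⟩ := two_circles hq (a0 0) (a0 1) (ha 0) (ha 1)
  obtain ⟨C, c1, c2⟩ := two_circles hq (a0 2) (a0 3) (ha 2) (ha 3)
  obtain ⟨a, h1, c, h2, rfl⟩ := sum_two A C (by omega) s
  obtain ⟨x, y, e1, e2, rfl⟩ := a2 a h1
  obtain ⟨z, w, e3, e4, rfl⟩ := c2 c h2
  exact ⟨![x, y, z, w], fun i => by fin_cases i <;> simpa, by simp [Fin.sum_univ_four]; ring⟩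

end

variable {V : Type*} [AddCommGroup V] [Module F V] [FiniteDimensional F V]
  {t : ℕ} {D : Fin t → Submodule F V} {p : Fin t → V →ₗ[F] V} {B : V →ₛₗ[σ] V →ₗ[F] F}

section
variable {κ : F} {τ : F →+ F} {Q : V → F} (h : Cl 1 κ τ B Q)
include h

theorem line_nq (hq : NQ τ) {e z : V} (he : Q e = 0) (hz : B e z ≠ 0) (w : V) {φ : V →ₗ[F] F}
    (hφ : φ e ≠ 0) : ∃ s : F, Q (z + s • e) = Q w ∧ φ (z + s • e) ≠ 0 := by
  obtain ⟨c, c0, hc⟩ := hq
  obtain ⟨a, ha⟩ := h.exists_tau w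
  obtain ⟨b, hb⟩ := h.exists_tau z
  have z0 := h.refl_ne hz
  have k : ∀ x, Q (z + (x / B z e) • e) = Q z + τ x := fun x => by
    rw [h.Q_add, h.sing_smul he, map_smul, smul_eq_mul, div_mul_cancel₀ _ z0, add_zero]
  by_cases e1 : φ (z + ((a - b) / B z e) • e) = 0
  · refine ⟨(a - b + c) / B z e, by rw [k, map_add, map_sub, ha, hb, hc]; ring, ?_⟩
    rw [add_div, add_smul, ← add_assoc, map_add, e1]
    simp [c0, z0, hφ]
  · exact ⟨_, by rw [k, map_sub, ha, hb]; ring, e1⟩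

theorem nondeg_perp_one' {U : Submodule F V} (hU : NondegOn B U) {x : V} (hx : x ∈ U)
    (q : B x x ≠ 0) : NondegOn B (U ⊓ LinearMap.ker (B x)) := fun z hz e => hU z hz.1 fun y hy => by
  have := e (y - (B x y / B x x) • x) ⟨U.sub_mem hy (U.smul_mem _ hx), by simp [div_mul_cancel₀ _ q]⟩
  simpa [h.refl hz.2] using this

theorem ne_on {U : Submodule F V} (hU : NondegOn B U) {x : V} (hx : x ∈ U) (x0 : x ≠ 0) :
    ∃ y ∈ U, B x y ≠ 0 := by
  by_contra hc; push Not at hc; exact x0 (hU x hx hc)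

theorem conn_sing [Finite F] {U : Submodule F V} (hU : NondegOn B U) (hb : h.Big U) :
    Conn B U (Q · = 0) := by
  refine ⟨h.exists_sing hb, fun X hX X0 XU => ?_⟩
  obtain ⟨x, hx, x0⟩ := (Submodule.ne_bot_iff _).mp X0
  obtain ⟨z, hz, z0⟩ := SetLike.exists_of_lt (lt_of_le_of_ne hX XU)
  obtain ⟨y, hy, y1, y2⟩ := h.exists_perp_not_in hU hX hz z0
  obtain ⟨e, he, qe, a⟩ := h.exists_sing_not_perp hU hb (s := x)
    ((ne_on h hU (hX hx) x0).imp fun _ a => ⟨a.1, h.refl_ne a.2⟩)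
  obtain ⟨f, hf, qf, b⟩ := h.exists_sing_not_perp hU hb (s := y) ⟨z, hz, by simp [y2]⟩
  by_contra hc
  push Not at hc
  have eX : e ∈ X := by_contra fun c => a (h.refl (hc e he qe c x hx))
  have fX : f ∉ X := fun c => b (y1 f c)
  have k := hc f hf qf fX
  have := hc (e + f) (U.add_mem he hf) (by simp [h.Q_add, qe, qf, k e eX])
    (fun c => fX (by simpa using X.sub_mem c eX)) x hx
  exact a (h.refl (by simpa [k x hx] using this))

theorem rf_eq_eich {u : V} (hu : Q u = 0) {c : F} (hc : τ c = 0) : rf h u c = h.eich u 0 c := by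
  have : Adm h u c := by simp [Adm, hu, hc]
  ext x
  simp [this.apply, h.eich_apply hu]

end

variable [Fintype F] (hq : QConj σ q) (hH : IsHerm B) (h : Cl 1 1 (trHom σ) B (fun x => B x x))
include hH h

theorem herm_val {U : Submodule F V} (hU : NondegOn B U) (h1 : 1 ≤ finrank F U) {a : F}
    (ha : σ a = a) : ∃ x ∈ U, B x x = a := by
  obtain ⟨x, hx⟩ := (hH.pull U.subtype).exists_self_eq (nondegOn_iff.mp hU) h1 ha
  exact ⟨x, x.2, hx⟩

theorem lvl_herm {U : Submodule F V} (hU : NondegOn B U) {x y : V} (hx : x ∈ U) (x0 : x ≠ 0)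
    (hy : ∃ z ∈ U, B z y ≠ 0) : ∃ b ∈ U, b ≠ 0 ∧ B b b = B x x ∧ B b y ≠ 0 := by
  by_cases h2 : 2 ≤ finrank F U
  · obtain ⟨e, he, qe, a⟩ := h.exists_sing_not_perp hU (Or.inr ⟨h2, IsHerm.nq hH⟩) hy
    obtain ⟨f, hf, -, b⟩ := h.exists_partner_in' hU he qe (by rintro rfl; simp at a)
    obtain ⟨s, c, d⟩ := line_nq h (IsHerm.nq hH) qe (z := f) (by simp [b]) x (h.refl_ne a)
    exact ⟨_, U.add_mem hf (U.smul_mem _ he), fun e => d (by simp [e]), c, h.refl_ne d⟩
  · obtain ⟨z, hz, a⟩ := hy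
    obtain ⟨s, rfl⟩ := Submodule.mem_span_singleton.mp ((Submodule.eq_of_le_of_finrank_le
      (S₁ := Submodule.span F {x}) (by simpa using hx)
      (by rw [finrank_span_singleton x0]; omega)).ge hz)
    exact ⟨x, hx, x0, rfl, fun e => a (by simp [e])⟩

theorem ns_herm {U : Submodule F V} (hU : NondegOn B U) {y : V} (hy : ∃ z ∈ U, B z y ≠ 0) :
    ∃ b ∈ U, B b b ≠ 0 ∧ B b y ≠ 0 := by
  obtain ⟨x, hx, e⟩ := herm_val hH h hU (Submodule.one_le_finrank_iff.mpr (by
    rintro rfl; simp at hy)) (map_one σ)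
  obtain ⟨b, hb, -, a, c⟩ := lvl_herm hH h hU hx (by rintro rfl; simp at e) hy
  exact ⟨b, hb, by simp [a, e], c⟩

theorem ts_herm {U : Submodule F V} (hU : NondegOn B U) (h2 : 2 ≤ finrank F U) {x : V} (hx : x ∈ U)
    (x0 : x ≠ 0) (s : F) : s ∈ TS B (fun x => B x x) U x := by
  by_cases e : B x x = 0
  · by_cases s0 : s = 0
    · exact ⟨x, hx, x0, rfl, by rw [s0, e]⟩
    obtain ⟨f, hf, a, b⟩ := h.exists_partner_in' hU hx e x0
    exact ⟨s • f, U.smul_mem _ hf, smul_ne_zero s0 (by rintro rfl; simp at b),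
      (h.sing_smul a s).trans e.symm, by simp [b]⟩
  have := finrank_le_inf_ker U (B x)
  obtain ⟨w, hw, e1⟩ := herm_val hH h (nondeg_perp_one' h hU hx e) (by omega)
    (a := B x x - σ (s / B x x) * (s / B x x) * B x x) (by
      simp only [map_sub, map_mul, hH.symm, hH.invol]; ring)
  have w0 : B x w = 0 := hw.2
  have e2 : B ((s / B x x) • x + w) ((s / B x x) • x + w) = B x x := by
    simp only [map_add, map_smulₛₗ, LinearMap.add_apply, LinearMap.smul_apply, w0, h.refl w0, e1,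
      smul_eq_mul, RingHom.id_apply]
    ring
  exact ⟨_, U.add_mem (U.smul_mem _ hx) hw.1, fun c => e (by rw [← e2, c]; simp), e2,
    by simp [w0, div_mul_cancel₀ _ e]⟩

theorem ts_circle {U : Submodule F V} {x : V} (hx : x ∈ U) (x0 : x ≠ 0) {z : F} (hz : σ z * z = 1) :
    z * B x x ∈ TS B (fun x => B x x) U x :=
  ⟨z • x, U.smul_mem _ hx, smul_ne_zero (by rintro rfl; simp at hz) x0,
    (h.Q_smul z x).trans (by rw [hz, one_mul]), by simp⟩

include hq

theorem conn_herm {U : Submodule F V} (hU : NondegOn B U) (h1 : 1 ≤ finrank F U)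
    (hex : ¬ (finrank F U = 2 ∧ q = 2)) : Conn B U (fun x => B x x ≠ 0) := by
  obtain ⟨w, hw, e⟩ := herm_val hH h hU h1 (map_one σ)
  refine ⟨⟨w, hw, by rintro rfl; simp at e, by simp [e]⟩, fun X hX X0 XU => ?_⟩
  obtain ⟨x, hx, x0⟩ := (Submodule.ne_bot_iff _).mp X0
  by_cases a1 : ∀ x ∈ X, B x x = 0 → x = 0
  swap
  · push Not at a1
    obtain ⟨u, hu, qu, u0⟩ := a1
    obtain ⟨z, hz, z0⟩ := SetLike.exists_of_lt (lt_of_le_of_ne hX XU)
    obtain ⟨φ, f0, f1⟩ := exists_dual_zero_one z0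
    obtain ⟨z, hz, b1, b2⟩ := exists_mem_ne_ne (B u) φ (ne_on h hU (hX hu) u0) ⟨z, hz, by simp [f1]⟩
    obtain ⟨s, c, -⟩ := line_nq h (IsHerm.nq hH) qu b1 w (h.refl_ne b1)
    refine ⟨_, U.add_mem hz (U.smul_mem s (hX hu)), by simp only [c, e]; simp, fun m => b2 ?_, u, hu, ?_⟩
    · simpa [f0 u hu] using f0 _ m
    · simpa [qu] using b1
  by_cases a2 : ∀ x ∈ U ⊓ perp B X, B x x = 0 → x = 0
  swap
  · push Not at a2
    obtain ⟨u, hu, qu, u0⟩ := a2
    obtain ⟨z, hz, b1, b2⟩ := exists_mem_ne_ne (B u) (B x) (ne_on h hU hu.1 u0) (ne_on h hU (hX hx) x0)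
    obtain ⟨s, c, -⟩ := line_nq h (IsHerm.nq hH) qu b1 w (h.refl_ne b1)
    refine ⟨_, U.add_mem hz (U.smul_mem s hu.1), by simp only [c, e]; simp, fun m => b1 ?_, x, hx, ?_⟩
    · simpa [qu] using h.refl (hu.2 _ m)
    · simpa [hu.2 x hx] using b2
  have le : ∀ Y : Submodule F V, (∀ x ∈ Y, B x x = 0 → x = 0) → finrank F Y ≤ 1 := fun Y a => by
    by_contra hc
    obtain ⟨x, hx, x0, q⟩ := h.exists_sing (W := Y) (Or.inr ⟨by omega, IsHerm.nq hH⟩)
    exact x0 (a x hx q)
  have d1 := le _ a1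
  have d2 := le _ a2
  have d3 := le_finrank_inf_perp h U X
  have d4 := Submodule.finrank_lt_finrank_of_lt (lt_of_le_of_ne hX XU)
  have d5 := Submodule.one_le_finrank_iff.mpr X0
  obtain ⟨y, hy, y0⟩ := exists_ne_zero_of_finrank (W := U ⊓ perp B X) (by omega)
  have qx : B x x ≠ 0 := fun c => x0 (a1 x hx c)
  have qy : B y y ≠ 0 := fun c => y0 (a2 y hy c)
  obtain ⟨a, fa, a0, a1'⟩ : ∃ a, σ a = a ∧ a ≠ 0 ∧ a ≠ -B x x / B y y := by
    classical
    have := hq.two_le
    obtain ⟨a, b, c⟩ := Finset.exists_mem_notMem_of_card_lt_card (s := {0, -B x x / B y y})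
      (t := Finset.univ.filter fun z => σ z = z) (lt_of_le_of_lt Finset.card_le_two (by
        rw [← Fintype.card_subtype, ← Nat.card_eq_fintype_card, hq.card_fixed]; omega))
    exact ⟨a, by simpa using b, by simpa [not_or] using c⟩
  obtain ⟨s, rfl⟩ := hH.exists_norm fa
  have s0 : s ≠ 0 := by rintro rfl; simp at a0
  have o := hy.2 x hx
  refine ⟨x + s • y, U.add_mem (hX hx) (U.smul_mem _ hy.1), fun c => a1' ?_, fun m => qy ?_, x, hx,
    by simpa [o] using qx⟩
  · rw [h.Q_add, h.Q_smul] at c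
    simp only [map_smul, o, smul_zero, map_zero, add_zero] at c
    field_simp; linear_combination c
  · simpa [s0] using h.refl (hy.2 _ (X.sub_mem m hx))

variable (d : Dec B (fun x => B x x) D p)
include d

omit hq hH in
theorem line_ns {i : Fin t} (h1 : finrank F (D i) ≤ 1) {x : V} (hx : x ∈ D i) (x0 : x ≠ 0) :
    B x x ≠ 0 := fun e => x0 (d.nd i x hx fun y hy => by
  obtain ⟨s, rfl⟩ := Submodule.mem_span_singleton.mp ((Submodule.eq_of_le_of_finrank_le
      (S₁ := Submodule.span F {x}) (by simpa using hx)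
      (by rw [finrank_span_singleton x0]; omega)).ge hy)
  simp [e])

theorem gen_herm : Gen h D where
  tau e := by
    obtain ⟨c, hc⟩ := exists_trace_eq hH.ne hH.invol (map_one σ)
    simpa [hc] using DFunLike.congr_fun e c
  adm a ha := by
    obtain ⟨z, a1, a2⟩ := exists_zeta hq
    exact ⟨_, div_ne_zero (sub_ne_zero.mpr (by rintro rfl; simp at a2)) ha, adm_herm ha a1⟩
  ex i := by
    obtain ⟨x, hx, e⟩ := herm_val hH h (d.nd i) (Submodule.one_le_finrank_iff.mpr (d.ne i)) (map_one σ)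
    exact ⟨x, hx, by simp [e]⟩
  lvl i x hx x0 y := lvl_herm hH h (d.nd i) hx x0
  add i x hx e := top_le_iff.mp fun s _ => by
    obtain ⟨z, a, rfl⟩ := four_circles hq (fun _ => B x x) (fun _ => e) (fun _ => hH.symm x x) s
    refine sum_mem fun j _ => AddSubgroup.subset_closure ?_
    obtain ⟨b, a1, -, a2⟩ := ts_circle hH h hx (ne_zero_of_Q h e) (a j)
    exact ⟨b, a1, a2⟩
  np i x hx x0 a ha := by
    classical
    obtain ⟨z, a1, a2⟩ := exists_circle hq {1, 1 - B a a / B x x}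
      (Finset.card_le_two.trans hq.two_le)
    simp only [Finset.mem_insert, Finset.mem_singleton, not_or] at a2
    have c0 := div_ne_zero (sub_ne_zero.mpr (Ne.symm a2.1)) ha
    by_cases e : B x x = 0
    · obtain ⟨f, hf, b1, b2⟩ := h.exists_partner_in' (d.nd i) hx e x0
      exact ⟨f, hf, _, c0, adm_herm ha a1, b1.trans e.symm, by simp [b2], fun c => by
        rw [c] at b2; simp [e] at b2⟩
    · refine ⟨x, hx, _, c0, adm_herm ha a1, rfl, e, fun c => a2.2 ?_⟩
      have := smul_left_injective F x0 ((one_smul F x).trans c)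
      field_simp at this ⊢
      linear_combination this
  p6 := Or.inl (exists_ne01 (by
    have := hq.two_le
    rw [← Nat.card_eq_fintype_card, hq.card]; nlinarith))
  p7 i x hx e z hz n := by
    obtain ⟨y, hy, a, b⟩ := h.exists_perp_not_in (d.nd i) (by simpa using hx) hz n
    obtain ⟨v, hv, c, e⟩ := ns_herm hH h (nondeg_perp_one' h (d.nd i) hx e) (y := z)
      ⟨y, ⟨hy, a x (Submodule.mem_span_singleton_self _)⟩, h.refl_ne (by simp [b])⟩
    exact ⟨v, hv.1, c, h.refl hv.2, e⟩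

theorem sumP_four (h1 : ∀ i, finrank F (D i) ≤ 1) : SumP B (fun x => B x x) D p 4 :=
  fun J hJ a ha s => by
  classical
  let e := (Finset.equivFinOfCardEq hJ).symm
  obtain ⟨z, a1, a2⟩ := four_circles hq (fun j => B (p (e j) a) (p (e j) a))
    (fun j => line_ns h d (h1 _) (d.mem _ a) (ha _ (e j).2)) (fun _ => hH.symm _ _)
    (s + ∑ i ∈ J, B (p i a) (p i a))
  obtain ⟨k, b, ek⟩ := blk_sum d h J ha
    (fun i => if c : i ∈ J then z (e.symm ⟨i, c⟩) * B (p i a) (p i a) else 0) fun i hi => by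
      rw [dif_pos hi]; exact ts_circle hH h (d.mem i a) (ha i hi) (a1 _)
  refine ⟨k, b, ?_⟩
  rw [ek, Finset.sum_sub_distrib, sub_eq_iff_eq_add, ← a2, ← Finset.sum_coe_sort,
    ← Equiv.sum_comp e]
  simp

theorem adj_blk (i : Fin t) : Adj h (D i) := by
  obtain ⟨x, hx, e⟩ := (gen_herm hq hH h d).ex i
  exact adj_herm hH h hx e

theorem rt_herm (hn : 13 ≤ finrank F V) (ht : 2 ≤ t) : RT h D := fun N NI hK a ha out => by
  have G := gen_herm hq hH h d
  let i : Fin t := ⟨0, by omega⟩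
  have e := finrank_eq_mul d i
  by_cases h4 : 4 ≤ finrank F (D i)
  · obtain ⟨c, c0, hc⟩ := G.adm a ha.1
    exact Ov.direct d (fun g x => hK g (h.om_le_isom x)) NI (fun j => d.finrank_eq i j ▸ h4)
      (adj_blk hq hH h d) ha.1 hc c0 (ha.2 _) out
  by_cases h1 : finrank F (D i) ≤ 1
  · have : t * finrank F (D i) ≤ t * 1 := Nat.mul_le_mul_left _ h1
    exact G.main d hK NI (sumP_four hq hH h d fun j => d.finrank_eq i j ▸ h1) (by omega) ha out
  · have : t * finrank F (D i) ≤ t * 3 := Nat.mul_le_mul_left _ (by omega)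
    exact G.main d hK NI (sumP_one d h fun j x hx x0 => ts_herm hH h (d.nd j)
      (by rw [← d.finrank_eq i j]; omega) hx x0) (by omega) ha out

theorem star_herm (hn : 13 ≤ finrank F V) (ht : 2 ≤ t) (hex : ∀ i, ¬ (finrank F (D i) = 2 ∧ q = 2))
    {M : Subgroup (V ≃ₗ[F] V)} (hO : Ov h D M) (hM : M ≤ h.Om) (hc : ¬ h.Om ≤ M) :
    ∀ x ∈ M, ∀ i, ∀ v ∈ D i, B v v ≠ 0 → x v = v → x ∈ dstab D := fun x hx i v hv q e =>
  by_contra fun hx' => hc (hO.np d hM (rt_herm hq hH h d hn ht) (fun i => conn_herm hq hH h (d.nd i)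
    (Submodule.one_le_finrank_iff.mpr (d.ne i)) (hex i)) (X := Submodule.span F {v})
    (by simpa using hv) (adj_herm hH h (Submodule.mem_span_singleton_self _) q) hx (fun y hy => by
      obtain ⟨s, rfl⟩ := Submodule.mem_span_singleton.mp hy
      rwa [map_smul, e]) hx')

end Cfsg.Agent.H11.Im
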