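import Mathlib
import Cfsg.Agent.H11.Im9

/-!
Stabilisers of orthogonal decompositions of unitary spaces are maximal.
-/

set_option autoImplicit false
set_option linter.unusedSectionVars false

namespace Cfsg.Agent.H11.Im

open Module H10 H11 Cfsg.Geo

variable {F : Type*} [Field F] {σ : F →+* F} {q : ℕ}
  {V : Type*} [AddCommGroup V] [Module F V] [FiniteDimensional F V]
  {t : ℕ} {D : Fin t → Submodule F V} {p : Fin t → V →ₗ[F] V} {B : V →ₛₗ[σ] V →ₗ[F] F}

section
variable {κ : F} {τ : F →+ F} {Q : V → F} (d : Dec B Q D p)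
include d

theorem card_le_of_supp (m : V ≃ₗ[F] V) (J S : Finset (Fin t))
    (e : ∀ j ∈ J, ∀ x ∈ D j, ∀ i ∉ S, p i (m x) = 0) : J.card ≤ S.card := by
  let L : (∀ i : J, D i) →ₗ[F] V := ∑ i : J, (D i).subtype ∘ₗ LinearMap.proj i
  have hL : ∀ x, L x = ∑ i : J, (x i).1 := fun x => by simp [L]
  have := LinearMap.finrank_le_finrank_of_injective (f := LinearMap.pi fun i : S =>
    (p i).codRestrict (D i) (d.mem i) ∘ₗ (m : V →ₗ[F] V) ∘ₗ L) (by
      rw [← LinearMap.ker_eq_bot, LinearMap.ker_eq_bot']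
      intro x hx
      have e1 : m (L x) = 0 := ext_p d fun i => by
        by_cases c : i ∈ S
        · rw [map_zero]; exact congrArg Subtype.val (congrFun hx ⟨i, c⟩)
        · rw [hL, map_sum, map_sum, map_zero]
          exact Finset.sum_eq_zero fun j _ => e j j.2 _ (x j).2 i c
      funext j
      have := congrArg (p j) ((map_eq_zero_iff _ m.injective).mp e1)
      rw [hL, map_sum, Finset.sum_eq_single j (fun l _ hl => d.zero _ _
        (fun c => hl (Subtype.ext c).symm) _ (x l).2) (by simp), d.self _ _ (x j).2] at this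
      exact Subtype.ext (by simpa using this))
  rcases J.eq_empty_or_nonempty with rfl | ⟨j, -⟩
  · simp
  rw [finrank_pi_fintype, finrank_pi_fintype, Finset.sum_congr rfl fun i _ => d.finrank_eq _ j,
    Finset.sum_congr rfl (s₁ := (Finset.univ : Finset S)) fun i _ => d.finrank_eq _ j] at this
  simpa using Nat.le_of_mul_le_mul_right (by simpa using this)
    (Submodule.one_le_finrank_iff.mpr (d.ne j))

theorem supp_four {y : V ≃ₗ[F] V} (hy : y ∈ dstab D) {P : Submodule F V} (hP : finrank F P ≤ 2)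
    (m : ∀ v, y v - v ∈ P) {a : V} (ha : a ∈ P) (e : ∀ i, p i a ≠ 0 → y (p i a) ≠ p i a) :
    ∃ S : Finset (Fin t), S.card ≤ 4 ∧ ∀ i ∉ S, p i a = 0 := by
  classical
  obtain ⟨π, hπ⟩ := dstab_perm hy
  have k1 : ∀ i l, l ≠ i → l ≠ π i → p l (y (p i a) - p i a) = 0 := fun i l h1 h2 => by
    rw [map_sub, d.zero l _ h2 _ (hπ i _ (d.mem i a)), d.p_p' h1, sub_zero]
  have k2 : ∀ i, p i a ≠ 0 → p i (y (p i a) - p i a) ≠ 0 := fun i hi => by
    rw [map_sub, d.p_p]
    by_cases c : i = π i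
    · have := hπ i _ (d.mem i a)
      rw [← c] at this
      rw [d.self i _ this]; exact sub_ne_zero.mpr (e i hi)
    · simpa [d.zero i _ c _ (hπ i _ (d.mem i a))] using hi
  by_cases c : ∀ i, p i a = 0
  · exact ⟨∅, by simp, fun i _ => c i⟩
  push Not at c
  obtain ⟨i, hi⟩ := c
  by_cases c : ∀ l ∉ ({i, π i} : Finset _), p l a = 0
  · exact ⟨_, Finset.card_le_two.trans (by omega), c⟩
  push Not at c
  obtain ⟨l, hl, hl'⟩ := c
  simp only [Finset.mem_insert, Finset.mem_singleton, not_or] at hl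
  have n : y (p l a) - p l a ∉ Submodule.span F {y (p i a) - p i a} := fun c => by
    obtain ⟨s, c⟩ := Submodule.mem_span_singleton.mp c
    exact k2 l hl' (by rw [← c, map_smul, k1 i l hl.1 hl.2, smul_zero])
  have z0 := sub_ne_zero.mpr (e i hi)
  have : Submodule.span F {y (p i a) - p i a} < P :=
    lt_of_le_of_ne (by simpa using m _) fun c => n (c ▸ m _)
  have := Submodule.finrank_lt_finrank_of_lt this
  rw [finrank_span_singleton z0] at this
  have e1 : Submodule.span F {y (p i a) - p i a} < Submodule.span F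
      {y (p i a) - p i a, y (p l a) - p l a} := lt_of_le_of_ne
    (Submodule.span_mono (by simp)) fun e => n (e ▸ Submodule.subset_span (by simp))
  have := Submodule.finrank_lt_finrank_of_lt e1
  rw [finrank_span_singleton z0] at this
  have e2 : Submodule.span F {y (p i a) - p i a, y (p l a) - p l a} = P :=
    Submodule.eq_of_le_of_finrank_le
      (by simp [Submodule.span_le, Set.insert_subset_iff, m]) (by omega)
  obtain ⟨α, β, e3⟩ := Submodule.mem_span_pair.mp (e2 ▸ ha)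
  refine ⟨{i, π i, l, π l}, Finset.card_le_four, fun o ho => ?_⟩
  simp only [Finset.mem_insert, Finset.mem_singleton, not_or] at ho
  rw [← e3, map_add, map_smul, map_smul, k1 i o ho.1 ho.2.1, k1 l o ho.2.2.1 ho.2.2.2]; simp

theorem star_to {h : Cl 1 κ τ B Q} {M : Subgroup (V ≃ₗ[F] V)} (hO : Ov h D M) (hM : M ≤ Isom B Q)
    (star : ∀ x ∈ M, ∀ i, ∀ v ∈ D i, Q v ≠ 0 → x v = v → x ∈ dstab D) (ht : 2 ≤ t)
    (ad : ∀ o, Adj h (D o)) {m : V ≃ₗ[F] V} (hm : m ∈ M) {i l : Fin t} {v : V} (hv : v ∈ D i)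
    (q : Q v ≠ 0) (hl : m v ∈ D l) : m ∈ dstab D := by
  have u0 := ne_zero_of_Q h q
  obtain ⟨k, k1, k2, k3⟩ := exists_to d h hv hl ((hM hm).2 _).symm u0 (by simpa using u0)
  have : Nontrivial (Fin t) := Fin.nontrivial_iff_two_le.mpr ht
  obtain ⟨o, ho⟩ := exists_ne l
  obtain ⟨s, hs, es⟩ := ad o k k1
  have k4 := mul_mem k2 (loc_dstab h d le_rfl hs)
  have := mul_mem (inv_mem k4) (star _ (mul_mem (hO _ es k4) hm) i _ hv q (by
    rw [LinearEquiv.mul_apply, LinearEquiv.mul_apply, loc_fix d le_rfl hs ho.symm hl, k3]))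
  rwa [inv_mul_cancel_left] at this

theorem rf_not_three {h : Cl 1 κ τ B Q} {v : V} {c : F} (hc : Adm h v c) (c0 : c ≠ 0) {i j l : Fin t}
    (hij : i ≠ j) (hil : i ≠ l) (hjl : j ≠ l) (hi : p i v ≠ 0) (hj : p j v ≠ 0) (hl : p l v ≠ 0) :
    rf h v c ∉ dstab D := fun e => by
  obtain ⟨π, hπ⟩ := dstab_perm e
  obtain ⟨x, hx, a⟩ := d.exists_ne (d.mem i v) hi
  rw [d.B_p' hx] at a
  refine d.notMem hjl ?_ ?_ _ (hπ i x hx) <;>
    simp [hc.apply, d.zero j i hij.symm x hx, d.zero l i hil.symm x hx, c0, a, hj, hl]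

theorem line_mem {i : Fin t} (h1 : finrank F (D i) ≤ 1) {e x : V} (he : e ∈ D i) (e0 : e ≠ 0)
    (hx : x ∈ D i) : ∃ s : F, s • e = x :=
  Submodule.mem_span_singleton.mp ((Submodule.eq_of_le_of_finrank_le
    (S₁ := Submodule.span F {e}) (by simpa using he) (by rw [finrank_span_singleton e0]; omega)).ge hx)

theorem p_line {i : Fin t} (h1 : finrank F (D i) ≤ 1) {e : V} (he : e ∈ D i) (e1 : B e e ≠ 0)
    (v : V) : p i v = (B e v / B e e) • e := by
  obtain ⟨s, hs⟩ := line_mem d h1 he (by rintro rfl; simp at e1) (d.mem i v)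
  rw [← d.B_p he v, ← hs]; simp [e1]

end

theorem rf_map {κ : F} {τ : F →+ F} {Q : V → F} {h : Cl 1 κ τ B Q} {M : Subgroup (V ≃ₗ[F] V)}
    (hM : M ≤ Isom B Q) {g : V ≃ₗ[F] V} (hg : g ∈ M) {v : V} {c : F} (hv : rf h v c ∈ M) :
    rf h (g v) c ∈ M := conj_rf h (hM hg) v c ▸ mul_mem (mul_mem hg hv) (inv_mem hg)

variable [Fintype F] (hq : QConj σ q) (hH : IsHerm B) (h : Cl 1 1 (trHom σ) B (fun x => B x x))
include hH h

theorem pair_om {a b : V} (ha : B a a ≠ 0) (hb : B b b ≠ 0) {z : F} (hz : σ z * z = 1) :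
    rf h a ((1 - z) / B a a) * rf h b ((1 - σ z) / B b b) ∈ h.Om := by
  refine (mem_om_herm hH h).mpr ⟨(mul_mem (rf_mem_isom h a _) (rf_mem_isom h b _)).1, ?_⟩
  rw [LinearEquiv.coe_toLinearMap_mul, map_mul, det_rf (adm_herm ha hz),
    det_rf (adm_herm hb (by rw [hH.invol, mul_comm, hz])), div_mul_cancel₀ _ ha, div_mul_cancel₀ _ hb]
  linear_combination hz

variable (d : Dec B (fun x => B x x) D p) {M : Subgroup (V ≃ₗ[F] V)} (hO : Ov h D M) (hM : M ≤ h.Om)
  (star : ∀ x ∈ M, ∀ i, ∀ v ∈ D i, B v v ≠ 0 → x v = v → x ∈ dstab D)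
include hq d hO hM star

theorem herm_two (ht : 2 ≤ t) (h2 : ∀ i, 2 ≤ finrank F (D i)) : M ≤ dstab D := fun g hg => by
  by_contra hg'
  have MI := hM.trans h.om_le_isom
  obtain ⟨c, c0, hc⟩ := IsHerm.nq hH
  have ad : ∀ v, B v v = 0 → Adm h v c := fun v e => by simp only [Adm, hc, e, mul_zero]
  obtain ⟨i, e, he, qe, out⟩ := exists_out d
    (fun i => conn_sing h (d.nd i) (Or.inr ⟨h2 i, IsHerm.nq hH⟩)) (MI hg) hg'
  have m := rf_map MI hg (hO (rf h e c) (rf_eq_eich h qe hc ▸ h.eich_mem_om qe (by simp)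
    (by simpa using hc)) (rf_dstab h d he c))
  have qv : B (g e) (g e) = 0 := ((MI hg).1 e e).trans qe
  generalize g e = v at out m qv
  have key : ∀ v, B v v = 0 → rf h v c ∈ M → (∀ l, v ∉ D l) → ∀ j,
      p j v ≠ 0 ∧ B (p j v) (p j v) = 0 := fun v qv m out j => by
    by_contra hc
    obtain ⟨w, hw, w1, w2⟩ : ∃ w ∈ D j, B w w = 1 ∧ B (p j v) w = 0 := by
      by_cases e : p j v = 0
      · simpa [e] using herm_val hH h (d.nd j) (by have := h2 j; omega) (map_one σ)
      · obtain ⟨w, hw, a⟩ := herm_val hH h (nondeg_perp_one' h (d.nd j) (d.mem j v) fun c => hc ⟨e, c⟩)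
          (by have := h2 j; have := finrank_le_inf_ker (D j) (B (p j v)); omega) (map_one σ)
        exact ⟨w, hw.1, a, hw.2⟩
    rw [d.B_p' hw] at w2
    obtain ⟨l, hl⟩ := blk_of_rf d h2 (ad v qv) c0 (by rintro rfl; exact out j (zero_mem _))
      (star _ m j w hw (by simp [w1]) (rf_fix h v c w2))
    exact out l hl
  have : Nontrivial (Fin t) := Fin.nontrivial_iff_two_le.mpr ht
  obtain ⟨j, hij⟩ := exists_ne i
  have ex : ∀ l, ∃ a ∈ D l, B a a ≠ 0 ∧ B a v ≠ 0 := fun l => ns_herm hH h (d.nd l)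
    ((d.exists_ne (d.mem l v) (key v qv m out l).1).imp fun y e =>
      ⟨e.1, h.refl_ne (by rw [← d.B_p' e.1]; exact e.2)⟩)
  obtain ⟨a, ha, a1, a2⟩ := ex i
  obtain ⟨b, hb, b1, b2⟩ := ex j
  obtain ⟨z, z1, z2⟩ := exists_zeta hq
  have z1' : σ (σ z) * σ z = 1 := by rw [hH.invol, mul_comm, z1]
  have mδ := hO _ (pair_om hH h a1 b1 z1) (mul_mem (rf_dstab h d ha _) (rf_dstab h d hb _))
  have ab := d.orth i j hij.symm a ha b hb
  have eu : (rf h a ((1 - z) / B a a) * rf h b ((1 - σ z) / B b b)) v =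
      v - ((1 - z) / B a a * B a v) • a - ((1 - σ z) / B b b * B b v) • b := by
    rw [LinearEquiv.mul_apply, (adm_herm b1 z1').apply, (adm_herm a1 z1).apply]
    simp only [map_sub, map_smul, ab, smul_zero, sub_zero]; abel
  have mu := rf_map MI mδ m
  have qu := ((MI mδ).1 v v).trans qv
  rw [eu] at mu qu
  obtain ⟨u, hu⟩ : ∃ u, u = v - ((1 - z) / B a a * B a v) • a - ((1 - σ z) / B b b * B b v) • b :=
    ⟨_, rfl⟩
  rw [← hu] at mu qu
  have qv' := ((MI mu).1 v v).trans qv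
  have ui : p i u = rf h a ((1 - z) / B a a) (p i v) := by
    rw [(adm_herm a1 z1).apply, d.B_p ha, hu]
    simp [d.self i a ha, d.zero i j hij.symm b hb]
  have q1 := (key v qv m out i).2
  have q2 : B (p i u) (p i u) = 0 := by rw [ui, (rf_mem_isom h a _).1, q1]
  have q3 : B (p i v) (p i u) = -((1 - z) / B a a * (σ (B a v) * B a v)) := by
    rw [ui, (adm_herm a1 z1).apply, d.B_p ha, map_sub, q1, map_smul, d.B_p' ha, hH.symm]
    simp only [smul_eq_mul]; ring
  have q4 : B u v = -(σ ((1 - z) / B a a) * (σ (B a v) * B a v)) -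
      σ ((1 - σ z) / B b b) * (σ (B b v) * B b v) := by
    simp only [hu, map_sub, LinearMap.sub_apply, map_smulₛₗ, LinearMap.smul_apply, qv, smul_eq_mul,
      map_mul]
    ring
  have q5 : B (p i (rf h u c v)) (p i (rf h u c v)) ≠ 0 := by
    rw [(ad u qu).apply, map_sub, map_smul]
    simp only [map_sub, LinearMap.sub_apply, map_smulₛₗ, LinearMap.smul_apply, q1, q2,
      ← hH.symm (p i v) (p i u), q3, q4, smul_eq_mul, RingHom.id_apply, map_mul, map_neg, map_div₀,
      map_one, hH.invol, hH.symm a a, hH.symm b b, show σ c = -c by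
        rw [trHom_apply] at hc; linear_combination hc]
    have n1 := (map_ne_zero σ).mpr a2
    have n2 := (map_ne_zero σ).mpr b2
    have n3 : 1 - z ≠ 0 := sub_ne_zero.mpr (by rintro rfl; simp at z2)
    have n4 : 1 - σ z ≠ 0 := by simpa using (map_ne_zero σ).mpr n3
    intro e
    field_simp at e
    refine mul_ne_zero (mul_ne_zero (mul_ne_zero (mul_ne_zero (mul_ne_zero (mul_ne_zero (mul_ne_zero
      (mul_ne_zero (mul_ne_zero c0 n1) a2) n2) b2) n3) n4) (sub_ne_zero.mpr z2)) a1) b1 ?_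
    linear_combination -e + B a a * B b b * c * σ (B a v) * B a v * σ (B b v) * B b v * (σ z - z) * z1
  refine q5 (key _ qv' (rf_map MI mu m) (fun l hl => q5 ?_) i).2
  by_cases e : i = l
  · rw [d.self i _ (e ▸ hl), qv']
  · simp [d.zero i l e _ hl]

section line
variable (h1 : ∀ i, finrank F (D i) ≤ 1) (ht : 13 ≤ t) {e : Fin t → V} (he : ∀ i, e i ∈ D i)
  (e1 : ∀ i, B (e i) (e i) = 1)
include h1 ht he e1

theorem herm_c {m : V ≃ₗ[F] V} (hm : m ∈ M) (J : Finset (Fin t)) (hJ : 5 ≤ J.card)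
    (hs : ∀ s ∈ M, s ∈ dstab D → (∀ i ∉ J, ∀ x ∈ D i, s x = x) → m * s * m⁻¹ ∈ dstab D) :
    m ∈ dstab D := by
  have MI := hM.trans h.om_le_isom
  have mI := MI hm
  by_contra hc
  have e0 : ∀ i, B (e i) (e i) ≠ 0 := fun i => by simp [e1]
  have out : ∀ j l, m (e j) ∉ D l := fun j l c => hc
    (star_to d hO MI star (by omega) (adj_blk hq hH h d) hm (he j) (e0 j) c)
  obtain ⟨z, z1, z2⟩ := exists_zeta hq
  have z1' : σ (σ z) * σ z = 1 := by rw [hH.invol, mul_comm, z1]
  have a1 : ∀ j, B (m (e j)) (m (e j)) = 1 := fun j => by rw [mI.1, e1]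
  have ad : ∀ j z, σ z * z = 1 → Adm h (m (e j)) (1 - z) := fun j z hz => by
    simpa [a1] using adm_herm (h := h) (a := m (e j)) (by simp [a1]) hz
  have hy : ∀ j ∈ J, ∀ k ∈ J, rf h (m (e j)) (1 - z) * rf h (m (e k)) (1 - σ z) ∈ dstab D :=
    fun j hj k hk => by
    have s1 := mul_mem (rf_dstab h d (he j) (1 - z)) (rf_dstab h d (he k) (1 - σ z))
    have := hs _ (hO _ (by simpa [e1] using pair_om hH h (e0 j) (e0 k) z1) s1) s1 fun i hi x hx => by
      rw [LinearEquiv.mul_apply, rf_fix h _ _ (d.orth k i (by rintro rfl; exact hi hk) _ (he k) x hx),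
        rf_fix h _ _ (d.orth j i (by rintro rfl; exact hi hj) _ (he j) x hx)]
    rwa [show ∀ x y : V ≃ₗ[F] V, m * (x * y) * m⁻¹ = m * x * m⁻¹ * (m * y * m⁻¹) from
      fun x y => by group, conj_rf h mI, conj_rf h mI] at this
  have n3 : 1 - z ≠ 0 := sub_ne_zero.mpr (by rintro rfl; simp at z2)
  have pe : ∀ a i, p i a = B (e i) a • e i := fun a i => by simpa [e1] using p_line d (h1 i) (he i) (e0 i) a
  have ne : ∀ i, e i ≠ 0 := fun i c => e0 i (by simp [c])
  have sub : ∀ j ∈ J, ∀ k ∈ J, ∀ i, p i (m (e k)) = 0 → p i (m (e j)) = 0 := fun j hj k hk i hi => by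
    by_contra hc
    obtain ⟨π, hπ⟩ := dstab_perm (hy j hj k hk)
    have k1 := hπ i _ (he i)
    rw [LinearEquiv.mul_apply, rf_fix h _ _ (h.refl ((p_eq_zero h d).mp hi _ (he i))),
      (ad j z z1).apply] at k1
    have b0 : B (m (e j)) (e i) ≠ 0 := h.refl_ne fun c => hc (by simp [pe, c])
    by_cases c : i = π i
    · rw [← c] at k1
      exact out j i (((D i).smul_mem_iff (mul_ne_zero n3 b0)).mp
        (by simpa using (D i).sub_mem (he i) k1))
    have k2 := d.zero i _ c _ k1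
    rw [map_sub, map_smul, d.self i _ (he i), pe, ← hH.symm (m (e j)), smul_smul, sub_eq_zero] at k2
    have k3 := smul_left_injective F (ne i) ((one_smul F _).trans k2)
    have k4 := congrArg σ k3
    simp only [map_one, map_mul, map_sub, hH.invol] at k3 k4
    refine z2 (mul_left_cancel₀ (mul_ne_zero b0 ((map_ne_zero σ).mpr b0)) ?_)
    linear_combination k4 - k3
  obtain ⟨j, hj, k, hk, hjk⟩ := Finset.one_lt_card.mp (show 1 < J.card by omega)
  have o := (mI.1 (e j) (e k)).trans (d.orth j k hjk _ (he j) _ (he k))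
  obtain ⟨S, c, hS⟩ := supp_four d (hy j hj k hk) (finrank_span_pair_le (m (e j)) (m (e k)))
    (loc_sub_mem h (mul_mem (rf_mem_loc h (Submodule.subset_span (by simp)) _)
      (rf_mem_loc h (Submodule.subset_span (by simp)) _))) (a := m (e j))
    (Submodule.subset_span (by simp)) fun i hi c => by
      have := congrArg (B (m (e j))) c
      rw [LinearEquiv.mul_apply, (ad k _ z1').apply, (ad j z z1).apply] at this
      have b0 : B (m (e j)) (p i (m (e j))) ≠ 0 := by
        rw [← d.B_p' (d.mem i _)]; exact line_ns h d (h1 i) (d.mem i _) hi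
      simp [o, a1, n3, b0] at this
  have := card_le_of_supp d m J S fun l hl x hx i hi => by
    obtain ⟨s, rfl⟩ := line_mem d (h1 l) (he l) (ne l) hx
    rw [map_smul, map_smul, sub l hl j hj i (hS i hi), smul_zero]
  omega

theorem herm_odd (t2 : (2 : F) ≠ 0) : M ≤ dstab D := by
  have e0 : ∀ i, B (e i) (e i) ≠ 0 := fun i => by simp [e1]
  have ad : ∀ j, Adm h (e j) 2 := fun j => by
    simpa [e1, one_add_one_eq_two] using adm_herm (h := h) (e0 j) (ζ := -1) (by simp)
  refine stepA' d h (hM.trans h.om_le_isom) (κ₀ := 5) (k := 1) star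
    (fun m => herm_c hq hH h d hO hM star h1 ht he e1) (fun y b y1 => ?_)
    (fun i => Submodule.one_le_finrank_iff.mpr (d.ne i)) (by omega) (Or.inr ⟨le_rfl, by omega⟩)
    (fun i => rf h (e i) 2) (fun i => blk_of_loc d h le_rfl (rf_mem_loc h (he i) _)) (fun i => ?_)
    (fun i => rk_rf h _ _) (fun i => ⟨e i, he i, ?_⟩) fun i j => hO _ ?_
      (mul_mem (rf_dstab h d (he i) _) (rf_dstab h d (he j) _))
  · obtain ⟨i, x, hx, c⟩ := exists_blk_ne d y1
    exact ⟨i, x, hx, line_ns h d (h1 i) ((D i).sub_mem (b.blk i x hx) hx) (sub_ne_zero.mpr c)⟩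
  · rw [mul_eq_one_iff_eq_inv, (ad i).inv, map_ofNat]
  · simp [(ad i).apply, e1, t2, ne_zero_of_Q h (e0 i)]
  · simpa [e1, one_add_one_eq_two] using pair_om hH h (e0 i) (e0 j) (z := -1) (by simp)

end line

end Cfsg.Agent.H11.Im
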