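import Mathlib
import Cfsg.Agent.H11.Im16

/-!
Orthogonal decompositions with few members.
-/

set_option autoImplicit false
set_option linter.unusedSectionVars false

namespace Cfsg.Agent.H11.Im

open Module H10 H11 Cfsg.Geo

variable {F : Type*} [Field F] [Fintype F]

theorem bad_card (t2 : (2 : F) ≠ 0) {m : F} (m0 : m ≠ 0) (T : Finset F)
    (hT : ∀ x ∈ T, IsSquare (x * x + m)) : 2 * T.card ≤ Fintype.card F + 1 := by
  classical
  choose! s hs using hT
  let A := T.filter (s · ≠ 0)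
  have k0 : ∀ x ∈ T, ∀ ε : F, ε * ε = 1 → ε * s x - x ≠ 0 := fun x hx ε e c => m0 (by
    linear_combination hs x hx + (ε * s x + x) * c - s x * s x * e)
  have k1 : ∀ x ∈ T, ∀ y ∈ T, ∀ ε δ : F, ε * ε = 1 → δ * δ = 1 → ε * s x - x = δ * s y - y → x = y :=
    fun x hx y hy ε δ e f c => by
    have a := hs x hx
    have b := hs y hy
    have : (ε * s x - x) * (2 * (x - y)) = 0 := by
      have e1 : (ε * s x - x) * (ε * s x + x) = m := by linear_combination -a + s x * s x * e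
      have e2 : (δ * s y - y) * (δ * s y + y) = m := by linear_combination -b + s y * s y * f
      rw [← c] at e2
      linear_combination e1 - e2 - (ε * s x - x) * c
    simpa [k0 x hx ε e, t2, sub_eq_zero] using this
  have c1 : (T.image fun x => 1 * s x - x).card = T.card := Finset.card_image_of_injOn fun x hx y hy =>
    k1 x hx y hy 1 1 (by simp) (by simp)
  have c2 : (A.image fun x => -1 * s x - x).card = A.card := Finset.card_image_of_injOn fun x hx y hy =>
    k1 x (Finset.mem_filter.mp hx).1 y (Finset.mem_filter.mp hy).1 (-1) (-1) (by simp) (by simp)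
  have c3 : Disjoint (T.image fun x => 1 * s x - x) (A.image fun x => -1 * s x - x) := by
    rw [Finset.disjoint_left]
    intro z h1 h2
    obtain ⟨x, hx, rfl⟩ := Finset.mem_image.mp h1
    obtain ⟨y, hy, e⟩ := Finset.mem_image.mp h2
    obtain ⟨hy, y0⟩ := Finset.mem_filter.mp hy
    obtain rfl := k1 y hy x hx (-1) 1 (by simp) (by simp) e
    exact mul_ne_zero t2 y0 (by linear_combination -e)
  have c4 := Finset.card_le_card (show (T.image fun x => 1 * s x - x) ∪ (A.image fun x => -1 * s x - x) ⊆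
      Finset.univ.erase 0 from fun z hz => by
    rcases Finset.mem_union.mp hz with e | e <;> obtain ⟨x, hx, rfl⟩ := Finset.mem_image.mp e
    · simpa using k0 x hx 1 (by simp)
    · simpa using k0 x (Finset.mem_filter.mp hx).1 (-1) (by simp))
  rw [Finset.card_union_of_disjoint c3, c1, c2, Finset.card_erase_of_mem (by simp),
    Finset.card_univ] at c4
  have c5 := card_le_two_of_quad (T.filter (¬ s · ≠ 0)) (a := 1) (b := 0) (c := m) one_ne_zero
    fun x hx => by
      obtain ⟨hx, e⟩ := Finset.mem_filter.mp hx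
      have := hs x hx
      rw [not_not.mp e] at this
      linear_combination this
  have c6 := Finset.card_filter_add_card_filter_not (s := T) (s · ≠ 0)
  have := Fintype.card_pos (α := F)
  simp only [A] at c4
  omega

theorem no_transl (X : Finset F) {d : F} (d0 : d ≠ 0) (hX : ∀ x ∈ X, x + d ∈ X) : (X.card : F) = 0 := by
  classical
  have e : X.image (· + d) = X := Finset.eq_of_subset_of_card_le (fun z hz => by
    obtain ⟨x, hx, rfl⟩ := Finset.mem_image.mp hz; exact hX x hx)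
    (Finset.card_image_of_injective _ (add_left_injective d)).ge
  have := Finset.sum_image (s := X) (g := (· + d)) (f := id) fun x _ y _ e => add_left_injective d e
  rw [e] at this
  simpa [Finset.sum_add_distrib, d0] using this

variable {V : Type*} [AddCommGroup V] [Module F V] [FiniteDimensional F V]
  {t : ℕ} {D : Fin t → Submodule F V} {p : Fin t → V →ₗ[F] V}
  {B : V →ₗ[F] V →ₗ[F] F} {Q : V → F}

/-- One may pass to a reflection whose centre has a zero component or an odd stabiliser. -/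
def EZ (h : Cl (σ := RingHom.id F) 1 2 (AddMonoidHom.id F) B Q) (D : Fin t → Submodule F V)
    (p : Fin t → V →ₗ[F] V) : Prop :=
  ∀ N ≤ Isom B Q, ∀ c, c ≠ 0 → (∀ i, ∀ w ∈ D i, Q w ≠ 0 → (r h w ∈ N ↔ IsSquare (Q w * c))) →
    (∀ k k', Blk B Q D Finset.univ k → Blk B Q D Finset.univ k' → k ∉ N → k' ∉ N → k * k' ∈ N) →
    ∀ a, Q a ≠ 0 → r h a ∈ N → (∀ l, a ∉ D l) → (∀ i, p i a ≠ 0) →
      ∃ b, r h b ∈ N ∧ Q b = Q a ∧ (∀ l, b ∉ D l) ∧
        ((∃ o, p o b = 0) ∨ ∃ ρ, Blk B Q D Finset.univ ρ ∧ ρ ∉ N ∧ ρ b = b)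

variable {h : Cl (σ := RingHom.id F) 1 2 (AddMonoidHom.id F) B Q} (d : Dec B Q D p)
include d

theorem exists_other_cls (t2 : (2 : F) ≠ 0) {c : F} (c0 : c ≠ 0) :
    ∃ n, n ≠ 0 ∧ ∀ s, s ≠ 0 → IsSquare (s * n) → ¬ IsSquare (s * c) := by
  obtain ⟨n, hn⟩ := FiniteField.exists_nonsquare (F := F) fun e => t2 (by
    simpa [e] using CharP.cast_eq_zero F (ringChar F))
  refine ⟨n * c, mul_ne_zero (by rintro rfl; simp at hn) c0, fun s s0 ⟨x, hx⟩ ⟨y, hy⟩ => hn ⟨x / y, ?_⟩⟩
  have : y ≠ 0 := by rintro rfl; simp [s0, c0] at hy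
  field_simp
  linear_combination hx - n * hy

theorem ez_three (t2 : (2 : F) ≠ 0) (h3 : ∀ i, 3 ≤ finrank F (D i)) : EZ h D p :=
    fun N _ c c0 hc _ a qa ra out _ => by
  have hQ : IsQuad B Q := h.form
  obtain ⟨j, hj⟩ := exists_Q_ne d qa h
  obtain ⟨n, n0, hn⟩ := exists_other_cls d t2 c0
  have := finrank_le_inf_ker (D j) (B (p j a))
  obtain ⟨w, hw, e⟩ := hQ.exists_eq_on (nondeg_perp_one h h (d.nd j) (d.mem j a)
    (by simp [hQ.diag', t2, hj])) (by have := h3 j; omega) n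
  refine ⟨a, ra, rfl, out, Or.inr ⟨r h w, (blk_of_loc d h le_rfl (rf_mem_loc h hw.1 _)).mono (by simp),
    fun m => hn n n0 ⟨n, rfl⟩ (e ▸ (hc j w hw.1 (e ▸ n0)).mp m), rf_fix h _ _ ?_⟩⟩
  rw [← d.B_p hw.1, h.refl hw.2]

theorem ez_plane (t2 : (2 : F) ≠ 0) (ht : 5 ≤ t) (h2 : ∀ i, finrank F (D i) = 2)
    (cc : ∀ c ≠ 0, ∀ i, Conn B (D i) (Cls Q c)) : EZ h D p := fun N NI c c0 hc hI a qa ra out ha => by
  classical
  have hQ : IsQuad B Q := h.form
  by_contra no
  push Not at no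
  obtain ⟨i, hi⟩ := exists_Q_ne d qa h
  have br : ∀ {j w}, w ∈ D j → Blk B Q D {j} (r h w) := fun hw => blk_of_loc d h le_rfl (rf_mem_loc h hw _)
  have u : ∀ {J : Finset (Fin t)} {k : V ≃ₗ[F] V}, Blk B Q D J k → Blk B Q D Finset.univ k :=
    fun a => a.mono (Finset.subset_univ _)
  have nl : ∀ j c', c' ≠ 0 → ∃ z ∈ D j, Cls Q c' z ∧ B z a ≠ 0 ∧
      r h z (p j a) ∉ Submodule.span F {p j a} := fun j c' c0' => by
    obtain ⟨z, hz, cz, z1, y, hy, z2⟩ := (cc c' c0' j).2 (Submodule.span F {p j a})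
      (by simpa using d.mem j a) (by simpa using ha j) fun e => by
        have := finrank_span_one_le (F := F) (p j a)
        rw [e, h2] at this; omega
    obtain ⟨s, rfl⟩ := Submodule.mem_span_singleton.mp hy
    have z3 : B z (p j a) ≠ 0 := fun e => z2 (by simp [h.refl e])
    refine ⟨z, hz, cz, by rwa [← d.B_p hz], fun m => z1 ?_⟩
    have := Submodule.sub_mem _ (Submodule.mem_span_singleton_self (p j a)) m
    rwa [r_apply, sub_sub_cancel, Submodule.smul_mem_iff _ (mul_ne_zero (inv_ne_zero cz.1) z3)] at this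
  have := finrank_le_inf_ker (D i) (B (p i a))
  obtain ⟨w, hw, w0⟩ := exists_ne_zero_of_finrank (W := D i ⊓ LinearMap.ker (B (p i a)))
    (by have := h2 i; omega)
  have xw : B (p i a) w = 0 := hw.2
  have qw : Q w ≠ 0 := fun c => w0 (plane_perp h (d.nd i) (h2 i) (d.mem i a) hi hw.1 xw c)
  obtain ⟨g, hg⟩ : IsSquare (Q w * c) := (hc i w hw.1 qw).mp (by_contra fun m =>
    (no a ra rfl out).2 _ (u (br hw.1)) m (rf_fix h _ _ (by rw [← d.B_p hw.1, h.refl xw])))
  have g0 : g ≠ 0 := by rintro rfl; simp [qw, c0] at hg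
  obtain ⟨S, hS, cS⟩ := Finset.exists_subset_card_eq (n := 4) (s := Finset.univ.erase i) (by
    rw [Finset.card_erase_of_mem (by simp)]; simp; omega)
  obtain ⟨j₁, j₂, l, o, a1, a2, a3, a4, a5, a6, rfl⟩ := Finset.card_eq_four.mp cS
  simp only [Finset.insert_subset_iff, Finset.singleton_subset_iff, Finset.mem_erase, Finset.mem_univ,
    and_true] at hS
  obtain ⟨b1, b2, b3, b4⟩ := hS
  obtain ⟨z', hz', cz', -, nz'⟩ := nl o c c0
  have rz' := (hc o z' hz' cz'.1).mpr cz'.2
  let Z : Finset (Fin t) → Prop → Finset F := fun J ε => Finset.univ.filter fun s =>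
    ∃ k, Blk B Q D J k ∧ (k ∈ N ↔ ε) ∧ B a (k a) - B a a = s
  have k1 : ∀ ε, 2 * (Z {j₁, j₂, l} ε).card ≤ Fintype.card F + 1 := fun ε => by
    obtain ⟨z, hz, qz, nz, mz⟩ : ∃ z ∈ D i, Q z ≠ 0 ∧ r h z (p i a) ∉ Submodule.span F {p i a} ∧
        (r h z ∈ N ↔ ε) := by
      by_cases e : ε
      · obtain ⟨z, hz, cz, -, nz⟩ := nl i c c0
        exact ⟨z, hz, cz.1, nz, by simp [e, hc i z hz cz.1, cz.2]⟩
      · obtain ⟨n, n0, hn⟩ := exists_other_cls d t2 c0
        obtain ⟨z, hz, cz, -, nz⟩ := nl i n n0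
        exact ⟨z, hz, cz.1, nz, by simp [e, hc i z hz cz.1, hn _ cz.1 cz.2]⟩
    obtain ⟨σ, μ, e⟩ := span_pair_eq (h2 i) (d.mem i a) hw.1 (ha i) (fun m => by
      obtain ⟨s, rfl⟩ := Submodule.mem_span_singleton.mp m
      simp [hQ.diag', t2, hi] at xw; simp [xw] at w0) ((br hz).blk i _ (d.mem i a))
    have μ0 : μ ≠ 0 := by
      rintro rfl; exact nz (Submodule.mem_span_singleton.mpr ⟨σ, by simpa using e⟩)
    let f : F → F := fun s => (σ - (Q a)⁻¹ * (s + B a ((r h z' * r h z) a))) * Q (p i a)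
    rw [← Finset.card_image_of_injective _ (show Function.Injective f from fun x y e => by
      simpa [f, hi, qa] using e)]
    refine bad_card t2 (m := μ * μ * Q (p i a) * Q w) (by simp [μ0, hi, qw]) _ fun x hx => ?_
    obtain ⟨s, hs, rfl⟩ := Finset.mem_image.mp hx
    obtain ⟨k, bk, mk, rfl⟩ := (Finset.mem_filter.mp hs).2
    have bz := (br hz').mul' (br hz)
    have m : k * (r h z' * r h z) ∈ N := by
      by_cases e : ε
      · exact mul_mem (mk.mpr e) (mul_mem rz' (mz.mpr e))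
      · exact hI _ _ (u bk) (u bz) (mt mk.mp e) fun m => e (mz.mp (by
          simpa using mul_mem (inv_mem rz') m))
    have e1 : B a ((k * (r h z' * r h z)) a) = B a (k a) - B a a + B a ((r h z' * r h z) a) := by
      rw [LinearEquiv.mul_apply, bk.add d bz (by simp [a3.symm, a5.symm, a6.symm, b1.symm, b2.symm,
        b3.symm]), map_sub, map_add]; ring
    have e2 : p i ((k * (r h z' * r h z)) a) = r h z (p i a) := by
      rw [LinearEquiv.mul_apply, bk.p_not d (by simp [b1.symm, b2.symm, b3.symm]),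
        LinearEquiv.mul_apply, (br hz').p_not d (by simp [b4.symm]), d.p_comm (br hz).blk]
    have e3 : p o ((k * (r h z' * r h z)) a) = r h z' (p o a) := by
      rw [LinearEquiv.mul_apply, bk.p_not d (by simp [a3.symm, a5.symm, a6.symm]),
        LinearEquiv.mul_apply, d.p_comm (br hz').blk, (br hz).p_not d (by simp [b4])]
    simp only [f, ← e1]
    generalize k * (r h z' * r h z) = κ at m e2 e3
    have m' := mul_mem ra m
    have ne : ∀ j (y : V), y ∉ Submodule.span F {p j a} → p j (κ a) = y → p j (r h a (κ a)) ≠ 0 :=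
      fun j y hy e c => hy (by
        rw [r_apply, map_sub, map_smul, e, sub_eq_zero] at c
        exact c ▸ Submodule.smul_mem _ _ (Submodule.mem_span_singleton_self _))
    have k2 := (no (r h a (κ a)) (by
      rw [← LinearEquiv.mul_apply, ← conj_r h (NI m')]; exact mul_mem (mul_mem m' ra) (inv_mem m'))
      (by rw [(r_isom h a).2, (NI m).2]) (d.notMem b4 (ne o _ nz' e3) (ne i _ nz e2))).2
    generalize hl : σ - (Q a)⁻¹ * B a (κ a) = ν
    have e4 : p i (r h a (κ a)) = ν • p i a + μ • w := by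
      rw [r_apply, map_sub, map_smul, e2, ← e, ← hl]; module
    have hy : (μ * Q w) • p i a - (ν * Q (p i a)) • w ∈ D i :=
      (D i).sub_mem ((D i).smul_mem _ (d.mem i a)) ((D i).smul_mem _ hw.1)
    have qy : Q ((μ * Q w) • p i a - (ν * Q (p i a)) • w) =
        Q w * (ν * Q (p i a) * (ν * Q (p i a)) + μ * μ * Q (p i a) * Q w) := by
      simp only [hQ.sub', hQ.smul', map_smul, LinearMap.smul_apply, xw, smul_zero]; ring
    generalize ν * Q (p i a) * (ν * Q (p i a)) + μ * μ * Q (p i a) * Q w = β at qy ⊢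
    by_cases β0 : β = 0
    · simp [β0]
    obtain ⟨y, hy'⟩ := (hc i _ hy (by simp [qy, qw, β0])).mp (by_contra fun m =>
      k2 _ (u (br hy)) m (rf_fix h _ _ (by
        rw [← d.B_p hy, e4]
        simp only [map_add, map_sub, map_smul, LinearMap.sub_apply, LinearMap.smul_apply, xw,
          h.refl xw, hQ.diag', smul_eq_mul]
        ring)))
    refine ⟨y / g, ?_⟩
    field_simp
    linear_combination hy' - β * hg - c * qy
  obtain ⟨ε, hε⟩ : ∃ ε, Fintype.card F ≤ 2 * (Z {j₁, j₂} ε).card := by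
    have := Finset.card_le_card (show Finset.univ ⊆ Z {j₁, j₂} True ∪ Z {j₁, j₂} False from fun s _ => by
      obtain ⟨k, bk, ek⟩ := sumP_two h d h2 t2 {j₁, j₂} (Finset.card_pair a1) a (fun l _ => ha l) s
      simp only [Z, Finset.mem_union, Finset.mem_filter, Finset.mem_univ, true_and]
      by_cases e : k ∈ N
      · exact Or.inl ⟨k, bk, by simp [e], ek⟩
      · exact Or.inr ⟨k, bk, by simp [e], ek⟩)
    have := Finset.card_union_le (Z {j₁, j₂} True) (Z {j₁, j₂} False)
    rw [Finset.card_univ] at *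
    by_cases e : Fintype.card F ≤ 2 * (Z {j₁, j₂} True).card
    · exact ⟨_, e⟩
    · exact ⟨False, by omega⟩
  have s1 : Z {j₁, j₂} ε ⊆ Z {j₁, j₂, l} ε := fun s hs => by
    obtain ⟨k, bk, ek⟩ := (Finset.mem_filter.mp hs).2
    exact Finset.mem_filter.mpr ⟨by simp, k, bk.mono (by simp [Finset.insert_subset_iff]), ek⟩
  have odd : Fintype.card F % 2 = 1 := FiniteField.odd_card_of_char_ne_two fun e => t2 (by
    simpa [e] using CharP.cast_eq_zero F (ringChar F))
  have := k1 ε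
  have := Finset.card_le_card s1
  have s2 := Finset.eq_of_subset_of_card_le s1 (by omega)
  obtain ⟨z, hz, cz, z1, -⟩ := nl l c c0
  have rz := (hc l z hz cz.1).mpr cz.2
  have s3 := no_transl (Z {j₁, j₂} ε) (d := B a (r h z a) - B a a) (by
    simp [r_apply, cz.1, z1, h.refl_ne z1]) fun s hs => by
      obtain ⟨k, bk, mk, rfl⟩ := (Finset.mem_filter.mp hs).2
      rw [s2]
      refine Finset.mem_filter.mpr ⟨by simp, k * r h z, (bk.mul' (br hz)).mono (by
        simp [Finset.insert_subset_iff]), by rw [← mk, N.mul_mem_cancel_right rz], ?_⟩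
      rw [LinearEquiv.mul_apply, bk.add d (br hz) (by simp [a2.symm, a4.symm]), map_sub, map_add]; ring
  have s4 := congrArg (Nat.cast : ℕ → F) (show 2 * (Z {j₁, j₂} ε).card = Fintype.card F + 1 by omega)
  simp [s3] at s4

section
variable (hn : 5 ≤ finrank F V) {M : Subgroup (V ≃ₗ[F] V)} (hH : Ov h D M) (hM : M ≤ h.Om)
  (R : RT h D) (cc : ∀ c ≠ 0, ∀ i, Conn B (D i) (Cls Q c)) (h2 : ∀ i, 2 ≤ finrank F (D i))
include hn hH hM R cc h2

theorem Ov.star (ez : EZ h D p) {f : ℕ} (hS : SumP B Q D p f) (ht : f + 2 ≤ t)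
    (hF : ∀ i, ∀ x ∈ D i, x ≠ 0 → ∀ s, ∃ k, Blk B Q D {i} k ∧ k x ≠ x ∧ Q (k x - x) ≠ s)
    {j : Fin t} {v : V} (hv : v ∈ D j) (qv : Q v ≠ 0) {x : V ≃ₗ[F] V} (hx : x ∈ M)
    (hx' : x ∉ dstab D) (hxv : x v = v) : h.Om ≤ M := by
  classical
  have hQ : IsQuad B Q := h.form
  have c0 : ∀ i, Conn B (D i) (Q · ≠ 0) := fun i => (cc 1 one_ne_zero i).mono fun _ a => a.1
  have hX : Submodule.span F {v} ≤ D j := by simpa using hv
  have st : ∀ y ∈ Submodule.span F {v}, x y ∈ Submodule.span F {v} := fun y hy => by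
    obtain ⟨s, rfl⟩ := Submodule.mem_span_singleton.mp hy
    rwa [map_smul, hxv]
  have mv := Submodule.mem_span_singleton_self (R := F) v
  have ad : ∀ i, Adj h (D i) := fun i => adj_quad h hn (d.nd i) (h2 i)
  have hN := hH.ext d hX
  have NI := ext_le_isom (X := Submodule.span F {v}) hM
  have NM := fun g => hH.mem_of_ext d hM hX (g := g)
  have NO := hH.om_le_of_ext d hM hX
  have rv : r h v ∈ Ext M _ := le_ext _ _ (rf_mem_loc h mv _)
  have xN := hH.mem_ext_of_stab d hM hX hx st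
  generalize Ext M _ = N at hN NI NM NO rv xN
  have cl : ∀ i, ∀ w ∈ D i, Cls Q (Q v) w → r h w ∈ N := fun i w hw c => by
    simpa using mul_mem (hN _ (r_mul_mem h hn c.1 qv c.2)
      (mul_mem (rf_dstab h d hw _) (rf_dstab h d hv _))) (inv_mem rv)
  obtain ⟨i, w, hw, cw, out⟩ := exists_out d (cc _ qv) (NI xN) hx'
  have ra : r h (x w) ∈ N := conj_r h (NI xN) w ▸ mul_mem (mul_mem xN (cl i w hw cw)) (inv_mem xN)
  have qa : Q (x w) = Q w := (NI xN).2 w
  generalize x w = a at out ra qa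
  have zero : ∀ a, Q a = Q w → r h a ∈ N → (∀ l, a ∉ D l) → ∀ o, p o a = 0 → h.Om ≤ M :=
    fun a qa ra out o ho => by
    obtain ⟨u, hu, qu⟩ := hQ.exists_eq_on (d.nd o) (h2 o) (Q w)
    have q0 : Q a ≠ 0 := qa ▸ cw.1
    refine hH.np d hM R c0 le_rfl (ad o) (NM _ (mul_mem ra (cl o u hu ⟨qu ▸ cw.1, qu ▸ cw.2⟩))
      (r_mul_mem h hn q0 (qu ▸ cw.1) ⟨Q w, by rw [qa, qu]⟩)) (fun y hy => ?_) fun e => ?_
    · have := loc_mem h (rf_mem_loc h hu (Q u)⁻¹) le_rfl hy
      rwa [LinearEquiv.mul_apply, rf_fix h a _ (h.refl ((p_eq_zero h d).mp ho _ this))]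
    · obtain ⟨l, hl⟩ := blk_of_rf d h2 (adm_r h a) (inv_ne_zero q0) (ne_zero_of_Q h q0)
        (by simpa using mul_mem e (inv_mem (rf_dstab h d hu (Q u)⁻¹)))
      exact out l hl
  have q0 : Q a ≠ 0 := qa ▸ cw.1
  by_cases ha : ∀ i, p i a ≠ 0
  swap
  · push Not at ha; obtain ⟨o, ho⟩ := ha; exact zero a qa ra out o ho
  have k1 : ∀ g ∈ dstab D, g * r h v ∈ h.Om → g ∈ N := fun g hg e => by
    simpa using mul_mem (hN _ e (mul_mem hg (rf_dstab h d hv _))) (inv_mem rv)
  by_cases hK : ∃ i, ∃ u ∈ D i, Q u ≠ 0 ∧ r h u ∈ N ∧ ¬ IsSquare (Q u * Q v)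
  · obtain ⟨i, u, hu, qu, ru, nu⟩ := hK
    refine NO (R N NI (fun g hg hg' => ?_) a (lam_r h q0 ra) out)
    have s := mul_mem hg' (rf_dstab h d hu (Q u)⁻¹)
    have hex := hQ.nonExc_of_finrank h.sep (by omega)
    rcases idx_two h hn qv hg (r_isom h u) with e | e | e | e | e | e
    · exact hN _ e hg'
    · exact k1 _ hg' e
    · have := (hQ.prod_mem_commutator_iff h.sep hex [u] (by simp [qu])).mp
        ((mem_om_quad h hn _).mp (by simpa [r, rf_eq_reflO] using e))
      simp at this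
    · have := (hQ.prod_mem_commutator_iff h.sep hex [u, v] (by simp [qu, qv])).mp
        ((mem_om_quad h hn _).mp (by simpa [r, rf_eq_reflO] using e))
      exact absurd (by simpa using this.2) nu
    · exact (N.mul_mem_cancel_right ru).mp (hN _ e s)
    · exact (N.mul_mem_cancel_right ru).mp (k1 _ s e)
  push Not at hK
  have hI : ∀ k k', Blk B Q D Finset.univ k → Blk B Q D Finset.univ k' → k ∉ N → k' ∉ N →
      k * k' ∈ N := fun k k' b b' m m' => by
    have s := b.dstab d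
    have s' := b'.dstab d
    rcases idx_two h hn qv b.isom b'.isom with e | e | e | e | e | e
    exacts [absurd (hN _ e s) m, absurd (k1 _ s e) m, absurd (hN _ e s') m',
      absurd (k1 _ s' e) m', hN _ e (mul_mem s s'), k1 _ (mul_mem s s') e]
  obtain ⟨b, rb, qb, out, hb⟩ := ez N NI _ qv (fun i w hw q => ⟨hK i w hw q, fun c => cl i w hw ⟨q, c⟩⟩)
    hI a q0 ra out ha
  replace qb := qb.trans qa
  clear ra qa q0 ha
  by_cases ha : ∀ i, p i b ≠ 0
  swap
  · push Not at ha; obtain ⟨o, ho⟩ := ha; exact zero b qb rb out o ho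
  obtain ⟨ρ, bρ, mρ, eρ⟩ := hb.resolve_left fun ⟨o, ho⟩ => ha o ho
  have q0 : Q b ≠ 0 := qb ▸ cw.1
  obtain ⟨J, -, cJ⟩ := Finset.exists_subset_card_eq (n := f) (s := (Finset.univ : Finset (Fin t)))
    (by simp; omega)
  obtain ⟨l, hl, o, ho, hlo⟩ := Finset.one_lt_card.mp (show 1 < Jᶜ.card by
    rw [Finset.card_compl]; simp only [Fintype.card_fin]; omega)
  rw [Finset.mem_compl] at hl ho
  obtain ⟨s, bs, s1, s2⟩ := hF l _ (d.mem l b) (ha l) (Q b)
  obtain ⟨k₂, b₂, e₂⟩ := hS J cJ b (fun l _ => ha l) (Q b - B b (s b))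
  have b₃ := b₂.mul' bs
  obtain ⟨k, hk, ek⟩ : ∃ k ∈ N, k b = k₂ (s b) := by
    by_cases c : k₂ * s ∈ N
    · exact ⟨_, c, rfl⟩
    · exact ⟨_, hI _ _ (b₃.mono (by simp)) bρ c mρ, by rw [LinearEquiv.mul_apply, eρ]; rfl⟩
  have e : B b (k b) = Q b := by
    rw [ek, b₂.add d bs (by simpa using hl), map_sub, map_add]; linear_combination e₂
  have e4 : p l (k b - b) = s (p l b) - p l b := by
    rw [map_sub, ek, b₂.p_not d hl, d.p_comm bs.blk]
  have e1 : r h b (k b) = k b - b := by rw [r_apply, e, inv_mul_cancel₀ q0, one_smul]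
  have m := mul_mem rb hk
  have q1 : Q (k b - b) = Q b := by rw [← e1, (r_isom h b).2, (NI hk).2]
  refine zero (k b - b) (q1.trans qb) ?_ (fun l' hl => ?_) o ?_
  · rw [← e1, ← LinearEquiv.mul_apply, ← conj_r h (NI m)]
    exact mul_mem (mul_mem m rb) (inv_mem m)
  · by_cases e : l = l'
    · exact s2 (by rw [← e4, d.self l _ (e ▸ hl), q1])
    · exact s1 (sub_eq_zero.mp (e4 ▸ d.zero l l' e _ hl))
  · rw [map_sub, ek, ← LinearEquiv.mul_apply, b₃.p_not d (by simp [ho, hlo.symm]), sub_self]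

end

end Cfsg.Agent.H11.Im
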