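import Mathlib
import Cfsg.Agent.H11.Im18

/-!
Orthogonal decompositions with few members are maximal.
-/

set_option autoImplicit false
set_option linter.unusedSectionVars false

namespace Cfsg.Agent.H11.Im

open Module H10 H11 Cfsg.Geo

variable {F : Type*} [Field F] {V : Type*} [AddCommGroup V] [Module F V] [FiniteDimensional F V]
  {t : ℕ} {D : Fin t → Submodule F V} {p : Fin t → V →ₗ[F] V}

theorem Gen.main' {σ : F →+* F} {κ : F} {τ : F →+ F} {B : V →ₛₗ[σ] V →ₗ[F] F} {Q : V → F}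
    {h : Cl 1 κ τ B Q} (d : Dec B Q D p) (G : Gen h D) {M : Subgroup (V ≃ₗ[F] V)} (hK : OvK h D M)
    (hM : M ≤ Isom B Q) {f : ℕ} (hS : ∀ J : Finset (Fin t), J.card = f → ∀ a, (∀ i ∈ J, p i a ≠ 0) →
      ∃ k, Blk B Q D J k ∧ k a ≠ a ∧ B a (k a) = B a a) (ht : 2 * f ≤ t + 1) (f1 : 1 ≤ f) {a : V}
    (ha : Lam h M a) (hb : ∀ l, a ∉ D l) : h.Om ≤ M := by
  classical
  have h0 : ∀ n, n ≤ f + 1 → ∃ a, Lam h M a ∧ 2 ≤ (Finset.univ.filter (p · a ≠ 0)).card ∧
      n ≤ (Finset.univ.filter (p · a ≠ 0)).card := fun n => by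
    induction n with
    | zero =>
      obtain ⟨i, j, hij, hi, hj⟩ := d.exists_two ⟨0, by omega⟩ hb
      exact fun _ => ⟨a, ha, Finset.one_lt_card.mpr ⟨i, by simpa, j, by simpa, hij⟩, by simp⟩
    | succ n ih =>
      intro hn
      obtain ⟨a, ha, h1, h2⟩ := ih (by omega)
      by_cases e : n + 1 ≤ (Finset.univ.filter (p · a ≠ 0)).card
      · exact ⟨a, ha, h1, e⟩
      · obtain ⟨b, hb, h3⟩ := G.enlarge d hK hM ha (by convert h1) (by convert (by omega :
          2 * (Finset.univ.filter (p · a ≠ 0)).card ≤ t + 1))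
        have h4 : (Finset.univ.filter (p · a ≠ 0)).card < (Finset.univ.filter (p · b ≠ 0)).card := by
          convert h3
        exact ⟨b, hb, by omega, by omega⟩
  obtain ⟨a, ha, h1, h2⟩ := h0 (f + 1) le_rfl
  obtain ⟨j, hj⟩ := Finset.card_pos.mp (show 0 < (Finset.univ.filter (p · a ≠ 0)).card by omega)
  obtain ⟨J, hJ, cJ⟩ := Finset.exists_subset_card_eq (n := f)
    (s := (Finset.univ.filter (p · a ≠ 0)).erase j) (by rw [Finset.card_erase_of_mem hj]; omega)
  have jJ : j ∉ J := fun e => by simpa using hJ e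
  simp only [Finset.mem_filter, Finset.mem_univ, true_and] at hj
  obtain ⟨k, b1, k0, e1⟩ := hS J cJ a (fun l hl => by have := hJ hl; simp at this; exact this.2)
  have l1 := ha.map hM (hK _ b1.isom (b1.dstab d))
  have e2 : B (k a) a = B a a := by rw [symm1 h, e1, ← symm1 h]
  obtain ⟨c', c0', hc'⟩ := G.adm a ha.1
  have qu : Q (k a - a) = 0 := by rw [h.form.sub, e2, h.tau_diag, b1.isom.2, sub_self]
  exact G.full d hK hM (u := k a - a) (sub_ne_zero.mpr k0) qu
    (hc'.mem_ar qu (by rw [map_sub, LinearMap.sub_apply, e2, sub_self]) (by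
      rw [add_sub_cancel]; exact mul_mem (l1.2 _) (inv_mem (ha.2 _)))) (o := j)
    (by rw [map_sub, b1.p_not d jJ, sub_self]) (by simp [c0', hj]) (I := J)
    (fun l hl => by_contra fun hc => hl (by rw [map_sub, b1.p_not d hc, sub_self])) jJ (by omega)

variable {B : V →ₗ[F] V →ₗ[F] F} {Q : V → F} [Fintype F]

section
variable {h : Cl (σ := RingHom.id F) 1 2 (AddMonoidHom.id F) B Q} (d : Dec B Q D p)
  (hn : 5 ≤ finrank F V) {M : Subgroup (V ≃ₗ[F] V)} (hH : Ov h D M) (hM : M ≤ h.Om)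
  (cc : ∀ c ≠ 0, ∀ i, Conn B (D i) (Cls Q c)) (h2 : ∀ i, 2 ≤ finrank F (D i))
include d hn hH hM cc h2

theorem Ov.step3' (h3 : ∀ i, 3 ≤ finrank F (D i))
    (star : ∀ x ∈ M, x ∉ dstab D → ∀ j, ∀ v ∈ D j, Q v ≠ 0 → x v = v → h.Om ≤ M)
    (ht : 2 ≤ t) {g : V ≃ₗ[F] V} (hg : g ∈ M) (hg' : g ∉ dstab D) : h.Om ≤ M := by
  have hQ : IsQuad B Q := h.form
  obtain ⟨a, b, qa, qb, hab, m, out⟩ := exists_rot d hn hM cc h2 hH hg hg'
  let Z := fun i => D i ⊓ LinearMap.ker (B a) ⊓ LinearMap.ker (B b)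
  have fx : ∀ i, ∀ v ∈ Z i, (r h a * r h b) v = v := fun i v hv => by
    rw [LinearEquiv.mul_apply, rf_fix h b _ hv.2, rf_fix h a _ hv.1.2]
  by_cases hz : ∃ i, ∃ v ∈ Z i, Q v ≠ 0
  · obtain ⟨i, v, hv, q⟩ := hz
    exact star _ m out i v hv.1.1 q (fx i v hv)
  push Not at hz
  have ZD : ∀ i, Z i ≤ D i := fun i => inf_le_left.trans inf_le_left
  have dZ : ∀ i, finrank F (D i) ≤ finrank F (Z i) + 2 := fun i => by
    have := finrank_le_inf_ker (D i) (B a)
    have := finrank_le_inf_ker (D i ⊓ LinearMap.ker (B a)) (B b)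
    simp only [Z]; omega
  have ts : ∀ i, ∀ z ∈ Z i, ∀ w ∈ Z i, B z w = 0 := fun i z h1 w h2 => by
    have := hQ.add' z w
    rw [hz i _ ((Z i).add_mem h1 h2), hz i z h1, hz i w h2] at this
    simpa using this.symm
  obtain ⟨j, hj⟩ := exists_Q_ne d qa h
  have d3 : finrank F (D j) ≤ 3 := by
    have := finrank_add_le h (d.nd j) (ZD j) (W := Z j ⊔ Submodule.span F {p j a})
      (sup_le (ZD j) (by simpa using d.mem j a)) fun z h1 w h2 => by
        obtain ⟨w, hw, y, hy, rfl⟩ := Submodule.mem_sup.mp h2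
        obtain ⟨s, rfl⟩ := Submodule.mem_span_singleton.mp hy
        rw [map_add, ts j z h1 w hw, map_smul, d.B_p h1.1.1, hQ.comm, h1.1.2]; simp
    have := Submodule.finrank_lt_finrank_of_lt (s := Z j) (t := Z j ⊔ Submodule.span F {p j a})
      (lt_of_le_of_ne le_sup_left fun e => hj (hz j _ (e.ge
        (Submodule.mem_sup_right (Submodule.mem_span_singleton_self _)))))
    have := dZ j
    omega
  have d1 : ∀ i, finrank F (Z i) ≤ 1 := fun i => by
    have := finrank_add_le h (d.nd i) (ZD i) (ZD i) (ts i)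
    have := d.finrank_eq i j
    omega
  obtain ⟨e, he, e0⟩ := exists_ne_zero_of_finrank (W := Z j) (by have := dZ j; have := h3 j; omega)
  obtain ⟨w, hw, w1⟩ := exists_mem_notMem (W := D j ⊓ LinearMap.ker (B e)) (Z := Z j) (by
    have := finrank_le_inf_ker (D j) (B e)
    have := h3 j
    have := d1 j
    omega)
  have MI := hM.trans h.om_le_isom
  have k1 := h.le_arm (hz j e he) (fun w hw c => hH.eich d he.1.1 hw (hz j e he)) hw.1 hw.2
  have k2 := (h.Arm M e).sub_mem k1 (h.map_mem_arm MI m (fx j e he) k1)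
  obtain ⟨α, β, e1, e2⟩ : ∃ α β : F, w - (r h a * r h b) w = α • a + β • b ∧ (α ≠ 0 ∨ β ≠ 0) := by
    refine ⟨(Q a)⁻¹ * B a (r h b w), (Q b)⁻¹ * B b w, by
      rw [LinearEquiv.mul_apply, r_apply h a]; nth_rewrite 1 [r_apply h b]; abel, ?_⟩
    by_contra hc
    push Not at hc
    have b0 : B b w = 0 := by simpa [qb] using hc.2
    rw [rf_fix h b _ b0] at hc
    exact w1 ⟨⟨hw.1, by simpa [qa] using hc.1⟩, b0⟩
  rw [e1] at k2
  obtain ⟨i, hij⟩ : ∃ i : Fin t, i ≠ j := by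
    by_cases e : j = ⟨0, by omega⟩
    · exact ⟨⟨1, by omega⟩, by simp [e]⟩
    · exact ⟨_, Ne.symm e⟩
  refine hH.fin1 d MI (fun i => Or.inl (h3 i)) (fun i => adj_quad h hn (d.nd i) (h2 i)) he.1.1 e0
    (hz j e he) k2 hij fun e => ?_
  have k3 : ∀ y ∈ D i, α * B a y + β * B b y = 0 := fun y hy => by
    simpa [hQ.comm y] using (p_eq_zero h d).mp e y hy
  have := h3 i
  have := d1 i
  rcases e2 with e2 | e2
  · have : D i ⊓ LinearMap.ker (B b) ≤ Z i := fun y hy => ⟨⟨hy.1, by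
      have := k3 y hy.1
      rw [show B b y = 0 from hy.2] at this
      simpa [e2] using this⟩, hy.2⟩
    have := Submodule.finrank_mono this
    have := finrank_le_inf_ker (D i) (B b)
    omega
  · have : D i ⊓ LinearMap.ker (B a) ≤ Z i := fun y hy => ⟨hy, by
      have := k3 y hy.1
      rw [show B a y = 0 from hy.2] at this
      simpa [e2] using this⟩
    have := Submodule.finrank_mono this
    have := finrank_le_inf_ker (D i) (B a)
    omega


end

variable (h : Cl (σ := RingHom.id F) 1 2 (AddMonoidHom.id F) B Q) (d : Dec B Q D p)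
include h d

theorem zs_plane (h2 : ∀ i, finrank F (D i) = 2)
    (ok : ∀ i, 6 ≤ Fintype.card F ∨ (∀ y ∈ D i, Q y = 0 → y = 0) ∧ Fintype.card F ≠ 3)
    (t2 : (2 : F) = 0) (J : Finset (Fin t)) (hJ : J.card = 3) (a : V) (ha : ∀ i ∈ J, p i a ≠ 0) :
    ∃ k, Blk B Q D J k ∧ k a ≠ a ∧ B a (k a) = B a a := by
  classical
  have z : ∀ v, B v v = 0 := fun v => by rw [h.form.diag, t2, zero_mul]
  have k0 : ∀ i ∈ J, ∃ T : Finset F, (∀ s ∈ T, s ≠ 0 ∧ s ∈ TS B Q (D i) (p i a)) ∧
      Fintype.card F ≤ 3 * T.card := fun i hi => by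
    obtain ⟨A, a1, a2, a3⟩ := ts_fin h (d.nd i) (h2 i) (d.mem i a) (ha i hi)
    refine ⟨A.erase 0, fun s hs => ⟨(Finset.mem_erase.mp hs).1, a1 s (Finset.mem_erase.mp hs).2⟩, ?_⟩
    have := Finset.pred_card_le_card_erase (s := A) (a := 0)
    rcases ok i with e | e
    · omega
    · have := a3 e.1; omega
  choose! T T1 T2 using k0
  obtain ⟨i, hi, j, hj, hij, s, s1, s2⟩ : ∃ i ∈ J, ∃ j ∈ J, i ≠ j ∧ ∃ s ∈ T i, s ∈ T j := by
    by_contra c
    push Not at c
    have e1 := Finset.card_biUnion (s := J) (t := T) fun i hi j hj hij =>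
      Finset.disjoint_left.mpr (c i hi j hj hij)
    have e2 := Finset.card_le_card (show J.biUnion T ⊆ Finset.univ.erase 0 from fun s hs => by
      obtain ⟨i, hi, e⟩ := Finset.mem_biUnion.mp hs
      simpa using (T1 i hi s e).1)
    have e3 := Finset.card_nsmul_le_sum J (fun i => 3 * (T i).card) _ T2
    rw [← Finset.mul_sum, ← e1, hJ, smul_eq_mul] at e3
    rw [Finset.card_erase_of_mem (by simp), Finset.card_univ] at e2
    have := Fintype.card_pos (α := F)
    omega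
  obtain ⟨k, bk, ek⟩ := blk_sum d h {i} (a := a) (by simpa using ha i hi) (fun _ => s)
    (by simpa using (T1 i hi s s1).2)
  obtain ⟨k', bk', ek'⟩ := blk_sum d h {j} (a := a) (by simpa using ha j hj) (fun _ => s)
    (by simpa using (T1 j hj s s2).2)
  simp only [z, sub_zero, Finset.sum_singleton] at ek ek'
  refine ⟨k' * k, (bk'.mul' bk).mono (by simp [Finset.insert_subset_iff, hi, hj]), fun e => ?_, ?_⟩
  · have : k a = a := ext_p d fun l => by
      by_cases c : l = i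
      · rw [← bk'.p_not d (i := l) (by simpa [c] using hij), ← LinearEquiv.mul_apply, e]
      · exact bk.p_not d (by simpa using c) a
    exact (T1 i hi s s1).1 (by rw [← ek, this, z])
  · rw [LinearEquiv.mul_apply, bk'.add d bk (by simpa using hij.symm), map_sub, map_add, ek, ek', z]
    linear_combination s * t2

theorem rk_even (hn : 5 ≤ finrank F V) {w : V ≃ₗ[F] V} (hw : w ∈ h.Om) (r5 : Rk w 5) : Rk w 4 := by
  have hQ : IsQuad B Q := h.form
  obtain ⟨Y, a, b⟩ := r5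
  have e := hQ.dick_eq_zero_of_mem_commutator h.sep
    ((mem_om_quad h hn ⟨w, h.om_le_isom hw⟩).mp hw)
  rw [dick, ZMod.natCast_eq_zero_iff_even] at e
  have := Submodule.finrank_mono (show movS w ≤ Y from fun y hy => by
    obtain ⟨x, rfl⟩ := mem_movS.mp hy; exact b x)
  obtain ⟨n, hn⟩ := e
  exact ⟨movS w, by simp only at hn; omega, fun v => mem_movS.mpr ⟨v, rfl⟩⟩

theorem nsf_plane (ht : 4 ≤ t) (h2 : ∀ i, finrank F (D i) = 2) {w : V ≃ₗ[F] V}
    (b : Blk B Q D Finset.univ w) (r6 : Rk w 6) : ∃ i, ∃ v ∈ D i, Q v ≠ 0 ∧ w v = v := by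
  have hQ : IsQuad B Q := h.form
  obtain ⟨i, v, hv, e, v0⟩ : ∃ i, ∃ v ∈ D i, w v = v ∧ v ≠ 0 := by
    by_contra c
    push Not at c
    have := rk_sum d r6 (π := 1) b.blk Finset.univ (fun _ _ _ => rfl) D (fun _ => le_rfl)
      fun i _ => c i
    simp [h2] at this; omega
  by_cases q : Q v = 0
  swap
  · exact ⟨i, v, hv, q, e⟩
  obtain ⟨f, hf, qf, ef⟩ := h.exists_partner_in' (d.nd i) hv q v0
  obtain ⟨α, β, e1⟩ := span_pair_eq (h2 i) hv hf v0 (fun m => by
    obtain ⟨s, rfl⟩ := Submodule.mem_span_singleton.mp m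
    simp [h.diag0 q] at ef) (b.blk i f hf)
  have e2 := b.isom.1 v f
  have e3 := b.isom.2 f
  rw [e, ← e1] at e2
  obtain rfl : β = 1 := by simpa [h.diag0 q, ef] using e2
  rw [← e1] at e3
  obtain rfl : α = 0 := by simpa [hQ.add', hQ.smul', q, qf, ef] using e3
  exact ⟨i, v + f, (D i).add_mem hv hf, by simp [hQ.add', q, qf, ef], by simp [e, ← e1]⟩

/-- Maximality for planes. -/
theorem max_quad5 (ht : 5 ≤ t) (h2 : ∀ i, finrank F (D i) = 2)
    (ok : ∀ i, 6 ≤ Fintype.card F ∨ (∀ y ∈ D i, Q y = 0 → y = 0) ∧ Fintype.card F ≠ 3) :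
    IsMaximalIn h.Om (dstab D ⊓ h.Om) := by
  have hQ : IsQuad B Q := h.form
  have hn : 5 ≤ finrank F V := by
    have := finrank_eq_mul d ⟨0, by omega⟩
    rw [h2] at this; omega
  have h2' := fun i => (h2 i).ge
  have np := fun i x hx (q : Q x ≠ 0) => plane_np h (d.nd i) (h2 i) (ok i) hx (ne_zero_of_Q h q)
  have cc : ∀ c ≠ 0, ∀ i, Conn B (D i) (Cls Q c) := fun c c0 i => conn2 h (d.nd i) (h2 i) (np i) c0
  have G := gen_plane h d h2 ok
  have R : RT h D := fun N NI hK a => by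
    by_cases t2 : (2 : F) = 0
    · exact G.main' d hK NI (zs_plane h d h2 ok t2) (by omega) (by omega)
    · exact G.main d hK NI (sumP_two h d h2 t2) (by omega)
  refine max_of d h hn (by omega) fun M hH hM g hg hg' => by_contra fun hc => hg' ?_
  have MI := hM.trans h.om_le_isom
  have star : ∀ x ∈ M, ∀ i, ∀ v ∈ D i, Q v ≠ 0 → x v = v → x ∈ dstab D := fun x hx i v hv q e =>
    by_contra fun hx' => hc (by
      by_cases t2 : (2 : F) = 0
      · exact hH.stepB d hn hM R cc h2' (Or.inl t2) hv q hx hx' e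
      refine hH.star d hn hM R cc h2' (ez_plane d t2 ht h2 cc) (sumP_two h d h2 t2) (by omega)
        (fun i x hx x0 s => ?_) hv q hx hx' e
      obtain ⟨r, m, a, b, -⟩ := ts_avoid h (d.nd i) (h2 i) (ok i) t2 hx x0 (B x x) (B x x - s) 0
      exact forced d h hx x0 m a fun e => b (by simp at e; linear_combination -e))
  choose u hu qu using fun i => hQ.exists_eq_on (d.nd i) (h2' i) 1
  have q0 : ∀ i, Q (u i) ≠ 0 := fun i => by simp [qu]
  refine stepB d h MI (κ₀ := 1) star (fun m hm J c e => ?_) (fun y => ns_plane h d h2) (by omega) ht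
    (Or.inr fun w hw _ _ => rk_even h d hn (hM hw)) (fun w b _ => nsf_plane h d (by omega) h2 b)
    (fun i => r h (u i)) (fun i => blk_of_loc d h le_rfl (rf_mem_loc h (hu i) _))
    (fun i => r_r h _) (fun i => rk_rf h _ _) (fun i => ?_) (fun i j => hH _
      (r_mul_mem h hn (q0 i) (q0 j) (by simp [qu]))
      (mul_mem (rf_dstab h d (hu i) _) (rf_dstab h d (hu j) _))) hg
  · obtain ⟨j, hj⟩ := Finset.card_pos.mp c
    obtain ⟨b, hb, qb, e1, e2⟩ := np j _ (hu j) (q0 j)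
    have mI := MI hm
    have s1 := mul_mem (rf_mem_loc h (hu j) (Q (u j))⁻¹) (rf_mem_loc h hb (Q b)⁻¹)
    have s2 := loc_dstab h d le_rfl s1
    have := e _ (hH _ (r_mul_mem h hn (q0 j) (qb ▸ q0 j) (by simp [qu, qb])) s2) s2
      fun i hi x hx => loc_fix d le_rfl s1 (by rintro rfl; exact hi hj) hx
    rw [show ∀ x y : V ≃ₗ[F] V, m * (x * y) * m⁻¹ = m * x * m⁻¹ * (m * y * m⁻¹) from
      fun x y => by group, conj_r h mI, conj_r h mI] at this
    obtain ⟨l, hl, -⟩ := blk_of_rot d h2' (by rw [mI.2]; exact q0 j) (by rw [mI.2, qb]; exact q0 j)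
      (by rwa [mI.1]) (by simpa using notMem_span_map m e2) this
    have u0 := ne_zero_of_Q h (q0 j)
    obtain ⟨k, k1, k2, k3⟩ := exists_to d h (hu j) hl (mI.2 _).symm u0 (by simpa using u0)
    have : Nontrivial (Fin t) := Fin.nontrivial_iff_two_le.mpr (by omega)
    obtain ⟨o, ho⟩ := exists_ne l
    obtain ⟨s, hs, es⟩ := adj_quad h hn (d.nd o) (h2' o) k k1
    have k4 := mul_mem k2 (loc_dstab h d le_rfl hs)
    have := mul_mem (inv_mem k4) (star _ (mul_mem (hH _ es k4) hm) j _ (hu j) (q0 j) (by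
      rw [LinearEquiv.mul_apply, LinearEquiv.mul_apply, loc_fix d le_rfl hs ho.symm hl, k3]))
    rwa [inv_mul_cancel_left] at this
  · obtain ⟨x, hx, e⟩ := d.exists_ne (hu i) (ne_zero_of_Q h (q0 i))
    exact ⟨x, hx, by simp [r_apply, e, q0, ne_zero_of_Q h (q0 i)]⟩

/-- Maximality for members of dimension at least three. -/
theorem max_quad3' (hn : 9 ≤ finrank F V) (ht : 2 ≤ t) (h3 : ∀ i, 3 ≤ finrank F (D i))
    (e3 : ∀ i, finrank F (D i) = 3 → (2 : F) ≠ 0 ∧ ∃ u : F, u ≠ 0 ∧ u * u ≠ 1)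
    (e4 : ∀ i, finrank F (D i) = 4 → (∃ a : F, a ≠ 0 ∧ a ≠ 1) ∨ ¬ Plus Q (D i)) :
    IsMaximalIn h.Om (dstab D ⊓ h.Om) := by
  have hQ : IsQuad B Q := h.form
  have h2 : ∀ i, 2 ≤ finrank F (D i) := fun i => by have := h3 i; omega
  have cc : ∀ c ≠ 0, ∀ i, Conn B (D i) (Cls Q c) := fun c c0 i =>
    conn3 h (d.nd i) (h3 i) (e3 i) (e4 i) c0
  refine max_of d h (by omega) ht fun M hH hM g hg hg' => ?_
  by_cases h4 : ∀ i, 4 ≤ finrank F (D i)
  · exact hH.step3 d (by omega) hM (fun N NI hK a ha out => Ov.direct d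
      (fun g x => hK g (h.om_le_isom x)) NI h4 (fun i => adj_quad h (by omega) (d.nd i) (h2 i)) ha.1
      (adm_r h a) (inv_ne_zero ha.1) (ha.2 _) out) cc h2 h3 (Or.inr (Or.inl h4)) ht hg hg'
  push Not at h4
  obtain ⟨i, hi⟩ := h4
  obtain ⟨t2, u, u0, u1⟩ := e3 i (by have := h3 i; omega)
  have T : ∀ i, ∀ x ∈ D i, x ≠ 0 → ∀ s, s ∈ TS B Q (D i) x := fun i x hx x0 =>
    ts_three h t2 (d.nd i) (h3 i) hx x0
  have t5 : 3 ≤ t := by
    have := finrank_le_mul d i
    by_contra hc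
    have : t * finrank F (D i) ≤ 2 * 3 := Nat.mul_le_mul (by omega) (by omega)
    omega
  have G : Gen h D := gen_quad h d h2 (fun i x hx x0 => by
      obtain ⟨s, a⟩ := exists_ne_three t2 u0 u1 0 (B x x) (-B x x)
      exact ⟨s, T i x hx x0 s, a⟩)
    (fun i x hx q y hy => by
      by_contra hc
      push Not at hc
      obtain ⟨z, hz, e⟩ := hy
      have := h.irr (d.nd i) (Or.inl (h3 i)) (S := Submodule.span F {b | b ∈ D i ∧ Q b = Q x})
        (fun u hu w hw c a1 a2 a3 s hs => Submodule.span_induction (fun b hb =>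
          Submodule.subset_span ⟨h.eich_apply_mem c hu hw hb.1, by
            rw [(h.eich_mem_isom a1 a2 a3).2, hb.2]⟩) (by simp)
          (fun _ _ _ _ a b => by rw [map_add]; exact add_mem a b)
          (fun _ _ _ a => by rw [map_smul]; exact Submodule.smul_mem _ _ a) hs)
        (Submodule.subset_span ⟨hx, rfl⟩) ((d.exists_ne hx (ne_zero_of_Q h q)).imp
          fun _ a => ⟨a.1, h.refl_ne a.2⟩) hz
      exact e (h.refl ((Submodule.span_le (p := LinearMap.ker (B y))).mpr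
        (fun b hb => h.refl (hc b hb.1 hb.2)) this)))
    (fun i x hx q => top_le_iff.mp fun s _ =>
      AddSubgroup.subset_closure (T i x hx (ne_zero_of_Q h q) s))
    (Or.inl ⟨u, u0, by rintro rfl; simp at u1⟩) fun i x hx q z hz => p7_odd h t2 (d.nd i) hx q hz
  refine hH.step3' d (by omega) hM cc h2 h3 (fun x hx hx' j v hv q e => hH.star d (by omega) hM
    (fun N NI hK a => G.main d hK NI (sumP_one d h T) (by omega)) cc h2 (ez_three d t2 h3)
    (sumP_one d h T) (by omega) (fun i x hx x0 s => ?_) hv q hx hx' e) ht hg hg'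
  obtain ⟨r, a, b, -⟩ := exists_ne_three t2 u0 u1 (B x x) (B x x - s) 0
  exact forced d h hx x0 (T i x hx x0 r) a fun e => b (by simp at e; linear_combination -e)

/-- Maximality for members of dimension at least two. -/
theorem max_quad9 (hn : 9 ≤ finrank F V) (ht : 2 ≤ t) {k : ℕ} (hk : 2 ≤ k)
    (e : ∀ i, finrank F (D i) = k) (hko : k = 3 → Odd (Fintype.card F))
    (hex : ¬ ((k = 2 ∧ (Fintype.card F = 3 ∨ ((∀ i, Plus Q (D i)) ∧ (Fintype.card F = 2 ∨
      Fintype.card F = 4 ∨ Fintype.card F = 5)))) ∨ (k = 3 ∧ Fintype.card F = 3) ∨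
      (k = 4 ∧ Fintype.card F = 2 ∧ ∀ i, Plus Q (D i)))) : IsMaximalIn h.Om (dstab D ⊓ h.Om) := by
  have hc := Fintype.one_lt_card (α := F)
  by_cases h2 : k = 2
  · subst h2
    have := finrank_eq_mul d ⟨0, by omega⟩
    rw [e] at this
    refine max_quad5 h d (by omega) e fun i => or_iff_not_imp_left.mpr fun c =>
      ⟨fun y hy q => by_contra fun y0 => hex (Or.inl ⟨rfl, or_iff_not_imp_left.mpr fun c' =>
        ⟨plus_of_plus h d (i := i) ⟨Submodule.span F {y}, by simpa using hy, fun x hx => ?_, by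
          rw [finrank_span_singleton y0, e]⟩, by omega⟩⟩), fun c => hex (Or.inl ⟨rfl, Or.inl c⟩)⟩
    obtain ⟨s, rfl⟩ := Submodule.mem_span_singleton.mp hx
    exact h.sing_smul q s
  refine max_quad3' h d hn ht (fun i => by rw [e]; omega) (fun i hi => ?_) fun i hi => ?_
  · rw [e] at hi
    obtain ⟨r, hr⟩ := hko hi
    exact ⟨two_ne_zero_of_odd_card (hko hi), exists_sq_ne (by omega)⟩
  · rw [e] at hi
    by_cases c : Fintype.card F = 2
    · exact Or.inr fun a => hex (Or.inr (Or.inr ⟨hi, c, plus_of_plus h d a⟩))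
    · exact Or.inl (exists_ne01 c)

end Cfsg.Agent.H11.Im
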