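import Mathlib
import Cfsg.Agent.H11.AutO3
import Cfsg.Agent.H10.SpTv

/-!
# Long root elements of orthogonal and symplectic groups
-/

set_option autoImplicit false

namespace Cfsg.Agent.H11

open Module

variable {F : Type*} [Field F] [Finite F] {p : ℕ} [Fact p.Prime] [CharP F p]

section orth

variable {V : Type*} [AddCommGroup V] [Module F V] [FiniteDimensional F V]
  {B : V →ₗ[F] V →ₗ[F] F} {Q : V → F}

theorem IsQuad.pcen_of_resSub (h : IsQuad B Q) (hB : B.SeparatingLeft) (hn : 5 ≤ finrank F V)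
    {U : Submodule F V} (hU : IsLine B Q U) {a : commutator (Isom B Q)}
    (ha : a ∈ resSub (commutator (Isom B Q)) U) : H10.PCen p a := by
  have := Module.finite_of_finite F (M := V)
  have : Finite (V ≃ₗ[F] V) := Finite.of_injective _ (DFunLike.coe_injective (F := V ≃ₗ[F] V))
  obtain ⟨P⟩ : Nonempty (Sylow p (commutator (Isom B Q))) := inferInstance
  obtain ⟨U₀, a1, a2, a3⟩ := h.zc_sylow hB hn P
  obtain ⟨g, hg, rfl⟩ := h.exists_commutator_map_eq_totSing hB (h.nonExc_of_finrank hB (by omega))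
    a2 hU.ts (a1.trans hU.rank.symm) (by omega)
  obtain ⟨b, hb, rfl⟩ := (map_conj_resSub U₀ ⟨g, hg⟩).ge ha
  rw [← a3] at hb
  exact H10.PCen.conj ⟨P, hb.1, fun y hy => (hb.2 y hy).symm⟩ _

omit [Finite F] [FiniteDimensional F V] in
theorem HypSys.comp {ι ι' : Type*} [DecidableEq ι] [DecidableEq ι'] {e f : ι → V}
    (hs : HypSys B Q e f) {φ : ι' → ι} (hφ : Function.Injective φ) : HypSys B Q (e ∘ φ) (f ∘ φ) :=
  ⟨fun _ => hs.Qe _, fun _ => hs.Qf _, fun _ _ => hs.ee _ _, fun _ _ => hs.ff _ _,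
    fun _ _ => by simp [hs.ef, hφ.eq_iff]⟩

theorem IsQuad.exists_pcen_triple (h : IsQuad B Q) (hB : B.SeparatingLeft) (hn : 5 ≤ finrank F V)
    {e f : Fin 3 → V} (hs : HypSys B Q e f) :
    ∃ a b c : commutator (Isom B Q) ⧸ Subgroup.center (commutator (Isom B Q)),
      H10.PCen p a ∧ H10.PCen p b ∧ H10.PCen p c ∧ a ≠ 1 ∧ Commute a b ∧ Commute a c ∧
        c * b * c⁻¹ = b * a := by
  have := Module.finite_of_finite F (M := V)
  have : Finite (V ≃ₗ[F] V) := Finite.of_injective _ (DFunLike.coe_injective (F := V ≃ₗ[F] V))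
  have k : ∀ {u w w' : V} (hu : Q u = 0) (huw : B u w = 0), Q w = 0 → u ≠ 0 → B u w' = 0 →
      B w w' ≠ 0 → H10.PCen p (QuotientGroup.mk' (Subgroup.center _) (h.eichO hB hn hu huw)) :=
    fun hu huw hw h0 h1 h2 => (h.pcen_of_resSub hB hn (h.isLine_span hu hw huw h0 fun hm => by
      obtain ⟨c, rfl⟩ := Submodule.mem_span_singleton.mp hm
      simp [h1] at h2) (h.eichO_mem_resSub hB hn hu huw (Submodule.subset_span (by simp))
        (Submodule.subset_span (by simp)))).map_surjective _ (QuotientGroup.mk'_surjective _)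
  have h0 : ∀ i, e i ≠ 0 := fun i h0 => by simpa [h0] using hs.ef i i
  have h1 : B (e 1) (f 2) = 0 := by simp [hs.ef]
  refine ⟨_, _, _, k (hs.Qe 0) (hs.ee 0 1) (hs.Qe 1) (h0 0) (w' := f 1) (by simp [hs.ef])
    (by simp [hs.ef]), k (hs.Qe 0) (hs.ee 0 2) (hs.Qe 2) (h0 0) (w' := f 2) (by simp [hs.ef])
    (by simp [hs.ef]), k (hs.Qe 1) h1 (hs.Qf 2) (h0 1) (w' := e 2) (hs.ee 1 2)
    (by simp [hs.fe h]), fun H => ?_, Commute.map (Subtype.ext ?_) _,
    Commute.map (Subtype.ext ?_) _, ?_⟩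
  · have := congrArg (fun g : commutator (Isom B Q) => g.1.1 (f 1)) (eq_of_mk_eq_of_pow
      (h.not_dvd_center (p := p) hB hn) (b := 1) ⟨2, Subtype.ext (unipRad_pow
        (h.eich_mem_unipRad (hs.Qe 0) (hs.ee 0 1)))⟩ ⟨0, by simp⟩ H)
    simp [h.eich_apply, hs.ef, h0] at this
  · exact h.eichAt_comm (hs.Qe 0) ⟨_, hs.ee 0 1, rfl⟩ ⟨_, hs.ee 0 2, rfl⟩
  · exact (h.eich_comm_of_fix (hs.Qe 0) (hs.ee 0 1) (by simp [h.eich_apply, hs.ee, hs.fe h])
      (by simp [h.eich_apply, hs.ee, hs.fe h])).symm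
  · rw [← map_inv, ← map_mul, ← map_mul, ← map_mul]
    refine congrArg _ (Subtype.ext ?_)
    simp only [Subgroup.coe_mul, Subgroup.coe_inv, h.conj_eich, h.eich_mul]
    exact h.eich_congr _ _ _ _ (by simp [h.eich_apply, hs.ee, hs.fe h])
      (by simp [h.eich_apply, hs.ee, hs.fe h])

end orth

theorem not_pcen_triple_psp {l : Type*} [Fintype l] [DecidableEq l] [Nonempty l] (h2 : (2 : F) ≠ 0)
    {a b c : Matrix.symplecticGroup l F ⧸ Subgroup.center (Matrix.symplecticGroup l F)}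
    (ha : H10.PCen p a) (hb : H10.PCen p b) (hc : H10.PCen p c) (h1 : Commute a b)
    (h3 : Commute a c) (h4 : c * b * c⁻¹ = b * a) : a = 1 := by
  have k : ∀ {a}, H10.PCen p a → ∃ v α, a = H10.spQ l F (H10.stv v α) := fun ha => by
    obtain ⟨s, hs, rfl⟩ := H10.PCen.lift (H10.spQ l F) H10.spQ_surjective
      (H10.not_dvd_card_ker_spQ p) ha
    obtain ⟨u, v, c, h, -, rfl, e⟩ := hs.exists_eq_spq
    obtain ⟨a, rfl⟩ := e h2
    exact ⟨v, _, by rw [H10.spq_smul]⟩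
  have kp : ∀ (v : l ⊕ l → F) α, H10.stv v α ^ p ^ 1 = 1 := fun v α => by
    have : ∀ k : ℕ, H10.stv v α ^ k = H10.stv v (k * α) := fun k => by
      induction k with
      | zero => simp [H10.stv_zero]
      | succ k ih => rw [pow_succ, ih, ← H10.stv_add]; simp [add_mul]
    simp [this, H10.stv_zero]
  obtain ⟨v, α, rfl⟩ := k ha
  obtain ⟨v', β, rfl⟩ := k hb
  obtain ⟨w, γ, rfl⟩ := k hc
  by_contra h0
  have h5 : ¬ Commute (H10.spQ l F (H10.stv v' β)) (H10.spQ l F (H10.stv w γ)) := fun H => h0 (by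
    rwa [← H.eq, mul_inv_cancel_right, left_eq_mul] at h4)
  have hγ : γ ≠ 0 := by rintro rfl; simp [H10.stv_zero] at h5
  have hβ : β ≠ 0 := by rintro rfl; simp [H10.stv_zero] at h5
  have hv' : v' ≠ 0 := by rintro rfl; simp [H10.stv_zero_left] at h5
  rw [H10.spQ_stv_eq_one_iff, not_or] at h0
  have hZ : ¬ p ∣ Nat.card (Subgroup.center (Matrix.symplecticGroup l F)) := by
    simpa using H10.not_dvd_card_ker_spQ (l := l) (F := F) p
  rw [← map_inv, ← map_mul, ← map_mul, ← map_mul, H10.stv_conj] at h4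
  have h6 := eq_of_mk_eq_of_pow hZ ⟨1, kp _ _⟩ ⟨1, by
    rw [(commute_of_mk hZ ⟨1, kp _ _⟩ h1.symm).mul_pow, kp, kp, one_mul]⟩ h4
  obtain ⟨t, rfl⟩ := H10.exists_smul_of_stv_mul hv' hβ h0.2 h6.symm
  rw [H10.commute_spQ_stv_iff h0.2 hγ] at h3
  rw [H10.commute_spQ_stv_iff hβ hγ] at h5
  simp [h5] at h3
  simp [h3] at h0

end Cfsg.Agent.H11
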