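import Mathlib
import Cfsg.Agent.H11.Im19
import Cfsg.Agent.H11.Im17
import Cfsg.Agent.H11.Fx3
import Cfsg.Agent.H10.Ag8
import Cfsg.Agent.H10.Ag2
import Cfsg.Agent.H10.Ag3

/-!
Maximal subgroups of even-dimensional orthogonal groups in small dimension.
-/

set_option autoImplicit false
set_option linter.unusedSectionVars false

namespace Cfsg.Agent.H11.Ox

open Module H10 H11 Cfsg.Geo

variable {F : Type*} [Field F] [Fintype F] {n : ℕ} {Q : (Fin n → F) → F}
  (hQ : IsNondegenerateQuadraticForm Q)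
include hQ

theorem ts_plus (hn : 5 ≤ n) {W : Submodule F (Fin n → F)} (hW0 : W ≠ ⊥)
    (hW : IsTotallySingularQuad Q W) (hdim : 2 * (finrank F W + 1) ≠ n) :
    IsMaximalIn (omegaGL Q) (subspaceStabilizer W ⊓ omegaGL Q) := by
  have h := clO hQ
  refine isMaximalIn_gl (mem_omegaGL_iff h (by simpa)) (fun g _ => mem_subspaceStabilizer_iff W g) ?_
  exact h.max_totSing (by simp; omega) ((IsQuad.totSing_iff h.form).mpr hW) hW0
    (Or.inr fun hc => hdim (by simpa using hc.1))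

theorem ts_minus (hn : 5 ≤ n) (hminus : ¬ IsPlusTypeOn Q ⊤) (W : Submodule F (Fin n → F))
    (hW0 : W ≠ ⊥) (hW : IsTotallySingularQuad Q W) :
    IsMaximalIn (omegaGL Q) (subspaceStabilizer W ⊓ omegaGL Q) := by
  have h := clO hQ
  refine isMaximalIn_gl (mem_omegaGL_iff h (by simpa)) (fun g _ => mem_subspaceStabilizer_iff W g) ?_
  exact h.max_totSing (by simp; omega) ((IsQuad.totSing_iff h.form).mpr hW) hW0
    (Or.inr fun ⟨h1, U, h2, h3⟩ => hminus ⟨U, le_top, h2.1, by rw [h3, h1, finrank_top]⟩)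

theorem nd (hn : 9 ≤ n ∨ 7 ≤ n ∧ 2 < Fintype.card F) {W : Submodule F (Fin n → F)}
    (hW : IsNondegenerateOn (QuadraticMap.polar Q) W) (h0 : finrank F W ≠ 0) (h1 : finrank F W ≠ n)
    (h2 : finrank F W + 2 ≠ n) (hni : 2 * finrank F W = n → Even (finrank F W) ∧ ¬ IsPlusTypeOn Q ⊤)
    (hex : finrank F W = 2 → Fintype.card F ≤ 3 → ¬ IsPlusTypeOn Q W) :
    IsMaximalIn (omegaGL Q) (subspaceStabilizer W ⊓ omegaGL Q) := by
  have h := clO hQ
  refine isMaximalIn_gl (mem_omegaGL_iff h (by simp; omega))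
    (fun g _ => mem_subspaceStabilizer_iff W g) ?_
  have hW' : NondegOn (bilinOf hQ.polar_bilinear) W := nondegOn_of (Or.inl fun _ _ => rfl) hW
  have hd := h.form.finrank_perp h.sep W
  rw [finrank_fin_fun] at hd
  refine max_nondeg_quad7 h (by simpa using hn) hW' (by rintro rfl; simp at h0)
    (by rintro rfl; simp at h1) (fun e g hg hle => ?_) ?_
  · rw [finrank_fin_fun] at e
    obtain ⟨U, h1, h2⟩ := plus_of_isometric h hW' (hni e).1 hg hle
    exact (hni e).2 ⟨U, le_top, h1, by simp [h2, e]⟩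
  rintro U (rfl | rfl) h3 h4 x hx hx'
  · by_contra hx0
    exact hex h3 (by simpa using h4) (isPlusTypeOn_plane (fun c x hx => h.sing_smul hx c) h3 hx hx0 hx')
  · omega

theorem nd_odd (hn : 9 ≤ n ∨ 7 ≤ n ∧ 2 < Fintype.card F) (he : Even n) {W : Submodule F (Fin n → F)}
    (ho : Odd (finrank F W)) (h2 : 2 * finrank F W ≠ n)
    (hW : IsNondegenerateOn (QuadraticMap.polar Q) W) :
    IsMaximalIn (omegaGL Q) (subspaceStabilizer W ⊓ omegaGL Q) := by
  obtain ⟨a, ha⟩ := he
  obtain ⟨b, hb⟩ := ho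
  exact nd hQ hn hW (by omega) (by omega) (by omega) (fun e => absurd e h2) fun e => by omega

theorem line (hn : 7 ≤ n) (v : Fin n → F) (hv : Q v ≠ 0) :
    IsMaximalIn (omegaGL Q) (subspaceStabilizer (Submodule.span F {v}) ⊓ omegaGL Q) := by
  have h := clO hQ
  refine isMaximalIn_gl (mem_omegaGL_iff h (by simp; omega))
    (fun g _ => mem_subspaceStabilizer_iff _ g) ?_
  exact h.max_line (by simpa) not_nq_id hv

theorem frame (hn : 10 ≤ n) (hp : (Fintype.card F).Prime) (ho : Odd (Fintype.card F))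
    (D : Fin n → Submodule F (Fin n → F)) (hD : IsOrthogonalMDecomposition Q 1 D) :
    IsMaximalIn (omegaGL Q) (decompositionStabilizer D ⊓ omegaGL Q) := by
  have h := clO hQ
  obtain ⟨p, d⟩ := Im.dec_of_orth h hD
  exact Im.max_gl_quad h (by simp; omega) (Im.max_frame7 d
    (fun i => (hD.decomp.decomp.finrank_eq i).le) (two_ne_zero_of_odd_card ho) hp (Or.inl hn))

theorem dec (hn : 9 ≤ n) {t k : ℕ} {D : Fin t → Submodule F (Fin n → F)}
    (hD : IsOrthogonalMDecomposition Q k D) (hk : 2 ≤ k) (hko : k = 3 → Odd (Fintype.card F))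
    (hex : ¬ ((k = 2 ∧ (Fintype.card F = 3 ∨ ((∀ i, IsPlusTypeOn Q (D i)) ∧ (Fintype.card F = 2 ∨
      Fintype.card F = 4 ∨ Fintype.card F = 5)))) ∨ (k = 3 ∧ Fintype.card F = 3) ∨
      (k = 4 ∧ Fintype.card F = 2 ∧ ∀ i, IsPlusTypeOn Q (D i)))) :
    IsMaximalIn (omegaGL Q) (decompositionStabilizer D ⊓ omegaGL Q) := by
  have h := clO hQ
  obtain ⟨p, d⟩ := Im.dec_of_orth h hD
  exact Im.max_gl_quad h (by simp; omega) (Im.max_quad9 h d (by simpa using hn)
    hD.decomp.decomp.two_le hk hD.decomp.decomp.finrank_eq hko hex)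

theorem plus_of_all {t k : ℕ} {D : Fin t → Submodule F (Fin n → F)}
    (hD : IsOrthogonalMDecomposition Q k D) (hp : ∀ i, IsPlusTypeOn Q (D i)) : IsPlusTypeOn Q ⊤ := by
  have h := clO hQ
  obtain ⟨p, d⟩ := Im.dec_of_orth h hD
  choose W h1 h2 h3 using hp
  let U : Submodule F (Fin n → F) := ⨅ i, (W i).comap (p i)
  have mU : ∀ v, v ∈ U ↔ ∀ i, p i v ∈ W i := fun v => by simp [U]
  have q : ∀ v ∈ U, Q v = 0 := fun v hv => by
    rw [Im.Q_sum h d]; exact Finset.sum_eq_zero fun i _ => h2 i _ ((mU v).mp hv i)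
  refine ⟨U, le_top, q, le_antisymm ?_ ?_⟩
  · have := Im.finrank_add_le h (Cl.nondegOn_top h.sep) (Z := U) (W := U) le_top le_top
      ((IsQuad.totSing_iff h.form).mpr q).2
    omega
  have := LinearMap.finrank_le_finrank_of_surjective
    (f := LinearMap.pi fun j => ((p j).domRestrict U).codRestrict (W j) fun x => (mU _).mp x.2 j)
    fun x => by
      have e : ∀ j, p j (∑ l, (x l).1) = x j := fun j => by
        rw [map_sum, Finset.sum_eq_single j (fun l _ hl => d.zero j l hl.symm _ (h1 l (x l).2))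
          (by simp), d.self j _ (h1 j (x j).2)]
      exact ⟨⟨∑ j, (x j).1, (mU _).mpr fun j => e j ▸ (x j).2⟩, funext fun j => Subtype.ext (e j)⟩
  have ht := hD.decomp.decomp.two_le
  have e := Im.finrank_eq_mul d ⟨0, by omega⟩
  rw [finrank_pi_fintype] at this
  rw [finrank_top, e]
  refine le_trans ?_ (Nat.mul_le_mul_left 2 this)
  rw [Finset.mul_sum, Finset.sum_congr rfl fun j _ => (h3 j).trans (d.finrank_eq j ⟨0, by omega⟩)]
  simp

theorem halves (hn : 9 ≤ n) {k : ℕ} (hk : 2 * k = n) (D : Fin 2 → Submodule F (Fin n → F))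
    (hD : IsNondegenerateMDecomposition (QuadraticMap.polar Q) k D)
    (hni : ¬ AreIsometricFor Q (D 0) (D 1)) :
    IsMaximalIn (omegaGL Q) (decompositionStabilizer D ⊓ omegaGL Q) := by
  have h := clO hQ
  have hW : NondegOn (bilinOf hQ.polar_bilinear) (D 0) :=
    nondegOn_of (Or.inl fun _ _ => rfl) (hD.nondegenerate 0)
  have d0 := hD.decomp.finrank_eq 0
  have d1 := hD.decomp.finrank_eq 1
  have hd := h.form.finrank_perp h.sep (D 0)
  simp only [Module.finrank_fintype_fun_eq_card, Fintype.card_fin] at hd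
  have hp : D 1 = perp (bilinOf hQ.polar_bilinear) (D 0) :=
    Submodule.eq_of_le_of_finrank_eq (fun y hy x hx => hD.orthogonal 0 1 (by decide) x hx y hy)
      (by omega)
  have key : ∀ g ∈ Isom (bilinOf hQ.polar_bilinear) Q,
      ¬ (D 0).map (g : (Fin n → F) →ₗ[F] (Fin n → F)) ≤ D 1 := fun g hg hle =>
    hni ⟨(g.submoduleMap (D 0)).trans (LinearEquiv.ofEq _ _ (map_eq_of_le' (by omega) hle)),
      fun w => hg.2 w⟩
  refine isMaximalIn_gl (mem_omegaGL_iff h (by simp; omega))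
    (S' := stabS F (D 0 : Set (Fin n → F))) (fun g hg => ?_) ?_
  · have hg' := h.om_le_isom ((mem_omegaGL_iff h (by simp; omega) g).mp hg)
    rw [mem_decompositionStabilizer_iff, mem_dstab_two]
    constructor
    · rintro (⟨a, -⟩ | ⟨a, -⟩)
      · exact mem_stabS_of_map_eq a
      · exact absurd a.le (key _ hg')
    · intro a
      refine Or.inl ⟨map_eq_of_le fun v hv => (a v).mp hv, map_eq_of_le fun v hv => ?_⟩
      rw [hp] at hv ⊢
      exact (h.stab_perp hg' a v).mp hv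
  · refine max_nondeg_quad7 h (Or.inl (by simpa)) hW (fun e => by rw [e, finrank_bot] at d0; omega)
      (fun e => by rw [e, finrank_top] at d0; simp at d0; omega) (fun _ => hp ▸ key) ?_
    rintro U (rfl | rfl) h2 <;> omega

theorem pair {k : ℕ} (hk : 5 ≤ k) (hn : 5 ≤ n) (hke : Even k) (D : Fin 2 → Submodule F (Fin n → F))
    (hD : IsMDecomposition k D) (hts : ∀ i, IsTotallySingularQuad Q (D i)) :
    IsMaximalIn (omegaGL Q) (decompositionStabilizer D ⊓ omegaGL Q) := by
  have h := clO hQ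
  refine isMaximalIn_gl (mem_omegaGL_iff h (by simpa))
    (fun g _ => mem_decompositionStabilizer_iff D g) ?_
  have p : SPair (bilinOf hQ.polar_bilinear) Q (D 0) (D 1) :=
    ⟨(IsQuad.totSing_iff h.form).mpr (hts 0), (IsQuad.totSing_iff h.form).mpr (hts 1),
      isCompl_of_two hD.indep hD.iSup_eq_top, by rw [hD.finrank_eq, hD.finrank_eq]⟩
  refine h.max_pair p (by rw [hD.finrank_eq]; omega) (fun e => ?_)
    (exists_swap_quad h p (by rw [hD.finrank_eq]; omega) (by rwa [hD.finrank_eq]))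
  simpa using DFunLike.congr_fun e 1

theorem fld {r : ℕ} (hr : r.Prime) (hn : 3 * r < n) (ho : Odd (Fintype.card F))
    (K : Subalgebra F (Matrix (Fin n) (Fin n) F)) (hK : IsFieldSubalgebra r K)
    (hsa : IsSelfAdjointFor (QuadraticMap.polar Q) K) :
    IsMaximalIn (omegaGL Q) (subalgebraNormalizer K ⊓ omegaGL Q) := by
  haveI : Nonempty (Fin n) := ⟨⟨0, by omega⟩⟩
  letI := (H26.isField_of_isFieldSubalgebra hK).toField
  have e := hK.finrank_eq
  have := Fx.o_fld_mat K.val (clO hQ) (e ▸ hr) (two_ne_zero_of_odd_card ho) (by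
    rwa [e, Fintype.card_fin])
  rw [Subalgebra.range_val] at this
  exact this hsa

theorem gu (hn : 9 ≤ n) (K : Subalgebra F (Matrix (Fin n) (Fin n) F)) (hK : IsFieldSubalgebra 2 K)
    (hac : IsAdjointClosedFor (QuadraticMap.polar Q) K)
    (hnsa : ¬ IsSelfAdjointFor (QuadraticMap.polar Q) K)
    (hsc : ∀ k ∈ K, ∃ c : F, ∀ v : Fin n → F, Q (Matrix.mulVec k v) = c * Q v) :
    IsMaximalIn (omegaGL Q) (subalgebraNormalizer K ⊓ omegaGL Q) := by
  haveI : Nonempty (Fin n) := ⟨⟨0, by omega⟩⟩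
  letI := (H26.isField_of_isFieldSubalgebra hK).toField
  have := Ag.su_o_mat5 K.val hn hQ hK.finrank_eq
  rw [Subalgebra.range_val] at this
  exact this hac hnsa hsc

theorem sub (hn : 7 ≤ n) (F₀ : Subfield F) {r : ℕ} (hr : r.Prime)
    (hcard : Fintype.card F = Nat.card F₀ ^ r) (P : GL (Fin n) F) {ζ : F} (hζ : ζ ≠ 0)
    (hP : IsQuadFormRationalStructure (fun v : Fin n → F => ζ * Q v) F₀ P) :
    IsMaximalIn (omegaGL Q) (subfieldSubgroup F₀ P ⊓ omegaGL Q) := by
  obtain ⟨θ, hθ, -⟩ := exists_frob F₀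
  have h := clO hQ
  exact isMaximalIn_subfield hθ P
    (fun g => (mem_omegaGL_iff h (by simp; omega) g).trans (h.mem_om_pull (glEquiv _ F P) _))
    (max_sub_quad7 hθ (by simpa) hr (by rw [← hcard, Nat.card_eq_fintype_card]) _
      hζ fun x => hP _ fun i => (x i).2)

end Cfsg.Agent.H11.Ox
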