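import Mathlib
import Cfsg.Agent.H11.Ox1

/-!
The stabiliser of a non-degenerate `4`-space in `Ω₈⁻(2)`.
-/

set_option autoImplicit false
set_option linter.unusedSectionVars false

namespace Cfsg.Agent.H11.Ox

open Module H10 H11 Cfsg.Geo

section core

variable {F : Type*} [Field F] {V : Type*} [AddCommGroup V] [Module F V]
  {B : V →ₗ[F] V →ₗ[F] F} {Q : V → F} [FiniteDimensional F V] [Finite F]
  (h : Cl (σ := RingHom.id F) 1 2 (AddMonoidHom.id F) B Q) {M : Subgroup (V ≃ₗ[F] V)}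

/-- `W` contains a totally singular plane. -/
def TP (B : V →ₗ[F] V →ₗ[F] F) (Q : V → F) (W : Submodule F V) : Prop :=
  ∃ a ∈ W, ∃ b ∈ W, Q a = 0 ∧ Q b = 0 ∧ B a b = 0 ∧ a ≠ 0 ∧ b ∉ Submodule.span F {a}

include h

theorem core44 (hMI : M ≤ Isom B Q) {U W : Submodule F V} (hU : NondegOn B U) (hW : NondegOn B W)
    (ho : ∀ y ∈ U, ∀ x ∈ W, B x y = 0) (hsup : W ⊔ U = ⊤)
    (aU : ∀ e ∈ U, Q e = 0 → ∀ y ∈ U, B e y = 0 → y ∈ h.Arm M e)
    (aW : ∀ e ∈ W, Q e = 0 → ∀ y ∈ W, B e y = 0 → y ∈ h.Arm M e)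
    (A1 : ∀ e ∈ U, e ≠ 0 → Q e = 0 → h.Arm M e ≤ U) (A2 : ∀ e ∈ W, e ≠ 0 → Q e = 0 → h.Arm M e ≤ W)
    {e e' y' : V} (heU : e ∈ U) (e0 : e ≠ 0) (qe : Q e = 0) (qx : Q e' = 0) (qy : Q y' = 0)
    (xe : B e' e = 0) (y2 : B y' e = 0) (y1 : y' ∈ h.Arm M e') (y3 : y' ∉ Submodule.span F {e'})
    (x1 : e' ∉ W) (x2 : e' ∉ U) : False := by
  have hQ : IsQuad B Q := h.form
  have xy : B e' y' = 0 := h.ar_perp (h.ar_of_arm y1)
  have fin : ∀ a b : F, y' + a • e' = b • e → False := fun a b k => by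
    have b0 : b ≠ 0 := by
      rintro rfl
      exact y3 (Submodule.mem_span_singleton.mpr ⟨-a, by
        rw [neg_smul, eq_comm, eq_neg_iff_add_eq_zero, k, zero_smul]⟩)
    have := add_mem y1 (Submodule.smul_mem _ a (h.self_mem_arm (M := M) qx))
    rw [k, Submodule.smul_mem_iff _ b0] at this
    exact x2 (A1 e heU e0 qe (arm_swap h qe qx this))
  have st := fun y hy ey => fun s => A1 e heU e0 qe
    (arm_step h hMI qx xe (aU e heU qe y hy ey) y1 y2 s)
  by_cases k : ∃ y ∈ U, B e y = 0 ∧ B e' y ≠ 0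
  · obtain ⟨y, hy, ey, k⟩ := k
    obtain ⟨a, ha⟩ : ∃ a : F, y' + a • e' ∈ U := ⟨-(B y' y - Q y' * B e' y) / B e' y, by
      have := Submodule.smul_mem _ (-(B e' y)⁻¹) (st y hy ey 1)
      convert this using 1
      match_scalars <;> field_simp⟩
    have y1' := add_mem y1 (Submodule.smul_mem _ a (h.self_mem_arm (M := M) qx))
    have q0 : Q (y' + a • e') = 0 := by
      rw [hQ.add', hQ.smul', qx, qy, map_smul, h.refl xy]; simp
    have st' : ∀ y ∈ U, B e y = 0 → B (y' + a • e') y = 0 := fun y hy ey => by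
      by_contra k
      have := add_mem (A1 e heU e0 qe (arm_step h hMI qx xe (aU e heU qe y hy ey) y1'
        (by simp [y2, xe]) 1)) (Submodule.smul_mem _ (1 * B e' y) ha)
      rw [sub_add_cancel, q0, Submodule.smul_mem_iff _ (by simpa using k)] at this
      exact x2 this
    obtain ⟨b, hb⟩ := Submodule.mem_span_singleton.mp (h.mem_span_of_perp hU heU ha st')
    exact fin a b hb.symm
  push Not at k
  obtain ⟨f, hf, u, hu, rfl⟩ := Submodule.mem_sup.mp (hsup ▸ Submodule.mem_top (x := e'))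
  obtain ⟨v, hv, w, hw, rfl⟩ := Submodule.mem_sup.mp (hsup ▸ Submodule.mem_top (x := y'))
  obtain ⟨a, rfl⟩ := Submodule.mem_span_singleton.mp (h.mem_span_of_perp hU heU hu fun y hy ey => by
    simpa [ho y hy f hf] using k y hy ey)
  obtain ⟨b, rfl⟩ := Submodule.mem_span_singleton.mp (h.mem_span_of_perp hU heU hw fun y hy ey => by
    by_contra k'
    have := st y hy ey 1
    rw [k y hy ey] at this
    simp only [mul_zero, sub_zero, zero_smul, one_mul, map_add, LinearMap.add_apply,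
      ho y hy v hv, zero_add] at this
    exact x2 ((Submodule.smul_mem_iff _ k').mp this))
  have f0 : f ≠ 0 := by rintro rfl; exact x2 (by simpa using hu)
  have qf : Q f = 0 := by simpa [hQ.add', hQ.smul', qe, ho e heU f hf] using qx
  have fv : B f v = 0 := by
    simpa [ho e heU f hf, h.diag0 qe, h.refl (ho e heU v hv)] using xy
  obtain ⟨c, rfl⟩ := Submodule.mem_span_singleton.mp (h.mem_span_of_perp hW hf hv fun y hy fy => by
    by_contra k'
    have := A2 f hf f0 qf (arm_step h hMI qx (by simp [h.diag0 qf, h.refl (ho e heU f hf)])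
      (aW f hf qf y hy fy) y1 (by simp [h.refl fv, h.refl (ho e heU f hf)]) 1)
    simp only [map_add, map_smul, LinearMap.add_apply, LinearMap.smul_apply, fy,
      h.refl (ho e heU y hy), smul_zero, add_zero, mul_zero, sub_zero, zero_smul, one_mul] at this
    exact x1 ((Submodule.smul_mem_iff _ k').mp this))
  exact fin (-c) (b - c * a) (by module)

theorem TP.through {U : Submodule F V} (t : TP B Q U) {x : V} (x0 : x ≠ 0) (qx : Q x = 0) :
    ∃ z ∈ U, Q z = 0 ∧ B x z = 0 ∧ z ∉ Submodule.span F {x} := by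
  have hQ : IsQuad B Q := h.form
  obtain ⟨a, ha, b, hb, qa, qb, ab, a0, ba⟩ := t
  by_cases k : B x a = 0 ∧ B x b = 0
  · by_cases ka : a ∈ Submodule.span F {x}
    · refine ⟨b, hb, qb, k.2, fun kb => ba ?_⟩
      obtain ⟨c, rfl⟩ := Submodule.mem_span_singleton.mp ka
      obtain ⟨d, rfl⟩ := Submodule.mem_span_singleton.mp kb
      have c0 : c ≠ 0 := by rintro rfl; simp at a0
      exact Submodule.mem_span_singleton.mpr ⟨d * c⁻¹, by rw [smul_smul, inv_mul_cancel_right₀ c0]⟩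
    · exact ⟨a, ha, qa, k.1, ka⟩
  refine ⟨B x b • a - B x a • b, sub_mem (U.smul_mem _ ha) (U.smul_mem _ hb), by
    simp [hQ.sub', hQ.smul', qa, qb, ab], by simp [mul_comm], fun kt => k ?_⟩
  obtain ⟨c, hc⟩ := Submodule.mem_span_singleton.mp kt
  by_cases c0 : c = 0
  · rw [c0, zero_smul, eq_comm, sub_eq_zero] at hc
    have k1 : B x a = 0 := by
      by_contra k1
      exact ba (Submodule.mem_span_singleton.mpr ⟨(B x a)⁻¹ * B x b, by
        rw [← smul_smul, hc, smul_smul, inv_mul_cancel₀ k1, one_smul]⟩)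
    rw [k1, zero_smul, smul_eq_zero] at hc
    exact ⟨k1, hc.resolve_right a0⟩
  · have e1 := congrArg (fun v => B v a) hc
    have e2 := congrArg (fun v => B v b) hc
    simp only [map_smul, map_sub, LinearMap.smul_apply, LinearMap.sub_apply, h.diag0 qa, h.diag0 qb,
      ab, h.refl ab, smul_eq_mul, mul_zero, sub_zero, mul_eq_zero, c0, false_or] at e1 e2
    exact ⟨e1, e2⟩

theorem TP.perp_sing {U : Submodule F V} (t : TP B Q U) (h4 : 4 ≤ finrank F U) {a a' : V}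
    (ha : a ∈ U) (qa : Q a = 0) : ∃ e ∈ U, e ≠ 0 ∧ Q e = 0 ∧ B a e = 0 ∧ B a' e = 0 := by
  have hQ : IsQuad B Q := h.form
  by_cases a0 : a = 0
  · have d1 := finrank_le_inf_ker U (B a')
    obtain ⟨e, ⟨h1, h2⟩, e0, qe⟩ := h.exists_sing3 (W := U ⊓ LinearMap.ker (B a')) (by omega)
    exact ⟨e, h1, e0, qe, by simp [a0], h2⟩
  by_cases k : B a' a = 0
  · exact ⟨a, ha, a0, qa, h.diag0 qa, k⟩
  obtain ⟨z, hz, qz, az, za⟩ := t.through h a0 qa
  refine ⟨z - (B a' z / B a' a) • a, sub_mem hz (U.smul_mem _ ha), fun e => za ?_, by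
    simp [hQ.sub', hQ.smul', qa, qz, h.refl az], by simp [az, h.diag0 qa], by simp [k]⟩
  rw [sub_eq_zero] at e
  exact Submodule.mem_span_singleton.mpr ⟨_, e.symm⟩

theorem pair_of_aniso (hq : ∀ a : F, a ≠ 0 → a = 1) {Z : Submodule F V} (h2 : 2 ≤ finrank F Z)
    (hZ : ∀ x ∈ Z, Q x = 0 → x = 0) :
    ∃ u ∈ Z, ∃ v ∈ Z, Q u = 1 ∧ Q v = 1 ∧ B u v = 1 ∧ (1 + 1 : F) = 0 := by
  have hQ : IsQuad B Q := h.form
  have t : (1 + 1 : F) = 0 := by
    by_contra k
    exact one_ne_zero (add_left_cancel ((hq _ k).trans (add_zero (1 : F)).symm))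
  obtain ⟨u, hu, u0⟩ := exists_mem_notMem (W := Z) (Z := ⊥) (by simp; omega)
  have := finrank_span_one_le (F := F) u
  obtain ⟨v, hv, v0⟩ := exists_mem_notMem (W := Z) (Z := Submodule.span F {u}) (by omega)
  have q1 : Q u = 1 := hq _ fun k => u0 (by simp [hZ u hu k])
  have q2 : Q v = 1 := hq _ fun k => v0 (by simp [hZ v hv k])
  have q3 : Q (u + v) = 1 := hq _ fun k => v0 (Submodule.mem_span_singleton.mpr ⟨-1, by
    rw [neg_smul, one_smul, neg_eq_iff_add_eq_zero]; exact hZ _ (add_mem hu hv) k⟩)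
  refine ⟨u, hu, v, hv, q1, q2, ?_, t⟩
  rwa [hQ.add', q1, q2, t, zero_add] at q3

theorem minus_perp_sing (hq : ∀ a : F, a ≠ 0 → a = 1) {W : Submodule F V} (t : ¬ TP B Q W)
    (h4 : 4 ≤ finrank F W) {u₁ u₂ : V} (h1 : u₁ ∈ W) (h2 : u₂ ∈ W) (q1 : Q u₁ ≠ 0) (q2 : Q u₂ ≠ 0)
    (q3 : Q (u₁ + u₂) ≠ 0) : ∃ e ∈ W, e ≠ 0 ∧ Q e = 0 ∧ B u₁ e = 0 ∧ B u₂ e = 0 := by
  have hQ : IsQuad B Q := h.form
  by_contra hc
  push Not at hc
  have d1 := finrank_le_inf_ker W (B u₁)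
  have d2 := finrank_le_inf_ker (W ⊓ LinearMap.ker (B u₁)) (B u₂)
  obtain ⟨u, ⟨⟨a1, a2⟩, a3⟩, v, ⟨⟨b1, b2⟩, b3⟩, qu, qv, uv, t2⟩ := pair_of_aniso h hq
    (Z := W ⊓ LinearMap.ker (B u₁) ⊓ LinearMap.ker (B u₂)) (by omega) fun x hx qx => by
      by_contra k; exact hc x hx.1.1 k qx hx.1.2 hx.2
  replace a2 : B u₁ u = 0 := a2
  replace a3 : B u₂ u = 0 := a3
  replace b2 : B u₁ v = 0 := b2
  replace b3 : B u₂ v = 0 := b3
  replace q1 := hq _ q1
  replace q2 := hq _ q2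
  replace q3 := hq _ q3
  rw [hQ.add', q1, q2, t2, zero_add] at q3
  have d : B u₁ u₁ = 0 := by rw [hQ.diag', q1, two_mul, t2]
  refine t ⟨u₁ + u, add_mem h1 a1, u₂ + v, add_mem h2 b1, by rw [hQ.add', q1, qu, a2, t2, add_zero],
    by rw [hQ.add', q2, qv, b3, t2, add_zero], by simp [q3, b2, h.refl a3, uv, t2], fun e => ?_,
    fun e => ?_⟩
  · have := congrArg (B u₂) e
    simp [a3, hQ.comm u₂ u₁, q3] at this
  · obtain ⟨c, hc⟩ := Submodule.mem_span_singleton.mp e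
    have := congrArg (B u₁) hc
    simp [a2, b2, d, q3] at this

theorem max_nondeg44 (hq : ∀ a : F, a ≠ 0 → a = 1) {W : Submodule F V} (hW : NondegOn B W)
    (h3 : 4 ≤ finrank F W) (h4 : 4 ≤ finrank F (perp B W)) (tU : TP B Q (perp B W))
    (tW : ¬ TP B Q W) : IsMaximalIn h.Om (stabS F (W : Set V) ⊓ h.Om) := by
  have hQ : IsQuad B Q := h.form
  have hU : NondegOn B (perp B W) := h.form.nondegOn_perp h.sep hW
  have hdim := h.form.finrank_perp h.sep W
  have pp := h.form.perp_perp h.sep W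
  refine isMaximalIn_inf (h.not_om_le_stabS (by omega) (by rintro rfl; simp at h3) fun e => by
    rw [e, finrank_top] at hdim; rw [← e] at hdim; omega) fun M hHM hM g hg hgW => ?_
  have hMI := hM.trans h.om_le_isom
  have hb : h.Big (perp B W) := Or.inl (by omega)
  have hb' : h.Big W := Or.inl (by omega)
  by_contra hc
  have A1 : ∀ e ∈ perp B W, e ≠ 0 → Q e = 0 → h.Arm M e ≤ perp B W := fun e a b c y hy => by
    by_contra k; exact hc (h.om_le_of_arm hW hb (Or.inl hb') hHM hM a b c hy k)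
  have hHM' : stabS F (perp B W : Set V) ⊓ h.Om ≤ M := h.stab_perp_inf W ▸ hHM
  have A2 : ∀ e ∈ W, e ≠ 0 → Q e = 0 → h.Arm M e ≤ W := fun e a b c y hy => by
    by_contra k
    exact hc (h.om_le_of_arm hU (by rwa [pp]) (Or.inl hb) hHM' hM (by rwa [pp]) b c hy (by rwa [pp]))
  have aU : ∀ e ∈ perp B W, Q e = 0 → ∀ y ∈ perp B W, B e y = 0 → y ∈ h.Arm M e :=
    fun e a b y c d => h.arm_of_stab hHM a b c d
  have aW : ∀ e ∈ W, Q e = 0 → ∀ y ∈ W, B e y = 0 → y ∈ h.Arm M e :=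
    fun e a b y c d => h.arm_of_stab hHM' (by rwa [pp]) b (by rwa [pp]) d
  have gI := hMI hg
  have hc' := h.form.isCompl_perp h.sep hW
  have hni : ¬ (perp B W).map (g : V →ₗ[F] V) ≤ W := fun hle => by
    obtain ⟨a, ha, b, hb, qa, qb, ab, a0, ba⟩ := tU
    refine tW ⟨g a, hle ⟨a, ha, rfl⟩, g b, hle ⟨b, hb, rfl⟩, by rw [gI.2, qa], by rw [gI.2, qb],
      by rw [gI.1, ab], by simpa using a0, fun k => ba ?_⟩
    obtain ⟨c, k⟩ := Submodule.mem_span_singleton.mp k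
    exact Submodule.mem_span_singleton.mpr ⟨c, g.injective (by rw [map_smul, k])⟩
  obtain ⟨_, ⟨x, hx, rfl⟩, qx, x1, x2⟩ := h.exists_sing_out (X := (perp B W).map (g : V →ₗ[F] V))
    (U := W) (W := perp B W) (by
      rintro _ ⟨x, hx, rfl⟩ h0
      have := hU x hx fun y hy => by rw [← gI.1]; exact h0 _ ⟨y, hy, rfl⟩
      simp [this]) (Or.inl (by rw [LinearEquiv.finrank_map_eq]; omega)) hc'.disjoint
    (fun x hx y hy => hy x hx) hni fun hc => hgW (by
      have := h.stab_perp gI (mem_stabS_of_le (W := perp B W) fun v hv => hc ⟨v, hv, rfl⟩)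
      rwa [pp] at this)
  simp only [LinearEquiv.coe_coe] at qx x1 x2
  have qx' : Q x = 0 := by rw [← gI.2, qx]
  obtain ⟨z, z1, qz, z2, z4⟩ := tU.through h (x := x) (by rintro rfl; simp at x1) qx'
  have y1 := h.map_mem_arm' hMI hg (aU x hx qx' z z1 z2)
  have qy : Q (g z) = 0 := by rw [gI.2, qz]
  have y3 : g z ∉ Submodule.span F {g x} := fun k => z4 (by
    obtain ⟨a, k⟩ := Submodule.mem_span_singleton.mp k
    exact Submodule.mem_span_singleton.mpr ⟨a, g.injective (by rw [map_smul, k])⟩)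
  generalize g z = y' at y1 qy y3
  generalize g x = e' at y1 y3 qx x1 x2
  have xy : B e' y' = 0 := h.ar_perp (h.ar_of_arm y1)
  have cU := fun e a b c => core44 h hMI hU hW (fun y hy => hy) hc'.sup_eq_top aU aW A1 A2 (e := e)
    (e' := e') (y' := y') a b c qx qy
  have cW := fun e a b c => core44 h hMI hW hU (fun y hy x hx => h.refl (hx y hy))
    (sup_comm W _ ▸ hc'.sup_eq_top) aW aU A2 A1 (e := e) (e' := e') (y' := y') a b c qx qy
  obtain ⟨b₁, hb₁, a₁, ha₁, rfl⟩ := Submodule.mem_sup.mp (hc'.sup_eq_top ▸ Submodule.mem_top (x := e'))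
  obtain ⟨b₂, hb₂, a₂, ha₂, rfl⟩ := Submodule.mem_sup.mp (hc'.sup_eq_top ▸ Submodule.mem_top (x := y'))
  have q1 := qx
  have q2 := qy
  have q3 : Q ((b₁ + b₂) + (a₁ + a₂)) = 0 := by
    rw [add_add_add_comm, hQ.add', qx, qy, xy]; simp
  rw [hQ.add', ha₁ b₁ hb₁, add_zero] at q1
  rw [hQ.add', ha₂ b₂ hb₂, add_zero] at q2
  rw [hQ.add', add_mem ha₁ ha₂ _ (add_mem hb₁ hb₂), add_zero] at q3
  have fin : ∀ e ∈ perp B W, e ≠ 0 → Q e = 0 → B a₁ e = 0 → B a₂ e = 0 → False :=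
    fun e a b c d f => cU e a b c (by simp [d, a b₁ hb₁]) (by simp [f, a b₂ hb₂]) y1 y3 x1 x2
  by_cases k1 : Q b₁ = 0
  · obtain ⟨e, a, b, c, d, f⟩ := tU.perp_sing h h4 (a' := a₂) ha₁ (by rwa [k1, zero_add] at q1)
    exact fin e a b c d f
  by_cases k2 : Q b₂ = 0
  · obtain ⟨e, a, b, c, d, f⟩ := tU.perp_sing h h4 (a' := a₁) ha₂ (by rwa [k2, zero_add] at q2)
    exact fin e a b c f d
  by_cases k3 : Q (b₁ + b₂) = 0
  · obtain ⟨e, a, b, c, d, f⟩ := tU.perp_sing h h4 (a' := a₁) (add_mem ha₁ ha₂)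
      (by rwa [k3, zero_add] at q3)
    exact fin e a b c f (by simpa [f] using d)
  obtain ⟨e, a, b, c, d, f⟩ := minus_perp_sing h hq tW h3 hb₁ hb₂ k1 k2 k3
  exact cW e a b c (by simp [d, h.refl (ha₁ e a)]) (by simp [f, h.refl (ha₂ e a)]) y1 y3 x2 x1

theorem hyp_aniso (hq : ∀ a : F, a ≠ 0 → a = 1) {W : Submodule F V} (hW : NondegOn B W)
    (h4 : 4 ≤ finrank F W) (t : ¬ TP B Q W) : ∃ e ∈ W, ∃ f ∈ W, ∃ u ∈ W, ∃ v ∈ W, Q e = 0 ∧
      B f e = 1 ∧ B e u = 0 ∧ B f u = 0 ∧ B e v = 0 ∧ B f v = 0 ∧ Q u = 1 ∧ Q v = 1 ∧ B u v = 1 ∧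
      (1 + 1 : F) = 0 := by
  have hQ : IsQuad B Q := h.form
  obtain ⟨e, he, e0, qe⟩ := h.exists_sing3 (W := W) (by omega)
  obtain ⟨f, hf, -, ef⟩ := h.exists_perp_not_in hW (Z := ⊥) bot_le he (by simpa using e0)
  have d1 := finrank_le_inf_ker W (B e)
  have d2 := finrank_le_inf_ker (W ⊓ LinearMap.ker (B e)) (B f)
  obtain ⟨u, ⟨⟨a1, a2⟩, a3⟩, v, ⟨⟨b1, b2⟩, b3⟩, r⟩ := pair_of_aniso h hq
    (Z := W ⊓ LinearMap.ker (B e) ⊓ LinearMap.ker (B f)) (by omega) fun x hx qx => by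
      by_contra k
      refine t ⟨e, he, x, hx.1.1, qe, qx, hx.1.2, e0, fun k' => k ?_⟩
      obtain ⟨c, rfl⟩ := Submodule.mem_span_singleton.mp k'
      have : B f (c • e) = 0 := hx.2
      rw [map_smul, hQ.comm, ef, smul_eq_mul, mul_one] at this
      simp [this]
  exact ⟨e, he, f, hf, u, a1, v, b1, qe, by rw [hQ.comm, ef], a2, a3, b2, b3, r⟩

theorem four_of_types (hq : ∀ a : F, a ≠ 0 → a = 1) {U W : Submodule F V} (hU : NondegOn B U)
    (hW : NondegOn B W) (ho : ∀ y ∈ U, ∀ x ∈ W, B x y = 0) (h3 : 4 ≤ finrank F W)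
    (h4 : 4 ≤ finrank F U) (t : TP B Q U ↔ TP B Q W) :
    ∃ T : Submodule F V, (∀ x ∈ T, Q x = 0) ∧ finrank F T = 4 := by
  have hQ : IsQuad B Q := h.form
  have key : ∀ x y : Fin 4 → V, (∀ i, Q (x i) = 0) → (∀ i j, B (x i) (x j) = 0) →
      (∀ i j, B (y i) (x j) = if i = j then 1 else 0) →
      ∃ T : Submodule F V, (∀ x ∈ T, Q x = 0) ∧ finrank F T = 4 := fun x y h1 h2 h3 => by
    have li : LinearIndependent F x := Fintype.linearIndependent_iff.mpr fun c hc i => by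
      simpa [h3] using congrArg (B (y i)) hc
    refine ⟨Submodule.span F (Set.range x), fun v hv => ?_, by rw [finrank_span_eq_card li]; simp⟩
    have : Q v = 0 ∧ ∀ j, B v (x j) = 0 := by
      induction hv using Submodule.span_induction with
      | mem _ hv => obtain ⟨i, rfl⟩ := hv; exact ⟨h1 i, h2 i⟩
      | zero => exact ⟨h.Q_zero, by simp⟩
      | add a b ha hb ia ib =>
        refine ⟨?_, fun j => by simp [ia.2, ib.2]⟩
        obtain ⟨c, rfl⟩ := (Submodule.mem_span_range_iff_exists_fun F).mp hb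
        rw [hQ.add', ia.1, ib.1]; simp [ia.2]
      | smul c a _ ia => exact ⟨h.sing_smul ia.1 c, fun j => by simp [ia.2]⟩
    exact this.1
  by_cases tW : TP B Q W
  · have dual : ∀ {Z : Submodule F V}, NondegOn B Z → TP B Q Z → ∃ a ∈ Z, ∃ b ∈ Z, ∃ c ∈ Z, ∃ d ∈ Z,
        Q a = 0 ∧ Q b = 0 ∧ B a b = 0 ∧ B c a = 1 ∧ B c b = 0 ∧ B d a = 0 ∧ B d b = 1 := by
      rintro Z hZ ⟨a, ha, b, hb, qa, qb, ab, a0, ba⟩
      obtain ⟨d, hd, d1, d2⟩ := h.exists_perp_not_in hZ (Z := Submodule.span F {a}) (by simpa) hb ba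
      obtain ⟨c, hc, -, c2⟩ := h.exists_perp_not_in hZ (Z := ⊥) bot_le ha (by simpa using a0)
      have d3 := d1 a (Submodule.mem_span_singleton_self a)
      exact ⟨a, ha, b, hb, c - B b c • d, sub_mem hc (Z.smul_mem _ hd), d, hd, qa, qb, ab,
        by simp [hQ.comm c, hQ.comm d, c2, d3], by simp [hQ.comm c, hQ.comm d, d2], h.refl d3,
        by rw [hQ.comm, d2]⟩
    obtain ⟨a, ha, b, hb, c, hc, d, hd, r1, r2, r3, r4, r5, r6, r7⟩ := dual hW tW
    obtain ⟨a', ha', b', hb', c', hc', d', hd', s1, s2, s3, s4, s5, s6, s7⟩ := dual hU (t.mpr tW)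
    have o := fun x hx y hy => ho y hy x hx
    have o' := fun x hx y hy => h.refl (ho y hy x hx)
    refine key ![a, b, a', b'] ![c, d, c', d'] (fun i => by fin_cases i <;> simpa) (fun i j => ?_)
      fun i j => ?_
    · fin_cases i <;> fin_cases j <;> simp [h.diag0 r1, h.diag0 r2, h.diag0 s1, h.diag0 s2, r3, s3,
        h.refl r3, h.refl s3, o _ ha _ ha', o _ ha _ hb', o _ hb _ ha', o _ hb _ hb',
        o' _ ha _ ha', o' _ ha _ hb', o' _ hb _ ha', o' _ hb _ hb']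
    · fin_cases i <;> fin_cases j <;> simp [r4, r5, r6, r7, s4, s5, s6, s7, o _ hc _ ha',
        o _ hc _ hb', o _ hd _ ha', o _ hd _ hb', o' _ ha _ hc', o' _ ha _ hd', o' _ hb _ hc',
        o' _ hb _ hd']
  obtain ⟨e, he, f, hf, u, hu, v, hv, r1, r2, r3, r4, r5, r6, r7, r8, r9, t2⟩ :=
    hyp_aniso h hq hW h3 tW
  obtain ⟨e', he', f', hf', u', hu', v', hv', s1, s2, s3, s4, s5, s6, s7, s8, s9, -⟩ :=
    hyp_aniso h hq hU h4 fun k => tW (t.mp k)
  have o := fun x hx y hy => ho y hy x hx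
  have o' := fun x hx y hy => h.refl (ho y hy x hx)
  have dg : ∀ x, B x x = 0 := fun x => by rw [hQ.diag', ← one_add_one_eq_two, t2, zero_mul]
  refine key ![e, e', u + u', v + v'] ![f, f', v, u] (fun i => ?_) (fun i j => ?_) fun i j => ?_
  · fin_cases i <;> simp [r1, s1, hQ.add', r7, r8, s7, s8, t2, o _ hu _ hu', o _ hv _ hv']
  · fin_cases i <;> fin_cases j <;> simp [dg, r3, r5, s3, s5, h.refl r3, h.refl r5, h.refl s3,
      h.refl s5, r9, s9, hQ.comm v u, hQ.comm v' u', t2, o _ he _ he', o' _ he _ he', o _ he _ hu',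
      o' _ he _ hu', o _ he _ hv', o' _ he _ hv', o _ hu _ he', o' _ hu _ he', o _ hv _ he',
      o' _ hv _ he', o _ hu _ hu', o' _ hu _ hu', o _ hu _ hv', o' _ hu _ hv', o _ hv _ hu',
      o' _ hv _ hu', o _ hv _ hv', o' _ hv _ hv']
  · fin_cases i <;> fin_cases j <;> simp [dg, r2, s2, r4, r6, s4, s6, h.refl r3, h.refl r5, r9,
      hQ.comm v u, o _ hf _ he', o' _ he _ hf', o _ hf _ hu', o _ hf _ hv', o' _ hu _ hf',
      o' _ hv _ hf', o _ hu _ he', o _ hv _ he', o _ hu _ hu', o _ hu _ hv', o _ hv _ hu',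
      o _ hv _ hv']

end core

variable {F : Type*} [Field F] [Fintype F] {n : ℕ} {Q : (Fin n → F) → F}
  (hQ : IsNondegenerateQuadraticForm Q)
include hQ

theorem nd_plane (hn : 7 ≤ n) {W : Submodule F (Fin n → F)}
    (hW : IsNondegenerateOn (QuadraticMap.polar Q) W) (h2 : finrank F W = 2)
    (hex : ¬ IsPlusTypeOn Q W) : IsMaximalIn (omegaGL Q) (subspaceStabilizer W ⊓ omegaGL Q) := by
  have h := clO hQ
  refine isMaximalIn_gl (mem_omegaGL_iff h (by simp; omega))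
    (fun g _ => mem_subspaceStabilizer_iff W g) ?_
  have hW' : NondegOn (bilinOf hQ.polar_bilinear) W := nondegOn_of (Or.inl fun _ _ => rfl) hW
  have hd := h.form.finrank_perp h.sep W
  rw [finrank_fin_fun] at hd
  refine h.max_nondeg5 hW' (by rintro rfl; simp at h2) (Or.inr (Or.inr ⟨h2, Or.inr fun x hx hx' => ?_⟩))
    (Or.inl (by omega)) fun g _ => not_map_le_of_lt (by omega) g
  by_contra hx0
  exact hex (isPlusTypeOn_plane (fun c x hx => h.sing_smul hx c) h2 hx hx0 hx')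

theorem nd_four (hn : n = 8) (hminus : ¬ IsPlusTypeOn Q ⊤) {W : Submodule F (Fin n → F)}
    (hW : IsNondegenerateOn (QuadraticMap.polar Q) W) (h4 : finrank F W = 4) :
    IsMaximalIn (omegaGL Q) (subspaceStabilizer W ⊓ omegaGL Q) := by
  by_cases q : 2 < Fintype.card F
  · exact nd hQ (Or.inr ⟨by omega, q⟩) hW (by omega) (by omega) (by omega)
      (fun _ => ⟨h4 ▸ by decide, hminus⟩) (by omega)
  have hq : ∀ a : F, a ≠ 0 → a = 1 := fun a a0 => by
    classical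
    by_contra a1
    have := Finset.card_le_univ ({0, 1, a} : Finset F)
    rw [Finset.card_eq_three.mpr ⟨0, 1, a, zero_ne_one, Ne.symm a0, Ne.symm a1, rfl⟩] at this
    omega
  have h := clO hQ
  refine isMaximalIn_gl (mem_omegaGL_iff h (by simp; omega))
    (fun g _ => mem_subspaceStabilizer_iff W g) ?_
  have hW' : NondegOn (bilinOf hQ.polar_bilinear) W := nondegOn_of (Or.inl fun _ _ => rfl) hW
  have hU := h.form.nondegOn_perp h.sep hW'
  have hd := h.form.finrank_perp h.sep W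
  have pp := h.form.perp_perp h.sep W
  rw [finrank_fin_fun] at hd
  have t : ¬ (TP (bilinOf hQ.polar_bilinear) Q (perp (bilinOf hQ.polar_bilinear) W) ↔
      TP (bilinOf hQ.polar_bilinear) Q W) := fun t => by
    obtain ⟨T, a, b⟩ := four_of_types h hq hU hW' (fun y hy => hy) (by omega) (by omega) t
    exact hminus ⟨T, le_top, a, by simp [b, hn]⟩
  by_cases tW : TP (bilinOf hQ.polar_bilinear) Q W
  · rw [← h.stab_perp_inf]
    exact max_nondeg44 h hq hU (by omega) (by rw [pp]; omega) (by rwa [pp]) fun k => t (iff_of_true k tW)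
  · exact max_nondeg44 h hq hW' (by omega) (by omega) (by tauto) tW

end Cfsg.Agent.H11.Ox
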