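import Mathlib
import Cfsg.Agent.H7.Rv0

set_option autoImplicit false
namespace Cfsg.Agent.H7.Rv
open Cfsg.Agent.H14

/-- the key function of a list of points. -/
noncomputable def sep_kf : List ℕ → ℕ → ℕ
  | [], _ => 0
  | p :: L, x => ad p x + 2 * sep_kf L x

theorem sep_aj {β : Type} (x : ℕ) (k : (ℕ → ℕ) → β) : aj x k = k (fun y => ad x y) := by
  unfold aj wW
  rw [H25.forceL_eq]
  rfl

theorem sep_key (L : List ℕ) (k : (ℕ → ℕ) → Bool) : key L k = k (sep_kf L) := by
  induction L generalizing k with
  | nil => rfl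
  | cons p L ih =>
    have h1 : key (p :: L) k = aj p fun f => key L fun h =>
        k fun x => Nat.add (f x) (Nat.mul 2 (h x)) := rfl
    rw [h1, sep_aj, ih]
    rfl

theorem sep_inj (f : ℕ → ℕ) (n : ℕ) : ∀ S : ℕ, injRun f n S = true →
    (∀ i < n, S.testBit (f i) = false) ∧ ∀ i < n, ∀ j < i, f i ≠ f j := by
  induction n with
  | zero => intro S _; exact ⟨fun i hi => absurd hi (Nat.not_lt_zero _),
      fun i hi => absurd hi (Nat.not_lt_zero _)⟩
  | succ n ih =>
    intro S h
    have h1 : injRun f (n + 1) S = force (f n) fun v =>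
        band (bnot (tb S v)) (force (Nat.lor S (two v)) (injRun f n)) := rfl
    rw [h1, force_eq, force_eq] at h
    have h2 : tb S (f n) = false ∧ injRun f n (Nat.lor S (two (f n))) = true := by
      revert h
      cases tb S (f n) <;> cases injRun f n (Nat.lor S (two (f n))) <;> simp [band, bnot]
    obtain ⟨a, b⟩ := ih _ h2.2
    have e : Nat.lor S (two (f n)) = S ||| 2 ^ (f n) := by
      show S ||| two (f n) = _
      congr 1
      simp [two, Nat.shiftLeft_eq]
    rw [e] at a
    have a' : ∀ i < n, S.testBit (f i) = false ∧ f n ≠ f i := by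
      intro i hi
      have := a i hi
      rw [Nat.testBit_or, Bool.or_eq_false_iff] at this
      refine ⟨this.1, fun he => ?_⟩
      have h3 := this.2
      rw [← he, Nat.testBit_two_pow_self] at h3
      exact absurd h3 (by simp)
    refine ⟨fun i hi => ?_, fun i hi j hj => ?_⟩
    · rcases Nat.lt_succ_iff_lt_or_eq.1 hi with hi | rfl
      · exact (a' i hi).1
      · rw [← tb_eq]; exact h2.1
    · rcases Nat.lt_succ_iff_lt_or_eq.1 hi with hi | rfl
      · exact b i hi j hj
      · exact (a' j hj).2

theorem sep_sound (L : List ℕ) (hL : ∀ p ∈ L, p < 4060) (h : key L (fun h => injRun h 4060 0) = true)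
    (f : Fin 4060 → Fin 4060) (hf : ∀ x y : Fin 4060, ad (f x).val (f y).val = ad x.val y.val)
    (hp : ∀ x : Fin 4060, x.val ∈ L → f x = x) (x : Fin 4060) : f x = x := by
  rw [sep_key] at h
  have hi := (sep_inj _ _ _ h).2
  have hk : ∀ M : List ℕ, (∀ p ∈ M, p ∈ L) → sep_kf M (f x).val = sep_kf M x.val := by
    intro M
    induction M with
    | nil => intro _; rfl
    | cons p M ih =>
      intro hM
      have hpL : p ∈ L := hM p (by simp)
      have e1 := hf ⟨p, hL p hpL⟩ x
      rw [hp ⟨p, hL p hpL⟩ hpL] at e1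
      show ad p (f x).val + 2 * sep_kf M (f x).val = ad p x.val + 2 * sep_kf M x.val
      rw [ih fun q hq => hM q (by simp [hq])]
      exact congrArg (· + 2 * sep_kf M x.val) e1
  have e := hk L fun _ h => h
  apply Fin.ext
  rcases lt_trichotomy (f x).val x.val with c | c | c
  · exact absurd e.symm (hi _ x.2 _ c)
  · exact c
  · exact absurd e (hi _ (f x).2 _ c)

end Cfsg.Agent.H7.Rv
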