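import Mathlib
import Cfsg.Agent.H11.Tri3

/-!
# Extensions determined by a subgroup of the outer automorphism group
-/

set_option autoImplicit false

namespace Cfsg.Agent.H11

theorem exists_out_sub {G X : Type*} [Group G] [Group X] {N : Subgroup G} [N.Normal] (e : N ≃* X)
    (hX : Function.Injective (MulAut.conj : X →* MulAut X))
    (hC : Subgroup.centralizer (N : Set G) ≤ N) : ∃ S : Subgroup (Out X),
    Nonempty (G ≃* S.comap (QuotientGroup.mk' (Inn X))) ∧ Nat.card S = N.index := by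
  let φ : G →* MulAut X := (MulAut.congr e).toMonoidHom.comp MulAut.conjNormal
  have h1 : ∀ n : N, φ n = MulAut.conj (e n) := fun n => MulEquiv.ext fun x => by
    obtain ⟨x, rfl⟩ := e.surjective x
    simp [φ, ← map_mul, ← map_inv]
    rfl
  have h2 : Function.Injective φ := (injective_iff_map_eq_one _).mpr fun g hg => by
    have : g ∈ N := hC fun n hn => by
      have := congrArg (fun β : MulAut X => (e.symm (β (e ⟨n, hn⟩)) : G)) hg
      simpa [φ, mul_inv_eq_iff_eq_mul, eq_comm (a := n * g)] using this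
    exact congrArg Subtype.val (e.map_eq_one_iff.mp (hX (((h1 ⟨g, this⟩).symm.trans hg).trans
      (map_one _).symm)))
  have h3 : Inn X ≤ φ.range := by
    rintro _ ⟨x, rfl⟩
    obtain ⟨n, rfl⟩ := e.surjective x
    exact ⟨n, h1 n⟩
  refine ⟨((QuotientGroup.mk' _).comp φ).range, ⟨(MonoidHom.ofInjective h2).trans
    (MulEquiv.subgroupCongr ?_)⟩, ?_⟩
  · rw [MonoidHom.range_comp (QuotientGroup.mk' _), Subgroup.comap_map_eq, QuotientGroup.ker_mk', sup_of_le_left h3]
  · rw [← Subgroup.index_ker]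
    congr 1
    ext g
    refine (QuotientGroup.eq_one_iff _).trans ⟨fun ⟨x, hx⟩ => ?_, fun hg => ⟨_, (h1 ⟨g, hg⟩).symm⟩⟩
    obtain ⟨n, rfl⟩ := e.surjective x
    exact h2 ((h1 n).trans hx) ▸ n.2

theorem exists_eq_stabilizer_four (S : Subgroup (Equiv.Perm (Fin 4))) (hS : Nat.card S = 6) :
    ∃ i, S = MulAction.stabilizer _ (i : Fin 4) := by
  obtain ⟨c, hc⟩ := exists_prime_orderOf_dvd_card' (G := S) 3 (by rw [hS]; decide)
  have h3 : c.1 ^ 3 = 1 := by rw [← Subgroup.coe_pow, ← hc, pow_orderOf_eq_one]; rfl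
  have h1 : c.1 ≠ 1 := fun h => by simp [show c = 1 from Subtype.ext h] at hc
  have hN : (Subgroup.zpowers c).Normal := Subgroup.normal_of_index_eq_two (by
    have := (Subgroup.zpowers c).card_mul_index
    rw [Nat.card_zpowers, hc, hS] at this
    omega)
  have k1 : ∀ c : Equiv.Perm (Fin 4), c ^ 3 = 1 → c ≠ 1 → ∃ i, c i = i ∧ ∀ j, c j = j → j = i := by
    decide +kernel
  obtain ⟨i, hi, hi'⟩ := k1 c h3 h1
  refine ⟨i, Subgroup.eq_of_le_of_card_ge (fun g hg => ?_) ?_⟩
  · obtain ⟨k, hk⟩ := hN.conj_mem c (Subgroup.mem_zpowers c) ⟨g, hg⟩⁻¹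
    have := congrArg (fun x : S => g (x.1 i)) hk
    exact hi' _ (by simpa [Equiv.Perm.zpow_apply_eq_self_of_apply_eq_self hi, eq_comm] using this)
  · have := (MulAction.stabilizer (Equiv.Perm (Fin 4)) i).card_mul_index
    rw [MulAction.index_stabilizer_of_transitive, Nat.card_perm] at this
    rw [Nat.card_eq_fintype_card (α := Fin 4), Fintype.card_fin] at this
    rw [hS]
    exact Nat.le_of_mul_le_mul_right this.le (by decide)

theorem nonempty_comap_equiv {A Y : Type*} [Group A] [Group Y] (π : A →* Y)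
    (hπ : Function.Surjective π) (e : Y ≃* Equiv.Perm (Fin 4)) {S S' : Subgroup Y}
    (hS : Nat.card S = 6) (hS' : Nat.card S' = 6) : Nonempty (S.comap π ≃* S'.comap π) := by
  obtain ⟨i, hi⟩ := exists_eq_stabilizer_four (S.map e)
    ((Subgroup.card_map_of_injective e.injective).trans hS)
  obtain ⟨j, hj⟩ := exists_eq_stabilizer_four (S'.map e)
    ((Subgroup.card_map_of_injective e.injective).trans hS')
  obtain ⟨a, ha⟩ := (e.surjective.comp hπ) (Equiv.swap i j)
  refine ⟨((MulAut.conj a).subgroupMap _).trans (MulEquiv.subgroupCongr ?_)⟩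
  ext x
  have k : ∀ (S : Subgroup Y) y, y ∈ S ↔ e y ∈ S.map e := fun S y =>
    (Subgroup.mem_map_iff_mem e.injective).symm
  rw [← MulEquiv.toMonoidHom_eq_coe, Subgroup.mem_map_equiv, Subgroup.mem_comap, Subgroup.mem_comap, k, k, hi, hj]
  simp [show e (π a) = _ from ha, Equiv.swap_apply_eq_iff]

end Cfsg.Agent.H11
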