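import Mathlib
import Cfsg.Agent.H1.Product

/-!
Elements fixing a single coset: the group theory behind the maximality of `O₃ ⊗ O₄⁻`.
-/

set_option autoImplicit false
set_option linter.unusedSectionVars false

namespace Cfsg.Agent.H11.Tz

open Subgroup

variable {G : Type*} [Group G] [Finite G] {M H : Subgroup G} {p : ℕ} [Fact p.Prime]

/-- `t` fixes a single coset of `H` in `M` -/
def Iso (M H : Subgroup G) (t : G) : Prop := ∀ x ∈ M, x * t * x⁻¹ ∈ H → x ∈ H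

theorem Iso.comm {t : G} (h : Iso M H t) (ht : t ∈ H) {x : G} (hx : x ∈ M) (h1 : x * t = t * x) :
    x ∈ H := h x hx (by rwa [h1, mul_inv_cancel_right])

theorem Iso.pg {t : G} (h : Iso M H t) (ht : t ∈ H) {S : Subgroup G} (hM : S ≤ M) (hS : IsPGroup p S)
    (h1 : t ∈ S) : S ≤ H := by
  have := hS.isNilpotent
  have h2 := Group.normalizerCondition_of_isNilpotent (G := S)
  rw [normalizerCondition_iff_only_full_group_self_normalizing] at h2
  exact subgroupOf_eq_top.1 (h2 (H.subgroupOf S) (le_antisymm (fun (x : S) hx => h x.1 (hM x.2)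
    ((mem_normalizer_iff.1 hx (⟨t, h1⟩ : S)).1 ht)) le_normalizer))

theorem isP_zpowers {t : G} (h : t ^ p = 1) : IsPGroup p (zpowers t) := fun ⟨_, n, rfl⟩ =>
  ⟨1, Subtype.ext (show (t ^ n) ^ p ^ 1 = 1 by
    rw [pow_one, ← zpow_natCast, ← zpow_mul, mul_comm, zpow_mul, zpow_natCast, h, one_zpow])⟩

theorem Iso.pg' {t : G} (h : Iso M H t) (ht : t ∈ H) (hm : t ∈ M) (hp : t ^ p = 1) {K : Subgroup G}
    (hM : K ≤ M) (hK : IsPGroup p K) (h1 : t ∈ normalizer (K : Set G)) : K ≤ H :=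
  le_sup_right.trans (h.pg ht (sup_le (zpowers_le.2 hm) hM)
    ((isP_zpowers hp).to_sup_of_normal_right' hK (zpowers_le.2 h1)) (mem_sup_left (mem_zpowers t)))

/-- a noncyclic abelian `p`-group of elements fixing a single coset -/
structure Ti (p : ℕ) (M H E : Subgroup G) : Prop where
  le : E ≤ M
  le' : E ≤ H
  comm : ∀ x ∈ E, ∀ y ∈ E, x * y = y * x
  nc : ¬ IsCyclic E
  pg : IsPGroup p E
  iso : ∀ t ∈ E, t ≠ 1 → Iso M H t

variable {E : Subgroup G}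

theorem Ti.ex (h : Ti p M H E) : ∃ t ∈ E, t ≠ 1 := by
  by_contra! h1
  have : Subsingleton E := ⟨fun x y => Subtype.ext ((h1 _ x.2).trans (h1 _ y.2).symm)⟩
  exact h.nc inferInstance

theorem Ti.cop (h : Ti p M H E) {K : Subgroup G} (hM : K ≤ M) (h1 : E ≤ normalizer (K : Set G))
    (h2 : ∀ x ∈ K, x ∈ H → x ^ p = 1 → x = 1) : K ≤ H := by
  by_cases h3 : p ∣ Nat.card K
  · exfalso
    obtain ⟨⟨x, hx⟩, h4⟩ := exists_prime_orderOf_dvd_card' p h3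
    rw [orderOf_mk] at h4
    obtain ⟨t, ht, t1⟩ := h.ex
    let L := K ⊔ E
    have h5 : (⟨x, mem_sup_left hx⟩ : L) ^ p = 1 := Subtype.ext (h4 ▸ pow_orderOf_eq_one x)
    obtain ⟨P, hP⟩ := (isP_zpowers h5).exists_le_sylow
    obtain ⟨T, hT⟩ := (h.pg.comap_subtype (K := L)).exists_le_sylow
    obtain ⟨l, rfl⟩ := MulAction.exists_smul_eq L P T
    have h6 := (h.iso t ht t1).pg (h.le' ht) ((map_subtype_le _).trans (sup_le hM h.le))
      ((l • P).isPGroup'.map L.subtype) ⟨⟨t, mem_sup_right ht⟩, hT ht, rfl⟩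
    have h7 : l.1 * x * l.1⁻¹ ∈ K :=
      (mem_normalizer_iff.1 ((sup_le le_normalizer h1 : L ≤ normalizer (K : Set G)) l.2) x).1 hx
    have h8 := h2 _ h7 (h6 ⟨l * ⟨x, mem_sup_left hx⟩ * l⁻¹,
      smul_mem_pointwise_smul _ (MulAut.conj l) _ (hP (mem_zpowers _)), rfl⟩)
      (by rw [conj_pow, ← h4, pow_orderOf_eq_one]; simp)
    rw [conj_eq_one_iff.1 h8, orderOf_one] at h4
    exact (Fact.out : p.Prime).ne_one h4.symm
  have : IsMulCommutative E := ⟨⟨fun x y => Subtype.ext (h.comm _ x.2 _ y.2)⟩⟩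
  obtain ⟨n, hn⟩ := IsPGroup.iff_card.1 h.pg
  rw [← H1.iSup_centralizer_singleton E K h.nc h1
    (hn ▸ Nat.Coprime.pow_left n (((Fact.out : p.Prime).coprime_iff_not_dvd).2 h3))]
  exact iSup₂_le fun a ha x hx => (h.iso a ha.1 ha.2).comm (h.le' ha.1) (hM hx.1)
    (mem_centralizer_singleton_iff.1 hx.2)

theorem Ti.burn (h : Ti p M H E) {C : Subgroup G} (hM : C ≤ M) (h1 : E ≤ C)
    (h2 : ∀ x ∈ C, ∀ y ∈ C, x ∈ H → y ∈ H → x * y = y * x) : C ≤ H := by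
  obtain ⟨t, ht, t1⟩ := h.ex
  obtain ⟨S, hS⟩ := (h.pg.comap_subtype (K := C)).exists_le_sylow
  have h3 := (h.iso t ht t1).pg (h.le' ht) ((map_subtype_le _).trans hM) (S.isPGroup'.map C.subtype)
    ⟨⟨t, h1 ht⟩, hS ht, rfl⟩
  have h4 : normalizer (S : Set C) ≤ centralizer (S : Set C) := fun n hn s hs => Subtype.ext
    (h2 _ s.2 _ n.2 (h3 ⟨s, hs, rfl⟩) (h.iso t ht t1 n (hM n.2)
      (h3 ⟨_, (mem_normalizer_iff.1 hn ⟨t, h1 ht⟩).1 (hS ht), rfl⟩)))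
  have h5 := h.cop (K := (MonoidHom.transferSylow S h4).ker.map C.subtype) ((map_subtype_le _).trans hM)
    (fun c hc => le_normalizer_map (H := (MonoidHom.transferSylow S h4).ker) C.subtype
      ⟨⟨c, h1 hc⟩, by rw [normalizer_eq_top]; trivial, rfl⟩)
    (by
      rintro _ ⟨x, hx, rfl⟩ - h5
      exact congrArg Subtype.val (disjoint_def.1 (MonoidHom.ker_transferSylow_disjoint S h4 _
        (isP_zpowers (t := x) (Subtype.ext h5))) hx (mem_zpowers x)))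
  intro c hc
  obtain ⟨⟨k, s⟩, h6⟩ := (MonoidHom.ker_transferSylow_isComplement' S h4).2 ⟨c, hc⟩
  rw [show c = k.1.1 * s.1.1 from (congrArg Subtype.val h6).symm]
  exact mul_mem (h5 ⟨_, k.2, rfl⟩) (h3 ⟨_, s.2, rfl⟩)

omit [Finite G] in
theorem inv_conj_zpow {k r : G} (h : k * r = r⁻¹ * k) (n : ℕ) : k * r ^ n = (r ^ n)⁻¹ * k := by
  induction n with
  | zero => simp
  | succ n ih => rw [pow_succ', ← mul_assoc, h, mul_assoc, ih, ← pow_succ', pow_succ', mul_inv_rev,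
      ← mul_assoc, ← mul_inv_rev, ← mul_inv_rev, ← pow_succ, pow_succ']

theorem exists_inv {L : Subgroup G} {k : G} (hk : k ∈ M) (hH : k ∈ H) (hL : k ∈ L) (k2 : k * k = 1)
    (h : Iso M H k) (h1 : ∀ x ∈ M, x ∈ H → x * k * x⁻¹ ∈ L)
    (h2 : ∀ j ∈ L, j ∈ M → j * j = 1 → j ≠ 1 → ∀ c ∈ M, c * j = j * c → c ∈ H) {z : G} (hz : z ∈ M)
    (hz' : z ∉ H) : ∃ v ∈ M, v * v = 1 ∧ v * k * v = z * k * z⁻¹ := by
  have h3 : z * k * z⁻¹ ∈ M := mul_mem (mul_mem hz hk) (inv_mem hz)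
  have h4 : z * k * z⁻¹ * (z * k * z⁻¹) = 1 := by rw [conj_mul, k2]; simp
  have ki := inv_eq_of_mul_eq_one_left k2
  set a := z * k * z⁻¹ with ha
  have ai := inv_eq_of_mul_eq_one_left h4
  have h5 : k * (k * a) = (k * a)⁻¹ * k := by
    rw [mul_inv_rev, ki, ai, ← mul_assoc, k2, mul_assoc, k2, one_mul, mul_one]
  have h5' : a * (k * a) = (k * a)⁻¹ * a := by rw [mul_inv_rev, ki, ai, ← mul_assoc a]
  have hr : k * a ∈ M := mul_mem hk h3
  have h6 := inv_conj_zpow h5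
  have h7 := inv_conj_zpow h5'
  have h8 : a = (k * a)⁻¹ * k := by rw [← h5, ← mul_assoc, k2, one_mul]
  have h9 : k * a * k⁻¹ = k * a * k := by rw [ki]
  generalize k * a = r at h5 h5' hr h6 h7 h8 h9
  have h10 : ∀ n : ℕ, k * (r ^ n)⁻¹ = r ^ n * k := fun n => by
    rw [mul_inv_eq_iff_eq_mul, mul_assoc, h6, mul_inv_cancel_left]
  obtain ⟨n, hn | hn⟩ := Nat.even_or_odd' (orderOf r)
  · exfalso
    have h11 : r ^ n * r ^ n = 1 := by rw [← pow_add, ← two_mul, ← hn, pow_orderOf_eq_one]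
    have h12 := inv_eq_of_mul_eq_one_left h11
    have h13 : r ^ n ≠ 1 := pow_ne_one_of_lt_orderOf (by have := orderOf_pos r; omega)
      (by have := orderOf_pos r; omega)
    have h14 : r ^ n ∈ H := h.comm hH (pow_mem hr n) (by rw [h6, h12])
    obtain ⟨y, hy, h15⟩ : ∃ y ∈ M, y * k * y⁻¹ = r ^ n * k := by
      obtain ⟨m, rfl | rfl⟩ := Nat.even_or_odd' n
      · exact ⟨r ^ m, pow_mem hr m, by rw [mul_assoc, h10, two_mul, pow_add, mul_assoc]⟩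
      · refine ⟨r ^ (m + 1) * z, mul_mem (pow_mem hr _) hz, ?_⟩
        rw [mul_inv_rev, ← mul_assoc, mul_assoc _ z, mul_assoc _ _ z⁻¹, ← ha, h8, mul_assoc, mul_assoc,
          h10]
        group
    have h16 := mul_mem (h1 y hy (h y hy (h15 ▸ mul_mem h14 hH))) hL
    rw [h15, mul_assoc, k2, mul_one] at h16
    exact hz' (h z hz (h2 _ h16 (pow_mem hr n) h11 h13 a h3 (by rw [h7, h12])))
  · have h11 : r ^ n * r ^ n = r⁻¹ := by
      rw [eq_inv_iff_mul_eq_one, ← pow_add, ← pow_succ, ← two_mul, ← hn, pow_orderOf_eq_one]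
    refine ⟨r ^ n * k, mul_mem (pow_mem hr n) hk, ?_, ?_⟩
    · rw [mul_assoc, ← mul_assoc k, h6, mul_assoc, k2]; simp
    · rw [mul_assoc _ k k, k2, mul_one, ← mul_assoc, h11, ← h8]

theorem le_of_iso {L : Subgroup G} {k : G} (hk : k ∈ M) (hH : k ∈ H) (hL : k ∈ L) (k2 : k * k = 1)
    (h : Iso M H k) (h1 : ∀ x ∈ M, x ∈ H → x * k * x⁻¹ ∈ L)
    (h2 : ∀ j ∈ L, j ∈ M → j * j = 1 → j ≠ 1 → ∀ c ∈ M, c * j = j * c → c ∈ H)
    {u : G} (hu : u ∈ M) (hu' : u ∈ H) (up : u ^ p = 1)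
    (h3 : ∀ x ∈ M, x ∈ H → x⁻¹ * u * x * k ≠ k * (x⁻¹ * u * x))
    (h4 : ∀ y ∈ M, y ∈ H → y ^ p = 1 → y ≠ 1 → Iso M H y) : M ≤ H := fun x hx => by
  by_contra hx'
  have h5 : x * k * x⁻¹ ∈ M := mul_mem (mul_mem hx hk) (inv_mem hx)
  have h6 : x * k * x⁻¹ ∉ H := fun h6 => hx' (h x hx h6)
  have h7 : x * k * x⁻¹ * (x * k * x⁻¹) = 1 := by rw [conj_mul, k2]; simp
  generalize x * k * x⁻¹ = a at h5 h6 h7
  have ai := inv_eq_of_mul_eq_one_left h7
  let D : Subgroup ↥(M ⊓ H) := (H.comap (MulAut.conj a).toMonoidHom).subgroupOf _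
  let C : Subgroup ↥(M ⊓ H) := (centralizer {k}).subgroupOf _
  have h8 : ∀ y : ↥(M ⊓ H), ∃ d : D, d • ((1 : ↥(M ⊓ H)) : _ ⧸ C) = y := fun y => by
    obtain ⟨v, hv, v2, h8⟩ := exists_inv hk hH hL k2 h h1 h2 (mul_mem h5 y.2.1)
      fun h8 => h6 ((H.mul_mem_cancel_right y.2.2).1 h8)
    have vi := inv_eq_of_mul_eq_one_left v2
    have h9 : y.1⁻¹ * a * v * k = k * (y.1⁻¹ * a * v) := by
      rw [← mul_inv_eq_iff_eq_mul, mul_inv_rev, vi, mul_assoc _ v, ← mul_assoc, mul_assoc _ _ v, h8,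
        mul_inv_rev, mul_inv_rev, ai]
      simp only [mul_assoc, inv_inv, ← mul_assoc a a, h7, one_mul, inv_mul_cancel_left, inv_mul_cancel,
        mul_one]
    have h10 : a * v ∈ H := by
      simpa [mul_assoc] using mul_mem y.2.2
        (h.comm hH (mul_mem (mul_mem (inv_mem y.2.1) h5) hv) h9)
    refine ⟨⟨⟨a * v, mul_mem h5 hv, h10⟩, ?_⟩, (QuotientGroup.eq.2 ?_).symm⟩
    · change a * (a * v) * a⁻¹ ∈ H
      rw [← mul_assoc, h7, one_mul, ← vi, ← mul_inv_rev]; exact inv_mem h10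
    · change y.1⁻¹ * (a * v * 1) ∈ centralizer {k}
      rw [mul_one, ← mul_assoc]; exact mem_centralizer_singleton_iff.2 h9
  have : MulAction.IsPretransitive D (↥(M ⊓ H) ⧸ C) := ⟨fun y y' => by
    obtain ⟨y, rfl⟩ := QuotientGroup.mk_surjective y
    obtain ⟨y', rfl⟩ := QuotientGroup.mk_surjective y'
    obtain ⟨d, hd⟩ := h8 y
    obtain ⟨d', hd'⟩ := h8 y'
    exact ⟨d' * d⁻¹, by rw [← hd, ← hd', smul_smul, inv_mul_cancel_right]⟩⟩
  have h9 : ¬ p ∣ Nat.card (↥(M ⊓ H) ⧸ C) := fun h9 => by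
    rw [← MulAction.index_stabilizer_of_transitive D ((1 : ↥(M ⊓ H)) : _ ⧸ C)] at h9
    obtain ⟨⟨⟨y, hy⟩, hy'⟩, h10⟩ := exists_prime_orderOf_dvd_card' p (h9.trans (index_dvd_card _))
    rw [orderOf_mk, orderOf_mk] at h10
    refine h6 (h4 y hy.1 hy.2 (h10 ▸ pow_orderOf_eq_one y) ?_ a h5 hy')
    rintro rfl
    exact (Fact.out : p.Prime).ne_one (by simpa using h10.symm)
  obtain ⟨y, hy⟩ := (isP_zpowers (t := (⟨u, hu, hu'⟩ : ↥(M ⊓ H)))
    (Subtype.ext up)).nonempty_fixed_point_of_prime_not_dvd_card _ h9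
  obtain ⟨y, rfl⟩ := QuotientGroup.mk_surjective y
  have h10 : y.1⁻¹ * (u * y.1) ∈ centralizer {k} :=
    (QuotientGroup.eq (s := C) (b := ⟨u, hu, hu'⟩ * y)).1 (hy ⟨_, mem_zpowers _⟩).symm
  exact h3 y y.2.1 y.2.2 (by rw [mul_assoc _ u]; exact mem_centralizer_singleton_iff.1 h10)

omit [Finite G] in
theorem comm_cancel {a b x y : G} (h1 : Commute a b) (h2 : Commute a x) (h3 : Commute a y)
    (h4 : Commute b x) (h5 : Commute b y) :
    a * x * (b * y) * (a * x)⁻¹ * (b * y)⁻¹ = x * y * x⁻¹ * y⁻¹ := by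
  have h6 : a * x * (b * y) * (a * x)⁻¹ = b * (x * y * x⁻¹) := by
    rw [mul_inv_eq_iff_eq_mul, h2.eq, mul_assoc x, (h1.mul_right h3).eq, ← mul_assoc, ← mul_assoc,
      ← h4.eq]
    group
  rw [h6, ((h4.mul_right h5).mul_right h4.inv_right).eq, h5.eq]
  rw [mul_inv_rev, mul_assoc _ b, mul_inv_cancel_left]

end Cfsg.Agent.H11.Tz
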