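import Mathlib
import Cfsg.Agent.H11.Tz1
import Cfsg.Agent.S0633

/-!
Elements fixing a single coset, second part: the group theory behind the maximality of `O₃ ≀ S₂`.
-/

set_option autoImplicit false
set_option linter.unusedSectionVars false

namespace Cfsg.Agent.H11.Tz

open Subgroup

variable {G : Type*} [Group G] [Finite G] {M H : Subgroup G} {p : ℕ} [Fact p.Prime]

theorem exists_inv2 {k : G} (hk : k ∈ M) (hH : k ∈ H) (k2 : k * k = 1) (h : Iso M H k) {z : G}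
    (hz : z ∈ M) : (∃ v ∈ M, v * v = 1 ∧ v * k * v = z * k * z⁻¹) ∨ ∃ c ∈ M, c ≠ 1 ∧ c * c = 1 ∧
      c * k = k * c ∧ z * k * z⁻¹ * c = c * (z * k * z⁻¹) ∧ ∃ y ∈ M, y ∈ H ∧ y * k * y⁻¹ = c * k := by
  have h3 : z * k * z⁻¹ ∈ M := mul_mem (mul_mem hz hk) (inv_mem hz)
  have h4 : z * k * z⁻¹ * (z * k * z⁻¹) = 1 := by rw [conj_mul, k2]; simp
  have ki := inv_eq_of_mul_eq_one_left k2
  set a := z * k * z⁻¹ with ha
  have ai := inv_eq_of_mul_eq_one_left h4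
  have h5 : k * (k * a) = (k * a)⁻¹ * k := by
    rw [mul_inv_rev, ki, ai, ← mul_assoc, k2, mul_assoc, k2, one_mul, mul_one]
  have h5' : a * (k * a) = (k * a)⁻¹ * a := by rw [mul_inv_rev, ki, ai, ← mul_assoc a]
  have hr : k * a ∈ M := mul_mem hk h3
  have h6 := inv_conj_zpow h5
  have h7 := inv_conj_zpow h5'
  have h8 : a = (k * a)⁻¹ * k := by rw [← h5, ← mul_assoc, k2, one_mul]
  generalize k * a = r at h5 h5' hr h6 h7 h8
  have h10 : ∀ n : ℕ, k * (r ^ n)⁻¹ = r ^ n * k := fun n => by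
    rw [mul_inv_eq_iff_eq_mul, mul_assoc, h6, mul_inv_cancel_left]
  obtain ⟨n, hn | hn⟩ := Nat.even_or_odd' (orderOf r)
  · have h11 : r ^ n * r ^ n = 1 := by rw [← pow_add, ← two_mul, ← hn, pow_orderOf_eq_one]
    have h12 := inv_eq_of_mul_eq_one_left h11
    have h13 : r ^ n ≠ 1 := pow_ne_one_of_lt_orderOf (by have := orderOf_pos r; omega)
      (by have := orderOf_pos r; omega)
    have h14 : r ^ n ∈ H := h.comm hH (pow_mem hr n) (by rw [h6, h12])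
    obtain ⟨y, hy, h15⟩ : ∃ y ∈ M, y * k * y⁻¹ = r ^ n * k := by
      obtain ⟨m, rfl | rfl⟩ := Nat.even_or_odd' n
      · exact ⟨r ^ m, pow_mem hr m, by rw [mul_assoc, h10, two_mul, pow_add, mul_assoc]⟩
      · refine ⟨r ^ (m + 1) * z, mul_mem (pow_mem hr _) hz, ?_⟩
        rw [mul_inv_rev, ← mul_assoc, mul_assoc _ z, mul_assoc _ _ z⁻¹, ← ha, h8, mul_assoc, mul_assoc,
          h10]
        group
    exact Or.inr ⟨_, pow_mem hr n, h13, h11, by rw [h6, h12], by rw [h7, h12], y, hy,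
      h y hy (h15 ▸ mul_mem h14 hH), h15⟩
  · have h11 : r ^ n * r ^ n = r⁻¹ := by
      rw [eq_inv_iff_mul_eq_one, ← pow_add, ← pow_succ, ← two_mul, ← hn, pow_orderOf_eq_one]
    refine Or.inl ⟨r ^ n * k, mul_mem (pow_mem hr n) hk, ?_, ?_⟩
    · rw [mul_assoc, ← mul_assoc k, h6, mul_assoc, k2]; simp
    · rw [mul_assoc _ k k, k2, mul_one, ← mul_assoc, h11, ← h8]

theorem nd (h4 : ∀ y ∈ M, y ∈ H → y ^ p = 1 → y ≠ 1 → Iso M H y) {a d : G} (ha : a ∈ M) (ha' : a ∉ H)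
    (h1 : d ∈ M) (h2 : d ∈ H) (h3 : a * d * a⁻¹ ∈ H) : ¬ p ∣ orderOf d := by
  rintro ⟨m, hm⟩
  have h5 := orderOf_pos d
  refine ha' (h4 (d ^ m) (pow_mem h1 m) (pow_mem h2 m) (by
    rw [← pow_mul, mul_comm, ← hm, pow_orderOf_eq_one]) (pow_ne_one_of_lt_orderOf
      (by rintro rfl; omega) ?_) a ha (conj_pow (a := a) ▸ pow_mem h3 m))
  have := (Fact.out : p.Prime).two_le
  rw [hm] at h5 ⊢
  nlinarith [Nat.pos_of_mul_pos_left h5]

theorem dich {k a : G} (hk : k ∈ M) (hH : k ∈ H) (k2 : k * k = 1) (h : Iso M H k) (h5 : a ∈ M)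
    (h6 : a ∉ H) (h7 : a * a = 1) {u : G} (hu : u ∈ M) (hu' : u ∈ H) (up : u ^ p = 1)
    (h3 : ∀ x ∈ M, x ∈ H → x⁻¹ * u * x * k ≠ k * (x⁻¹ * u * x))
    (h4 : ∀ y ∈ M, y ∈ H → y ^ p = 1 → y ≠ 1 → Iso M H y) : ∃ c ∈ M, c ∈ H ∧ a * c * a⁻¹ ∈ H ∧ c ≠ 1 ∧
      c * c = 1 ∧ ∃ y ∈ M, y ∈ H ∧ y * k * y⁻¹ = c * k := by
  by_contra h0
  have ai := inv_eq_of_mul_eq_one_left h7
  let D : Subgroup ↥(M ⊓ H) := (H.comap (MulAut.conj a).toMonoidHom).subgroupOf _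
  let C : Subgroup ↥(M ⊓ H) := (centralizer {k}).subgroupOf _
  have h8 : ∀ y : ↥(M ⊓ H), ∃ d : D, d • ((1 : ↥(M ⊓ H)) : _ ⧸ C) = y := fun y => by
    have hz := mul_mem h5 y.2.1
    obtain ⟨v, hv, v2, h8⟩ := (exists_inv2 hk hH k2 h hz).resolve_right
      fun ⟨c, b1, b2, b3, b4, b5, b6⟩ => h0 ⟨c, b1, h.comm hH b1 b4, by
        have b7 := h.comm hH (mul_mem (mul_mem (inv_mem hz) b1) hz) (by
          rw [← mul_left_inj (a * y.1)⁻¹, ← mul_right_inj (a * y.1)]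
          simpa [mul_assoc] using b5.symm)
        simpa [mul_assoc, ai] using H.mul_mem (H.mul_mem y.2.2 b7) (H.inv_mem y.2.2), b2, b3, b6⟩
    have vi := inv_eq_of_mul_eq_one_left v2
    have h9 : y.1⁻¹ * a * v * k = k * (y.1⁻¹ * a * v) := by
      rw [← mul_inv_eq_iff_eq_mul, mul_inv_rev, vi, mul_assoc _ v, ← mul_assoc, mul_assoc _ _ v, h8,
        mul_inv_rev, mul_inv_rev, ai]
      simp only [mul_assoc, inv_inv, ← mul_assoc a a, h7, one_mul, inv_mul_cancel_left, inv_mul_cancel,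
        mul_one]
    have h10 : a * v ∈ H := by
      simpa [mul_assoc] using mul_mem y.2.2
        (h.comm hH (mul_mem (mul_mem (inv_mem y.2.1) h5) hv) h9)
    refine ⟨⟨⟨a * v, mul_mem h5 hv, h10⟩, ?_⟩, (QuotientGroup.eq.2 ?_).symm⟩
    · change a * (a * v) * a⁻¹ ∈ H
      rw [← mul_assoc, h7, one_mul, ← vi, ← mul_inv_rev]; exact inv_mem h10
    · change y.1⁻¹ * (a * v * 1) ∈ centralizer {k}
      rw [mul_one, ← mul_assoc]; exact mem_centralizer_singleton_iff.2 h9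
  have : MulAction.IsPretransitive D (↥(M ⊓ H) ⧸ C) := ⟨fun y y' => by
    obtain ⟨y, rfl⟩ := QuotientGroup.mk_surjective y
    obtain ⟨y', rfl⟩ := QuotientGroup.mk_surjective y'
    obtain ⟨d, hd⟩ := h8 y
    obtain ⟨d', hd'⟩ := h8 y'
    exact ⟨d' * d⁻¹, by rw [← hd, ← hd', smul_smul, inv_mul_cancel_right]⟩⟩
  have h9 : ¬ p ∣ Nat.card (↥(M ⊓ H) ⧸ C) := fun h9 => by
    rw [← MulAction.index_stabilizer_of_transitive D ((1 : ↥(M ⊓ H)) : _ ⧸ C)] at h9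
    obtain ⟨⟨⟨y, hy⟩, hy'⟩, h10⟩ := exists_prime_orderOf_dvd_card' p (h9.trans (index_dvd_card _))
    rw [orderOf_mk, orderOf_mk] at h10
    exact nd h4 h5 h6 hy.1 hy.2 hy' (h10 ▸ dvd_rfl)
  obtain ⟨y, hy⟩ := (isP_zpowers (t := (⟨u, hu, hu'⟩ : ↥(M ⊓ H)))
    (Subtype.ext up)).nonempty_fixed_point_of_prime_not_dvd_card _ h9
  obtain ⟨y, rfl⟩ := QuotientGroup.mk_surjective y
  have h10 : y.1⁻¹ * (u * y.1) ∈ centralizer {k} :=
    (QuotientGroup.eq (s := C) (b := ⟨u, hu, hu'⟩ * y)).1 (hy ⟨_, mem_zpowers _⟩).symm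
  exact h3 y y.2.1 y.2.2 (by rw [mul_assoc _ u]; exact mem_centralizer_singleton_iff.1 h10)

theorem Iso.cop1 {t : G} (h : Iso M H t) (ht : t ∈ H) (hm : t ∈ M) (hp : t ^ p = 1) {K : Subgroup G}
    (hM : K ≤ M) (h1 : t ∈ normalizer (K : Set G)) (h2 : ∀ x ∈ K, x ∈ H → x ^ p = 1 → x = 1) :
    ¬ p ∣ Nat.card K := fun h3 => by
  obtain ⟨⟨x, hx⟩, h4⟩ := exists_prime_orderOf_dvd_card' p h3
  rw [orderOf_mk] at h4
  let L := K ⊔ zpowers t
  have h5 : (⟨x, mem_sup_left hx⟩ : L) ^ p = 1 := Subtype.ext (h4 ▸ pow_orderOf_eq_one x)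
  obtain ⟨P, hP⟩ := (isP_zpowers h5).exists_le_sylow
  obtain ⟨T, hT⟩ := ((isP_zpowers hp).comap_subtype (K := L)).exists_le_sylow
  obtain ⟨l, rfl⟩ := MulAction.exists_smul_eq L P T
  have h6 := h.pg ht ((map_subtype_le _).trans (sup_le hM (zpowers_le.2 hm)))
    ((l • P).isPGroup'.map L.subtype) ⟨⟨t, mem_sup_right (mem_zpowers t)⟩, hT (mem_zpowers t), rfl⟩
  have h7 : l.1 * x * l.1⁻¹ ∈ K := (mem_normalizer_iff.1
    ((sup_le le_normalizer (zpowers_le.2 h1) : L ≤ normalizer (K : Set G)) l.2) x).1 hx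
  have h8 := h2 _ h7 (h6 ⟨l * ⟨x, mem_sup_left hx⟩ * l⁻¹,
    smul_mem_pointwise_smul _ (MulAut.conj l) _ (hP (mem_zpowers _)), rfl⟩)
    (by rw [conj_pow, ← h4, pow_orderOf_eq_one]; simp)
  rw [conj_eq_one_iff.1 h8, orderOf_one] at h4
  exact (Fact.out : p.Prime).ne_one h4.symm

open Polynomial in
theorem hh_le {F V : Type*} [Field F] [CharP F p] [AddCommGroup V] [Module F V] [FiniteDimensional F V]
    [Nontrivial V] [Finite (V ≃ₗ[F] V)] (h5 : 5 ≤ p) {M H K : Subgroup (V ≃ₗ[F] V)} {t : V ≃ₗ[F] V}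
    (ht : t ∈ H) (hm : t ∈ M) (hp : t ^ p = 1) (t1 : t ≠ 1) (h3 : (t.toLinearMap - 1 : Module.End F V) ^ 3 = 0)
    (hM : K ≤ M) (h1 : t ∈ normalizer (K : Set (V ≃ₗ[F] V))) (h2 : ∀ x ∈ K, x ∈ H → x ^ p = 1 → x = 1)
    (h4 : ∀ y ∈ M, y ∈ H → y ^ p = 1 → y ≠ 1 → Iso M H y) : K ≤ H := by
  have h := h4 t hm ht hp t1
  have h6 := h.cop1 ht hm hp hM h1 h2
  let L := K ⊔ zpowers t
  have hL : L ≤ M := sup_le hM (zpowers_le.2 hm)
  have h7 : (K.subgroupOf L).Normal := (normal_subgroupOf_iff_le_normalizer le_sup_left).2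
    (sup_le le_normalizer (zpowers_le.2 h1))
  by_cases h8 : pCore p L = ⊥
  · exfalso
    have h9 : IsPSolvable p L := by
      refine ⟨2, ![⊥, K.subgroupOf L, ⊤], rfl, rfl, ?_, fun i => ?_, fun i => ?_⟩
      · exact Fin.monotone_iff_le_succ.2 fun i => by fin_cases i <;> simp
      · fin_cases i <;> simp <;> infer_instance
      fin_cases i
      · refine Or.inr ?_
        change ((⊥ : Subgroup L).relIndex (K.subgroupOf L)).Coprime p
        rw [relIndex_bot_left, Nat.card_congr (subgroupOfEquivOfLe le_sup_left).toEquiv]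
        exact (((Fact.out : p.Prime).coprime_iff_not_dvd).2 h6).symm
      · refine Or.inl ?_
        change ∃ m, (K.subgroupOf L).relIndex ⊤ = p ^ m
        rw [show (⊤ : Subgroup L) = (zpowers t).subgroupOf L ⊔ K.subgroupOf L by
          rw [← subgroupOf_sup le_sup_right le_sup_left, sup_comm, subgroupOf_self], relIndex_sup_right]
        obtain ⟨n, hn⟩ := IsPGroup.iff_card.1 ((isP_zpowers hp).comap_subtype (K := L))
        obtain ⟨m, -, hm⟩ := (Nat.dvd_prime_pow Fact.out).1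
          (hn ▸ relIndex_dvd_card (K.subgroupOf L) ((zpowers t).subgroupOf L))
        exact ⟨m, hm⟩
    obtain ⟨r, h10, h11⟩ := (dvd_prime_pow (prime_X_sub_C (1 : F)) 3).1
      (minpoly.dvd F (t : Module.End F V) (by simpa using h3))
    have h12 := eq_of_monic_of_associated (minpoly.monic (Algebra.IsIntegral.isIntegral _))
      ((monic_X_sub_C 1).pow r) h11
    rcases Cfsg.Agent.S0633.result L h9 h8 t (mem_sup_right (mem_zpowers t)) 1
      (by rw [pow_one]; exact orderOf_eq_prime hp t1) r (by simpa using h12) with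
      h13 | ⟨n, -, -, h13, h14, -, -, -, -, h15⟩
    · rw [pow_one] at h13; omega
    obtain rfl : n = 1 := by omega
    simp at h15; omega
  obtain ⟨P, ⟨h9, h10⟩, h11⟩ : ∃ P : Subgroup L, (P.Normal ∧ IsPGroup p P) ∧ P ≠ ⊥ := by
    by_contra! c
    exact h8 (sSup_eq_bot.2 c)
  have h12 : P.map L.subtype ≤ H := h.pg' ht hm hp ((map_subtype_le _).trans hL) (h10.map _)
    (le_normalizer_map (H := P) L.subtype ⟨⟨t, mem_sup_right (mem_zpowers t)⟩, by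
      rw [normalizer_eq_top]; trivial, rfl⟩)
  obtain ⟨n, hn⟩ := IsPGroup.iff_card.1 h10
  obtain ⟨⟨x, hx⟩, h13⟩ := exists_prime_orderOf_dvd_card' (G := P) p (by
    rw [hn]; exact dvd_pow_self p fun c => h11 (by rw [c, pow_zero] at hn; exact card_eq_one.1 hn))
  rw [orderOf_mk, ← orderOf_coe] at h13
  exact fun k hk => h4 x.1 (hL x.2) (h12 ⟨x, hx, rfl⟩) (h13 ▸ pow_orderOf_eq_one _) (fun c => by
    rw [c, orderOf_one] at h13; omega) k (hM hk)
    (h12 ⟨_, h9.conj_mem x hx ⟨k, mem_sup_left hk⟩, rfl⟩)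

end Cfsg.Agent.H11.Tz
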