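import Mathlib
import Cfsg.Agent.H19.TB6
import Cfsg.Agent.H26.S4a

/-!
Quadratic spaces of Witt index one: unipotent isometries, frames and involutions.
-/

set_option autoImplicit false
set_option linter.unusedSectionVars false

namespace Cfsg.Agent.H11.Tz

open Module H10 H11 H19.TA
open H11.Im (r r_apply r_isom r_inv r_r r_self conj_r torus_mem weyl_eq)
open H26.MX hiding finrank_le_inf_ker finrank_span_pair_le finrank_span_one_le SLv mem_SLv
  map_eq_of_le

variable {F : Type*} [Field F] {U : Type*} [AddCommGroup U] [Module F U] [FiniteDimensional F U]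
  {g : U →ₗ[F] U →ₗ[F] F} {p : U → F}

/-- Witt index at most one -/
def W1 (g : U →ₗ[F] U →ₗ[F] F) (p : U → F) : Prop :=
  ∀ a r, p a = 0 → p r = 0 → g a r = 0 → a ≠ 0 → r ∈ F ∙ a

theorem eig (h2 : (2 : F) ≠ 0) {s : End F U} (hs : ∀ x, s (s x) = x) :
    finrank F (LinearMap.ker (s - 1)) + finrank F (LinearMap.ker (-s - 1)) = finrank F U :=
  Submodule.finrank_add_eq_of_isCompl ⟨Submodule.disjoint_def.2 fun x h1 h3 => by
    rw [LinearMap.mem_ker] at h1 h3
    have h4 : (2 : F) • x = 0 := by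
      rw [show (2 : F) • x = -((s - 1) x + (-s - 1) x) by simp [two_smul], h1, h3]; simp
    simpa [h2] using h4, codisjoint_iff.2 (Submodule.eq_top_iff'.2 fun x => Submodule.mem_sup.2
      ⟨(2 : F)⁻¹ • (x + s x), by simp [hs, add_comm], (2 : F)⁻¹ • (x - s x), by simp [hs], by
        rw [← smul_add, add_add_sub_cancel, ← two_smul F, smul_smul, inv_mul_cancel₀ h2, one_smul]⟩)⟩

variable (h : Cl (σ := RingHom.id F) 1 2 (AddMonoidHom.id F) g p)
include h

theorem det_sim {s : U ≃ₗ[F] U} {l : F} (hs : ∀ a b, g (s a) (s b) = l * g a b) :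
    LinearMap.det s.toLinearMap ^ 2 = l ^ finrank F U := by
  have hi : Function.Injective g := (injective_iff_map_eq_zero _).2 fun x hx => h.sep x fun y => by
    simp [hx]
  let φ : U ≃ₗ[F] Dual F U := LinearEquiv.ofBijective g
    ⟨hi, (LinearMap.injective_iff_surjective_of_finrank_eq_finrank (by simp)).1 hi⟩
  have h1 : (φ.symm.toLinearMap ∘ₗ s.toLinearMap.dualMap ∘ₗ φ.symm.symm.toLinearMap) ∘ₗ s.toLinearMap =
      l • LinearMap.id := LinearMap.ext fun x => φ.symm_apply_eq.2 (LinearMap.ext fun y => by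
    rw [LinearMap.smul_apply, map_smul]; exact hs x y)
  have := congrArg LinearMap.det h1
  rw [LinearMap.det_comp, LinearMap.det_conj, LinearMap.det_dualMap, LinearMap.det_smul] at this
  simpa [sq] using this

theorem sq_of_sim (hn : finrank F U = 3) {s : U ≃ₗ[F] U} {l : F} (hl : l ≠ 0)
    (hs : ∀ a b, g (s a) (s b) = l * g a b) : ∃ c, c ≠ 0 ∧ c * c = l := by
  have h1 := det_sim h hs
  rw [hn] at h1
  have h2 : LinearMap.det s.toLinearMap / l * (LinearMap.det s.toLinearMap / l) = l := by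
    field_simp; exact h1
  exact ⟨_, fun h3 => hl (by rw [← h2, h3, mul_zero]), h2⟩

theorem ker3 (hn : finrank F U = 3) {a b c x : U} (ha : g a x = 0) (hb : g b x = 0) (hc : g c x = 0)
    (hi : ∀ r s t : F, r • a + s • b + t • c = 0 → r = 0 ∧ s = 0 ∧ t = 0) : x = 0 := by
  have h1 : LinearIndependent F ![a, b, c] := Fintype.linearIndependent_iff.2 fun r hr i => by
    obtain ⟨h1, h2, h3⟩ := hi (r 0) (r 1) (r 2) (by simpa [Fin.sum_univ_three] using hr)
    fin_cases i <;> assumption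
  have h2 := h1.span_eq_top_of_card_eq_finrank (by simp [hn])
  exact h.form.separatingRight h.sep fun y => (mem_perp_span (s := Set.range ![a, b, c])).2
    (by rintro _ ⟨i, rfl⟩; fin_cases i <;> assumption) y (h2 ▸ trivial)

theorem w1_three (hn : finrank F U = 3) : W1 g p := fun a r ha hr h1 h0 => by
  by_contra h2
  obtain ⟨z, h3, h4⟩ := exists_perp_one h h2
  exact h0 (ker3 h hn (h.diag0 ha) (h.refl h1) (h.refl h3) fun i j k hi => by
    have h5 := congrArg (g r) hi
    simp only [map_add, map_smul, h.refl h1, h.diag0 hr, h4, smul_eq_mul, map_zero] at h5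
    obtain rfl : k = 0 := by simpa using h5
    have h6 := congrArg (g z) hi
    simp only [map_add, map_smul, h.refl h3, h.flip_one h4, smul_eq_mul, map_zero] at h6
    obtain rfl : j = 0 := by simpa using h6
    simpa [h0] using hi)

theorem isom_of (h2 : (2 : F) ≠ 0) {s : U ≃ₗ[F] U} (hs : ∀ a b, g (s a) (s b) = g a b) :
    s ∈ Isom g p := ⟨hs, fun x => q_eq_of h h2 (hs x x)⟩

theorem ev (h2 : (2 : F) ≠ 0) {e a b : U} (he : p e = 0) (e0 : e ≠ 0) (ea : g e a = 0) (pa : p a ≠ 0)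
    (b0 : b ≠ 0) {μ : F} (h1 : h.eich e a (p a) b = μ • b) : μ = 1 ∧ g e b = 0 ∧ g a b = 0 := by
  rw [h.eich_apply he ea] at h1
  have h3 := congrArg (g e) h1
  have h4 := congrArg (g a) h1
  simp only [map_add, map_sub, map_smul, h.diag0 he, ea, h.refl ea, qd h a, smul_eq_mul] at h3 h4
  have h5 : g e b = 0 := by
    by_contra h5
    obtain rfl : μ = 1 := mul_right_cancel₀ h5 (by linear_combination -h3)
    exact mul_ne_zero h5 (mul_ne_zero h2 pa) (by linear_combination -h4)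
  simp only [h5, mul_zero, zero_smul, sub_zero] at h1 h4
  obtain rfl : μ = 1 := by
    by_contra h6
    have h7 : g a b = 0 := (mul_eq_zero.1 (by linear_combination -h4 : (μ - 1) * g a b = 0)).resolve_left
      (sub_ne_zero.2 h6)
    exact h6 (smul_left_injective F b0 (by simpa [h7] using h1.symm))
  exact ⟨rfl, h5, by simpa [e0] using h1⟩

theorem un2 {s : U ≃ₗ[F] U} (hs : s ∈ Isom g p) {e : U} (he : p e = 0) (e0 : e ≠ 0) (h1 : s e = e)
    (h2 : ∀ y, g e y = 0 → s y - y ∈ F ∙ e) : ∃ a, g e a = 0 ∧ s = h.eich e a (p a) := by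
  obtain ⟨e', he', h3⟩ := h.form.exists_partner h.sep he e0
  obtain ⟨a, c, h4, rfl, h5⟩ := h.exists_eich_apply (v := e') (v' := s e') he (hs.2 _).symm
    (by rw [← hs.1 e e', h1]) (by simp [h3])
  have h6 := h.eich_mem_isom he h4 rfl
  have h7 : ∀ y, g e y = 0 → s y = h.eich e a (p a) y := fun y hy => by
    obtain ⟨c, hc⟩ := Submodule.mem_span_singleton.1 (h2 y hy)
    have h8 := h.eich_of_perp he h4 (p a) hy
    have h9 := (hs.1 e' y).trans (h6.1 e' y).symm
    rw [← h5, eq_add_of_sub_eq' hc.symm] at h9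
    erw [h8] at h9
    have h10 : g (h.eich e a (p a) e') e = 1 := by
      have := h6.1 e' e
      rwa [h.eich_fix (x := e) (p a) (h.diag0 he) (h.refl h4), h.flip_one h3] at this
    rw [h8, eq_add_of_sub_eq' hc.symm, show c = g a y by
      simpa [show g (h.eich e a ((AddMonoidHom.id F) (p a)) e') e = 1 from h10, h10] using h9]
  refine ⟨a, h4, LinearEquiv.ext fun x => ?_⟩
  have := h7 (x - g e x • e') (by simp [h3])
  rwa [map_sub, map_sub, map_smul, map_smul, ← h5, sub_left_inj] at this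

theorem nil_of_pow [Finite F] [Nontrivial U] {s : U ≃ₗ[F] U} (hp : s ^ ringChar F = 1) :
    (s.toLinearMap - 1 : End F U) ^ ringChar F = 0 := by
  have := Fact.mk (CharP.char_is_prime F (ringChar F))
  have := charP_of_injective_algebraMap (algebraMap F (End F U)).injective (ringChar F)
  rw [sub_pow_char_of_commute _ (Commute.one_right _), one_pow, sub_eq_zero]
  exact (LinearEquiv.automorphismGroup.toLinearMapMonoidHom.map_pow s _).symm.trans (congrArg _ hp)

theorem un [Finite F] (h2 : (2 : F) ≠ 0) (hn : 3 ≤ finrank F U) (hl : W1 g p) {s : U ≃ₗ[F] U}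
    (hs : s ∈ Isom g p) (hp : s ^ ringChar F = 1) :
    ∃ e a, e ≠ 0 ∧ p e = 0 ∧ g e a = 0 ∧ s = h.eich e a (p a) := by
  have : Nontrivial U := Module.nontrivial_of_finrank_pos (R := F) (by omega)
  have h1 := nil_of_pow h hp
  by_cases h0 : ∀ x, s x = x
  · obtain ⟨e, -, e0, he⟩ := h.exists_sing3 (W := ⊤) (by simpa)
    exact ⟨e, 0, e0, he, by simp, by rw [h.Q_zero, h.eich_zero]; exact LinearEquiv.ext h0⟩
  set N : End F U := s.toLinearMap - 1 with hN
  have h3 : ∀ x, N x = s x - x := fun _ => rfl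
  have h4 : ∀ (S : Submodule F U) x, N x ∉ S → ∃ m, N ((N ^ m) x) ∉ S ∧ N (N ((N ^ m) x)) ∈ S := by
    intro S x h4
    by_contra! h5
    have : ∀ m, N ((N ^ m) x) ∉ S := fun m => by
      induction m with
      | zero => exact h4
      | succ m ih => rw [pow_succ']; exact h5 m ih
    exact this (ringChar F) (by simp [h1])
  push Not at h0
  obtain ⟨x, hx⟩ := h0
  obtain ⟨m, e0, h5⟩ := h4 ⊥ x (by simpa [h3, sub_eq_zero])
  generalize (N ^ m) x = z at e0 h5
  rw [Submodule.mem_bot] at e0 h5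
  have h6 : s (N z) = N z := sub_eq_zero.1 h5
  have h7 : p (N z) = 0 := mul_left_cancel₀ h2 (by
    rw [← qd h, mul_zero]; nth_rw 1 [h3]; rw [map_sub, LinearMap.sub_apply, ← hs.1 z, h6, sub_self])
  generalize N z = e at e0 h6 h7
  have h8 : ∀ y, g e (N y) = 0 := fun y => by rw [h3, map_sub, ← hs.1 e y, h6, sub_self]
  refine ⟨e, (un2 h hs h7 e0 h6 fun y hy => by_contra fun h9 => ?_).imp fun a ha => ⟨e0, h7, ha⟩⟩
  obtain ⟨m, h10, h11⟩ := h4 _ y h9
  have h12 : g e ((N ^ m) y) = 0 := by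
    cases m with
    | zero => exact hy
    | succ m => rw [pow_succ']; exact h8 _
  generalize (N ^ m) y = z at h10 h11 h12
  obtain ⟨c, hc⟩ := Submodule.mem_span_singleton.1 h11
  refine h10 (hl e _ h7 (mul_left_cancel₀ h2 ?_) (h8 z) e0)
  have h13 : g (s z) e = 0 := by rw [← h6, hs.1, h.refl h12]
  rw [← qd h, mul_zero]; nth_rw 1 [h3]
  rw [map_sub, LinearMap.sub_apply, ← hs.1 z, show s (N z) = N z + c • e by rw [hc, h3 (N z)]; abel]
  simp [h13]

theorem eich_eq (h2 : (2 : F) ≠ 0) (hl : W1 g p) {e a : U} (he : p e = 0) (e0 : e ≠ 0) (ea : g e a = 0)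
    (pa : p a ≠ 0) {s : U ≃ₗ[F] U} (hs : s ∈ Isom g p) {μ : F}
    (h1 : ∀ x, h.eich e a (p a) (s x) = μ • s (h.eich e a (p a) x)) :
    ∃ α : F, α * α = 1 ∧ α • s e = e ∧ α • s a - a ∈ F ∙ e := by
  have h3 := h1 e
  rw [h.eich_fix (x := e) _ (h.diag0 he) (h.refl ea)] at h3
  obtain ⟨rfl, h4, -⟩ := ev h h2 he e0 ea pa (app_ne_zero s e0) h3
  obtain ⟨α, h5⟩ := Submodule.mem_span_singleton.1 (hl e (s e) he (by rw [hs.2, he]) h4 e0)
  obtain ⟨e', h6⟩ := h.form.exists_right_eq_one h.sep e0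
  have h7 : g e (s a) = 0 := by
    have := hs.1 e a
    rw [← h5, ea] at this
    exact by_contra fun h7 => app_ne_zero s e0 (by rw [← h5, show α = 0 by simpa [h7] using this, zero_smul])
  have h8 := LinearEquiv.congr_fun (h.conj_eich hs e a (p a)) e'
  rw [mul_app, mul_app, ← one_smul F (s _), ← h1, app_inv, ← h5, h.eich_smul_left he h7, h.eich_apply he ea,
    h.eich_apply he (by simp [h7]), h6] at h8
  have h9 : α • s a - a ∈ F ∙ e := Submodule.mem_span_singleton.2
    ⟨g (α • s a) e' - α * α * p a - g a e' + p a, by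
      simp only [RingHom.id_apply, mul_one, one_smul] at h8
      linear_combination (norm := module) -h8⟩
  obtain ⟨c, hc⟩ := Submodule.mem_span_singleton.1 h9
  have h10 := congrArg p (eq_add_of_sub_eq' hc.symm)
  rw [h.Q_smul, hs.2, h.Q_add, h.sing_smul he] at h10
  have h11 : α * α = 1 := mul_right_cancel₀ pa (by simpa [h.refl ea] using h10)
  exact ⟨α, h11, by rw [← h5, smul_smul, h11, one_smul], h9⟩

theorem dec3 (h2 : (2 : F) ≠ 0) (hn : finrank F U = 3) {e e' a : U} (he : p e = 0) (he' : p e' = 0)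
    (ee : g e e' = 1) (ea : g e a = 0) (ea' : g e' a = 0) (pa : p a ≠ 0) (x : U) :
    x = g e' x • e + g e x • e' + (g a x / (2 * p a)) • a :=
  sub_eq_zero.1 (ker3 h hn (a := e) (b := e') (c := a) (by simp [h.diag0 he, ee, ea])
    (by simp [h.diag0 he', h.flip_one ee, ea']) (by
      simp [h.refl ea, h.refl ea', qd h a, mul_ne_zero h2 pa]) fun i j k hi => by
    have h3 := congrArg (g e) hi
    have h4 := congrArg (g e') hi
    have h5 := congrArg (g a) hi
    simp [h.diag0 he, h.diag0 he', ee, h.flip_one ee, ea, ea', h.refl ea, h.refl ea', qd h a, h2, pa]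
      at h3 h4 h5
    exact ⟨h4, h3, h5⟩)

theorem partner {e a : U} (he : p e = 0) (e0 : e ≠ 0) (ea : g e a = 0) (pa : p a ≠ 0) :
    ∃ e', p e' = 0 ∧ g e e' = 1 ∧ g e' a = 0 := by
  obtain ⟨e', h1, h3, h4⟩ := h.form.exists_partner_perp h.sep he (Z := F ∙ a) (fun h1 => by
    obtain ⟨c, rfl⟩ := Submodule.mem_span_singleton.1 h1
    rw [h.Q_smul] at he
    simp [show c = 0 by simpa [pa] using he] at e0) fun z hz => by
      obtain ⟨c, rfl⟩ := Submodule.mem_span_singleton.1 hz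
      simp [h.refl ea]
  exact ⟨e', h1, h3, h.refl (h4 a (Submodule.mem_span_singleton_self a))⟩

theorem frame [Finite F] (hn : 3 ≤ finrank F U) : ∃ e e' a, p e = 0 ∧ p e' = 0 ∧ g e e' = 1 ∧ g e a = 0 ∧
    g e' a = 0 ∧ p a ≠ 0 := by
  obtain ⟨e, -, e0, he⟩ := h.exists_sing3 (W := ⊤) (by simpa)
  obtain ⟨e', he', ee⟩ := h.form.exists_partner h.sep he e0
  obtain ⟨a, h1⟩ := exists_nons3 h hn he he' ee
  exact ⟨e, e', a, he, he', ee, h1⟩

theorem scal_of_sing [Finite F] (h2 : (2 : F) ≠ 0) (hn : finrank F U = 3) {m : End F U}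
    (hm : ∀ e, p e = 0 → m e ∈ F ∙ e) : ∃ c : F, ∀ x, m x = c • x := by
  obtain ⟨e, e', a, he, he', ee, ea, ea', pa⟩ := frame h hn.ge
  obtain ⟨α, h1⟩ := Submodule.mem_span_singleton.1 (hm e he)
  obtain ⟨β, h3⟩ := Submodule.mem_span_singleton.1 (hm e' he')
  have h4 : ∀ t : F, p (e' + t • a - (t * t * p a) • e) = 0 := fun t => by
    simp [h.form.sub, h.Q_add, h.Q_smul, he, he', ea', h.flip_one ee, h.refl ea]
  obtain ⟨γ, h5⟩ := Submodule.mem_span_singleton.1 (hm _ (h4 1))
  obtain ⟨δ, h6⟩ := Submodule.mem_span_singleton.1 (hm _ (h4 (-1)))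
  simp only [map_sub, map_add, map_smul, ← h1, ← h3] at h5 h6
  have h7 := congrArg₂ (· + ·) h5 h6
  have h8 := congrArg (g e) h7
  have h9 := congrArg (g e') h7
  have h10 := congrArg (g a) h7
  have h11 : ∀ x, g x (m a) + g x (-m a) = 0 := by simp
  simp only [map_add, map_sub, map_smul, h.diag0 he, h.diag0 he', ee, h.flip_one ee, ea, ea', h.refl ea,
    h.refl ea', qd h a, smul_eq_mul] at h8 h9 h10
  obtain rfl : δ = γ := mul_left_cancel₀ (mul_ne_zero h2 pa) (by linear_combination -h10)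
  obtain rfl : β = δ := mul_left_cancel₀ h2 (by linear_combination -h8)
  obtain rfl : α = β := mul_left_cancel₀ (mul_ne_zero h2 pa) (by linear_combination h9)
  have h12 : m a = α • a := by linear_combination (norm := module) -h5
  refine ⟨α, fun x => ?_⟩
  rw [dec3 h h2 hn he he' ee ea ea' pa x]
  simp only [map_add, map_smul, ← h1, ← h3, h12]; module

theorem tor [Finite F] {e e' a : U} (he : p e = 0) (he' : p e' = 0) (ee : g e e' = 1) (ea : g e a = 0)
    (ea' : g e' a = 0) (pa : p a ≠ 0) {s : F} (s0 : s ≠ 0) : ∃ t ∈ h.Om, t e = (s * s) • e ∧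
      ∀ x, g e x = 0 → t x = x + ((s * s - 1) * g e' x) • e := by
  have := Fintype.ofFinite F
  have h1 : ∀ u, p u = 0 → g u a = 0 → a ∈ h.Arm h.Om u := fun u hu h1 =>
    h.le_arm hu (U := ⊤) (fun y _ c => h.eich_mem_om hu) trivial h1
  have h3 : ∀ x, g e x = 0 → (r h (e + (s * s * p a)⁻¹ • e') * r h (e + (p a)⁻¹ • e')) x =
      x + ((s * s - 1) * g e' x) • e := fun x hx => by
    rw [H26.S4.rr_apply h he he' ee (by simp [s0, pa]) (by simp [pa]) hx]
    congr 3; field_simp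
  exact ⟨_, torus_mem h he he' ee (h1 e he ea) (h1 e' he' ea') pa s0, by
    rw [h3 e (h.diag0 he), h.flip_one ee]; module, h3⟩

theorem trans (hn : 3 ≤ finrank F U) (hl : W1 g p) {w w' : U} (h0 : w ≠ 0) (h0' : w' ≠ 0) (hw : p w = 0)
    (hw' : p w' = 0) : ∃ t ∈ h.Om, ∃ c : F, c ≠ 0 ∧ t w' = c • w := by
  by_cases h1 : g w w' = 0
  · obtain ⟨c, rfl⟩ := Submodule.mem_span_singleton.1 (hl w w' hw hw' h1 h0)
    exact ⟨1, one_mem _, c, by rintro rfl; simp at h0', rfl⟩
  obtain ⟨z, h2, h3, h4⟩ := exists_nons3 h hn hw (h.sing_smul hw' (g w w')⁻¹) (by simp [h1])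
  replace h3 : g w' z = 0 := by simpa [h1] using h3
  have h5 : p (w' - g w w' • z - (g w w' * p z) • w) = 0 := by
    simp [h.form.sub, h.Q_smul, hw, hw', h3, qs h w' w, h.refl h2]; ring
  have h6 : g (w' - g w w' • z - (g w w' * p z) • w) w = g w w' := by
    simp [h.diag0 hw, h.refl h2, qs h w' w]
  have h7 : g (w' - g w w' • z - (g w w' * p z) • w) w' ≠ 0 := by
    simp [h.diag0 hw', h.refl h3, h1, h4]
  generalize w' - g w w' • z - (g w w' * p z) • w = u at h5 h6 h7
  obtain ⟨x, c, h8, h9, h10⟩ := h.exists_eich_apply (v := w') (v' := (g u w' / g u w) • w) h5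
    (by rw [hw', h.sing_smul hw]) (by simp [h6, h1]) h7
  exact ⟨_, h.eich_mem_om h5 h8 h9, _, div_ne_zero h7 (h6 ▸ h1), h10⟩

theorem det_om (h2 : (2 : F) ≠ 0) {s : U ≃ₗ[F] U} (hs : s ∈ h.Om) : LinearMap.det s.toLinearMap = 1 := by
  obtain ⟨s, h3, rfl⟩ := mem_comm_of_om h h2 hs
  simpa using congrArg Units.val (Abelianization.commutator_subset_ker
    ((LinearEquiv.det (R := F) (M := U)).comp (Isom g p).subtype) h3)

theorem inv_line (h2 : (2 : F) ≠ 0) (hn : finrank F U = 3) {s : U ≃ₗ[F] U} (hs : s ∈ Isom g p)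
    (s2 : ∀ x, s (s x) = x) (h1 : s ≠ 1) (hd : LinearMap.det s.toLinearMap = 1) :
    ∃ b, ∃ ε : F, p b ≠ 0 ∧ s b = ε • b ∧ ∀ x, s x = ε • x → x ∈ F ∙ b := by
  have h3 := eig h2 (s := s.toLinearMap) s2
  have h4 : ∀ ε : F, ε * ε = 1 → finrank F (LinearMap.ker (ε • s.toLinearMap - 1)) = 1 →
      ∃ b, ∃ ε : F, p b ≠ 0 ∧ s b = ε • b ∧ ∀ x, s x = ε • x → x ∈ F ∙ b := fun ε hε h4 => by
    obtain ⟨b, h5, b0⟩ := exists_ne_zero_of_finrank h4.ge
    have h6 : ∀ x, x ∈ LinearMap.ker (ε • s.toLinearMap - 1) ↔ s x = ε • x := fun x => by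
      rw [LinearMap.mem_ker, LinearMap.sub_apply, sub_eq_zero]
      exact ⟨fun h => by rw [← show ε • s x = x from h, smul_smul, hε, one_smul, show ε • s x = x from h],
        fun h => show ε • s x = x by rw [h, smul_smul, hε, one_smul]⟩
    have h7 : ∀ x, s x = ε • x → x ∈ F ∙ b := fun x hx => (Submodule.eq_of_le_of_finrank_le
      ((Submodule.span_singleton_le_iff_mem _ _).2 h5) (by rw [h4, finrank_span_singleton b0])).ge
      ((h6 x).2 hx)
    refine ⟨b, ε, fun pb => b0 (h.sep b fun x => mul_left_cancel₀ h2 ?_), (h6 b).1 h5, h7⟩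
    obtain ⟨c, hc⟩ := Submodule.mem_span_singleton.1 (h7 (x + ε • s x) (by
      rw [map_add, map_smul, s2, smul_add, smul_smul, hε, one_smul, add_comm]))
    have h8 := congrArg (g b) hc
    have h9 := hs.1 b x
    rw [(h6 b).1 h5] at h9
    simp only [map_add, map_smul, h.diag0 pb, smul_eq_mul, LinearMap.smul_apply] at h8 h9
    linear_combination -h8 - h9
  have h5 : finrank F (LinearMap.ker (s.toLinearMap - 1)) ≠ 3 := fun h5 => h1 (LinearEquiv.ext fun x =>
    sub_eq_zero.1 (Submodule.eq_top_iff'.1 (Submodule.eq_top_of_finrank_eq (h5.trans hn.symm)) x))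
  have h6 : finrank F (LinearMap.ker (-s.toLinearMap - 1)) ≠ 3 := fun h6 => by
    rw [show s.toLinearMap = (-1 : F) • LinearMap.id from LinearMap.ext fun x => by
      simpa [neg_eq_iff_eq_neg] using sub_eq_zero.1 (Submodule.eq_top_iff'.1
        (Submodule.eq_top_of_finrank_eq (h6.trans hn.symm)) x), LinearMap.det_smul, hn] at hd
    exact h2 (by simp at hd; linear_combination -hd)
  by_cases h7 : finrank F (LinearMap.ker (s.toLinearMap - 1)) = 1
  · exact h4 1 (by simp) (by rwa [one_smul])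
  · exact h4 (-1) (by simp) (by rw [neg_one_smul]; omega)

end Cfsg.Agent.H11.Tz
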