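import Mathlib
import Cfsg.Agent.H11.Tz2

/-!
Tensor products `O₃ ⊗ O(W)` with `W` of Witt index one: the unipotent radical.
-/

set_option autoImplicit false
set_option linter.unusedSectionVars false

namespace Cfsg.Agent.H11.Tz

open Module H10 H11 H19.TA
open H11.Im (r r_apply r_isom r_inv r_r r_self conj_r)
open H26.MX hiding finrank_le_inf_ker finrank_span_pair_le finrank_span_one_le SLv mem_SLv
  map_eq_of_le

variable {F : Type*} [Field F] {U W : Type*} [AddCommGroup U] [Module F U] [AddCommGroup W] [Module F W]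
  {g : U →ₗ[F] U →ₗ[F] F} {f : W →ₗ[F] W →ₗ[F] F} {p : U → F} {q : W → F}
  {B : (W →ₗ[F] U) →ₗ[F] (W →ₗ[F] U) →ₗ[F] F} {Q : (W →ₗ[F] U) → F}
  {M : Subgroup ((W →ₗ[F] U) ≃ₗ[F] (W →ₗ[F] U))}

theorem add_sq {A : Type*} [AddCommGroup A] [Module F A] (h2 : (2 : F) ≠ 0) {S : AddSubgroup A} {x : A}
    (h : ∀ s : F, s ≠ 0 → (s * s) • x ∈ S) (c : F) : c • x ∈ S := by
  have k : ∀ s : F, (s * s) • x ∈ S := fun s => by
    by_cases s0 : s = 0
    · simp [s0]
    exact h s s0
  convert sub_mem (k ((c + 1) / 2)) (k ((c - 1) / 2)) using 1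
  rw [← sub_smul]; congr 1; field_simp; ring

theorem sym_scal [FiniteDimensional F U] [Finite F]
    (h : Cl (σ := RingHom.id F) 1 2 (AddMonoidHom.id F) g p) (h2 : (2 : F) ≠ 0) (hn : finrank F U = 3)
    {t : F} (t0 : t ≠ 0) (t1 : t * t ≠ 1) {m : End F U} (hs : ∀ a b, g a (m b) = g b (m a))
    (hm : ∀ e, p e = 0 → g e (m e) = 0) : ∃ c : F, ∀ x, m x = c • x :=
  scal_of_sing h h2 hn fun e he => by
    by_cases e0 : e = 0
    · simp [e0]
    obtain ⟨e', he', ee⟩ := h.form.exists_partner h.sep he e0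
    obtain ⟨a, ea, ea', pa⟩ := exists_nons3 h hn.ge he he' ee
    have h4 : ∀ t : F, g (e' + t • a - (t * t * p a) • e) (m (e' + t • a - (t * t * p a) • e)) = 0 :=
      fun t => hm _ (by simp [h.form.sub, h.Q_add, h.Q_smul, he, he', ea', h.flip_one ee, h.refl ea])
    have h5 := h4 1
    have h6 := h4 (-1)
    have h7 := h4 t
    have h8 := h4 (-t)
    simp only [map_add, map_sub, map_smul, LinearMap.add_apply, LinearMap.sub_apply, LinearMap.smul_apply,
      smul_eq_mul, hs e a, hs e' a, hs e' e] at h5 h6 h7 h8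
    have h9 : g a (m e) = 0 := mul_left_cancel₀ (mul_ne_zero (mul_ne_zero (mul_ne_zero h2 h2) pa)
      (mul_ne_zero t0 (sub_ne_zero.2 t1))) (by linear_combination t * h5 - t * h6 - h7 + h8)
    rw [dec3 h h2 hn he he' ee ea ea' pa (m e), hm e he, h9]
    simp [Submodule.smul_mem, Submodule.mem_span_singleton_self]

/-- the elements of the unipotent radical acting trivially on `(U ⊗ w)^⊥` -/
def Z1 (f : W →ₗ[F] W →ₗ[F] F) (M : Subgroup ((W →ₗ[F] U) ≃ₗ[F] (W →ₗ[F] U))) {w : W}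
    (hw : f w w = 0) : AddSubgroup (End F U) where
  carrier := {ζ | ∃ z ∈ M, ∀ v : W →ₗ[F] U, z v = v + pt U f (ζ (v w)) w}
  zero_mem' := ⟨1, one_mem _, fun v => by simp⟩
  add_mem' := by
    rintro ψ χ ⟨e, h5, h6⟩ ⟨e', h7, h8⟩
    exact ⟨e * e', mul_mem h5 h7, fun v => by rw [mul_app, h8, h6]; simp [hw]; abel⟩
  neg_mem' := by
    rintro ψ ⟨e, h5, h6⟩
    exact ⟨e⁻¹, inv_mem h5, fun v => inv_eq_of (by rw [h6]; simp [hw])⟩

/-- wedge products as skew maps -/
def wd (g : U →ₗ[F] U →ₗ[F] F) (c b : U) : End F U := (g b).smulRight c - (g c).smulRight b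

theorem wd_apply (c b x : U) : wd g c b x = g b x • c - g c x • b := rfl

/-- an overgroup of `Ω₃ ⊗ Ω(W)`, with `W` of Witt index one -/
structure T3 (g : U →ₗ[F] U →ₗ[F] F) (p : U → F) (f : W →ₗ[F] W →ₗ[F] F) (q : W → F)
    (B : (W →ₗ[F] U) →ₗ[F] (W →ₗ[F] U) →ₗ[F] F) (Q : (W →ₗ[F] U) → F)
    (M : Subgroup ((W →ₗ[F] U) ≃ₗ[F] (W →ₗ[F] U))) : Prop
    extends TO 1 2 (AddMonoidHom.id F) g p f q B Q M where
  u3 : finrank F U = 3
  w3 : 3 ≤ finrank F W
  wl : W1 f q
  sq : ∃ t : F, t ≠ 0 ∧ t * t ≠ 1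
  nle : ¬ hV.Om ≤ M

namespace T3

variable [FiniteDimensional F U] [FiniteDimensional F W] [Finite F] (h : T3 g p f q B Q M)
include h

theorem not_wedge {w : W} (w0 : w ≠ 0) (hw : q w = 0) :
    ¬ ∀ c b, pt U f b w ∈ h.hV.Arm M (pt U f c w) := fun h1 => by
  have h2 : ∀ w, w ≠ 0 → q w = 0 → ∀ c b, pt U f b w ∈ h.hV.Arm M (pt U f c w) := fun w' h2 h3 c b => by
    obtain ⟨t, h4, d, d0, h5⟩ := trans h.hW h.w3 h.wl h2 w0 h3 hw
    simpa [rt_pt (h.hW.om_le_isom h4).1, h5, smul_smul, d0] using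
      arm_map h.hV h.le (h.rm t h4) (h1 (d⁻¹ • c) (d⁻¹ • b))
  have h3 : ∀ {w w'}, q w = 0 → q w' = 0 → f w w' = 1 → ∀ {c b}, g c b = 0 → ∀ y,
      pt U f b y ∈ h.hV.Arm M (pt U f c w) := fun {w w'} hw hw' ww {c b} cb y => by
    have w0 : w ≠ 0 := by rintro rfl; simp at ww
    have h3 : pt U f b w' ∈ h.hV.Arm M (pt U f c w) := by
      by_cases b0 : b = 0
      · simp [b0]
      have h3 := h.hU.form.finrank_perp h.hU.sep (F ∙ c)
      have h4 := H10.finrank_span_one_le (F := F) c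
      obtain ⟨b', h5, h6⟩ := exists_not_mem_of_lt (W := F ∙ b) (U := perp g (F ∙ c)) (by
        rw [finrank_span_singleton b0]; have := h.u3; omega)
      obtain ⟨x, h7, h8⟩ := exists_perp_one h.hU h6
      simpa [h.Bp, h.hW.flip_one ww, h7, h8] using arm_step h.hV h.le (h.Qp b w' hw')
        (by simp [h.Bp, h.hU.refl cb]) (h2 w w0 hw c x) (h2 w' (by rintro rfl; simp at ww) hw' b b')
        (by simp [h.Bp, h.hU.refl (h5 c (Submodule.mem_span_singleton_self c))]) 1
    have h4 : f w (y - f w y • w') = 0 := by simp [ww]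
    rw [← sub_add_cancel y (f w y • w'), map_add, map_smul]
    refine add_mem ?_ (Submodule.smul_mem _ _ h3)
    generalize y - f w y • w' = y at h4
    have h5 := h.hV.map_mem_arm h.le (h.rm _ (h.hW.eich_mem_om hw h4 rfl)) (by
      simp [rt_eich h.hW hw h4, h.hW.diag0 hw, h.hW.refl h4]) h3
    rw [rt_eich h.hW hw h4] at h5
    have h6 := fun d : F => Submodule.smul_mem _ d (h2 w w0 hw c b)
    convert sub_mem (sub_mem (add_mem h3 (h6 (f y w'))) (h6 (q y))) h5 using 1
    simp [ww]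
  have h4 : ∀ {w w'}, q w = 0 → q w' = 0 → f w w' = 1 → ∀ {c a}, g c a = 0 → p c ≠ 0 → p a ≠ 0 →
      h.hV.Full M (pt U f c w) := fun {w w'} hw hw' ww {c a} ca pc pa => by
    have h4 : ∀ y, f w y = 0 → pt U f c y ∈ h.hV.Arm M (pt U f c w) := fun y hy => by
      have := arm_step h.hV h.le (h.Qp a w' hw') (by simp [h.Bp, h.hU.refl ca]) (h3 hw hw' ww ca w)
        (h3 hw' hw (h.hW.flip_one ww) (h.hU.refl ca) y) (by simp [h.Bp, h.hW.refl hy]) 1
      rw [Submodule.sub_mem_iff_right _ (Submodule.smul_mem _ _ (h3 hw hw' ww ca w')),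
        Submodule.smul_mem_iff _ (by simp [h.Bp, h.hW.flip_one ww, qd h.hU, h.two, pa])] at this
      exact this
    refine h.hV.full_of_ar (h.Qp c w hw) (fun t ht => ?_) fun d hd => by
      rw [show d = 0 from hd, h.hV.eich_zero]; exact one_mem _
    have := pt_ind h.hW (S := (h.hV.Arm M (pt U f c w)).comap
      (1 - (pt U f).flip w' ∘ₗ LinearMap.applyₗ w)) (fun b y => by
        have h5 := add_mem (h3 hw hw' ww (c := c) (b := b - (g c b / (2 * p c)) • c) (by
          simp [qd h.hU, h.two, pc]) (y - f w y • w'))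
          (Submodule.smul_mem _ (g c b / (2 * p c)) (h4 (y - f w y • w') (by simp [ww])))
        simpa using h5) t
    exact h.hV.ar_of_arm ((sub_add_cancel t (pt U f (t w) w')).subst (motive := (· ∈ _)) (add_mem this
      (h3 hw hw' ww (by simpa [h.Bp] using ht) w')))
  obtain ⟨w', hw', ww⟩ := h.hW.form.exists_partner h.hW.sep hw w0
  obtain ⟨e, e', a, he, he', ee, ea, ea', pa⟩ := frame h.hU h.u3.ge
  have h5 : g a (e + e') = 0 := by simp [h.hU.refl ea, h.hU.refl ea']
  have h6 : p (e + e') ≠ 0 := by simp [h.hU.Q_add, he, he', ee]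
  exact h.nle (h.hV.om_le_of_full h.le (h4 hw hw' ww h5 pa h6) (h4 hw' hw (h.hW.flip_one ww) h5 pa h6)
    (by simp [h.Bp, ww, qd h.hU, h.two, pa]))

theorem z1_conj {w : W} {hw : f w w = 0} {ζ ζ' : End F U} (h1 : ζ ∈ Z1 f M hw) {s : U ≃ₗ[F] U}
    (hs : s ∈ h.hU.Om) (h2 : ∀ x, ζ' x = s (ζ (s⁻¹ x))) : ζ' ∈ Z1 f M hw := by
  obtain ⟨z, h3, h4⟩ := h1
  exact ⟨_, mul_mem (mul_mem (h.lm s hs) h3) (h.lm _ (inv_mem hs)), fun v => by
    rw [mul_app, mul_app, h4, map_add, lf_pt, ← mul_app, ← map_mul, mul_inv_cancel, map_one, h2]; rfl⟩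

theorem z_triv {w : W} (w0 : w ≠ 0) (hw : q w = 0) {z : (W →ₗ[F] U) ≃ₗ[F] (W →ₗ[F] U)} (hz : z ∈ M)
    (h1 : ∀ v : W →ₗ[F] U, v w = 0 → z v = v) : z = 1 := by
  have hww := h.hW.diag0 hw
  obtain ⟨w', hw', ww⟩ := h.hW.form.exists_partner h.hW.sep hw w0
  let ζ : End F U := LinearMap.applyₗ w' ∘ₗ (z.toLinearMap - 1) ∘ₗ (pt U f).flip w'
  have h2 : ∀ v, z v = v + pt U f (ζ (v w)) w := fun v => by
    have h2 := eq_pt_of (v := z (pt U f (v w) w') - pt U f (v w) w') (h.hW.flip_one ww) fun y hy =>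
      h.tg.gs _ fun a => by
        rw [← h.Bp, map_sub, ← h1 (pt U f a y) (by simp [h.hW.refl hy]), (h.le hz).1,
          h1 _ (by simp [h.hW.refl hy]), sub_self]
    have h3 := h1 (v - pt U f (v w) w') (by simp [ww])
    rw [map_sub, sub_eq_sub_iff_sub_eq_sub, h2] at h3
    exact sub_eq_iff_eq_add'.1 h3
  have h3 : ζ ∈ Z1 f M hww := ⟨z, hz, h2⟩
  have h4 : ∀ a, g a (ζ a) = 0 := fun a => mul_left_cancel₀ h.two (by
    have := (h.le hz).1 (pt U f a w') (pt U f a w')
    simp only [h2, map_add, LinearMap.add_apply, h.Bp, pt_apply, ww, h.hW.flip_one ww, hww, one_smul,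
      zero_smul, map_zero, qs h.hU (ζ a) a, add_zero] at this
    linear_combination this)
  have h5 : ∀ a b, g a (ζ b) = -g b (ζ a) := fun a b => by
    have := h4 (a + b)
    simp only [map_add, LinearMap.add_apply, h4] at this
    linear_combination this
  clear_value ζ
  by_contra h0
  obtain ⟨e, he, h6⟩ : ∃ e, p e = 0 ∧ ζ e ∉ F ∙ e := by
    by_contra! h6
    obtain ⟨c, hc⟩ := scal_of_sing h.hU h.two h.u3 h6
    obtain ⟨-, -, a, -, -, -, -, -, pa⟩ := frame h.hU h.u3.ge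
    obtain rfl : c = 0 := by simpa [hc, qd h.hU, h.two, pa] using h4 a
    exact h0 (LinearEquiv.ext fun v => by simp [h2, hc])
  obtain ⟨e', he', ee⟩ := h.hU.form.exists_partner h.hU.sep he (by rintro rfl; simp at h6)
  obtain ⟨a, ea, ea', pa⟩ := exists_nons3 h.hU h.u3.ge he he' ee
  have h7 := dec3 h.hU h.two h.u3 he he' ee ea ea' pa (ζ e)
  rw [h4, zero_smul, add_zero] at h7
  have h8 : g a (ζ e) ≠ 0 := fun h8 => h6 (by
    rw [h7, h8]; simp [Submodule.smul_mem, Submodule.mem_span_singleton_self])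
  have h9 : ∀ c : F, wd g e (c • a) ∈ Z1 f M hww := fun c => by
    have := add_sq h.two (x := -g a (ζ e) • wd g e a) (S := Z1 f M hww) (fun t _ => by
      have h9 : ∀ t : F, g e (t • a) = 0 := fun t => by simp [ea]
      have h10 := fun t : F => h.z1_conj h3 (h.hU.eich_mem_om he (h9 t) rfl)
        (ζ' := (h.hU.eich e (t • a) (p (t • a))).toLinearMap * ζ *
          (h.hU.eich e (t • a) (p (t • a)))⁻¹.toLinearMap) fun _ => rfl
      convert sub_mem (sub_mem (add_mem (h10 t) (h10 (-t))) h3) h3 using 1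
      ext x
      simp only [End.mul_apply, LinearEquiv.coe_coe, LinearMap.sub_apply, LinearMap.add_apply,
        h.hU.eich_inv he (h9 _), h.hU.eich_apply he (h9 _), ← neg_smul, map_add, map_sub, map_smul,
        LinearMap.smul_apply, wd_apply, h4, h5 e a, h5 e x, h.hU.Q_smul, qd h.hU, RingHom.id_apply]
      generalize g a (ζ e) = γ at h7
      generalize g e' (ζ e) = δ at h7
      simp only [h7, map_add, map_smul, qs h.hU x, smul_eq_mul, LinearMap.add_apply, LinearMap.smul_apply]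
      have := h.two
      match_scalars <;> field_simp <;> ring) (-c / g a (ζ e))
    convert this using 1
    ext x; simp only [wd_apply, LinearMap.smul_apply, map_smul, smul_eq_mul]
    match_scalars <;> field_simp
  have h10 : ∀ s ∈ h.hU.Om, ∀ c b, wd g c b ∈ Z1 f M hww → wd g (s c) (s b) ∈ Z1 f M hww :=
    fun s hs c b h10 => h.z1_conj h10 hs fun x => by
      rw [wd_apply, wd_apply, ← (h.hU.om_le_isom hs).1 b, ← (h.hU.om_le_isom hs).1 c]; simp
  let T : Submodule F U :=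
    { carrier := {c | ∀ b, wd g c b ∈ Z1 f M hww}
      zero_mem' := fun b => by rw [show wd g 0 b = 0 by ext; simp [wd_apply]]; exact zero_mem _
      add_mem' := fun {c c'} hc hc' b => by
        convert add_mem (hc b) (hc' b) using 1
        ext; simp [wd_apply, add_smul]; abel
      smul_mem' := fun d c hc b => by
        convert hc (d • b) using 1
        ext; simp [wd_apply, smul_smul, mul_comm] }
  have h11 : T = ⊤ := h.hU.irr_top h.u3.ge (fun s hs c hc b => by simpa using h10 s hs c _ (hc (s⁻¹ b)))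
    ((Submodule.ne_bot_iff _).2 ⟨e, fun b => by
      have h11 : ∀ t : F, g e' (t • a) = 0 := fun t => by simp [ea']
      have h12 := fun t : F => h10 _ (h.hU.eich_mem_om he' (h11 t) rfl) _ _ (h9 (g e b / (4 * p a)))
      convert add_mem (sub_mem (h12 1) (h12 (-1))) (h9 (g a b / (2 * p a))) using 1
      ext x
      nth_rw 1 [dec3 h.hU h.two h.u3 he he' ee ea ea' pa b]
      simp only [wd_apply, h.hU.eich_apply he' (h11 _), map_add, map_sub, map_smul, LinearMap.add_apply,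
        LinearMap.sub_apply, LinearMap.smul_apply, h.hU.flip_one ee, ea', h.hU.refl ea, qd h.hU,
        h.hU.Q_smul, RingHom.id_apply, AddMonoidHom.id_apply, smul_eq_mul]
      have := h.two
      have : (4 : F) ≠ 0 := by rw [show (4 : F) = 2 * 2 by norm_num]; exact mul_ne_zero this this
      match_scalars <;> field_simp <;> ring, by rintro rfl; simp at ee⟩)
  refine h.not_wedge w0 hw fun c b d => ?_
  obtain ⟨z, h12, h13⟩ := (h11.ge trivial : c ∈ T) (d • b)
  have h14 : B (pt U f c w) (d • pt U f b w) = 0 := by simp [h.Bp, hww]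
  refine (h.hV.mem_ar (h.Qp c w hw)).2 ⟨h14, 0, (h.hV.sing_smul (h.Qp b w hw) d).symm, ?_⟩
  convert h12 using 1
  ext v x
  rw [h.hV.eich_apply (h.Qp c w hw) h14, h13]
  simp [h.Bp, wd_apply, smul_sub, smul_smul]; module

end T3

end Cfsg.Agent.H11.Tz
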