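import Mathlib
import Cfsg.Agent.H11.Tz3
import Cfsg.Agent.H11.Tz1

/-!
Tensor products `O₃ ⊗ O(W)` with `W` of Witt index one: the stabiliser theorem.
-/

set_option autoImplicit false
set_option linter.unusedSectionVars false

namespace Cfsg.Agent.H11.Tz

open Module H10 H11 H19.TA
open H11.Im (r r_apply r_isom r_inv r_r r_self conj_r)
open H26.MX hiding finrank_le_inf_ker finrank_span_pair_le finrank_span_one_le SLv mem_SLv
  map_eq_of_le

variable {F : Type*} [Field F] {U W : Type*} [AddCommGroup U] [Module F U] [AddCommGroup W] [Module F W]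
  {g : U →ₗ[F] U →ₗ[F] F} {f : W →ₗ[F] W →ₗ[F] F} {p : U → F} {q : W → F}
  {B : (W →ₗ[F] U) →ₗ[F] (W →ₗ[F] U) →ₗ[F] F} {Q : (W →ₗ[F] U) → F}
  {M : Subgroup ((W →ₗ[F] U) ≃ₗ[F] (W →ₗ[F] U))} {k η η' : (W →ₗ[F] U) ≃ₗ[F] (W →ₗ[F] U)}

theorem lf_rt (s : U ≃ₗ[F] U) (t : W ≃ₗ[F] W) : Commute (lf W s) (rt U t) := rfl

/-- the tensor product of the two isometry groups -/
def HH (g : U →ₗ[F] U →ₗ[F] F) (p : U → F) (f : W →ₗ[F] W →ₗ[F] F) (q : W → F) :
    Subgroup ((W →ₗ[F] U) ≃ₗ[F] (W →ₗ[F] U)) where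
  carrier := {k | ∃ s ∈ Isom g p, ∃ t ∈ Isom f q, k = lf W s * rt U t}
  one_mem' := ⟨1, one_mem _, 1, one_mem _, rfl⟩
  mul_mem' := by
    rintro _ _ ⟨s, hs, t, ht, rfl⟩ ⟨s', hs', t', ht', rfl⟩
    exact ⟨_, mul_mem hs hs', _, mul_mem ht ht', rfl⟩
  inv_mem' := by
    rintro _ ⟨s, hs, t, ht, rfl⟩
    exact ⟨_, inv_mem hs, _, inv_mem ht, rfl⟩

theorem lf_mem {s : U ≃ₗ[F] U} (hs : s ∈ Isom g p) : lf W s ∈ HH g p f q := ⟨s, hs, 1, one_mem _, rfl⟩

theorem rt_mem {t : W ≃ₗ[F] W} (ht : t ∈ Isom f q) : rt U t ∈ HH g p f q := ⟨1, one_mem _, t, ht, rfl⟩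

theorem tn_of_hh (h : k ∈ HH g p f q) : Tn k := by
  obtain ⟨s, -, t, -, rfl⟩ := h
  exact ⟨s, t⁻¹.dualMap, fun β z => by ext; simp [mul_app]⟩

namespace T3

variable [FiniteDimensional F U] [FiniteDimensional F W] [Finite F] (h : T3 g p f q B Q M)
include h

section
variable {w : W} (w0 : w ≠ 0) (hw : q w = 0) {ψ ψ' : (W →ₗ[F] U) →ₗ[F] U}
include hw

theorem adj (hη : η ∈ M) (h1 : ∀ a, ψ (pt U f a w) = 0)
    (h2 : ∀ v : W →ₗ[F] U, v w = 0 → η v = v + pt U f (ψ v) w) (u : W →ₗ[F] U) :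
    (η u - u) w = 0 ∧ ∀ v : W →ₗ[F] U, v w = 0 → B v (η u - u) = -g (ψ v) (u w) := by
  have h3 : (η u - u) w = 0 := h.tg.gs _ fun a => by
    have := (h.le hη).1 (pt U f a w) u
    rw [h2 _ (by simp [h.hW.diag0 hw]), h1] at this
    rw [← h.Bp, map_sub, ← this]; simp
  refine ⟨h3, fun v hv => ?_⟩
  have := (h.le hη).1 v u
  rw [h2 v hv, map_add, LinearMap.add_apply, h.Bp, show η u w = u w from sub_eq_zero.1 h3] at this
  rw [map_sub, ← this]; ring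

include w0

theorem comm (hη : η ∈ M) (h1 : ∀ a, ψ (pt U f a w) = 0)
    (h2 : ∀ v : W →ₗ[F] U, v w = 0 → η v = v + pt U f (ψ v) w) (hη' : η' ∈ M)
    (h3 : ∀ a, ψ' (pt U f a w) = 0) (h4 : ∀ v : W →ₗ[F] U, v w = 0 → η' v = v + pt U f (ψ' v) w)
    (u : W →ₗ[F] U) : ψ (η' u - u) = ψ' (η u - u) := by
  have hww := h.hW.diag0 hw
  have h5 := h.z_triv w0 hw (mul_mem (inv_mem (mul_mem hη' hη)) (mul_mem hη hη')) fun v hv =>
    inv_eq_of (y := η (η' v)) (by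
      rw [mul_app, h2 v hv, h4 v hv, h2 _ (by simp [hv, hww]), h4 _ (by simp [hv, hww])]
      simp [h1, h3]; abel)
  have h6 := LinearEquiv.congr_fun (inv_mul_eq_one.1 h5) u
  have h7 := h2 _ (h.adj hw hη' h3 h4 u).1
  have h8 := h4 _ (h.adj hw hη h1 h2 u).1
  rw [map_sub η, sub_eq_iff_eq_add] at h7
  rw [map_sub η', sub_eq_iff_eq_add] at h8
  rw [mul_app, mul_app, h7, h8] at h6
  obtain ⟨x, hx⟩ := h.hW.form.exists_right_eq_one h.hW.sep w0
  have h9 : pt U f (ψ (η' u - u)) w = pt U f (ψ' (η u - u)) w := by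
    linear_combination (norm := abel) -h6
  simpa only [pt_apply, h.hW.flip_one hx, one_smul] using LinearMap.congr_fun h9 x

theorem q1_q2 (h1 : ψ ∈ Q1 M (h.hW.diag0 hw)) : ψ ∈ Q2 M (h.hW.diag0 hw) :=
  add_sq h.two fun s s0 => by
  obtain ⟨h1, η, h2, h3⟩ := h1
  obtain ⟨w', hw', ww⟩ := h.hW.form.exists_partner h.hW.sep hw w0
  obtain ⟨y, h4, h5, h6⟩ := exists_nons3 h.hW h.w3 hw hw' ww
  obtain ⟨t, h7, h8, h9⟩ := tor h.hW hw hw' ww h4 h5 h6 s0
  refine ⟨fun a => by simp [h1], _, mul_mem (mul_mem (h.rm t h7) h2) (inv_mem (h.rm t h7)),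
    fun v hv => ?_⟩
  have h10 := eq_pt_of (f := f) (v := (rt U t)⁻¹ v - v) (h.hW.flip_one ww) fun z hz => by
    simp [← map_inv, h9 z (h.hW.refl hz), hv]
  rw [mul_app, mul_app, h3 _ (by simp [← map_inv, h8, hv]), map_add, app_inv,
    rt_pt (h.hW.om_le_isom h7).1, h8, eq_add_of_sub_eq' h10]
  simp [h1]

omit w0 in
theorem top (h1 : ψ ∈ Q2 M (h.hW.diag0 hw)) {e a : U} (he : p e = 0) (ea : g e a = 0) (pa : p a ≠ 0)
    {y : W} (hy : ∀ x, f x y = g e (ψ (pt U f e x))) :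
    (g e).smulRight e ∘ₗ LinearMap.applyₗ y ∈ Q2 M (h.hW.diag0 hw) := by
  obtain ⟨t, t0, t1⟩ := h.sq
  have h2 : ∀ t : F, g e (t • a) = 0 := fun t => by simp [ea]
  have h3 := fun t : F => h.tg.q2_conj (h.lm _ (inv_mem (h.hU.eich_mem_om he (h2 t) rfl))) _
    (h.hW.diag0 hw) (fun a => lf_pt _ a w) h1 (ψ' := (h.hU.eich e (t • a) (p (t • a))).toLinearMap ∘ₗ ψ ∘ₗ
      (lf W (h.hU.eich e (t • a) (p (t • a)))⁻¹).toLinearMap) fun v => inv_app _ _
  have h4 := fun t : F => sub_mem (sub_mem (add_mem (h3 t) (h3 (-t))) h1) h1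
  rw [← Submodule.smul_mem_iff _ (mul_ne_zero (mul_ne_zero h.two (mul_ne_zero pa pa))
    (mul_ne_zero (mul_ne_zero t0 t0) (sub_ne_zero.2 t1)))]
  convert sub_mem (h4 t) (Submodule.smul_mem _ (t * t) (h4 1)) using 1
  refine ext_sr fun β b => ?_
  obtain ⟨x, rfl⟩ := ex_flip h.hW β
  rw [show (f.flip x).smulRight b = pt U f b x from rfl]
  simp only [LinearMap.sub_apply, LinearMap.add_apply, LinearMap.smul_apply, LinearMap.comp_apply,
    LinearEquiv.coe_coe, lf_pt, h.hU.eich_inv he (h2 _), h.hU.eich_apply he (h2 _), ← neg_smul, map_add,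
    map_sub, map_smul, h.hU.Q_smul, qd h.hU, RingHom.id_apply, pt_apply, LinearMap.smulRight_apply,
    qs h.hW y x, hy, smul_eq_mul, LinearMap.applyₗ_apply_apply]
  module

theorem q1_scal (h1 : ψ ∈ Q1 M (h.hW.diag0 hw)) {y : W} (hy : f w y = 0) :
    ∃ c : F, ∀ a, ψ (pt U f a y) = c • a := by
  obtain ⟨t, t0, t1⟩ := h.sq
  obtain ⟨w', hw', ww⟩ := h.hW.form.exists_partner h.hW.sep hw w0
  refine sym_scal h.hU h.two h.u3 t0 t1 (m := ψ ∘ₗ (pt U f).flip y) (fun b a => ?_) fun e he => ?_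
  · obtain ⟨h1, η, h2, h3⟩ := h1
    have h4 := h.comm w0 hw h2 h1 h3 (h.rm _ (h.hW.eich_mem_om hw hy rfl)) (ψ' := LinearMap.applyₗ y)
      (fun a => by simp [h.hW.refl hy]) (fun v hv => by simp [rt_eich h.hW hw hy, hv]) (pt U f a w')
    have h5 := (h.adj hw h2 h1 h3 (pt U f a w')).2 (pt U f b y) (by simp [hy])
    rw [h.Bp, show (η (pt U f a w') - pt U f a w') y = _ from h4.symm, rt_eich h.hW hw hy] at h5
    simpa [h1, ww, add_sub_right_comm, sub_right_comm, qs h.hU a] using h5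
  by_contra h2
  obtain ⟨e', he', ee⟩ := h.hU.form.exists_partner h.hU.sep he (by rintro rfl; simp at h2)
  obtain ⟨a, ea, ea', pa⟩ := exists_nons3 h.hU h.u3.ge he he' ee
  obtain ⟨y₀, h3⟩ := ex_flip h.hW (g e ∘ₗ ψ ∘ₗ pt U f e)
  replace h3 : ∀ x, f x y₀ = g e (ψ (pt U f e x)) := LinearMap.congr_fun h3
  have h4 : f w y₀ = 0 := by simp [h3, h1.1]
  have h5 : q y₀ ≠ 0 := fun h5 => by
    obtain ⟨c, rfl⟩ := Submodule.mem_span_singleton.1 (h.wl w y₀ hw h5 h4 w0)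
    exact h2 (by simpa [h.hW.refl hy] using (h3 y).symm)
  have h6 := h.top hw (h.q1_q2 w0 hw h1) he ea pa h3
  obtain ⟨s, h7, c, c0, h8⟩ := trans h.hU h.u3.ge (w1_three h.hU h.u3) (w := e) (w' := e')
    (by rintro rfl; simp at ee) (by rintro rfl; simp at ee) he he'
  obtain ⟨h9, η', h10, h11⟩ := h.tg.q2_conj (h.lm s h7) s (h.hW.diag0 hw) (fun a => lf_pt s a w)
    (Submodule.smul_mem _ (c * c) h6) (ψ' := (g e').smulRight e' ∘ₗ LinearMap.applyₗ y₀) (fun v => by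
      simp [← (h.hU.om_le_isom h7).1 e', h8, smul_smul]; ring_nf) 1
  obtain ⟨h12, η, h13, h14⟩ := h6 1
  have h15 := h.comm w0 hw h13 h12 h14 h10 h9 h11 (pt U f e w')
  have h16 := (h.adj hw h13 h12 h14 (pt U f e w')).2 (pt U f e' y₀) (by simp [h4])
  have h17 := (h.adj hw h10 h9 h11 (pt U f e w')).2 (pt U f e y₀) (by simp [h4])
  rw [h.Bp] at h16 h17
  simp only [one_smul, LinearMap.comp_apply, LinearMap.applyₗ_apply_apply, LinearMap.smulRight_apply,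
    h16, h17] at h15
  simpa [ww, h.hU.diag0 he, ee, h.hU.flip_one ee, qd h.hW, h.two, h5] using congrArg (g e') h15

theorem r_eq (hη : η ∈ M) (h1 : ∀ a, η (pt U f a w) = pt U f a w)
    (h2 : ∀ a y, f w y = 0 → ∃ b, η (pt U f a y) = pt U f a y + pt U f b w) :
    ∃ y, f w y = 0 ∧ η = rt U (h.hW.eich w y (q y)) := by
  obtain ⟨w', hw', ww⟩ := h.hW.form.exists_partner h.hW.sep hw w0
  have h3 : ∀ {S : Submodule F (W →ₗ[F] U)}, (∀ a y, f w y = 0 → pt U f a y ∈ S) →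
      ∀ v : W →ₗ[F] U, v w = 0 → v ∈ S := fun {S} hS v hv => by
    have := pt_ind h.hW (S := S.comap (1 - (pt U f).flip w' ∘ₗ LinearMap.applyₗ w))
      (fun b y => by simpa using hS b (y - f w y • w') (by simp [ww])) v
    simpa [hv] using this
  let ψ : (W →ₗ[F] U) →ₗ[F] U := LinearMap.applyₗ w' ∘ₗ (η.toLinearMap - 1)
  have h4 : ψ ∈ Q1 M (h.hW.diag0 hw) := ⟨fun a => by simp [ψ, h1], η, hη, fun v hv => by
    have := h3 (S := LinearMap.ker (η.toLinearMap - 1 - (pt U f).flip w ∘ₗ ψ)) (fun a y hy => by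
      obtain ⟨b, hb⟩ := h2 a y hy
      simp [ψ, hb, h.hW.flip_one ww]) v hv
    simpa [sub_eq_zero, sub_eq_iff_eq_add'] using this⟩
  obtain ⟨-, -, a, -, -, -, -, -, pa⟩ := frame h.hU h.u3.ge
  obtain ⟨χ, hχ⟩ := exists_dual_one (F := F) (x := a) (by rintro rfl; exact pa h.hU.Q_zero)
  obtain ⟨y, h5⟩ := ex_flip h.hW (χ ∘ₗ ψ ∘ₗ pt U f a)
  replace h5 : ∀ x, f x y = χ (ψ (pt U f a x)) := LinearMap.congr_fun h5
  have h6 : f w y = 0 := by simp [h5, h4.1]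
  refine ⟨y, h6, (inv_mul_eq_one.1 (h.z_triv w0 hw (mul_mem (inv_mem (h.rm _
    (h.hW.eich_mem_om hw h6 rfl))) hη) fun v hv => inv_eq_of (y := η v) ?_)).symm⟩
  refine sub_eq_zero.1 (h3 (S := LinearMap.ker ((rt U (h.hW.eich w y (q y))).toLinearMap - η.toLinearMap))
    (fun b z hz => ?_) v hv)
  obtain ⟨c, hc⟩ := h.q1_scal w0 hw h4 hz
  obtain ⟨d, hd⟩ := h2 b z hz
  have h7 := hc b
  have h8 := h5 z
  rw [hc, map_smul, hχ, smul_eq_mul, mul_one] at h8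
  simp only [ψ, LinearMap.comp_apply, LinearMap.sub_apply, LinearEquiv.coe_coe, hd, End.one_apply,
    add_sub_cancel_left, LinearMap.applyₗ_apply_apply, pt_apply, h.hW.flip_one ww, one_smul] at h7
  simp [rt_eich h.hW hw h6, hd, hz, h7, qs h.hW y, h8]

end

theorem hh_of_tn (hk : k ∈ Isom B Q) (ht : Tn k) : k ∈ HH g p f q := by
  obtain ⟨s, ψ, h1⟩ := tn_form ht
  obtain ⟨-, -, z, -, -, -, -, -, h4⟩ := frame h.hW h.w3
  obtain ⟨z', h5⟩ := pt_of_form h.hW h1 z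
  obtain ⟨a, b, -, -, -, hb, -⟩ := frame h.hU h.u3.ge
  have h6 : ∀ a b, f z' z' * g (s a) (s b) = f z z * g a b := fun a b => by
    simpa [h5, h.Bp] using hk.1 (pt U f a z) (pt U f b z)
  have h7 : f z z ≠ 0 := by simp [qd h.hW z, h.two, h4]
  have h8 : f z' z' ≠ 0 := fun h8 => by simpa [h8, hb, h7] using (h6 a b).symm
  obtain ⟨c, c0, hc⟩ := sq_of_sim h.hU h.u3 (s := s) (div_ne_zero h7 h8) fun a b => by
    rw [div_mul_eq_mul_div, ← h6]; field_simp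
  let s' := s.trans (LinearEquiv.smulOfNeZero F U c⁻¹ (inv_ne_zero c0))
  let t := ψ.trans (LinearEquiv.smulOfNeZero F W c c0)
  have h9 : s' ∈ Isom g p := isom_of h.hU h.two fun a b => mul_left_cancel₀ h8 (by
    have := h6 a b
    rw [eq_div_iff h8] at hc
    change _ * g (c⁻¹ • s a) (c⁻¹ • s b) = _
    simp only [map_smul, LinearMap.smul_apply, smul_eq_mul]
    field_simp; linear_combination (f z' z')⁻¹ * (this - g a b * hc) +
      (g a b * c ^ 2 - g (s a) (s b)) * inv_mul_cancel₀ h8)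
  have h10 : k = lf W s' * rt U t⁻¹ := LinearEquiv.ext fun v => LinearMap.ext fun x => by
    change _ = c⁻¹ • s (v (c • ψ x))
    simp [h1, c0]
  have h11 : ∀ v v', B (rt U t⁻¹ v) (rt U t⁻¹ v') = B v v' := fun v v' => by
    rw [← hk.1 v, h10, mul_app, mul_app, lf_iso h.hW h.Bp h9.1]
  refine ⟨s', h9, t⁻¹, inv_mem (isom_of h.hW h.two fun x y => ?_), h10⟩
  have h12 := h11 (rt U t (pt U f a x)) (pt U f b (t y))
  rw [← mul_app, ← map_mul, inv_mul_cancel, map_one, one_app, h.Bp, qs h.hV, h.Bp] at h12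
  simp only [rt_apply, inv_inv, pt_apply, inv_app, map_smul, hb, h.hU.flip_one hb, smul_eq_mul,
    mul_one] at h12
  rw [h12, qs h.hW]

theorem st1 (hk : k ∈ M) {w : W} (w0 : w ≠ 0) (hw : q w = 0) {s : U ≃ₗ[F] U}
    (hs : ∀ a, k (pt U f a w) = pt U f (s a) w) : k ∈ HH g p f q := by
  have hww := h.hW.diag0 hw
  obtain ⟨a₀, b₀, -, -, -, hb₀, -⟩ := frame h.hU h.u3.ge
  have ha₀ : a₀ ≠ 0 := by rintro rfl; simp at hb₀
  obtain ⟨x, hx', hx⟩ := h.hW.form.exists_partner h.hW.sep hw w0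
  have h1 : ∀ y, f w y = 0 → ∃ (y₁ : W) (κ : End F U), f w y₁ = 0 ∧
      ∀ a, k (pt U f a y) = pt U f (s a) y₁ + pt U f (κ a) w := fun y hy => by
    obtain ⟨χ, hχ⟩ := exists_dual_one (F := F) (app_ne_zero s ha₀)
    obtain ⟨y₁, h3⟩ := ex_flip h.hW (χ ∘ₗ k (pt U f a₀ y))
    replace h3 : ∀ z, f z y₁ = χ (k (pt U f a₀ y) z) := LinearMap.congr_fun h3
    refine ⟨y₁, LinearMap.applyₗ x ∘ₗ (k.toLinearMap ∘ₗ (pt U f).flip y - (pt U f).flip y₁ ∘ₗ s.toLinearMap),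
      by rw [h3, h.tg.perp_map hk hs (by simp [hy]), map_zero], fun a =>
      sub_eq_iff_eq_add'.1 (eq_pt_of (h.hW.flip_one hx) fun z hz => ?_)⟩
    have h4 := h.tg.q2_conj hk s hww hs (h.one_mem_e2 w hww z hz)
      (ψ' := s⁻¹.toLinearMap ∘ₗ LinearMap.applyₗ z ∘ₗ k.toLinearMap) (fun v => by simp) 1
    rw [one_smul] at h4
    obtain ⟨c, hc⟩ := h.q1_scal w0 hw h4 hy
    replace hc : ∀ a, k (pt U f a y) z = c • s a := fun a => by rw [← map_smul, ← hc]; simp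
    simp [h3, hc, hχ]
  obtain ⟨z, h2, -, h4⟩ := exists_nons3 h.hW h.w3 hw hx' hx
  obtain ⟨z₁, m', h7, h8⟩ := h1 z h2
  have h9 : ∀ a b, f z₁ z₁ * g (s a) (s b) = f z z * g a b := fun a b => by
    simpa [h8, h.Bp, h7, hww, h.hW.refl h7] using (h.le hk).1 (pt U f a z) (pt U f b z)
  have h10 : f z z ≠ 0 := by simp [qd h.hW, h.two, h4]
  have h11 : f z₁ z₁ ≠ 0 := fun h11 => by simpa [h11, hb₀, h10] using (h9 a₀ b₀).symm
  obtain ⟨c, c0, hc⟩ := sq_of_sim h.hU h.u3 (s := s) (div_ne_zero h10 h11) fun a b => by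
    rw [div_mul_eq_mul_div, ← h9]; field_simp
  obtain ⟨s', h12, h13⟩ : ∃ s' ∈ Isom g p, ∀ a, s a = c • s' a :=
    ⟨s.trans (LinearEquiv.smulOfNeZero F U c⁻¹ (inv_ne_zero c0)), isom_of h.hU h.two fun a b =>
      mul_left_cancel₀ h11 (by
        have := h9 a b
        rw [eq_div_iff h11] at hc
        change _ * g (c⁻¹ • s a) (c⁻¹ • s b) = _
        simp only [map_smul, LinearMap.smul_apply, smul_eq_mul]
        field_simp; linear_combination (f z₁ z₁)⁻¹ * (this - g a b * hc) +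
          (g a b * c ^ 2 - g (s a) (s b)) * inv_mul_cancel₀ h11), fun a => by simp [c0]⟩
  have h14 : ∀ u ∈ h.hU.Om, ∃ y, f w y = 0 ∧
      k⁻¹ * lf W (s' * u * s'⁻¹) * k = rt U (h.hW.eich w y (q y)) * lf W u := fun u hu => by
    refine (h.r_eq w0 hw (mul_mem (mul_mem (mul_mem (inv_mem hk) (h.lm _ (h.hU.conj_mem_om h12 hu))) hk)
      (h.lm _ (inv_mem hu))) (fun a => inv_eq_of (y := lf W _ (k (lf W _ _))) ?_) fun a y hy => ?_).imp
      fun y hy => ⟨hy.1, by rw [← hy.2, map_inv, inv_mul_cancel_right]⟩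
    · rw [lf_pt, hs, hs, lf_pt, h13, h13]; simp [mul_app]
    obtain ⟨y₁, m, -, h14⟩ := h1 y hy
    refine ⟨s⁻¹ ((s' * u * s'⁻¹) (m (u⁻¹ a)) - m a), inv_eq_of (y := lf W _ (k (lf W _ _))) ?_⟩
    rw [map_add, hs, app_inv, lf_pt, h14, h14, map_add, lf_pt, lf_pt]
    simp [h13, mul_app]
  have h15 : ∀ e a, p e = 0 → e ≠ 0 → g e a = 0 → p a ≠ 0 → ∀ v,
      ((lf W s')⁻¹ * k) (lf W (h.hU.eich e a (p a)) v) =
        lf W (h.hU.eich e a (p a)) (((lf W s')⁻¹ * k) v) := fun e a he e0 ea pa v => by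
    obtain ⟨e', he', ee, ea'⟩ := partner h.hU he e0 ea pa
    obtain ⟨t, t0, t1⟩ := h.sq
    obtain ⟨τ, h15, h16, h17⟩ := tor h.hU he he' ee ea ea' pa t0
    obtain ⟨d, hd⟩ : ∃ d, (t * t - 1) * d = 1 := ⟨_, mul_inv_cancel₀ (sub_ne_zero.2 t1)⟩
    have h18 : g e (d • a) = 0 := by simp [ea]
    obtain ⟨y, h19, h20⟩ := h14 τ h15
    obtain ⟨y', h21, h22⟩ := h14 (h.hU.eich e (d • a) (p (d • a))) (h.hU.eich_mem_om he h18 rfl)
    have h23 : τ * h.hU.eich e (d • a) (p (d • a)) * τ⁻¹ * (h.hU.eich e (d • a) (p (d • a)))⁻¹ =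
        h.hU.eich e a (p a) := by
      rw [h.hU.conj_eich (h.hU.om_le_isom h15), h16, h17 _ h18, h.hU.eich_inv he h18,
        h.hU.eich_smul_left he (by simp [ea, ea']), h.hU.eich_mul he (by simp [ea, ea']) (by simp [ea])]
      simp only [map_smul, ea', RingHom.id_apply, h.hU.Q_smul, qd h.hU, smul_eq_mul, map_neg,
        LinearMap.smul_apply, mul_zero, zero_smul, add_zero]
      congr 1
      · match_scalars; linear_combination hd
      · linear_combination ((t * t - 1) * d + 1) * p a * hd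
    have h24 := comm_cancel (a := rt U (h.hW.eich w y (q y))) (b := rt U (h.hW.eich w y' (q y')))
      (by rw [Commute, SemiconjBy, ← map_mul, ← map_mul, h.hW.eich_mul hw h19 h21,
        h.hW.eich_mul hw h21 h19, qs h.hW y, add_comm y, add_comm (q y)])
      (lf_rt τ _).symm (lf_rt _ _).symm (lf_rt _ _).symm (lf_rt (h.hU.eich e (d • a) (p (d • a))) _).symm
    have h25 : k⁻¹ * lf W (s' * h.hU.eich e a (p a) * s'⁻¹) * k = lf W (h.hU.eich e a (p a)) := by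
      rw [← h22, ← h20] at h24
      rw [← h23]
      simp only [map_mul, map_inv] at h24 ⊢
      refine Eq.trans ?_ h24; group
    refine LinearEquiv.congr_fun (show (lf W s')⁻¹ * k * lf W _ = lf W _ * ((lf W s')⁻¹ * k) from ?_) v
    simp only [map_mul, map_inv] at h25
    nth_rw 1 [← h25]; group
  have h16 : (lf W s')⁻¹ * k ∈ Isom B Q :=
    mul_mem (inv_mem (isom_of h.hV h.two (lf_iso h.hW h.Bp h12.1))) (h.le hk)
  refine (mul_mem_cancel_left (inv_mem (lf_mem h12))).1 (h.hh_of_tn h16 ?_)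
  generalize (lf W s')⁻¹ * k = k at h15
  have h17 : ∀ e, p e = 0 → ∀ y x, k (pt U f e y) x ∈ F ∙ e := fun e he y x => by
    by_cases e0 : e = 0
    · simp [e0]
    obtain ⟨e', he', ee⟩ := h.hU.form.exists_partner h.hU.sep he e0
    obtain ⟨a, ea, ea', pa⟩ := exists_nons3 h.hU h.u3.ge he he' ee
    have h17 := LinearMap.congr_fun (h15 e a he e0 ea pa (pt U f e y)) x
    rw [lf_pt, h.hU.eich_fix _ (h.hU.diag0 he) (h.hU.refl ea), lf_apply] at h17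
    by_cases h18 : k (pt U f e y) x = 0
    · simp [h18]
    obtain ⟨-, h19, h20⟩ := ev h.hU h.two he e0 ea pa h18 (h17.symm.trans (one_smul F _).symm)
    rw [dec3 h.hU h.two h.u3 he he' ee ea ea' pa (k (pt U f e y) x), h19, h20]
    simp [Submodule.smul_mem, Submodule.mem_span_singleton_self]
  have : Nontrivial U := ⟨_, _, ha₀⟩
  refine tn_of_Wt (by have := h.w3; omega) fun β _ => ?_
  obtain ⟨y, rfl⟩ := ex_flip h.hW β
  obtain ⟨χ, hχ⟩ := exists_dual_one (F := F) ha₀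
  refine ⟨χ ∘ₗ k (pt U f a₀ y), fun b => ⟨b, LinearMap.ext fun x => ?_⟩⟩
  obtain ⟨c, hc⟩ := scal_of_sing h.hU h.two h.u3
    (m := LinearMap.applyₗ x ∘ₗ k.toLinearMap ∘ₗ (pt U f).flip y) fun e he => h17 e he y x
  replace hc : ∀ b, k (pt U f b y) x = c • b := hc
  change χ (k (pt U f a₀ y) x) • b = k (pt U f b y) x
  simp [hc, hχ]

theorem st (hk : k ∈ M) {w w' : W} (w0 : w ≠ 0) (hw : q w = 0)
    (hs : ∀ a, ∃ a', k (pt U f a w) = pt U f a' w') : k ∈ HH g p f q := by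
  obtain ⟨x, hx⟩ := h.hW.form.exists_right_eq_one h.hW.sep w0
  have h1 : ∀ a, pt U f a w = 0 → a = 0 := fun a ha => by
    simpa [h.hW.flip_one hx] using LinearMap.congr_fun ha x
  obtain ⟨a₀, b₀, -, -, -, hb₀, -⟩ := frame h.hU h.u3.ge
  have w0' : w' ≠ 0 := by
    rintro rfl
    obtain ⟨a, ha⟩ := hs a₀
    simp [h1 a₀ (by simpa using ha)] at hb₀
  obtain ⟨x', hx'⟩ := h.hW.form.exists_right_eq_one h.hW.sep w0'
  let s : End F U := LinearMap.applyₗ x' ∘ₗ k.toLinearMap ∘ₗ (pt U f).flip w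
  have h4 : ∀ a, k (pt U f a w) = pt U f (s a) w' := fun a => by
    obtain ⟨a', ha⟩ := hs a
    simp [s, ha, h.hW.flip_one hx']
  obtain ⟨s, h4⟩ : ∃ s : U ≃ₗ[F] U, ∀ a, k (pt U f a w) = pt U f (s a) w' :=
    ⟨LinearEquiv.ofInjectiveEndo s ((injective_iff_map_eq_zero _).2 fun a ha =>
      h1 a (k.injective (by rw [h4, ha]; simp))), h4⟩
  obtain ⟨t, h2, c, h3, h5⟩ := trans h.hW h.w3 h.wl w0 w0' hw (h.q0 (by
    simpa [h4, h.Bp, hb₀, h.hW.diag0 hw] using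
      (h.le hk).1 (pt U f (s⁻¹ a₀) w) (pt U f (s⁻¹ b₀) w)))
  exact (mul_mem_cancel_left (rt_mem (h.hW.om_le_isom h2))).1 (h.st1 (mul_mem (h.rm t h2) hk) w0 hw
    (s := s.trans (LinearEquiv.smulOfNeZero F U c h3)) fun a => by
      simp [mul_app, h4, rt_pt (h.hW.om_le_isom h2).1, h5])

end T3

end Cfsg.Agent.H11.Tz
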