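import Mathlib
import Cfsg.Agent.H11.Tz4

/-!
Tensor products `O₃ ⊗ O(W)` with `W` of Witt index one: elements fixing a single coset.
-/

set_option autoImplicit false
set_option linter.unusedSectionVars false

namespace Cfsg.Agent.H11.Tz

open Module H10 H11 H19.TA
open H11.Im (r r_apply r_isom r_inv r_r r_self conj_r)
open H26.MX hiding finrank_le_inf_ker finrank_span_pair_le finrank_span_one_le SLv mem_SLv
  map_eq_of_le

variable {F : Type*} [Field F] {U W : Type*} [AddCommGroup U] [Module F U] [AddCommGroup W] [Module F W]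
  {g : U →ₗ[F] U →ₗ[F] F} {f : W →ₗ[F] W →ₗ[F] F} {p : U → F} {q : W → F}
  {B : (W →ₗ[F] U) →ₗ[F] (W →ₗ[F] U) →ₗ[F] F} {Q : (W →ₗ[F] U) → F}
  {M : Subgroup ((W →ₗ[F] U) ≃ₗ[F] (W →ₗ[F] U))} {k c : (W →ₗ[F] U) ≃ₗ[F] (W →ₗ[F] U)}

theorem sep [Nontrivial U] [Nontrivial W] {s s' : U ≃ₗ[F] U} {t t' : W ≃ₗ[F] W}
    (h : lf W s * rt U t = lf W s' * rt U t') : ∃ μ : F, (∀ a, s a = μ • s' a) ∧ ∀ x, t x = μ • t' x := by
  have h1 : ∀ (β : Dual F W) a x, β x • s a = β (t'⁻¹ (t x)) • s' a := fun β a x => by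
    simpa [mul_app] using LinearMap.congr_fun (LinearEquiv.congr_fun h (β.smulRight a)) (t x)
  obtain ⟨x₀, hx⟩ := exists_ne (0 : W)
  obtain ⟨a₀, ha⟩ := exists_ne (0 : U)
  obtain ⟨β, hβ⟩ := exists_dual_one (F := F) hx
  have h2 : ∀ a, s a = β (t'⁻¹ (t x₀)) • s' a := fun a => by rw [← h1, hβ, one_smul]
  generalize β (t'⁻¹ (t x₀)) = μ at h2
  refine ⟨μ, h2, fun x => ?_⟩
  rw [← map_smul, ← app_inv t' (t x)]
  refine congrArg t' (sub_eq_zero.1 ((Module.forall_dual_apply_eq_zero_iff F _).1 fun γ => ?_))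
  have := h1 γ a₀ x
  rw [h2, smul_smul] at this
  rw [map_sub, map_smul, ← smul_left_injective F (app_ne_zero s' ha) this]; simp [mul_comm]

theorem fix_ge [FiniteDimensional F U] [FiniteDimensional F W] (h2 : (2 : F) ≠ 0) {s : End F U}
    {ψ : End F W} (hψ : ∀ x, ψ (ψ x) = x) {k : End F (W →ₗ[F] U)} (hk : ∀ v x, k v x = s (v (ψ x))) :
    finrank F (LinearMap.ker (ψ - 1)) * finrank F (LinearMap.ker (s - 1)) +
      finrank F (LinearMap.ker (-ψ - 1)) * finrank F (LinearMap.ker (-s - 1)) ≤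
      finrank F (LinearMap.ker (k - 1)) := by
  let π : W →ₗ[F] LinearMap.ker (ψ - 1) := (1 + ψ).codRestrict _ fun x => by simp [hψ, add_comm]
  let π' : W →ₗ[F] LinearMap.ker (-ψ - 1) := (1 - ψ).codRestrict _ fun x => by simp [hψ]
  let Φ := (LinearMap.llcomp F _ _ _ (LinearMap.ker (s - 1)).subtype ∘ₗ LinearMap.lcomp F _ π).coprod
    (LinearMap.llcomp F _ _ _ (LinearMap.ker (-s - 1)).subtype ∘ₗ LinearMap.lcomp F _ π')
  have h1 : ∀ α x, Φ α x = α.1 (π x) + α.2 (π' x) := fun _ _ => rfl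
  have h3 : Function.Injective Φ := (injective_iff_map_eq_zero _).2 fun α hα => by
    refine Prod.ext (LinearMap.ext fun x => Subtype.ext ?_) (LinearMap.ext fun x => Subtype.ext ?_)
    · have h3 : ψ x = x := sub_eq_zero.1 x.2
      have := h1 α x
      rw [hα, show π x = (2 : F) • x from Subtype.ext (by simp [π, h3, two_smul]),
        show π' x = 0 from Subtype.ext (by simp [π', h3])] at this
      simpa [h2] using this.symm
    · have h3 : ψ x = -x := neg_eq_iff_eq_neg.1 (sub_eq_zero.1 x.2)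
      have := h1 α x
      rw [hα, show π' x = (2 : F) • x from Subtype.ext (by simp [π', h3, two_smul]),
        show π x = 0 from Subtype.ext (by simp [π, h3])] at this
      simpa [h2] using this.symm
  rw [← finrank_linearMap, ← finrank_linearMap, ← finrank_prod, ← LinearMap.finrank_range_of_inj h3]
  refine Submodule.finrank_mono ?_
  rintro _ ⟨α, rfl⟩
  refine sub_eq_zero.2 (LinearMap.ext fun x => ?_)
  rw [hk, End.one_apply, h1, h1, show π (ψ x) = π x from Subtype.ext (by simp [π, hψ, add_comm]),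
    show π' (ψ x) = -π' x from Subtype.ext (by simp [π', hψ]), map_add, map_neg,
    show s (α.1 (π x)) = α.1 (π x) from sub_eq_zero.1 (α.1 (π x)).2, Submodule.coe_neg, map_neg,
    show -s (α.2 (π' x)) = α.2 (π' x) from sub_eq_zero.1 (α.2 (π' x)).2]

theorem fr_conj {V : Type*} [AddCommGroup V] [Module F V] (x : V ≃ₗ[F] V) {k k' : End F V}
    (h : ∀ v, k' (x v) = x (k v)) : finrank F (LinearMap.ker (k' - 1)) = finrank F (LinearMap.ker (k - 1)) := by
  rw [← finrank_map (LinearMap.ker (k - 1)) x, show (LinearMap.ker (k - 1)).map (x : V →ₗ[F] V) =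
    LinearMap.ker (k' - 1) from Submodule.ext fun v => by
      obtain ⟨v, rfl⟩ := x.surjective v
      simp [mem_map_iff, h, sub_eq_zero]]

theorem eich_triv (h : Cl (σ := RingHom.id F) 1 2 (AddMonoidHom.id F) g p) (hl : W1 g p) {e a : U}
    (e0 : e ≠ 0) (he : p e = 0) (ea : g e a = 0) (pa : p a = 0) : h.eich e a (p a) = 1 := by
  obtain ⟨c, rfl⟩ := Submodule.mem_span_singleton.1 (hl e a he pa ea e0)
  simpa [pa, h.eich_zero] using h.eich_add_smul (w := 0) he (by simp) c 0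

/-- the root groups of the second factor -/
def EE (U : Type*) [AddCommGroup U] [Module F U] (h : Cl (σ := RingHom.id F) 1 2 (AddMonoidHom.id F) f q)
    {w : W} (hw : q w = 0) (S : Submodule F W) : Subgroup ((W →ₗ[F] U) ≃ₗ[F] (W →ₗ[F] U)) where
  carrier := {k | ∃ y ∈ S, f w y = 0 ∧ k = rt U (h.eich w y (q y))}
  one_mem' := ⟨0, zero_mem _, by simp, by simp [h.Q_zero, h.eich_zero]⟩
  mul_mem' := by
    rintro _ _ ⟨y, h1, h2, rfl⟩ ⟨z, h3, h4, rfl⟩
    exact ⟨_, add_mem h1 h3, by simp [h2, h4], by rw [← map_mul, h.eich_mul hw h2 h4, h.Q_add]; simp⟩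
  inv_mem' := by
    rintro _ ⟨y, h1, h2, rfl⟩
    exact ⟨_, neg_mem h1, by simp [h2], by
      rw [← map_inv, h.eich_inv hw h2, h.form.neg, qd h]; congr 2; ring⟩

/-- the pointwise stabiliser of `b ⊗ W` -/
def Kf (f : W →ₗ[F] W →ₗ[F] F) (M : Subgroup ((W →ₗ[F] U) ≃ₗ[F] (W →ₗ[F] U))) (b : U) :
    Subgroup ((W →ₗ[F] U) ≃ₗ[F] (W →ₗ[F] U)) where
  carrier := {k | k ∈ M ∧ ∀ y, k (pt U f b y) = pt U f b y}
  one_mem' := ⟨one_mem _, fun _ => rfl⟩
  mul_mem' h1 h2 := ⟨mul_mem h1.1 h2.1, fun y => by rw [mul_app, h2.2, h1.2]⟩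
  inv_mem' h := ⟨inv_mem h.1, fun y => inv_eq_of (h.2 y)⟩

theorem neg_pow_odd {n : ℕ} (hn : Odd n) {s : U ≃ₗ[F] U} (h : ∀ x, (s ^ n) x = (-1 : F) • x) :
    (LinearEquiv.neg F * s) ^ n = 1 := by
  obtain ⟨m, rfl⟩ := hn
  rw [Commute.mul_pow (LinearEquiv.ext fun x => by simp [mul_app]), pow_succ, pow_mul,
    show (LinearEquiv.neg F : U ≃ₗ[F] U) ^ 2 = 1 from LinearEquiv.ext fun x => by simp [sq, mul_app]]
  ext x; simp [mul_app, h]

namespace T3

variable [FiniteDimensional F U] [FiniteDimensional F W] [Finite F] (h : T3 g p f q B Q M)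
include h

theorem ntU : Nontrivial U := Module.nontrivial_of_finrank_pos (R := F) (by have := h.u3; omega)

theorem ntW : Nontrivial W := Module.nontrivial_of_finrank_pos (R := F) (by have := h.w3; omega)

theorem odd : Odd (ringChar F) := (CharP.char_is_prime F _).odd_of_ne_two fun h2 =>
  h.two (by have := ringChar.Nat.cast_ringChar (R := F); rwa [h2] at this)

theorem pt_inj {b : U} (hb : b ≠ 0) : Function.Injective (pt U f b) :=
  (injective_iff_map_eq_zero _).2 fun y hy => h.hW.form.separatingRight h.hW.sep fun x => by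
    simpa [hb] using LinearMap.congr_fun hy x

theorem pt_inj' {w : W} (hw : w ≠ 0) {a b : U} (h1 : pt U f a w = pt U f b w) : a = b := by
  obtain ⟨x, hx⟩ := h.hW.form.exists_right_eq_one h.hW.sep hw
  simpa [h.hW.flip_one hx] using LinearMap.congr_fun h1 x

theorem ex_t {b : U} (hb : b ≠ 0) (h1 : ∀ y, ∃ y', k (pt U f b y) = pt U f b y') :
    ∃ t : End F W, ∀ y, k (pt U f b y) = pt U f b (t y) :=
  ⟨(LinearEquiv.ofInjective _ (h.pt_inj hb)).symm.toLinearMap ∘ₗ (k.toLinearMap ∘ₗ pt U f b).codRestrict _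
    fun y => (h1 y).imp fun _ h => h.symm, fun y =>
      (LinearEquiv.ofInjective_symm_apply (f := pt U f b) (h := h.pt_inj hb) ⟨_, (h1 y).imp fun _ h => h.symm⟩).symm⟩

theorem ex_pt {b : U} (hb : b ≠ 0) {v : W →ₗ[F] U} (h1 : ∀ x, v x ∈ F ∙ b) : ∃ y, v = pt U f b y := by
  obtain ⟨χ, hχ⟩ := exists_dual_one (F := F) hb
  obtain ⟨y, hy⟩ := ex_flip h.hW (χ ∘ₗ v)
  refine ⟨y, LinearMap.ext fun x => ?_⟩
  obtain ⟨d, hd⟩ := Submodule.mem_span_singleton.1 (h1 x)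
  rw [pt_apply, show f x y = χ (v x) from LinearMap.congr_fun hy x, ← hd]; simp [hχ]

theorem punip (hk : k ∈ HH g p f q) (hp : k ^ ringChar F = 1) : ∃ e a w y, e ≠ 0 ∧ p e = 0 ∧ g e a = 0 ∧
    w ≠ 0 ∧ q w = 0 ∧ f w y = 0 ∧ k = lf W (h.hU.eich e a (p a)) * rt U (h.hW.eich w y (q y)) := by
  have := h.ntU
  have := h.ntW
  obtain ⟨s, hs, t, ht, rfl, h1, h2⟩ : ∃ s ∈ Isom g p, ∃ t ∈ Isom f q, k = lf W s * rt U t ∧
      s ^ ringChar F = 1 ∧ t ^ ringChar F = 1 := by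
    obtain ⟨s, hs, t, ht, rfl⟩ := hk
    rw [(lf_rt s t).mul_pow, ← map_pow, ← map_pow] at hp
    obtain ⟨μ, h1, h2⟩ := sep (s' := 1) (t' := 1) hp
    obtain ⟨a, b, -, -, -, hb, -⟩ := frame h.hU h.u3.ge
    have h3 : μ * μ = 1 := by simpa [h1, hb] using (pow_mem hs (ringChar F)).1 a b
    rcases mul_self_eq_one_iff.1 h3 with rfl | rfl
    · exact ⟨s, hs, t, ht, rfl, LinearEquiv.ext (by simpa using h1), LinearEquiv.ext (by simpa using h2)⟩
    exact ⟨_, mul_mem (isom_of h.hU h.two (by simp)) hs, _, mul_mem (isom_of h.hW h.two (by simp)) ht,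
      LinearEquiv.ext fun v => LinearMap.ext fun x => show _ = -s (v (t⁻¹ (-x))) by simp [mul_app],
      neg_pow_odd h.odd h1, neg_pow_odd h.odd h2⟩
  obtain ⟨e, a, h3, h4, h5, rfl⟩ := un h.hU h.two h.u3.ge (w1_three h.hU h.u3) hs h1
  obtain ⟨w, y, h6, h7, h8, rfl⟩ := un h.hW h.two h.w3 h.wl ht h2
  exact ⟨e, a, w, y, h3, h4, h5, h6, h7, h8, rfl⟩

theorem line {e a b : U} (e0 : e ≠ 0) (he : p e = 0) (ea : g e a = 0) (pa : p a ≠ 0) (h1 : g e b = 0)
    (h2 : g a b = 0) : b ∈ F ∙ e := by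
  obtain ⟨e', he', ee, ea'⟩ := partner h.hU he e0 ea pa
  rw [dec3 h.hU h.two h.u3 he he' ee ea ea' pa b, h1, h2]
  simp [Submodule.smul_mem, Submodule.mem_span_singleton_self]

theorem not_ev {e a b : U} (e0 : e ≠ 0) (he : p e = 0) (ea : g e a = 0) (pa : p a ≠ 0) (pb : p b ≠ 0)
    (μ : F) : h.hU.eich e a (p a) b ≠ μ • b := fun h1 => by
  obtain ⟨-, h2, h3⟩ := ev h.hU h.two he e0 ea pa (by rintro rfl; exact pb h.hU.Q_zero) h1
  obtain ⟨d, rfl⟩ := Submodule.mem_span_singleton.1 (h.line e0 he ea pa h2 h3)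
  exact pb (h.hU.sing_smul he d)

theorem det_eq (hM : M ≤ h.hV.Om) (hk : k ∈ M) : LinearMap.det k.toLinearMap = 1 := det_om h.hV h.two (hM hk)

variable (w4 : finrank F W = 4)
include w4

theorem se1 {w y : W} (w0 : w ≠ 0) (hw : q w = 0) (wy : f w y = 0) (qy : q y ≠ 0) :
    Iso M (HH g p f q) (rt U (h.hW.eich w y (q y))) := by
  rintro c hc ⟨s, hs, t, ht, h0⟩
  have := h.ntU
  have := h.ntW
  have h1 : ∀ v x, (c * rt U (h.hW.eich w y (q y)) * c⁻¹) v x = s (v (t⁻¹ x)) := fun v x => by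
    rw [h0]; rfl
  obtain ⟨d, h2, h3⟩ := rank_le h1 (by rw [conj_pow, ← map_pow, eich_pow h.hW hw wy]; simp)
    (Y := (XX U f w y).map c.toLinearMap) fun v => ⟨_, mem_XX.2 ⟨c⁻¹ v y - q y • c⁻¹ v w, -c⁻¹ v w, rfl⟩, by
      rw [mul_app, mul_app, rt_eich h.hW hw wy]; simp; abel⟩
  have h4 := h3.trans ((Submodule.finrank_map_le _ _).trans (LinearMap.finrank_range_le _))
  rw [w4, finrank_prod, h.u3] at h4
  have h5 := no_tv h.hU h.two h.u3.ge (l := 1) (by simpa using hs.1) h2 (by omega)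
  obtain ⟨ψ, h6⟩ : ∃ ψ : End F W, ∀ v, rt U (h.hW.eich w y (q y)) (c⁻¹ v) - c⁻¹ v = c⁻¹ (v ∘ₗ ψ) :=
    ⟨d • t⁻¹.toLinearMap - 1, fun v => (inv_eq_of (LinearMap.ext fun x => by
      simpa [mul_app, h5, sub_eq_iff_eq_add] using h1 v x)).symm⟩
  have h7 : ∀ v, c⁻¹ (v ∘ₗ (ψ * ψ)) = pt U f (-(2 * q y) • c⁻¹ v w) w := fun v => by
    rw [End.mul_eq_comp, ← LinearMap.comp_assoc, ← h6, ← h6]
    simp [rt_eich h.hW hw wy, h.hW.diag0 hw, wy, h.hW.refl wy, qd h.hW y]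
  obtain ⟨z, z', h8, h9⟩ := exists_pt_comp (U := U) h.hW (ψ := ψ * ψ) fun h3 => by
    obtain ⟨a, ha⟩ := exists_ne (0 : U)
    obtain ⟨x, hx⟩ := h.hW.form.exists_right_eq_one h.hW.sep w0
    simpa [h3, hx, h.hW.flip_one hx, ha, qy, h.two] using LinearMap.congr_fun (h7 (c (pt U f a x))) x
  exact (inv_mem_iff (x := c)).1 (h.st (inv_mem hc) h8 (h.sing_of (inv_mem hc) fun a b => by
    rw [← h9, ← h9, h7, h7, h.Bp]; simp [h.hW.diag0 hw]) fun a => ⟨_, (congrArg _ (h9 a)).symm.trans (h7 _)⟩)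

theorem ti {w : W} (w0 : w ≠ 0) (hw : q w = 0) : Ti (ringChar F) M (HH g p f q) (EE U h.hW hw ⊤) := by
  have := h.ntU
  have := h.ntW
  refine ⟨?_, ?_, ?_, fun hc => ?_, ?_, ?_⟩
  · rintro _ ⟨y, -, hy, rfl⟩; exact h.rm _ (h.hW.eich_mem_om hw hy rfl)
  · rintro _ ⟨y, -, hy, rfl⟩; exact rt_mem (h.hW.eich_mem_isom hw hy rfl)
  · rintro _ ⟨y, -, hy, rfl⟩ _ ⟨z, -, hz, rfl⟩
    rw [← map_mul, ← map_mul, h.hW.eich_mul hw hy hz, h.hW.eich_mul hw hz hy, qs h.hW y, add_comm y,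
      add_comm (q y)]
  · obtain ⟨⟨_, y, h0, hy, rfl⟩, h1⟩ := hc.exists_generator
    have h2 := h.hW.form.finrank_perp h.hW.sep (F ∙ w)
    obtain ⟨z, h3, h4⟩ := exists_not_mem_of_lt (W := Submodule.span F {w, y}) (U := perp f (F ∙ w)) (by
      have := H10.finrank_span_pair_le (F := F) w y
      rw [finrank_span_singleton w0] at h2; omega)
    replace h3 := h3 w (Submodule.mem_span_singleton_self w)
    obtain ⟨n, hn⟩ := h1 ⟨_, z, trivial, h3, rfl⟩
    obtain ⟨z', h5, h6, h7⟩ := (congrArg Subtype.val hn).subst (motive := (· ∈ _)) (zpow_mem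
      (show _ ∈ EE U h.hW hw (Submodule.span F {w, y}) from
        ⟨y, Submodule.subset_span (by simp), hy, rfl⟩) n)
    obtain ⟨μ, h8, h9⟩ := sep (s := 1) (s' := 1) (congrArg (1 * ·) h7)
    obtain ⟨a, ha⟩ := exists_ne (0 : U)
    obtain rfl : 1 = μ := smul_left_injective F ha (by simpa using h8 a)
    obtain ⟨x, hx⟩ := h.hW.form.exists_right_eq_one h.hW.sep w0
    have h10 := h9 x
    rw [h.hW.eich_apply hw h3, h.hW.eich_apply hw h6, hx] at h10
    refine h4 (Eq.subst (motive := (· ∈ _)) (a := z' + (f z x - f z' x - q z + q z') • w) ?_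
      (add_mem h5 (Submodule.smul_mem _ _ (Submodule.subset_span (by simp)))))
    linear_combination (norm := module) h10
  · rintro ⟨_, y, h1, hy, rfl⟩
    exact ⟨1, Subtype.ext (by simp [← map_pow, eich_pow h.hW hw hy])⟩
  · rintro _ ⟨y, -, hy, rfl⟩ h1
    exact h.se1 w4 w0 hw hy fun h2 => h1 (by rw [eich_triv h.hW h.wl w0 hw hy h2, map_one])

theorem cy (hc : c ∈ M) {b : U} (pb : p b ≠ 0) (h1 : ∀ y, ∃ y', c (pt U f b y) = pt U f b y') :
    c ∈ HH g p f q := by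
  have := Fact.mk (CharP.char_is_prime F (ringChar F))
  have : Finite (W →ₗ[F] U) := Module.finite_of_finite F
  have : Finite ((W →ₗ[F] U) ≃ₗ[F] (W →ₗ[F] U)) := DFunLike.finite _
  have b0 : b ≠ 0 := by rintro rfl; exact pb h.hU.Q_zero
  obtain ⟨t, h2⟩ := h.ex_t b0 h1
  have h3 : ∀ x y, f (t x) (t y) = f x y := fun x y => by
    simpa [h2, h.Bp, qd h.hU, h.two, pb] using (h.le hc).1 (pt U f b x) (pt U f b y)
  obtain ⟨t, ht, h4⟩ := IsForm.exists_isom_of_linear (Q := q) h.hW.sep t h3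
    fun x => q_eq_of h.hW h.two (h3 x x)
  simp only [← h4] at h2
  obtain ⟨w, w', y, hw, -, ww, wy, -, qy⟩ := frame h.hW h.w3
  have w0 : w ≠ 0 := by rintro rfl; simp at ww
  have h5 := (h.ti w4 w0 hw).cop (K := Kf f M b) (fun _ h => h.1) (by
    rintro _ ⟨z, -, hz, rfl⟩
    have h5 := h.hW.eich_mem_om hw hz rfl
    exact Subgroup.mem_normalizer_fintype fun η hη => ⟨mul_mem (mul_mem (h.rm _ h5) hη.1)
      (inv_mem (h.rm _ h5)), fun x => by
        rw [mul_app, mul_app, ← map_inv, rt_pt (h.hW.om_le_isom (inv_mem h5)).1, hη.2,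
          rt_pt (h.hW.om_le_isom h5).1, app_inv]⟩) fun x hx h5 h6 => by
    obtain ⟨e, a, w, y, e0, he, ea, w0, hw, wy, rfl⟩ := h.punip h5 h6
    have h7 := fun z => hx.2 z
    simp only [mul_app, rt_pt (h.hW.eich_mem_isom hw wy rfl).1, lf_pt] at h7
    have h8 := h7 w
    erw [h.hW.eich_fix _ (h.hW.diag0 hw) (h.hW.refl wy)] at h8
    have h9 := eich_triv h.hU (w1_three h.hU h.u3) e0 he ea (by_contra fun pa =>
      h.not_ev e0 he ea pa pb 1 ((h.pt_inj' w0 h8).trans (one_smul F b).symm))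
    rw [h9] at h7 ⊢
    rw [show h.hW.eich w y (q y) = 1 from LinearEquiv.ext fun z => h.pt_inj b0 (h7 z)]; rfl
  have h6 := h.hW.eich_mem_om hw wy rfl
  have h7 := h.hW.conj_mem_om ht h6
  refine h.se1 w4 w0 hw wy qy c hc (((HH g p f q).mul_mem_cancel_right
    (inv_mem (rt_mem (h.hW.om_le_isom h7)))).1 (h5 ⟨mul_mem (mul_mem (mul_mem hc (h.rm _ h6)) (inv_mem hc))
      (inv_mem (h.rm _ h7)), fun z => ?_⟩))
  rw [mul_app, mul_app, mul_app, ← map_inv, rt_pt (h.hW.om_le_isom (inv_mem h7)).1,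
    inv_eq_of (h2 (t⁻¹ _) |>.trans (congrArg _ (app_inv _ _)))]
  erw [rt_pt (h.hW.om_le_isom h6).1, h2]
  simp [mul_app]

theorem cj {s : U ≃ₗ[F] U} (hs : s ∈ Isom g p) (s2 : ∀ x, s (s x) = x) (s1 : s ≠ 1)
    (hd : LinearMap.det s.toLinearMap = 1) (hc : c ∈ M) (h1 : c * lf W s = lf W s * c) : c ∈ HH g p f q := by
  obtain ⟨b, ε, pb, h2, h3⟩ := inv_line h.hU h.two h.u3 hs s2 s1 hd
  refine h.cy w4 hc pb fun y => h.ex_pt (by rintro rfl; exact pb h.hU.Q_zero) fun x => h3 _ ?_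
  simpa [mul_app, lf_pt, h2] using (LinearMap.congr_fun (LinearEquiv.congr_fun h1 (pt U f b y)) x).symm

end T3

end Cfsg.Agent.H11.Tz
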