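import Mathlib
import Cfsg.Agent.H11.Tz5

/-!
The tensor product `O₃ ⊗ O₄⁻` is maximal in `Ω₁₂⁻(q)`, `q ≥ 5` odd.
-/

set_option autoImplicit false
set_option linter.unusedSectionVars false

namespace Cfsg.Agent.H11.Tz

open Module H10 H11 H19.TA Cfsg.Geo
open H11.Im (r r_apply r_isom r_inv r_r r_self conj_r weyl_eq)
open H26.MX hiding finrank_le_inf_ker finrank_span_pair_le finrank_span_one_le SLv mem_SLv
  map_eq_of_le

variable {F : Type*} [Field F] {U W : Type*} [AddCommGroup U] [Module F U] [AddCommGroup W] [Module F W]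
  {g : U →ₗ[F] U →ₗ[F] F} {f : W →ₗ[F] W →ₗ[F] F} {p : U → F} {q : W → F}
  {B : (W →ₗ[F] U) →ₗ[F] (W →ₗ[F] U) →ₗ[F] F} {Q : (W →ₗ[F] U) → F}
  {M : Subgroup ((W →ₗ[F] U) ≃ₗ[F] (W →ₗ[F] U))} {k c : (W →ₗ[F] U) ≃ₗ[F] (W →ₗ[F] U)}

theorem pow_of_nil [Finite F] [Nontrivial U] (h2 : Odd (ringChar F)) {s : U ≃ₗ[F] U}
    (h : ∀ x, (s.toLinearMap - 1 : End F U) ((s.toLinearMap - 1 : End F U)
      ((s.toLinearMap - 1 : End F U) x)) = 0) : s ^ ringChar F = 1 := by
  have hp := CharP.char_is_prime F (ringChar F)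
  have := Fact.mk hp
  have := charP_of_injective_algebraMap (algebraMap F (End F U)).injective (ringChar F)
  have h1 := pow_eq_zero_of_le (a := (s.toLinearMap - 1 : End F U)) (m := 3) (n := ringChar F)
    (by have := hp.two_le; obtain ⟨m, hm⟩ := h2; omega) (LinearMap.ext h)
  rw [sub_pow_char_of_commute _ (Commute.one_right _), one_pow, sub_eq_zero] at h1
  exact LinearEquiv.toLinearMap_injective
    ((LinearEquiv.automorphismGroup.toLinearMapMonoidHom.map_pow s _).trans h1)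

theorem ker4 [FiniteDimensional F U] (h : Cl (σ := RingHom.id F) 1 2 (AddMonoidHom.id F) g p)
    (hn : finrank F U = 4) {a b c d x : U} (ha : g a x = 0) (hb : g b x = 0) (hc : g c x = 0)
    (hd : g d x = 0) (hi : ∀ r s t u : F, r • a + s • b + t • c + u • d = 0 → r = 0 ∧ s = 0 ∧ t = 0 ∧ u = 0) :
    x = 0 := by
  have h1 : LinearIndependent F ![a, b, c, d] := Fintype.linearIndependent_iff.2 fun r hr i => by
    obtain ⟨h1, h2, h3, h4⟩ := hi (r 0) (r 1) (r 2) (r 3) (by simpa [Fin.sum_univ_four] using hr)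
    fin_cases i <;> assumption
  have h2 := h1.span_eq_top_of_card_eq_finrank (by simp [hn])
  exact h.form.separatingRight h.sep fun y => (mem_perp_span (s := Set.range ![a, b, c, d])).2
    (by rintro _ ⟨i, rfl⟩; fin_cases i <;> assumption) y (h2 ▸ trivial)

theorem sc_isom [FiniteDimensional F U] (h : Cl (σ := RingHom.id F) 1 2 (AddMonoidHom.id F) g p)
    (h2 : (2 : F) ≠ 0) {s : U ≃ₗ[F] U} (hs : s ∈ Isom g p) {α : F} (hα : α * α = 1) :
    ∃ s' ∈ Isom g p, ∀ x, s' x = α • s x :=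
  ⟨s.trans (LinearEquiv.smulOfNeZero F U α (by rintro rfl; simp at hα)), isom_of h h2 fun a b => by
    change g (α • s a) (α • s b) = _
    simp [hs.1, ← mul_assoc, hα], fun _ => rfl⟩

namespace T3

variable [FiniteDimensional F U] [FiniteDimensional F W] [Finite F] (h : T3 g p f q B Q M)
include h

theorem lf_inj {s s' : U ≃ₗ[F] U} (h1 : lf W s = lf W s') : s = s' := by
  obtain ⟨w, w', -, -, -, ww, -⟩ := frame h.hW h.w3
  exact LinearEquiv.ext fun x => h.pt_inj' (w := w) (by rintro rfl; simp at ww) (by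
    rw [← lf_pt, h1, lf_pt])

variable (w4 : finrank F W = 4)
include w4

theorem iso_k {j : U ≃ₗ[F] U} (hj : j ∈ Isom g p) (j2 : ∀ x, j (j x) = x) (j1 : j ≠ 1)
    (hd : LinearMap.det j.toLinearMap = 1) : Iso M (HH g p f q) (lf W j) := by
  rintro x hx ⟨s, hs, t, ht, h0⟩
  have := h.ntU
  have := h.ntW
  have h1 : lf W j * lf W j = 1 := by rw [← map_mul, show j * j = 1 from LinearEquiv.ext j2, map_one]
  obtain ⟨μ, h2, h3⟩ := sep (s := s * s) (t := t * t) (s' := 1) (t' := 1) (by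
    change lf W s * rt U t * (lf W s * rt U t) = 1
    rw [← h0, conj_mul, h1]; simp)
  obtain rfl : μ = 1 := by
    obtain ⟨a, b, -, -, -, hb, -⟩ := frame h.hU h.u3.ge
    have h3 : μ * μ = 1 := by simpa [h2, hb] using (mul_mem hs hs).1 a b
    have h4 := det_sim h.hU (l := 1) (by simpa using hs.1)
    rw [pow_two, ← LinearMap.det_comp, show s.toLinearMap ∘ₗ s.toLinearMap = μ • LinearMap.id from
      LinearMap.ext h2, LinearMap.det_smul, h.u3] at h4
    simp only [LinearMap.det_id] at h4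
    linear_combination h4 - μ * h3
  replace h2 : ∀ x, s (s x) = x := by simpa [mul_app] using h2
  replace h3 : ∀ x, t⁻¹ (t⁻¹ x) = x := fun x => inv_eq_of (inv_eq_of (by simpa [mul_app] using h3 x)).symm
  have a1 := fix_ge h.two (s := j.toLinearMap) (ψ := (1 : End F W)) (k := (lf W j).toLinearMap)
    (fun _ => rfl) fun _ _ => rfl
  have a2 := fix_ge h.two (s := -j.toLinearMap) (ψ := (1 : End F W)) (k := -(lf W j).toLinearMap)
    (fun _ => rfl) fun _ _ => rfl
  have a3 := eig h.two (s := (lf W j).toLinearMap) fun v => LinearEquiv.congr_fun h1 v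
  have a4 := eig h.two (s := j.toLinearMap) j2
  have b1 := fix_ge h.two (s := s.toLinearMap) (ψ := t⁻¹.toLinearMap) (k := (lf W s * rt U t).toLinearMap)
    h3 fun _ _ => rfl
  have b2 := fix_ge h.two (s := -s.toLinearMap) (ψ := t⁻¹.toLinearMap) (k := -(lf W s * rt U t).toLinearMap)
    h3 fun _ _ => rfl
  have b3 := eig h.two (s := s.toLinearMap) h2
  have b4 := eig h.two (s := t⁻¹.toLinearMap) h3
  have c1 := fr_conj x (k := (lf W j).toLinearMap) (k' := (lf W s * rt U t).toLinearMap) fun v => by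
    simp [← h0, mul_app]
  have c2 := fr_conj x (k := -(lf W j).toLinearMap) (k' := -(lf W s * rt U t).toLinearMap) fun v => by
    simp [← h0, mul_app]
  have h5 : finrank F (LinearMap.ker (j.toLinearMap - 1)) ≠ 3 := fun h5 => j1 (LinearEquiv.ext fun x =>
    sub_eq_zero.1 (Submodule.eq_top_iff'.1 (Submodule.eq_top_of_finrank_eq (h5.trans h.u3.symm)) x))
  have h6 : finrank F (LinearMap.ker (-j.toLinearMap - 1)) ≠ 3 := fun h6 => by
    rw [show j.toLinearMap = (-1 : F) • LinearMap.id from LinearMap.ext fun x => by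
      simpa [neg_eq_iff_eq_neg] using sub_eq_zero.1 (Submodule.eq_top_iff'.1
        (Submodule.eq_top_of_finrank_eq (h6.trans h.u3.symm)) x), LinearMap.det_smul, h.u3] at hd
    exact h.two (by simp at hd; linear_combination -hd)
  rw [sub_self, LinearMap.ker_zero, finrank_top, w4] at a1 a2
  rw [finrank_linearMap, w4, h.u3] at a3
  rw [neg_neg, c2] at b2
  rw [c1] at b1
  rw [h.u3] at a4 b3
  obtain ⟨ε, h7⟩ : ∃ ε : F, ∀ y, t⁻¹ y = ε • y := by
    have : finrank F (LinearMap.ker (t⁻¹.toLinearMap - 1)) = finrank F W ∨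
        finrank F (LinearMap.ker (-t⁻¹.toLinearMap - 1)) = finrank F W := by
      rw [w4] at b4 ⊢
      generalize finrank F (LinearMap.ker (s.toLinearMap - 1)) = m at b1 b2 b3
      generalize finrank F (LinearMap.ker (-s.toLinearMap - 1)) = n at b1 b2 b3
      obtain ⟨rfl, rfl⟩ | ⟨rfl, rfl⟩ | ⟨rfl, rfl⟩ | ⟨rfl, rfl⟩ :
        m = 0 ∧ n = 3 ∨ m = 1 ∧ n = 2 ∨ m = 2 ∧ n = 1 ∨ m = 3 ∧ n = 0 := by omega
      all_goals omega
    rcases this with h7 | h7
    · exact ⟨1, fun y => by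
        simpa using sub_eq_zero.1 (Submodule.eq_top_iff'.1 (Submodule.eq_top_of_finrank_eq h7) y)⟩
    · exact ⟨-1, fun y => by
        simpa [neg_eq_iff_eq_neg] using
          sub_eq_zero.1 (Submodule.eq_top_iff'.1 (Submodule.eq_top_of_finrank_eq h7) y)⟩
  obtain ⟨w, w', y, hw, -, ww, wy, -, qy⟩ := frame h.hW h.w3
  have h8 := h.rm _ (h.hW.eich_mem_om hw wy rfl)
  refine (inv_mem_iff (x := x)).1 (h.se1 w4 (by rintro rfl; simp at ww) hw wy qy _ (inv_mem hx)
    (h.cj w4 hj j2 j1 hd (mul_mem (mul_mem (inv_mem hx) h8) (inv_mem (inv_mem hx))) ?_))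
  have h9 : rt U (h.hW.eich w y (q y)) * (lf W s * rt U t) = lf W s * rt U t * rt U (h.hW.eich w y (q y)) :=
    LinearEquiv.ext fun v => LinearMap.ext fun z => by simp only [mul_app, lf_apply, rt_apply, h7, map_smul]
  rw [← h0] at h9
  rw [← mul_left_inj x⁻¹, ← mul_right_inj x]
  erw [show ∀ a b : (W →ₗ[F] U) ≃ₗ[F] (W →ₗ[F] U), x * (x⁻¹ * a * x⁻¹⁻¹ * b * x⁻¹) = a * (x * b * x⁻¹) from
    fun a b => by group, h9]
  group

section
variable {e a : U} (e0 : e ≠ 0) (he : p e = 0) (ea : g e a = 0) (pa : p a ≠ 0)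
include e0 he ea pa

theorem cu (hc : c ∈ M) (h1 : c * lf W (h.hU.eich e a (p a)) = lf W (h.hU.eich e a (p a)) * c) :
    c ∈ HH g p f q := by
  have := Fact.mk (CharP.char_is_prime F (ringChar F))
  have := h.ntU
  have := h.ntW
  let N : End F (W →ₗ[F] U) := (lf W (h.hU.eich e a (p a))).toLinearMap - 1
  have n0 : ∀ v x, N v x = g a (v x) • e - g e (v x) • a - (p a * g e (v x)) • e := fun v x => by
    simp [N, h.hU.eich_apply he ea]; abel
  have n1 : ∀ v x, N (N v) x = -(2 * p a * g e (v x)) • e := fun v x => by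
    simp [n0, h.hU.diag0 he, ea, h.hU.refl ea, qd h.hU, mul_comm]
  have n2 : ∀ v, N v = 0 → ∃ y, v = pt U f e y := fun v hv => h.ex_pt e0 fun x => by
    by_cases h2 : v x = 0
    · simp [h2]
    obtain ⟨-, h3, h4⟩ := ev h.hU h.two he e0 ea pa h2 (μ := 1)
      (by simpa [N, sub_eq_zero] using LinearMap.congr_fun hv x)
    exact h.line e0 he ea pa h3 h4
  have n3 : ∀ v, N (N v) = 0 → ∀ x, g e (v x) = 0 := fun v hv x => by
    simpa [n1, h.two, pa, e0] using LinearMap.congr_fun hv x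
  have n4 : ∀ y, N (pt U f e y) = 0 := fun y => by ext; simp [n0, h.hU.diag0 he, h.hU.refl ea]
  have n5 : ∀ c : (W →ₗ[F] U) ≃ₗ[F] (W →ₗ[F] U), c * lf W (h.hU.eich e a (p a)) =
      lf W (h.hU.eich e a (p a)) * c → ∀ v, N (c v) = c (N v) := fun c hc v => by
    simp only [N, LinearMap.sub_apply, map_sub, End.one_apply, LinearEquiv.coe_coe, ← mul_app, hc]
  obtain ⟨t, h2⟩ := h.ex_t e0 fun y => n2 _ (by rw [n5 c h1, n4, map_zero])
  have h3 : ∀ x, ∃ y, c (pt U f a x) = pt U f a (t x) + pt U f e y := fun x => by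
    have h3 : ∀ x, N (pt U f a x) = (2 * p a) • pt U f e x := fun x => by
      ext; simp [n0, ea, qd h.hU, smul_smul, mul_comm]
    exact (n2 (c (pt U f a x) - pt U f a (t x)) (by rw [map_sub, n5 c h1, h3, h3, map_smul, h2, sub_self])).imp
      fun y hy => eq_add_of_sub_eq' hy
  have h4 : ∀ x y, f (t x) (t y) = f x y := fun x y => by
    obtain ⟨x', h4⟩ := h3 x
    obtain ⟨y', h5⟩ := h3 y
    simpa [h4, h5, h.Bp, qd h.hU a, h.two, pa, ea, h.hU.refl ea, h.hU.diag0 he] using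
      (h.le hc).1 (pt U f a x) (pt U f a y)
  obtain ⟨t, ht, h5⟩ := IsForm.exists_isom_of_linear (Q := q) h.hW.sep t h4
    fun x => q_eq_of h.hW h.two (h4 x x)
  simp only [← h5] at h2
  obtain ⟨w, w', y, hw, -, ww, wy, -, qy⟩ := frame h.hW h.w3
  have : Finite (W →ₗ[F] U) := Module.finite_of_finite F
  have : Finite ((W →ₗ[F] U) ≃ₗ[F] (W →ₗ[F] U)) := DFunLike.finite _
  have h6 := h.hW.eich_mem_om hw wy rfl
  have h7 := h.hW.conj_mem_om ht h6
  have h8 := h.se1 w4 (by rintro rfl; simp at ww) hw wy qy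
  have h9 := h8.pg' (p := ringChar F) (rt_mem (h.hW.om_le_isom h6)) (h.rm _ h6)
    (by rw [← map_pow, eich_pow h.hW hw wy, map_one])
    (K := Kf f M e ⊓ Subgroup.centralizer {lf W (h.hU.eich e a (p a))}) (fun _ h => h.1.1) (fun η => ⟨1, by
      have h9 := n5 η (Subgroup.mem_centralizer_singleton_iff.1 η.2.2)
      have : Nontrivial (W →ₗ[F] U) := Module.nontrivial_of_finrank_pos (R := F) (by
        rw [finrank_linearMap, w4, h.u3]; omega)
      refine Subtype.ext ((congrArg (η.1 ^ ·) (pow_one _)).trans (pow_of_nil h.odd fun v => ?_))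
      set D : End F (W →ₗ[F] U) := η.1.toLinearMap - 1 with hD
      have h10 : ∀ v, N (D v) = D (N v) := fun v => by simp [hD, h9]
      have h11 : ∀ v, N v = 0 → D v = 0 := fun v hv => by
        obtain ⟨y, rfl⟩ := n2 v hv
        exact sub_eq_zero.2 (η.2.1.2 y)
      refine h11 _ (by
        rw [h10]
        refine h11 _ ?_
        rw [h10, h10]
        exact h11 _ (by ext; simp [n1 (N v), n0, h.hU.diag0 he, ea]))⟩)
    (Subgroup.mem_normalizer_fintype fun η hη => ⟨⟨mul_mem (mul_mem (h.rm _ h6) hη.1.1)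
      (inv_mem (h.rm _ h6)), fun x => by
        rw [mul_app, mul_app, ← map_inv, rt_pt (h.hW.om_le_isom (inv_mem h6)).1, hη.1.2,
          rt_pt (h.hW.om_le_isom h6).1, app_inv]⟩, mul_mem (mul_mem
            (Subgroup.mem_centralizer_singleton_iff.2 (lf_rt _ _).symm) hη.2)
            (Subgroup.inv_mem _ (Subgroup.mem_centralizer_singleton_iff.2 (lf_rt _ _).symm))⟩)
  have h10 := Subgroup.mem_centralizer_singleton_iff.2 h1
  refine h8 c hc (((HH g p f q).mul_mem_cancel_right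
    (inv_mem (rt_mem (h.hW.om_le_isom h7)))).1 (h9 ⟨⟨mul_mem (mul_mem (mul_mem hc (h.rm _ h6)) (inv_mem hc))
      (inv_mem (h.rm _ h7)), fun z => ?_⟩, mul_mem (mul_mem (mul_mem h10
        (Subgroup.mem_centralizer_singleton_iff.2 (lf_rt _ _).symm)) (Subgroup.inv_mem _ h10))
        (Subgroup.inv_mem _ (Subgroup.mem_centralizer_singleton_iff.2 (lf_rt _ _).symm))⟩))
  rw [mul_app, mul_app, mul_app, ← map_inv, rt_pt (h.hW.om_le_isom (inv_mem h7)).1,
    inv_eq_of (h2 (t⁻¹ _) |>.trans (congrArg _ (app_inv _ _)))]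
  erw [rt_pt (h.hW.om_le_isom h6).1, h2]
  simp [mul_app]

variable (hM : M ≤ h.hV.Om) {w y : W} (w0 : w ≠ 0) (hw : q w = 0) (wy : f w y = 0) (qy : q y ≠ 0)
include hM w0 hw wy qy

theorem form (hc : c ∈ M) (h0 : c ∈ HH g p f q)
    (h1 : lf W (h.hU.eich e a (p a)) * rt U (h.hW.eich w y (q y)) * c =
      c * (lf W (h.hU.eich e a (p a)) * rt U (h.hW.eich w y (q y)))) : ∃ (β : F) (a' : U) (y' : W),
    g e a' = 0 ∧ f w y' = 0 ∧ ∀ v, c v = β • lf W (h.hU.eich e a' (p a')) (rt U (h.hW.eich w y' (q y')) v) := by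
  have := h.ntU
  have := h.ntW
  obtain ⟨s, hs, t, ht, rfl⟩ := h0
  obtain ⟨μ, h2, h3⟩ := sep (s := h.hU.eich e a (p a) * s) (s' := s * h.hU.eich e a (p a))
    (t := h.hW.eich w y (q y) * t) (t' := t * h.hW.eich w y (q y)) h1
  obtain ⟨α, h4, h5, h6⟩ := eich_eq h.hU h.two (w1_three h.hU h.u3) he e0 ea pa hs h2
  obtain ⟨α', h7, h8, h9⟩ := eich_eq h.hW h.two h.wl hw w0 wy qy ht h3
  obtain ⟨s', h10, h11⟩ := sc_isom h.hU h.two hs h4
  obtain ⟨t', h12, h13⟩ := sc_isom h.hW h.two ht h7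
  rw [← h11] at h5 h6
  rw [← h13] at h8 h9
  obtain ⟨e', he', ee, ea'⟩ := partner h.hU he e0 ea pa
  obtain ⟨a', h14, h15⟩ := un2 h.hU h10 he e0 h5 fun z hz => by
    rw [dec3 h.hU h.two h.u3 he he' ee ea ea' pa z, hz]
    simpa [h5, ← smul_sub] using Submodule.smul_mem _ _ h6
  obtain ⟨w', hw', ww, wy'⟩ := partner h.hW hw w0 wy qy
  obtain ⟨z, h16, z0⟩ := exists_ne_zero_of_finrank (W := perp f (Submodule.span F {w, w', y})) (by
    have h1 := h.hW.form.finrank_perp h.hW.sep (Submodule.span F {w, w', y})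
    classical
    have h2 := (finrank_span_le_card (R := F) ({w, w', y} : Set W)).trans
      (show _ ≤ 3 by simpa using Finset.card_le_three)
    omega)
  rw [mem_perp_span] at h16
  have wz := h16 w (by simp)
  have wz' := h16 w' (by simp)
  have yz := h16 y (by simp)
  have qz : q z ≠ 0 := fun qz => by
    obtain ⟨d, rfl⟩ := Submodule.mem_span_singleton.1 (h.wl w z hw qz wz w0)
    simp [h.hW.flip_one ww] at wz'
    simp [wz'] at z0
  have h17 : ∀ x, f w x = 0 → x = f w' x • w + (f y x / (2 * q y)) • y + (f z x / (2 * q z)) • z :=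
    fun x hx => sub_eq_zero.1 (ker4 h.hW w4 (a := w) (b := w') (c := y) (d := z)
      (by simp [hx, h.hW.diag0 hw, wy, wz]) (by simp [h.hW.flip_one ww, wy', wz'])
      (by simp [h.hW.refl wy, yz, qd h.hW y, mul_ne_zero h.two qy])
      (by simp [h.hW.refl wz, h.hW.refl yz, qd h.hW z, mul_ne_zero h.two qz]) fun i j k l hi => by
        have h3 := congrArg (f w) hi
        have h4 := congrArg (f w') hi
        have h5 := congrArg (f y) hi
        have h6 := congrArg (f z) hi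
        simp [h.hW.diag0 hw, h.hW.diag0 hw', ww, h.hW.flip_one ww, wy, wy', wz, wz', yz, h.hW.refl wy,
          h.hW.refl wy', h.hW.refl wz, h.hW.refl wz', h.hW.refl yz, qd h.hW y, qd h.hW z, h.two, qy, qz]
          at h3 h4 h5 h6
        exact ⟨h4, h3, h5, h6⟩)
  have h18 : ∀ t' ∈ Isom f q, t' w = w → t' y - y ∈ F ∙ w → t' z - z ∈ F ∙ w →
      ∃ y', f w y' = 0 ∧ t' = h.hW.eich w y' (q y') := fun t' h1 h2 h3 h4 => un2 h.hW h1 hw w0 h2 fun x hx => by
    rw [h17 x hx]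
    simpa [h2, ← smul_sub, add_sub_add_comm] using add_mem (Submodule.smul_mem _ _ h3) (Submodule.smul_mem _ _ h4)
  have h19 : ∀ x, t⁻¹ x = α' • t'⁻¹ x := fun x => inv_eq_of (by rw [map_smul, ← h13, app_inv])
  have h20 : ∀ x, s x = α • s' x := fun x => by rw [h11, smul_smul, h4, one_smul]
  obtain ⟨d, hd⟩ := Submodule.mem_span_singleton.1 h9
  have h21 : f w (t' z) = 0 := by rw [← h8, h12.1, wz]
  have h22 : f y (t' z) = 0 := by
    simpa [eq_add_of_sub_eq' hd.symm, h21, yz] using h12.1 y z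
  have h23 := h17 _ h21
  rw [h22, zero_div, zero_smul, add_zero] at h23
  generalize f z (t' z) / (2 * q z) = ν at h23
  generalize f w' (t' z) = ν' at h23
  have h24 : ν * ν = 1 := mul_right_cancel₀ qz (by
    simpa [h23, h.hW.Q_add, h.hW.Q_smul, hw, wz] using h12.2 z)
  rcases mul_self_eq_one_iff.1 h24 with rfl | rfl
  · obtain ⟨y', h25, h26⟩ := h18 t' h12 h8 h9 (by simp [h23, Submodule.smul_mem, Submodule.mem_span_singleton_self])
    exact ⟨α * α', a', y', h14, h25, fun v => LinearMap.ext fun x => by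
      simp only [mul_app, lf_apply, rt_apply, h19, h20, LinearMap.smul_apply, ← h15, ← h26, map_smul, smul_smul]⟩
  exfalso
  obtain ⟨y', h25, h26⟩ := h18 (t' * r h.hW z) (mul_mem h12 (r_isom _ _))
    (by simp [mul_app, r_apply, h.hW.refl wz, h8]) (by simpa [mul_app, r_apply, h.hW.refl yz] using h9)
    (by simp [mul_app, r_self h.hW qz, h23, Submodule.smul_mem, Submodule.mem_span_singleton_self])
  have h27 := h.det_eq hM (mul_mem (inv_mem (mul_mem (h.lm _ (h.hU.eich_mem_om he h14 rfl))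
    (h.rm _ (h.hW.eich_mem_om hw h25 rfl)))) hc)
  rw [show LinearEquiv.toLinearMap (_ * (lf W s * rt U t)) = (α * α') • (rt U (r h.hW z)).toLinearMap from
    LinearMap.ext fun v => inv_eq_of (y := lf W s (rt U t v)) (LinearMap.ext fun x => by
      erw [← h15, ← h26]
      simp only [mul_app, lf_apply, rt_apply, h19, h20, LinearMap.smul_apply, map_smul, smul_smul,
        LinearEquiv.coe_coe, mul_inv_rev, app_inv, r_inv,
        show ∀ x, r h.hW z (r h.hW z x) = x from LinearEquiv.congr_fun (r_r h.hW z)]),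
    LinearMap.det_smul, finrank_linearMap, w4, h.u3] at h27
  have h28 : ∀ b, rt U (r h.hW z) (pt U f b z) = -pt U f b z := fun b => by
    rw [rt_pt (r_isom _ _).1, r_self h.hW qz, map_neg]
  have h29 : LinearMap.range ((pt U f).flip z) ≤
      (LinearMap.range ((pt U f).flip z)).comap (rt U (r h.hW z)).toLinearMap := by
    rintro _ ⟨b, rfl⟩
    exact ⟨-b, by simp [h28]⟩
  have h30 := LinearMap.det_eq_det_mul_det _ _ h29
  rw [show (rt U (r h.hW z)).toLinearMap.restrict h29 = (-1 : F) • LinearMap.id from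
      LinearMap.ext fun y => Subtype.ext (by obtain ⟨_, k, rfl⟩ := y; simp [h28]),
    show (LinearMap.range ((pt U f).flip z)).mapQ _ _ h29 = LinearMap.id from
      Submodule.linearMap_qext _ (LinearMap.ext fun v => (Submodule.Quotient.eq _).2
        ⟨-(q z)⁻¹ • v z, LinearMap.ext fun x => by simp [r_inv, r_apply, qs h.hW x, smul_smul, mul_comm]⟩),
    LinearMap.det_smul, LinearMap.finrank_range_of_inj fun _ _ => h.pt_inj' z0, h.u3] at h30
  rw [h30, show (α * α') ^ (4 * 3) = ((α * α) * (α' * α')) ^ 6 by ring, h4, h7] at h27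
  exact h.two (by simp at h27; linear_combination -h27)

theorem cm (hc : c ∈ M) (h1 : c * (lf W (h.hU.eich e a (p a)) * rt U (h.hW.eich w y (q y))) =
    lf W (h.hU.eich e a (p a)) * rt U (h.hW.eich w y (q y)) * c) : c ∈ HH g p f q := by
  have := Fact.mk (CharP.char_is_prime F (ringChar F))
  have : Finite (W →ₗ[F] U) := Module.finite_of_finite F
  have : Finite ((W →ₗ[F] U) ≃ₗ[F] (W →ₗ[F] U)) := DFunLike.finite _
  have h2 := h.ti w4 w0 hw
  refine h2.burn (C := M ⊓ Subgroup.centralizer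
    {lf W (h.hU.eich e a (p a)) * rt U (h.hW.eich w y (q y))}) inf_le_left (fun τ hτ => ⟨h2.le hτ,
      Subgroup.mem_centralizer_singleton_iff.2 ?_⟩) (fun x hx x' hx' h3 h4 => ?_)
    ⟨hc, Subgroup.mem_centralizer_singleton_iff.2 h1⟩
  · have h3 := h2.comm _ hτ _ ⟨y, trivial, wy, rfl⟩
    obtain ⟨z, -, -, rfl⟩ := hτ
    exact ((lf_rt _ _).symm.mul_right h3).eq
  obtain ⟨β, b, z, h5, h6, h7⟩ := h.form w4 e0 he ea pa hM w0 hw wy qy hx.1 h3
    (Subgroup.mem_centralizer_singleton_iff.1 hx.2).symm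
  obtain ⟨β', b', z', h8, h9, h10⟩ := h.form w4 e0 he ea pa hM w0 hw wy qy hx'.1 h4
    (Subgroup.mem_centralizer_singleton_iff.1 hx'.2).symm
  have h11 : Commute (lf W (h.hU.eich e b (p b))) (lf W (h.hU.eich e b' (p b'))) := by
    rw [Commute, SemiconjBy, ← map_mul, ← map_mul, h.hU.eich_mul he h5 h8, h.hU.eich_mul he h8 h5,
      qs h.hU b, add_comm b, add_comm (p b)]
  have h12 := (h11.mul_right (lf_rt _ (h.hW.eich w z' (q z')))).mul_left ((lf_rt _ _).symm.mul_right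
    (h2.comm _ ⟨z, trivial, h6, rfl⟩ _ ⟨z', trivial, h9, rfl⟩))
  refine LinearEquiv.ext fun v => ?_
  rw [mul_app, mul_app, h7, h10, h10, h7]
  simp only [map_smul, smul_smul, mul_comm β]
  exact congrArg _ (LinearEquiv.congr_fun h12.eq v)

end

variable (hM : M ≤ h.hV.Om)
include hM

theorem se2 (hk : k ∈ HH g p f q) (hp : k ^ ringChar F = 1) (k1 : k ≠ 1) : Iso M (HH g p f q) k := by
  intro x hx h1
  have : Finite (W →ₗ[F] U) := Module.finite_of_finite F
  have : Finite ((W →ₗ[F] U) ≃ₗ[F] (W →ₗ[F] U)) := DFunLike.finite _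
  obtain ⟨e, a, w, y, -, -, -, w0, hw, wy, h2⟩ := h.punip h1 (by rw [conj_pow, hp]; simp)
  obtain ⟨w', hw', ww⟩ := h.hW.form.exists_partner h.hW.sep hw w0
  obtain ⟨z, wz, -, qz⟩ := exists_nons3 h.hW h.w3 hw hw' ww
  have h3 := ((lf_rt (h.hU.eich e a (p a)) _).symm.mul_right
    ((h.ti w4 w0 hw).comm _ ⟨z, trivial, wz, rfl⟩ _ ⟨y, trivial, wy, rfl⟩)).eq
  rw [← h2] at h3
  have h4 := mul_mem (mul_mem (inv_mem hx) (h.rm _ (h.hW.eich_mem_om hw wz rfl))) (inv_mem (inv_mem hx))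
  refine (inv_mem_iff (x := x)).1 (h.se1 w4 w0 hw wz qz _ (inv_mem hx) ?_)
  have h5 : x⁻¹ * rt U (h.hW.eich w z (q z)) * x⁻¹⁻¹ * k = k * (x⁻¹ * rt U (h.hW.eich w z (q z)) * x⁻¹⁻¹) := by
    rw [← mul_left_inj x⁻¹, ← mul_right_inj x, show ∀ a b : (W →ₗ[F] U) ≃ₗ[F] (W →ₗ[F] U),
      x * (x⁻¹ * a * x⁻¹⁻¹ * b * x⁻¹) = a * (x * b * x⁻¹) from fun a b => by group, h3]
    group
  generalize x⁻¹ * rt U (h.hW.eich w z (q z)) * x⁻¹⁻¹ = c at h4 h5
  obtain ⟨e, a, w, y, e0, he, ea, w0, hw, wy, rfl⟩ := h.punip hk hp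
  by_cases pa : p a = 0
  · rw [eich_triv h.hU (w1_three h.hU h.u3) e0 he ea pa, map_one, one_mul] at h5 k1
    exact (h.se1 w4 w0 hw wy fun qy => k1 (by rw [eich_triv h.hW h.wl w0 hw wy qy, map_one])).comm
      (rt_mem (h.hW.eich_mem_isom hw wy rfl)) h4 h5
  by_cases qy : q y = 0
  · rw [eich_triv h.hW h.wl w0 hw wy qy, map_one, mul_one] at h5
    exact h.cu w4 e0 he ea pa h4 h5
  exact h.cm w4 e0 he ea pa hM w0 hw wy qy h4 h5

theorem le_hh : M ≤ HH g p f q := by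
  have := Fact.mk (CharP.char_is_prime F (ringChar F))
  have := Fintype.ofFinite F
  have : Finite (W →ₗ[F] U) := Module.finite_of_finite F
  have : Finite ((W →ₗ[F] U) ≃ₗ[F] (W →ₗ[F] U)) := DFunLike.finite _
  obtain ⟨e, e', a, he, he', ee, ea, ea', pa⟩ := frame h.hU h.u3.ge
  have e0 : e ≠ 0 := by rintro rfl; simp at ee
  obtain ⟨j, h1, h2, h3⟩ : ∃ j ∈ h.hU.Om, (∀ x, j (j x) = x) ∧ j ≠ 1 := by
    have h1 : g a (e + (p a)⁻¹ • e') = 0 := by simp [h.hU.refl ea, h.hU.refl ea']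
    refine ⟨r h.hU a * r h.hU (e + (p a)⁻¹ • e'), weyl_eq h.hU he he' ee ea ea' pa ▸ mul_mem (mul_mem
      (h.hU.eich_mem_om he ea rfl) (h.hU.eich_mem_om he' (by simp [ea']) rfl)) (h.hU.eich_mem_om he ea rfl),
      fun x => ?_, fun h2 => ?_⟩
    · have h2 := conj_r h.hU (r_isom h.hU a) (e + (p a)⁻¹ • e')
      rw [r_apply, h1, mul_zero, zero_smul, sub_zero, r_inv] at h2
      rw [← mul_app, ← mul_assoc, h2, r_r]; rfl
    · have h3 := LinearEquiv.congr_fun h2 a
      rw [mul_app, r_apply _ _ a, h.hU.refl h1, mul_zero, zero_smul, sub_zero, r_self h.hU pa] at h3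
      have h4 := congrArg (g a) h3
      rw [map_neg, one_app, qd h.hU] at h4
      exact mul_ne_zero h.two (mul_ne_zero h.two pa) (by linear_combination -h4)
  have h4 := h.hU.om_le_isom h1
  have h5 := det_om h.hU h.two h1
  have h6 := h.hU.eich_mem_om he ea rfl
  have h5' : LinearEquiv.det j = 1 := Units.ext (by rw [LinearEquiv.coe_det]; exact h5)
  refine le_of_iso (p := ringChar F) (L := (Isom g p ⊓ (LinearEquiv.det (R := F) (M := U)).ker).map (lf W))
    (h.lm j h1) (lf_mem h4) ⟨j, ⟨h4, h5'⟩, rfl⟩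
    (by rw [← map_mul, show j * j = 1 from LinearEquiv.ext h2, map_one]) (h.iso_k w4 h4 h2 h3 h5) ?_ ?_
    (h.lm _ h6) (lf_mem (h.hU.om_le_isom h6)) (by erw [← map_pow, eich_pow h.hU he ea, map_one]) ?_
    fun y _ => h.se2 w4 hM
  · rintro _ - ⟨s, hs, t, -, rfl⟩
    exact ⟨s * j * s⁻¹, ⟨mul_mem (mul_mem hs h4) (Subgroup.inv_mem _ hs), by
      simp [h5']⟩, LinearEquiv.ext fun v => LinearMap.ext fun x => by
        simp [mul_app, ← map_inv]⟩
  · rintro _ ⟨s, hs, rfl⟩ - h7 h8 c hc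
    exact h.cj w4 hs.1 (LinearEquiv.congr_fun (h.lf_inj (s := s * s) (s' := 1) h7))
      (by rintro rfl; exact h8 rfl) ((LinearEquiv.coe_det s).symm.trans (congrArg Units.val hs.2)) hc
  rintro _ - ⟨s, hs, t, -, rfl⟩ h7
  rw [show (lf W s * rt U t)⁻¹ * lf W _ * (lf W s * rt U t) = lf W (s⁻¹ * h.hU.eich e a (p a) * s⁻¹⁻¹) from
    LinearEquiv.ext fun v => LinearMap.ext fun x => by simp [mul_app, ← map_inv],
    h.hU.conj_eich (inv_mem hs), ← map_mul, ← map_mul, ← (inv_mem hs).2 a] at h7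
  obtain ⟨b, ε, pb, h8, h9⟩ := inv_line h.hU h.two h.u3 h4 h2 h3 h5
  obtain ⟨μ, h10⟩ := Submodule.mem_span_singleton.1 (h9 _ ((LinearEquiv.congr_fun (h.lf_inj h7) b).symm.trans
    (by rw [mul_app, h8, map_smul]; rfl)))
  exact h.not_ev (app_ne_zero _ e0) (((inv_mem hs).2 e).trans he) (((inv_mem hs).1 e a).trans ea)
    (by rwa [(inv_mem hs).2]) pb μ h10.symm

end T3

theorem max34 [FiniteDimensional F U] [FiniteDimensional F W] [Finite F]
    {hV : Cl (σ := RingHom.id F) 1 2 (AddMonoidHom.id F) B Q}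
    (h : TO 1 2 (AddMonoidHom.id F) g p f q B Q hV.Om) (u3 : finrank F U = 3) (w4 : finrank F W = 4)
    (wl : W1 f q) (sq : ∃ t : F, t ≠ 0 ∧ t * t ≠ 1) :
    (∃ k ∈ hV.Om, ¬ Tn k) ∧ ∀ M ≤ hV.Om, (∀ k ∈ hV.Om, Tn k → k ∈ M) → ¬ hV.Om ≤ M → ∀ k ∈ M, Tn k := by
  refine ⟨?_, fun M h1 h2 h3 k hk => tn_of_hh (T3.le_hh ⟨⟨h.hU, h.hW, hV, h.two, h.Bp, h.Qp,
    h1.trans h.le, fun s hs => h2 _ (h.lm s hs) ⟨s, 1, fun β z => by ext; simp⟩,
    fun t ht => h2 _ (h.rm t ht) ⟨1, t⁻¹.dualMap, fun β z => by ext; simp⟩⟩, u3, by omega, wl, sq, h3⟩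
    w4 h1 hk)⟩
  obtain ⟨c, c', x, hc, -, cc, cx, cx', qx⟩ := frame h.hW (by omega)
  obtain ⟨b, a, -, hb, ha, ba, -⟩ := frame h.hU u3.ge
  exact not_tn_eich hV h.Bp (h.Qp b c hc) cx cx (h.hW.refl cx) cx' (by simp [qd h.hW, h.two, qx])
    (by simp [h.hW.flip_one cc]) (b' := b) (a := a) (by simp [ba]) fun h1 => by
      obtain ⟨d, rfl⟩ := Submodule.mem_span_singleton.1 h1
      simp [h.hU.diag0 ha] at ba

open Matrix in
/-- `O₃ ⊗ O₄⁻` -/
theorem o34_max [Fintype F] {ι : Type} [Fintype ι] [DecidableEq ι] (h2 : (2 : F) ≠ 0)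
    {β : (ι → F) →ₗ[F] (ι → F) →ₗ[F] F} {Q : (ι → F) → F}
    (hQ : Cl (σ := RingHom.id F) 1 2 (AddMonoidHom.id F) β Q) (hq : Fintype.card F ≠ 3)
    (e : ι ≃ Fin 3 × Fin 4) (P : GL ι F)
    {f₁ : (Fin 3 → F) → (Fin 3 → F) → F} {f₂ : (Fin 4 → F) → (Fin 4 → F) → F} (h₁ : IsSymmetricForm f₁)
    (h₂ : IsSymmetricForm f₂) (h4 : ¬ IsPlusTypeOn (fun v => f₂ v v) ⊤)
    (hT : IsTensorFormStructure id (QuadraticMap.polar Q) f₁ f₂ e P) :
    IsMaximalIn (omegaGL Q) (tensorProductSubgroup 3 4 e P ⊓ omegaGL Q) := by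
  obtain ⟨c, hc, hT⟩ := hT
  have s₁ := sep_of h₁.bilinear h₁.nondegenerate
  have s₂ := sep_of h₂.bilinear h₂.nondegenerate
  obtain ⟨θ, hθ⟩ := exists_theta s₂
  have h1 := tensor_form h₁.bilinear h₂.bilinear hT hθ
  have hU := clSym (g := c • bilinOf h₁.bilinear) h2 (fun x y => by simp [h₁.symm x y])
    fun x hx => s₁ x fun y => by simpa [hc] using hx y
  have hW := clSym h2 h₂.symm s₂
  have h := to_om hU (hW.pullback θ) (hQ.pullback (tenE e P)) h2
    (fun x w v => by simpa [QuadraticMap.polar, hQ.Q_add, sub_sub] using (h1 x w v).2)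
    (by simp [finrank_linearMap])
  refine ten_max_of (fun g => (mem_omegaGL_iff hQ (by rw [Fintype.card_congr e]; simp) g).trans
    (mem_om_cjE _ _ _)) (max34 h (by simp) (by simp) (fun x y h6 h7 h8 h9 => by_contra fun h10 => ?_)
      (exists_sq_ne h2 hq))
  have h11 : finrank F (Submodule.span F {θ x, θ y}) = 2 := by
    have := finrank_span_eq_card ((LinearIndependent.pair_iff' (app_ne_zero θ h9)).2 fun d hd =>
      h10 (Submodule.mem_span_singleton.2 ⟨d, θ.injective (by rw [map_smul, hd])⟩))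
    rwa [show Set.range ![θ x, θ y] = {θ x, θ y} by simp [Set.pair_comm (θ y) (θ x)]] at this
  refine h4 ⟨_, le_top, fun v hv => ?_, by rw [h11]; simp⟩
  obtain ⟨_, _, rfl⟩ := Submodule.mem_span_pair.1 hv
  have h12 : bilinOf h₂.bilinear (θ x) (θ y) = 0 := h8
  have h13 := hW.refl h12
  have h14 := hW.diag0 (x := θ x) h6
  have h15 := hW.diag0 (x := θ y) h7
  change bilinOf h₂.bilinear _ _ = 0
  generalize bilinOf h₂.bilinear = g at h12 h13 h14 h15
  simp [h12, h13, h14, h15]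

end Cfsg.Agent.H11.Tz
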