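import Mathlib
import Cfsg.Agent.H11.Tz6
import Cfsg.Agent.H11.Ty1

/-!
Tensor squares of three-dimensional orthogonal spaces: basic facts.
-/

set_option autoImplicit false
set_option linter.unusedSectionVars false

namespace Cfsg.Agent.H11.Tz

open Module H10 H11 H19.TA
open H11.Im (r r_apply r_isom r_inv r_r r_self conj_r weyl_eq)
open H26.MX hiding finrank_le_inf_ker finrank_span_pair_le finrank_span_one_le SLv mem_SLv
  map_eq_of_le

variable {F : Type*} [Field F] {U W : Type*} [AddCommGroup U] [Module F U] [AddCommGroup W] [Module F W]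
  {g : U →ₗ[F] U →ₗ[F] F} {f : W →ₗ[F] W →ₗ[F] F} {p : U → F} {q : W → F}
  {B : (W →ₗ[F] U) →ₗ[F] (W →ₗ[F] U) →ₗ[F] F} {Q : (W →ₗ[F] U) → F}
  {M : Subgroup ((W →ₗ[F] U) ≃ₗ[F] (W →ₗ[F] U))} {k c σ : (W →ₗ[F] U) ≃ₗ[F] (W →ₗ[F] U)}
  {α : W ≃ₗ[F] U} {β : U ≃ₗ[F] W}

theorem poly4 (h2 : (2 : F) ≠ 0) {t : F} (t0 : t ≠ 0) (t1 : t * t ≠ 1) {a b c d : F}
    (h : ∀ l : F, l * (a + l * b + l * l * c + l * l * l * d) = 0) : c = 0 ∧ d = 0 :=
  ⟨mul_left_cancel₀ (mul_ne_zero (mul_ne_zero h2 t0) (sub_ne_zero.2 t1)) (by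
      linear_combination h t - h (-t) - t * h 1 + t * h (-1)),
    mul_left_cancel₀ (mul_ne_zero (mul_ne_zero h2 (mul_ne_zero t0 t0)) (sub_ne_zero.2 t1)) (by
      linear_combination h t + h (-t) - t * t * h 1 - t * t * h (-1))⟩

theorem poly5 (h2 : (2 : F) ≠ 0) {t : F} (t0 : t ≠ 0) (t1 : t * t ≠ 1) {S T : F → F}
    {a a' b b' c c' d d' : F} (h1 : ∀ l, S l = l * a + l * l * a') (h3 : ∀ l, T l = l * b + l * l * b')
    (h4 : ∀ l, S l * T l = l * c + l * l * c') (h5 : ∀ l, S l * S l * T l = l * d + l * l * d') :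
    S 1 = 0 ∨ T 1 = 0 := by
  simp only [h1, h3] at h4 h5 ⊢
  obtain ⟨h6, h7⟩ := poly4 h2 t0 t1 (a := -c) (b := a * b - c') (c := a * b' + a' * b) (d := a' * b')
    fun l => by linear_combination h4 l
  by_cases h8 : a' = 0
  · by_cases h9 : b' = 0
    · subst h8 h9
      simpa using (poly4 h2 t0 t1 (a := -d) (b := -d') (c := a * a * b) (d := 0)
        fun l => by linear_combination h5 l).1
    · simp [h8, show a = 0 by simpa [h8, h9] using h6]
  · have h9 : b' = 0 := by simpa [h8] using h7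
    simp [h9, show b = 0 by simpa [h8, h9] using h6]

section three
variable [FiniteDimensional F U] (h : Cl (σ := RingHom.id F) 1 2 (AddMonoidHom.id F) g p) (h2 : (2 : F) ≠ 0)
include h h2

theorem cen3 (hn : finrank F U = 3) {e a : U} (he : p e = 0) (e0 : e ≠ 0) (ea : g e a = 0) (pa : p a ≠ 0)
    {s : U ≃ₗ[F] U} (hs : s ∈ Isom g p) {μ : F}
    (h1 : ∀ x, h.eich e a (p a) (s x) = μ • s (h.eich e a (p a) x)) :
    ∃ γ : F, γ * γ = 1 ∧ ∃ a', g e a' = 0 ∧ ∀ x, s x = γ • h.eich e a' (p a') x := by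
  obtain ⟨γ, h4, h5, h6⟩ := eich_eq h h2 (w1_three h hn) he e0 ea pa hs h1
  obtain ⟨s', h10, h11⟩ := sc_isom h h2 hs h4
  rw [← h11] at h5 h6
  obtain ⟨e', he', ee, ea'⟩ := partner h he e0 ea pa
  obtain ⟨a', h14, h15⟩ := un2 h h10 he e0 h5 fun z hz => by
    rw [dec3 h h2 hn he he' ee ea ea' pa z, hz]
    simpa [h5, ← smul_sub] using Submodule.smul_mem _ _ h6
  exact ⟨γ, h4, a', h14, fun x => by rw [← h15, h11, smul_smul, h4, one_smul]⟩

variable [Finite F] {e e' a : U} (he : p e = 0) (he' : p e' = 0) (ee : g e e' = 1) (ea : g e a = 0)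
  (ea' : g e' a = 0) (pa : p a ≠ 0)
include he he' ee ea ea' pa

theorem wey : ∃ j ∈ h.Om, j * j = 1 ∧ g e (j e) ≠ 0 := by
  have := Fintype.ofFinite F
  have h1 : g a (e + (p a)⁻¹ • e') = 0 := by simp [h.refl ea, h.refl ea']
  refine ⟨r h a * r h (e + (p a)⁻¹ • e'), weyl_eq h he he' ee ea ea' pa ▸ mul_mem (mul_mem
    (h.eich_mem_om he ea rfl) (h.eich_mem_om he' (by simp [ea']) rfl)) (h.eich_mem_om he ea rfl), ?_, ?_⟩
  · have h2 := conj_r h (r_isom h a) (e + (p a)⁻¹ • e')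
    rw [r_apply, h1, mul_zero, zero_smul, sub_zero, r_inv] at h2
    rw [← mul_assoc, h2, r_r]
  · simp [mul_app, r_apply, h.Q_add, h.Q_smul, he, he', ee, h.diag0 he, h.flip_one ee, pa, ea]

theorem nrm3 {t : F} (t0 : t ≠ 0) (t1 : t * t ≠ 1) {N : Subgroup (U ≃ₗ[F] U)}
    (hN : ∀ j ∈ h.Om, j * j = 1 → j ∈ N) : h.eich e a (p a) ∈ N := by
  obtain ⟨τ, h15, h16, h17⟩ := tor h he he' ee ea ea' pa t0
  obtain ⟨d, hd⟩ : ∃ d, (t * t - 1) * d = 1 := ⟨_, mul_inv_cancel₀ (sub_ne_zero.2 t1)⟩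
  have h18 : g e (d • a) = 0 := by simp [ea]
  have h23 : τ * h.eich e (d • a) (p (d • a)) * τ⁻¹ * (h.eich e (d • a) (p (d • a)))⁻¹ =
      h.eich e a (p a) := by
    rw [h.conj_eich (h.om_le_isom h15), h16, h17 _ h18, h.eich_inv he h18,
      h.eich_smul_left he (by simp [ea, ea']), h.eich_mul he (by simp [ea, ea']) (by simp [ea])]
    simp only [map_smul, ea', RingHom.id_apply, h.Q_smul, H19.TA.qd h, smul_eq_mul, map_neg,
      LinearMap.smul_apply, mul_zero, zero_smul, add_zero]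
    congr 1
    · match_scalars; linear_combination hd
    · linear_combination ((t * t - 1) * d + 1) * p a * hd
  have h3 := h.eich_mem_om he h18 rfl
  have h4 : ∀ w, g e w = 0 → h.eich e w (p w) * h.eich e (d • a) (p (d • a)) =
      h.eich e (d • a) (p (d • a)) * h.eich e w (p w) := fun w hw => by
    rw [h.eich_mul he hw h18, h.eich_mul he h18 hw, qs h w, add_comm w, add_comm (p w)]
  generalize h.eich e (d • a) (p (d • a)) = ρ at h23 h3 h4
  let C : Subgroup (U ≃ₗ[F] U) :=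
    { carrier := {x | x ∈ h.Om ∧ ∀ y ∈ h.Om, y * (x * ρ * x⁻¹ * ρ⁻¹) * y⁻¹ ∈ N}
      one_mem' := ⟨one_mem _, fun y _ => by simp⟩
      mul_mem' := fun {x z} hx hz => ⟨mul_mem hx.1 hz.1, fun y hy => by
        convert mul_mem (hz.2 _ (mul_mem hy hx.1)) (hx.2 y hy) using 1; group⟩
      inv_mem' := fun {x} hx => ⟨inv_mem hx.1, fun y hy => by
        convert inv_mem (hx.2 _ (mul_mem hy (inv_mem hx.1))) using 1; group⟩ }
  have h5 : C ≤ Isom g p := fun x hx => h.om_le_isom hx.1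
  have h6 : h.Full C e := ⟨he, fun w c hw hc => by
    obtain rfl : c = p w := hc
    exact ⟨h.eich_mem_om he hw rfl, fun y _ => by simp [h4 w hw]⟩⟩
  obtain ⟨j, h7, h8, h9⟩ := wey h h2 he he' ee ea ea' pa
  have h10 : ∀ y ∈ h.Om, y * j * y⁻¹ ∈ N := fun y hy =>
    hN _ (mul_mem (mul_mem hy h7) (inv_mem hy)) (by rw [conj_mul, h8]; simp)
  have h11 : j ∈ C := ⟨h7, fun y hy => by
    convert mul_mem (h10 y hy) (inv_mem (h10 _ (mul_mem hy h3))) using 1; group⟩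
  simpa [h23] using (h.om_le_of_full h5 h6 (h6.map h5 h11) h9 h15).2 1 (one_mem _)

end three

theorem hh_rt (hk : k ∈ HH g p f q) {t : W ≃ₗ[F] W} (ht : t ∈ Isom f q) :
    ∃ t' ∈ Isom f q, k * rt U t * k⁻¹ = rt U t' := by
  obtain ⟨s, -, t', h1, rfl⟩ := hk
  exact ⟨_, mul_mem (mul_mem h1 ht) (inv_mem h1), LinearEquiv.ext fun v => LinearMap.ext fun x => by
    simp [mul_app, ← map_inv]⟩

theorem hh_lf (hk : k ∈ HH g p f q) {s : U ≃ₗ[F] U} (hs : s ∈ Isom g p) :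
    ∃ s' ∈ Isom g p, k * lf W s * k⁻¹ = lf W s' := by
  obtain ⟨s', h1, t, -, rfl⟩ := hk
  exact ⟨_, mul_mem (mul_mem h1 hs) (inv_mem h1), LinearEquiv.ext fun v => LinearMap.ext fun x => by
    simp [mul_app, ← map_inv]⟩

/-- an overgroup of the tensor wreath product -/
structure S9 (g : U →ₗ[F] U →ₗ[F] F) (p : U → F) (f : W →ₗ[F] W →ₗ[F] F) (q : W → F)
    (B : (W →ₗ[F] U) →ₗ[F] (W →ₗ[F] U) →ₗ[F] F) (Q : (W →ₗ[F] U) → F)
    (M : Subgroup ((W →ₗ[F] U) ≃ₗ[F] (W →ₗ[F] U))) (σ : (W →ₗ[F] U) ≃ₗ[F] (W →ₗ[F] U))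
    (α : W ≃ₗ[F] U) (β : U ≃ₗ[F] W) : Prop extends T3 g p f q B Q M where
  w9 : finrank F W = 3
  om : M ≤ hV.Om
  sm : σ ∈ M
  sp : ∀ a w, σ (pt U f a w) = pt U f (α w) (β a)
  sa : ∃ l : F, l ≠ 0 ∧ (∀ x y, g (α x) (α y) = l * f x y) ∧ ∀ a b, l * f (β a) (β b) = g a b

namespace S9

variable [FiniteDimensional F U] [FiniteDimensional F W] [Finite F] (h : S9 g p f q B Q M σ α β)
include h

theorem ext_pt {k k' : (W →ₗ[F] U) ≃ₗ[F] (W →ₗ[F] U)} (h1 : ∀ a w, k (pt U f a w) = k' (pt U f a w)) :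
    k = k' := LinearEquiv.ext fun v => sub_eq_zero.1
  (pt_ind h.hW (S := LinearMap.ker (k.toLinearMap - k'.toLinearMap)) (fun a w => sub_eq_zero.2 (h1 a w)) v)

theorem c_lf {s : U ≃ₗ[F] U} (hs : s ∈ Isom g p) : ∃ t ∈ Isom f q, σ * lf W s * σ⁻¹ = rt U t := by
  obtain ⟨l, l0, -, h1⟩ := h.sa
  have h2 : β.symm.trans (s.trans β) ∈ Isom f q := isom_of h.hW h.two fun x y => mul_left_cancel₀ l0 (by
    simp only [LinearEquiv.trans_apply, h1, hs.1]
    rw [← h1]; simp)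
  exact ⟨_, h2, mul_inv_eq_of_eq_mul (h.ext_pt fun a w => by simp [mul_app, lf_pt, rt_pt h2.1, h.sp])⟩

theorem c_rt {t : W ≃ₗ[F] W} (ht : t ∈ Isom f q) : ∃ s ∈ Isom g p, σ * rt U t * σ⁻¹ = lf W s := by
  obtain ⟨l, l0, h1, -⟩ := h.sa
  have h2 : α.symm.trans (t.trans α) ∈ Isom g p := isom_of h.hU h.two fun x y => by
    simp only [LinearEquiv.trans_apply, h1, ht.1]
    rw [← h1]; simp
  exact ⟨_, h2, mul_inv_eq_of_eq_mul (h.ext_pt fun a w => by simp [mul_app, lf_pt, rt_pt ht.1, h.sp])⟩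

theorem ss : σ * σ ∈ HH g p f q := by
  obtain ⟨l, l0, h1, h2⟩ := h.sa
  have h3 : α.trans β ∈ Isom f q := isom_of h.hW h.two fun x y => mul_left_cancel₀ l0 (by simp [h1, h2])
  exact ⟨β.trans α, isom_of h.hU h.two fun x y => by simp [h1, h2], _, h3,
    h.ext_pt fun a w => by simp [mul_app, lf_pt, rt_pt h3.1, h.sp]⟩

theorem cH (hk : k ∈ HH g p f q) : σ * k * σ⁻¹ ∈ HH g p f q := by
  obtain ⟨s, hs, t, ht, rfl⟩ := hk
  obtain ⟨t', h1, h2⟩ := h.c_lf hs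
  obtain ⟨s', h3, h4⟩ := h.c_rt ht
  rw [← conj_mul, h2, h4]
  exact mul_mem (rt_mem h1) (lf_mem h3)

theorem cH' (hk : σ * k * σ⁻¹ ∈ HH g p f q) : k ∈ HH g p f q := by
  convert mul_mem (mul_mem (inv_mem h.ss) (h.cH hk)) h.ss using 1; group

/-- the tensor wreath product -/
def HS : Subgroup ((W →ₗ[F] U) ≃ₗ[F] (W →ₗ[F] U)) where
  carrier := {k | k ∈ HH g p f q ∨ σ * k ∈ HH g p f q}
  one_mem' := Or.inl (one_mem _)
  mul_mem' := by
    rintro k k' (h1 | h1) (h2 | h2)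
    · exact Or.inl (mul_mem h1 h2)
    · exact Or.inr (by convert mul_mem (h.cH h1) h2 using 1; group)
    · exact Or.inr (by convert mul_mem h1 h2 using 1; group)
    · exact Or.inl (by convert mul_mem (mul_mem (inv_mem h.ss) (h.cH h1)) h2 using 1; group)
  inv_mem' := by
    rintro k (h1 | h1)
    · exact Or.inl (inv_mem h1)
    · exact Or.inr (by convert mul_mem (h.cH (inv_mem h1)) h.ss using 1; group)

theorem le_hs : HH g p f q ≤ h.HS := fun _ => Or.inl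

theorem sq_mem (hk : k ∈ h.HS) : k * k ∈ HH g p f q := by
  rcases hk with h1 | h1
  · exact mul_mem h1 h1
  · convert mul_mem (mul_mem (inv_mem h.ss) (h.cH h1)) h1 using 1; group

theorem hh_of_p (hk : k ∈ h.HS) (hp : k ^ ringChar F = 1) : k ∈ HH g p f q := by
  obtain ⟨m, hm⟩ := h.odd
  rw [show k = (k * k) ^ (m + 1) by
    rw [← sq, ← pow_mul, show 2 * (m + 1) = ringChar F + 1 by omega, pow_succ, hp, one_mul]]
  exact pow_mem (h.sq_mem hk) _

theorem cross_rt (hk : σ * k ∈ HH g p f q) {t : W ≃ₗ[F] W} (ht : t ∈ Isom f q) :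
    ∃ s ∈ Isom g p, k * rt U t * k⁻¹ = lf W s := by
  obtain ⟨t', h1, h2⟩ := hh_rt hk ht
  obtain ⟨s, h3, h4⟩ := h.c_rt h1
  obtain ⟨s', h5, h6⟩ := hh_lf (inv_mem h.ss) h3
  exact ⟨s', h5, by rw [← h6, ← h4, ← h2]; group⟩

theorem cross_lf (hk : σ * k ∈ HH g p f q) {s : U ≃ₗ[F] U} (hs : s ∈ Isom g p) :
    ∃ t ∈ Isom f q, k * lf W s * k⁻¹ = rt U t := by
  obtain ⟨s', h1, h2⟩ := hh_lf hk hs
  obtain ⟨t, h3, h4⟩ := h.c_lf h1
  obtain ⟨t', h5, h6⟩ := hh_rt (inv_mem h.ss) h3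
  exact ⟨t', h5, by rw [← h6, ← h4, ← h2]; group⟩

theorem q_be {e : U} (he : p e = 0) : q (β e) = 0 := by
  obtain ⟨l, l0, -, h1⟩ := h.sa
  exact h.q0 (by simpa [l0, h.hU.diag0 he] using h1 e e)

section
variable {w y : W} (w0 : w ≠ 0) (hw : q w = 0) (wy : f w y = 0) (qy : q y ≠ 0)
include w0 hw wy qy

theorem fix_rt {v : W →ₗ[F] U} (hv : rt U (h.hW.eich w y (q y)) v = v) : ∃ a, v = pt U f a w := by
  rw [rt_eich h.hW hw wy] at hv
  obtain ⟨w', hw', ww, wy'⟩ := partner h.hW hw w0 wy qy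
  have h1 : v w = 0 := by
    simpa [h.hW.refl wy, H19.TA.qd h.hW y, h.two, qy] using LinearMap.congr_fun hv y
  have h2 : v y = 0 := by simpa [h1, h.hW.flip_one ww] using LinearMap.congr_fun hv w'
  refine ⟨v w', LinearMap.ext fun x => ?_⟩
  nth_rw 1 [dec3 h.hW h.two h.w9 hw hw' ww wy wy' qy x]
  simp [h1, h2, qs h.hW x]

theorem c_tau (hc : c ∈ M) (h1 : c * rt U (h.hW.eich w y (q y)) = rt U (h.hW.eich w y (q y)) * c) :
    c ∈ HH g p f q := h.st hc w0 hw fun a => h.fix_rt w0 hw wy qy (by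
  rw [← mul_app, ← h1, mul_app, rt_pt (h.hW.eich_mem_isom hw wy rfl).1,
    h.hW.eich_fix _ (h.hW.diag0 hw) (h.hW.refl wy)])

theorem cm_e (hc : c ∈ HH g p f q)
    (h1 : rt U (h.hW.eich w y (q y)) * c = c * rt U (h.hW.eich w y (q y))) {z : W} (hz : f w z = 0) :
    rt U (h.hW.eich w z (q z)) * c = c * rt U (h.hW.eich w z (q z)) := by
  have := h.ntU
  have := h.ntW
  obtain ⟨s, hs, t, ht, rfl⟩ := hc
  obtain ⟨μ, -, h3⟩ := sep (s := s) (s' := s) (t := h.hW.eich w y (q y) * t)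
    (t' := t * h.hW.eich w y (q y)) h1
  obtain ⟨γ, -, y', h4, h5⟩ := cen3 h.hW h.two h.w9 hw w0 wy qy ht h3
  have h6 : h.hW.eich w z (q z) * t = t * h.hW.eich w z (q z) := LinearEquiv.ext fun x => by
    rw [mul_app, mul_app, h5, h5, map_smul, ← mul_app, ← mul_app, h.hW.eich_mul hw hz h4,
      h.hW.eich_mul hw h4 hz, qs h.hW z, add_comm z, add_comm (q z)]
  change lf W s * rt U (h.hW.eich w z (q z) * t) = lf W s * rt U (t * h.hW.eich w z (q z))
  rw [h6]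

end

section
variable {e a : U} (e0 : e ≠ 0) (he : p e = 0) (ea : g e a = 0) (pa : p a ≠ 0)
include e0 he ea pa

theorem fix_lf {v : W →ₗ[F] U} (hv : lf W (h.hU.eich e a (p a)) v = v) : ∃ y, v = pt U f e y :=
  h.ex_pt e0 fun x => by
    by_cases h2 : v x = 0
    · simp [h2]
    obtain ⟨-, h3, h4⟩ := ev h.hU h.two he e0 ea pa h2 (μ := 1)
      (by simpa using LinearMap.congr_fun hv x)
    exact h.line e0 he ea pa h3 h4

theorem c_u (hc : c ∈ M) (h1 : c * lf W (h.hU.eich e a (p a)) = lf W (h.hU.eich e a (p a)) * c) :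
    c ∈ HH g p f q := by
  refine h.cH' (h.st (mul_mem (mul_mem h.sm hc) (inv_mem h.sm)) (β.map_ne_zero_iff.2 e0) (h.q_be he)
    (w' := β e) fun b => ?_)
  obtain ⟨y, hy⟩ := h.fix_lf e0 he ea pa (v := c (pt U f e (α.symm b))) (by
    rw [← mul_app, ← h1, mul_app, lf_pt, h.hU.eich_fix _ (h.hU.diag0 he) (h.hU.refl ea)])
  exact ⟨α y, by rw [mul_app, mul_app, inv_eq_of (x := pt U f e (α.symm b)) (by simp [h.sp]), hy, h.sp]⟩

variable {w y : W} (w0 : w ≠ 0) (hw : q w = 0) (wy : f w y = 0) (qy : q y ≠ 0)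
include w0 hw wy qy

theorem form9 (hc : c ∈ M) (h0 : c ∈ HH g p f q)
    (h1 : lf W (h.hU.eich e a (p a)) * rt U (h.hW.eich w y (q y)) * c =
      c * (lf W (h.hU.eich e a (p a)) * rt U (h.hW.eich w y (q y)))) : ∃ (a' : U) (y' : W),
    g e a' = 0 ∧ f w y' = 0 ∧ c = lf W (h.hU.eich e a' (p a')) * rt U (h.hW.eich w y' (q y')) := by
  have := h.ntU
  have := h.ntW
  obtain ⟨s, hs, t, ht, rfl⟩ := h0
  obtain ⟨μ, h2, h3⟩ := sep (s := h.hU.eich e a (p a) * s) (s' := s * h.hU.eich e a (p a))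
    (t := h.hW.eich w y (q y) * t) (t' := t * h.hW.eich w y (q y)) h1
  obtain ⟨γ, h4, a', h5, h6⟩ := cen3 h.hU h.two h.u3 he e0 ea pa hs h2
  obtain ⟨δ, h7, y', h8, h9⟩ := cen3 h.hW h.two h.w9 hw w0 wy qy ht h3
  have h10 : ∀ v, (lf W s * rt U t) v =
      (γ * δ) • (lf W (h.hU.eich e a' (p a')) * rt U (h.hW.eich w y' (q y'))) v := fun v =>
    LinearMap.ext fun x => by
      simp only [mul_app, lf_apply, rt_apply, LinearMap.smul_apply, h6, show t⁻¹ x =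
        δ • (h.hW.eich w y' (q y'))⁻¹ x from inv_eq_of (by
          rw [h9, map_smul, app_inv, smul_smul, h7, one_smul]), map_smul, smul_smul]
  have h11 := h.det_eq h.om hc
  rw [show (lf W s * rt U t).toLinearMap = (γ * δ) • LinearEquiv.toLinearMap _ from LinearMap.ext h10,
    LinearMap.det_smul, h.det_eq h.om (mul_mem (h.lm _ (h.hU.eich_mem_om he h5 rfl))
      (h.rm _ (h.hW.eich_mem_om hw h8 rfl))), finrank_linearMap, h.w9, h.u3,
    show (γ * δ) ^ (3 * 3) = (γ * γ * (δ * δ)) ^ 4 * (γ * δ) by ring, h4, h7] at h11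
  exact ⟨a', y', h5, h8, LinearEquiv.ext fun v => by rw [h10, show γ * δ = 1 by simpa using h11, one_smul]⟩

end

theorem rt_ne {w y : W} (w0 : w ≠ 0) (hw : q w = 0) (wy : f w y = 0) (qy : q y ≠ 0) :
    rt U (h.hW.eich w y (q y)) ≠ 1 := fun h1 => by
  obtain ⟨w', -, ww, -⟩ := partner h.hW hw w0 wy qy
  obtain ⟨e, e', -, -, -, ee, -⟩ := frame h.hU h.u3.ge
  obtain ⟨a, ha⟩ := h.fix_rt w0 hw wy qy (v := pt U f e w') (by rw [h1]; rfl)
  have h2 : e = 0 := by simpa [ww, h.hW.diag0 hw] using LinearMap.congr_fun ha w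
  simp [h2] at ee

theorem se19 {w y : W} (w0 : w ≠ 0) (hw : q w = 0) (wy : f w y = 0) (qy : q y ≠ 0) :
    Iso M h.HS (rt U (h.hW.eich w y (q y))) := by
  intro c hc h0
  have hp : (c * rt U (h.hW.eich w y (q y)) * c⁻¹) ^ ringChar F = 1 := by
    rw [conj_pow, ← map_pow, eich_pow h.hW hw wy]; simp
  obtain ⟨e, a₁, w₁, y₁, e0, he, ea₁, w1, hw1, wy₁, h1⟩ := h.punip (h.hh_of_p h0 hp) hp
  obtain ⟨e', he', ee⟩ := h.hU.form.exists_partner h.hU.sep he e0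
  obtain ⟨a, ea, ea', pa⟩ := exists_nons3 h.hU h.u3.ge he he' ee
  obtain ⟨w', hw', ww⟩ := h.hW.form.exists_partner h.hW.sep hw1 w1
  obtain ⟨z, wz, wz', qz⟩ := exists_nons3 h.hW h.w3 hw1 hw' ww
  have b1 : ∀ l : F, f w (l • y) = 0 := fun l => by simp [wy]
  let E : F → (W →ₗ[F] U) ≃ₗ[F] (W →ₗ[F] U) := fun l => c * rt U (h.hW.eich w (l • y) (q (l • y))) * c⁻¹
  have b2 : ∀ l, E l ∈ M := fun l =>
    mul_mem (mul_mem hc (h.rm _ (h.hW.eich_mem_om hw (b1 l) rfl))) (inv_mem hc)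
  have b3 : ∀ η ∈ M, η * (c * rt U (h.hW.eich w y (q y)) * c⁻¹) = c * rt U (h.hW.eich w y (q y)) * c⁻¹ * η →
      ∀ l, η * E l = E l * η := fun η hη b3 l => by
    have b4 : c⁻¹ * η * c * rt U (h.hW.eich w y (q y)) = rt U (h.hW.eich w y (q y)) * (c⁻¹ * η * c) := by
      rw [← mul_left_inj c⁻¹, ← mul_right_inj c]
      simpa [mul_assoc] using b3
    have b5 := h.cm_e w0 hw wy qy (h.c_tau w0 hw wy qy (mul_mem (mul_mem (inv_mem hc) hη) hc) b4)
      b4.symm (b1 l)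
    rw [← mul_left_inj c⁻¹, ← mul_right_inj c] at b5
    simpa [E, mul_assoc] using b5.symm
  have b4 := b3 _ (h.rm _ (h.hW.eich_mem_om hw1 wz rfl)) (by
    rw [h1]
    refine ((lf_rt _ _).symm.mul_right ?_).eq
    rw [Commute, SemiconjBy, ← map_mul, ← map_mul, h.hW.eich_mul hw1 wz wy₁, h.hW.eich_mul hw1 wy₁ wz,
      qs h.hW z, add_comm z, add_comm (q z)])
  have b5 := b3 _ (h.lm _ (h.hU.eich_mem_om he ea rfl)) (by
    rw [h1]
    refine (Commute.mul_right ?_ (lf_rt _ _)).eq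
    rw [Commute, SemiconjBy, ← map_mul, ← map_mul, h.hU.eich_mul he ea ea₁, h.hU.eich_mul he ea₁ ea,
      qs h.hU a, add_comm a, add_comm (p a)])
  have b6 := fun l => h.form9 e0 he ea pa w1 hw1 wz qz (b2 l) (h.c_tau w1 hw1 wz qz (b2 l) (b4 l).symm)
    (by rw [mul_assoc, b4, ← mul_assoc, b5, mul_assoc])
  choose A Y b6 b7 b8 using b6
  have b9 : ∀ x y' l, B (pt U f x y') (E l (pt U f e' w')) = f y' (h.hW.eich w₁ (Y l) (q (Y l)) w') *
      g x (h.hU.eich e (A l) (p (A l)) e') := fun x y' l => by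
    rw [b8, mul_app, rt_pt (h.hW.eich_mem_isom hw1 (b7 l) rfl).1, lf_pt, h.Bp]; simp
  have b10 : ∀ x y', ∃ i j : F, ∀ l, B (pt U f x y') (E l (pt U f e' w')) =
      f y' w' * g x e' + l * i + l * l * j := fun x y' =>
    ⟨B (pt U f x y') (c (pt U f (c⁻¹ (pt U f e' w') y) w - pt U f (c⁻¹ (pt U f e' w') w) y)),
      -B (pt U f x y') (c (q y • pt U f (c⁻¹ (pt U f e' w') w) w)), fun l => by
      simp only [E, mul_app]
      rw [rt_eich h.hW hw (b1 l)]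
      simp only [map_add, map_sub, map_smul, app_inv, h.hW.Q_smul,
        LinearMap.smul_apply, smul_eq_mul, RingHom.id_apply]
      rw [h.Bp x y' (pt U f e' w')]
      simp only [pt_apply, map_smul, smul_eq_mul]; ring⟩
  have b11 : ∀ l, 4 * p a * p (A l) = g a (A l) * g a (A l) := fun l => by
    nth_rw 1 [dec3 h.hU h.two h.u3 he he' ee ea ea' pa (A l)]
    have := h.two
    simp [b6, h.hU.Q_add, h.hU.Q_smul, he, ea]; field_simp; ring
  have b12 : ∀ l, 4 * q z * q (Y l) = f z (Y l) * f z (Y l) := fun l => by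
    nth_rw 1 [dec3 h.hW h.two h.w9 hw1 hw' ww wz wz' qz (Y l)]
    have := h.two
    simp [b7, h.hW.Q_add, h.hW.Q_smul, hw1, wz]; field_simp; ring
  obtain ⟨i₁, j₁, c1⟩ := b10 a w₁
  obtain ⟨i₂, j₂, c2⟩ := b10 e z
  obtain ⟨i₃, j₃, c3⟩ := b10 a z
  obtain ⟨i₄, j₄, c4⟩ := b10 e' z
  simp only [b9, h.hU.eich_apply he (b6 _), h.hW.eich_apply hw1 (b7 _), map_add, map_sub, map_smul, ee, ww,
    h.hU.diag0 he, h.hU.diag0 he', h.hW.diag0 hw1, h.hU.refl ea, h.hU.refl ea', h.hW.refl wz, h.hW.refl wz',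
    b6, b7, h.hU.flip_one ee, smul_eq_mul, mul_zero, mul_one, zero_mul, qs h.hU (A _) e'] at c1 c2 c3 c4
  obtain ⟨t, t0, t1⟩ := h.sq
  have c5 := poly5 h.two t0 t1 (S := fun l => g a (A l)) (T := fun l => f z (Y l)) (a := -i₁) (a' := -j₁)
    (b := -i₂) (b' := -j₂) (c := i₃) (c' := j₃) (d := 4 * p a * i₄) (d' := 4 * p a * j₄)
    (fun l => by linear_combination -c1 l) (fun l => by linear_combination -c2 l)
    (fun l => by linear_combination c3 l) fun l => by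
      linear_combination 4 * p a * c4 l - f z (Y l) * b11 l
  have c6 := b8 1
  simp only [E, one_smul] at c6
  have c7 : ∀ b, (c * rt U (h.hW.eich w y (q y)) * c⁻¹) (c (pt U f b w)) = c (pt U f b w) := fun b => by
    rw [mul_app, inv_app, mul_app, rt_pt (h.hW.eich_mem_isom hw wy rfl).1,
      h.hW.eich_fix _ (h.hW.diag0 hw) (h.hW.refl wy)]
  have c8 : c * rt U (h.hW.eich w y (q y)) * c⁻¹ ≠ 1 := fun c8 =>
    h.rt_ne w0 hw wy qy (conj_eq_one_iff.1 c8)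
  have four : (4 : F) ≠ 0 := by rw [show (4 : F) = 2 * 2 by norm_num]; exact mul_ne_zero h.two h.two
  rw [c6] at c7 c8
  rcases c5 with c5 | c5
  · rw [eich_triv h.hU (w1_three h.hU h.u3) e0 he (b6 1) (by simpa [c5, four, pa] using b11 1), map_one,
      one_mul] at c7 c8
    exact Or.inl (h.st hc w0 hw fun b => h.fix_rt w1 hw1 (b7 1)
      (fun c9 => c8 (by rw [eich_triv h.hW h.wl w1 hw1 (b7 1) c9, map_one])) (c7 b))
  · rw [eich_triv h.hW h.wl w1 hw1 (b7 1) (by simpa [c5, four, qz] using b12 1), map_one,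
      mul_one] at c7 c8
    refine Or.inr (h.st (mul_mem h.sm hc) w0 hw (w' := β e) fun b => ?_)
    obtain ⟨x, hx⟩ := h.fix_lf e0 he (b6 1)
      (fun c9 => c8 (by rw [eich_triv h.hU (w1_three h.hU h.u3) e0 he (b6 1) c9, map_one])) (c7 b)
    exact ⟨α x, by rw [mul_app, hx, h.sp]⟩

end S9

end Cfsg.Agent.H11.Tz
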