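import Mathlib
import Cfsg.Agent.H11.Ty2

/-!
Tensor squares of three-dimensional orthogonal spaces: centralisers of unipotent elements.
-/

set_option autoImplicit false
set_option linter.unusedSectionVars false

namespace Cfsg.Agent.H11.Tz

open Module H10 H11 H19.TA
open H26.MX hiding finrank_le_inf_ker finrank_span_pair_le finrank_span_one_le SLv mem_SLv
  map_eq_of_le

variable {F : Type*} [Field F]

section un
variable {V : Type*} [AddCommGroup V] [Module F V] {B : V →ₗ[F] V →ₗ[F] F} {Q : V → F}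
  {M : Subgroup (V ≃ₗ[F] V)} {z : V} {Z : Submodule F V} {hz : z ∈ Z} {hZ : Z ≤ perp B Z}

/-- the unipotent radical of a flag of isotropic subspaces -/
def Un (B : V →ₗ[F] V →ₗ[F] F) (M : Subgroup (V ≃ₗ[F] V)) {z : V} {Z : Submodule F V} (hz : z ∈ Z)
    (hZ : Z ≤ perp B Z) : Subgroup (V ≃ₗ[F] V) where
  carrier := {x | x ∈ M ∧ x z = z ∧ (∀ v ∈ Z, x v - v ∈ F ∙ z) ∧ ∀ v ∈ perp B Z, x v - v ∈ Z}
  one_mem' := ⟨one_mem _, rfl, fun v _ => by simp, fun v _ => by simp⟩
  mul_mem' := by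
    rintro x y ⟨h1, h2, h3, h4⟩ ⟨h5, h6, h7, h8⟩
    have h9 := (Submodule.span_singleton_le_iff_mem z Z).2 hz
    refine ⟨mul_mem h1 h5, by rw [mul_app, h6, h2], fun v hv => ?_, fun v hv => ?_⟩
    · simpa [mul_app] using add_mem (h3 _ (add_mem (h9 (h7 v hv)) hv)) (h7 v hv)
    · simpa [mul_app] using add_mem (h4 _ (add_mem (hZ (h8 v hv)) hv)) (h8 v hv)
  inv_mem' := by
    rintro x ⟨h1, h2, h3, h4⟩
    have h9 := (Submodule.span_singleton_le_iff_mem z Z).2 hz
    have h5 : ∀ v ∈ Z, x⁻¹ v - v ∈ F ∙ z := fun v hv => by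
      obtain ⟨l, hl⟩ := Submodule.mem_span_singleton.1 (h3 v hv)
      rw [inv_eq_of (x := v - l • z) (by rw [map_sub, map_smul, h2, hl]; abel)]
      simp [Submodule.smul_mem, Submodule.mem_span_singleton_self]
    refine ⟨inv_mem h1, inv_eq_of h2, h5, fun v hv => ?_⟩
    simpa using neg_mem (add_mem (h9 (h5 _ (h4 v hv))) (h4 v hv))

theorem un_a (hM : M ≤ Isom B Q) {x : V ≃ₗ[F] V} (hx : x ∈ Un B M hz hZ) (v : V) : B z (x v - v) = 0 := by
  rw [map_sub, ← (hM hx.1).1 z v, hx.2.1, sub_self]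

theorem un_b (hM : M ≤ Isom B Q) {x : V ≃ₗ[F] V} (hx : x ∈ Un B M hz hZ) {v : V} (hv : B z v = 0) :
    x v - v ∈ perp B Z := fun u hu => by
  obtain ⟨l, hl⟩ := Submodule.mem_span_singleton.1 ((inv_mem hx).2.2.1 u hu)
  rw [map_sub, ← app_inv x u, (hM hx.1).1, app_inv, ← LinearMap.sub_apply, ← map_sub, ← hl]
  simp [hv]

theorem un_p [Finite F] [Nontrivial V] (h5 : 5 ≤ ringChar F) (hM : M ≤ Isom B Q) :
    IsPGroup (ringChar F) (Un B M hz hZ) := fun ⟨x, hx⟩ => ⟨1, Subtype.ext (by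
  have := Fact.mk (CharP.char_is_prime F (ringChar F))
  have := charP_of_injective_algebraMap (algebraMap F (End F V)).injective (ringChar F)
  have h1 := pow_eq_zero_of_le (a := (x.toLinearMap - 1 : End F V)) (m := 5) h5 (LinearMap.ext fun v => by
    obtain ⟨l, hl⟩ := Submodule.mem_span_singleton.1 (hx.2.2.1 _ (hx.2.2.2 _ (un_b hM hx (un_a hM hx v))))
    have h2 : ∀ v, (x.toLinearMap - 1 : End F V) v = x v - v := fun _ => rfl
    simp only [pow_succ, pow_zero, one_mul, End.mul_apply, h2, LinearMap.zero_apply]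
    rw [← hl, map_smul, hx.2.1, sub_self])
  rw [sub_pow_char_of_commute _ (Commute.one_right _), one_pow, sub_eq_zero] at h1
  change x ^ ringChar F ^ 1 = 1
  rw [pow_one]
  exact LinearEquiv.toLinearMap_injective
    ((LinearEquiv.automorphismGroup.toLinearMapMonoidHom.map_pow x _).trans h1))⟩

theorem un_conj (hM : M ≤ Isom B Q) {x c : V ≃ₗ[F] V} (hx : x ∈ Un B M hz hZ) (hc : c ∈ M)
    (h1 : c z ∈ F ∙ z) (h2 : c⁻¹ z ∈ F ∙ z) (h3 : ∀ v ∈ Z, c v ∈ Z) (h4 : ∀ v ∈ Z, c⁻¹ v ∈ Z) :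
    c * x * c⁻¹ ∈ Un B M hz hZ := by
  have h5 : ∀ v, (c * x * c⁻¹) v - v = c (x (c⁻¹ v) - c⁻¹ v) := fun v => by simp [mul_app]
  refine ⟨mul_mem (mul_mem hc hx.1) (inv_mem hc), ?_, fun v hv => ?_, fun v hv => ?_⟩
  · obtain ⟨l, hl⟩ := Submodule.mem_span_singleton.1 h2
    rw [← sub_eq_zero, h5, ← hl, map_smul, hx.2.1, sub_self, map_zero]
  · obtain ⟨l, hl⟩ := Submodule.mem_span_singleton.1 (hx.2.2.1 _ (h4 v hv))
    rw [h5, ← hl, map_smul]
    exact Submodule.smul_mem _ _ h1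
  · rw [h5]
    exact h3 _ (hx.2.2.2 _ fun u hu => by rw [← (hM hc).1, app_inv]; exact hv _ (h3 u hu))

end un

variable {U W : Type*} [AddCommGroup U] [Module F U] [AddCommGroup W] [Module F W]
  {g : U →ₗ[F] U →ₗ[F] F} {f : W →ₗ[F] W →ₗ[F] F} {p : U → F} {q : W → F}
  {B : (W →ₗ[F] U) →ₗ[F] (W →ₗ[F] U) →ₗ[F] F} {Q : (W →ₗ[F] U) → F}
  {M : Subgroup ((W →ₗ[F] U) ≃ₗ[F] (W →ₗ[F] U))} {k c σ : (W →ₗ[F] U) ≃ₗ[F] (W →ₗ[F] U)}
  {α : W ≃ₗ[F] U} {β : U ≃ₗ[F] W}

namespace S9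

variable [FiniteDimensional F U] [FiniteDimensional F W] [Finite F] (h : S9 g p f q B Q M σ α β)
include h

theorem ntV : Nontrivial (W →ₗ[F] U) := Module.nontrivial_of_finrank_pos (R := F) (by
  rw [finrank_linearMap, h.w9, h.u3]; omega)

variable {e a : U} (e0 : e ≠ 0) (he : p e = 0) (ea : g e a = 0) (pa : p a ≠ 0)
  {w y : W} (w0 : w ≠ 0) (hw : q w = 0) (wy : f w y = 0) (qy : q y ≠ 0)
include e0 he ea pa w0 hw wy qy

theorem cm5 (h3 : (3 : F) ≠ 0) (hc : c ∈ M)
    (h1 : c * (lf W (h.hU.eich e a (p a)) * rt U (h.hW.eich w y (q y))) =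
      lf W (h.hU.eich e a (p a)) * rt U (h.hW.eich w y (q y)) * c) : c ∈ h.HS := by
  have hp := CharP.char_is_prime F (ringChar F)
  have := Fact.mk hp
  have := h.ntV
  have : Finite (W →ₗ[F] U) := Module.finite_of_finite F
  have : Finite ((W →ₗ[F] U) ≃ₗ[F] (W →ₗ[F] U)) := DFunLike.finite _
  have two := h.two
  obtain ⟨e', he', ee, ea'⟩ := partner h.hU he e0 ea pa
  obtain ⟨w', hw', ww, wy'⟩ := partner h.hW hw w0 wy qy
  have hu := h.hU.eich_mem_om he ea rfl
  have hρ := h.hW.eich_mem_om hw wy rfl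
  have u0 := h.hU.eich_apply he ea (p a)
  have u1 : h.hU.eich e a (p a) e = e := by simp [u0, h.hU.diag0 he, h.hU.refl ea]
  have u2 : h.hU.eich e a (p a) a = a + (2 * p a) • e := by simp [u0, ea, H19.TA.qd h.hU]
  have u3 : h.hU.eich e a (p a) e' = e' - a - p a • e := by simp [u0, ee, h.hU.refl ea']
  have r0 := h.hW.eich_apply hw wy (q y)
  have r1 : h.hW.eich w y (q y) w = w := by simp [r0, h.hW.diag0 hw, h.hW.refl wy]
  have r2 : h.hW.eich w y (q y) y = y + (2 * q y) • w := by simp [r0, wy, H19.TA.qd h.hW]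
  have r3 : h.hW.eich w y (q y) w' = w' - y - q y • w := by simp [r0, ww, h.hW.refl wy']
  have r4 := rt_eich (U := U) h.hW hw wy
  have hτ := h.se19 w0 hw wy qy
  have τp : rt U (h.hW.eich w y (q y)) ^ ringChar F = 1 := by rw [← map_pow, eich_pow h.hW hw wy, map_one]
  generalize h.hU.eich e a (p a) = u at *
  generalize h.hW.eich w y (q y) = ρ at *
  have r5 := rt_pt (U := U) (h.hW.om_le_isom hρ).1
  let Z := Submodule.span F {pt U f e w, pt U f a w, pt U f e y}
  have z1 : pt U f e w ∈ Z := Submodule.subset_span (by simp)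
  have z2 : pt U f a w ∈ Z := Submodule.subset_span (by simp)
  have z3 : pt U f e y ∈ Z := Submodule.subset_span (by simp)
  have hZ : Z ≤ perp B Z := Submodule.span_le.2 fun v hv => mem_perp_span.2 fun u hu => by
    rcases hv with rfl | rfl | rfl <;> rcases hu with rfl | rfl | rfl <;>
      simp [h.Bp, h.hW.diag0 hw, h.hU.diag0 he, wy, h.hW.refl wy, ea, h.hU.refl ea]
  have z4 : ∀ v ∈ perp B Z, (∃ i : F, v w = i • e) ∧ ∃ i j : F, v y = i • e + j • a := fun v hv => by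
    have a1 := hv _ z1
    have a2 := hv _ z2
    have a3 := hv _ z3
    rw [h.Bp] at a1 a2 a3
    exact ⟨(Submodule.mem_span_singleton.1 (h.line e0 he ea pa a1 a2)).imp fun _ h => h.symm, _, _, by
      simpa [a3] using dec3 h.hU h.two h.u3 he he' ee ea ea' pa (v y)⟩
  have z5 : ∀ x : (W →ₗ[F] U) ≃ₗ[F] (W →ₗ[F] U), x (pt U f e w) = pt U f e w →
      x (pt U f a w) - pt U f a w ∈ F ∙ pt U f e w → x (pt U f e y) - pt U f e y ∈ F ∙ pt U f e w →
      ∀ v ∈ Z, x v - v ∈ F ∙ pt U f e w := fun x a1 a2 a3 v hv => by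
    obtain ⟨i, j, l, rfl⟩ := Submodule.mem_span_triple.1 hv
    simpa [a1, smul_sub, add_sub_add_comm] using add_mem (Submodule.smul_mem _ j a2) (Submodule.smul_mem _ l a3)
  have m1 : rt U ρ ∈ Un B M z1 hZ := ⟨h.rm _ hρ, by rw [r5, r1], z5 _ (by rw [r5, r1]) (by simp [r5, r1])
    (by simp [r5, r2, Submodule.smul_mem, Submodule.mem_span_singleton_self]), fun v hv => by
      obtain ⟨⟨i, a1⟩, j, l, a2⟩ := z4 v hv
      rw [r4, a1, a2]
      exact Submodule.mem_span_triple.2 ⟨j - q y * i, l, -i, by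
        simp only [map_add, map_smul, LinearMap.add_apply, LinearMap.smul_apply]; module⟩⟩
  have m2 : lf W u ∈ Un B M z1 hZ := ⟨h.lm _ hu, by rw [lf_pt, u1], z5 _ (by rw [lf_pt, u1])
    (by simp [lf_pt, u2, Submodule.smul_mem, Submodule.mem_span_singleton_self]) (by simp [lf_pt, u1]),
    fun v hv => by
      obtain ⟨⟨i, a1⟩, j, l, a2⟩ := z4 v hv
      refine Submodule.mem_span_triple.2 ⟨g a (v w') - p a * g e (v w'), -g e (v w'), l * p a / q y,
        LinearMap.ext fun x => ?_⟩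
      rw [LinearMap.sub_apply, lf_apply]
      nth_rw 2 3 [dec3 h.hW h.two h.w9 hw hw' ww wy wy' qy x]
      simp only [map_add, map_smul, a1, a2, u1, u2, u0 (v w'), LinearMap.add_apply, LinearMap.smul_apply,
        pt_apply, qs h.hW x]
      match_scalars <;> field_simp <;> ring⟩
  have m3 := mul_mem m2 m1
  have g0 : ∀ x z, (lf W u * rt U ρ) (pt U f x z) = pt U f (u x) (ρ z) := fun x z => by
    rw [mul_app, r5, lf_pt]
  generalize lf W u * rt U ρ = G at *
  let N : End F (W →ₗ[F] U) := G.toLinearMap - 1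
  have n0 : ∀ v, N v = G v - v := fun _ => rfl
  have n5 : ∀ x z, N (pt U f x z) = pt U f (u x) (ρ z) - pt U f x z := fun x z => by rw [n0, g0]
  have t1 : N (pt U f e w) = 0 := by simp [n5, u1, r1]
  have t2 : N (pt U f a w) = (2 * p a) • pt U f e w := by simp [n5, u2, r1]
  have t3 : N (pt U f e y) = (2 * q y) • pt U f e w := by simp [n5, u1, r2]
  have t4 : N (pt U f a y) = (2 * q y) • pt U f a w + (2 * p a) • pt U f e y +
      (4 * p a * q y) • pt U f e w := by simp [n5, u2, r2]; module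
  have t5 : N (pt U f e' w) = -pt U f a w - p a • pt U f e w := by simp [n5, u3, r1]; module
  have t6 : N (pt U f e w') = -pt U f e y - q y • pt U f e w := by simp [n5, u1, r3]; module
  have t7 : N (pt U f a w') = -pt U f a y - q y • pt U f a w + (2 * p a) • pt U f e w' -
      (2 * p a) • pt U f e y - (2 * p a * q y) • pt U f e w := by simp [n5, u2, r3]; module
  have t8 : N (pt U f e' y) = (2 * q y) • pt U f e' w - pt U f a y - (2 * q y) • pt U f a w -
      p a • pt U f e y - (2 * p a * q y) • pt U f e w := by simp [n5, u3, r2]; module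
  have t9 : N (pt U f e' w') = -pt U f e' y - q y • pt U f e' w - pt U f a w' + pt U f a y +
      q y • pt U f a w - p a • pt U f e w' + p a • pt U f e y + (p a * q y) • pt U f e w := by
    simp [n5, u3, r3]; module
  have n1 : N (N (N (N (pt U f e' w')))) = (24 * p a * q y) • pt U f e w := by
    simp only [t1, t2, t3, t4, t5, t6, t7, t8, t9, map_add, map_sub, map_smul, map_neg, map_zero]
    module
  have n2 : N (N (pt U f a w' - (2 : F) • pt U f e' y)) =
      (6 * q y) • pt U f a w + (12 * p a * q y) • pt U f e w := by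
    simp only [t1, t2, t3, t4, t5, t6, t7, t8, map_add, map_sub, map_smul, map_neg]
    module
  have n3 : N (N (pt U f e' y - (2 : F) • pt U f a w')) =
      (6 * p a) • pt U f e y + (12 * p a * q y) • pt U f e w := by
    simp only [t1, t2, t3, t4, t5, t6, t7, t8, map_add, map_sub, map_smul, map_neg]
    module
  have n4 : ∀ c : (W →ₗ[F] U) ≃ₗ[F] (W →ₗ[F] U), c * G = G * c → ∀ v, c (N v) = N (c v) := fun c hc v => by
    simp only [n0, map_sub, ← mul_app, hc]
  have six : (6 : F) ≠ 0 := by rw [show (6 : F) = 2 * 3 by norm_num]; exact mul_ne_zero two h3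
  have k1 : ∀ c : (W →ₗ[F] U) ≃ₗ[F] (W →ₗ[F] U), c * G = G * c → c (pt U f e w) ∈ F ∙ pt U f e w :=
    fun c hc => (Submodule.smul_mem_iff _ (show 24 * p a * q y ≠ 0 by
      rw [show (24 : F) = 2 * 2 * 6 by norm_num]; simp [two, six, pa, qy])).1 (by
        rw [← map_smul, ← n1, n4 c hc, n4 c hc, n4 c hc, n4 c hc]
        exact m3.2.2.1 _ (m3.2.2.2 _ (un_b h.le m3 (un_a h.le m3 _))))
  have k2 : ∀ c : (W →ₗ[F] U) ≃ₗ[F] (W →ₗ[F] U), c * G = G * c → c⁻¹ * G = G * c⁻¹ := fun c hc =>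
    (Commute.inv_left (a := c) (b := G) hc).eq
  have k3 : ∀ c ∈ M, c * G = G * c → ∀ v ∈ Z, c v ∈ Z := fun c hc a1 v hv => by
    have a2 := (Submodule.span_singleton_le_iff_mem _ Z).2 z1 (k1 c a1)
    have a3 : ∀ v, B (pt U f e w) v = 0 → c (N (N v)) ∈ Z := fun v hv => by
      rw [n4 c a1, n4 c a1]
      obtain ⟨l, hl⟩ := Submodule.mem_span_singleton.1 (k1 _ (k2 c a1))
      refine m3.2.2.2 _ (un_b h.le m3 ?_)
      rw [← app_inv c (pt U f e w), (h.le hc).1, ← hl]; simp [hv]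
    have a4 := a3 (pt U f a w' - (2 : F) • pt U f e' y) (by simp [h.Bp, ea, wy])
    have a5 := a3 (pt U f e' y - (2 : F) • pt U f a w') (by simp [h.Bp, ea, wy])
    rw [n2, map_add, map_smul, map_smul, Submodule.add_mem_iff_left _ (Z.smul_mem _ a2),
      Submodule.smul_mem_iff _ (mul_ne_zero six qy)] at a4
    rw [n3, map_add, map_smul, map_smul, Submodule.add_mem_iff_left _ (Z.smul_mem _ a2),
      Submodule.smul_mem_iff _ (mul_ne_zero six pa)] at a5
    obtain ⟨i, j, l, rfl⟩ := Submodule.mem_span_triple.1 hv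
    simpa using add_mem (add_mem (Z.smul_mem i a2) (Z.smul_mem j a4)) (Z.smul_mem l a5)
  have h5 : 5 ≤ ringChar F := by
    have a1 := hp.two_le
    have a2 := h.odd
    have a3 : ringChar F ≠ 3 := fun c => h3 (by
      have := ringChar.Nat.cast_ringChar (R := F); rwa [c] at this)
    obtain ⟨m, hm⟩ := a2
    omega
  exact hτ c hc (hτ.pg (p := ringChar F) (S := Un B M z1 hZ) (h.le_hs (rt_mem (h.hW.om_le_isom hρ))) (fun _ h => h.1)
    (un_p h5 h.le) m1 (un_conj h.le m1 hc (k1 c h1) (k1 _ (k2 c h1)) (k3 c hc h1)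
      (k3 _ (inv_mem hc) (k2 c h1))))

end S9

end Cfsg.Agent.H11.Tz
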