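import Mathlib
import Cfsg.Agent.H11.Ty2

/-!
Tensor squares of three-dimensional orthogonal spaces: centralisers in characteristic three.
-/

set_option autoImplicit false
set_option linter.unusedSectionVars false

namespace Cfsg.Agent.H11.Tz

open Module H10 H11 H19.TA
open H26.MX hiding finrank_le_inf_ker finrank_span_pair_le finrank_span_one_le SLv mem_SLv
  map_eq_of_le

variable {F : Type*} [Field F] {U W : Type*} [AddCommGroup U] [Module F U] [AddCommGroup W] [Module F W]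
  {g : U →ₗ[F] U →ₗ[F] F} {f : W →ₗ[F] W →ₗ[F] F} {p : U → F} {q : W → F}
  {B : (W →ₗ[F] U) →ₗ[F] (W →ₗ[F] U) →ₗ[F] F} {Q : (W →ₗ[F] U) → F}
  {M : Subgroup ((W →ₗ[F] U) ≃ₗ[F] (W →ₗ[F] U))} {k c σ : (W →ₗ[F] U) ≃ₗ[F] (W →ₗ[F] U)}
  {α : W ≃ₗ[F] U} {β : U ≃ₗ[F] W}

theorem char3 (h3 : (3 : F) = 0) : ringChar F = 3 :=
  CharP.ringChar_of_prime_eq_zero Nat.prime_three (by exact_mod_cast h3)

namespace S9

variable [FiniteDimensional F U] [FiniteDimensional F W] [Finite F] (h : S9 g p f q B Q M σ α β)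
  {e a : U} (e0 : e ≠ 0) (he : p e = 0) (ea : g e a = 0) (pa : p a ≠ 0)
  {w y : W} (w0 : w ≠ 0) (hw : q w = 0) (wy : f w y = 0) (qy : q y ≠ 0)
include h e0 he ea pa w0 hw wy qy

theorem cm3 (h3 : (3 : F) = 0) (hc : c ∈ M)
    (h1 : c * (lf W (h.hU.eich e a (p a)) * rt U (h.hW.eich w y (q y))) =
      lf W (h.hU.eich e a (p a)) * rt U (h.hW.eich w y (q y)) * c) : c ∈ h.HS := by
  have := Fact.mk (CharP.char_is_prime F (ringChar F))
  have : Finite (W →ₗ[F] U) := Module.finite_of_finite F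
  have : Finite ((W →ₗ[F] U) ≃ₗ[F] (W →ₗ[F] U)) := DFunLike.finite _
  have dV : finrank F (W →ₗ[F] U) = 9 := by rw [finrank_linearMap, h.w9, h.u3]
  have : Nontrivial (W →ₗ[F] U) := Module.nontrivial_of_finrank_pos (R := F) (by omega)
  have two := h.two
  obtain ⟨e', he', ee, ea'⟩ := partner h.hU he e0 ea pa
  obtain ⟨w', hw', ww, wy'⟩ := partner h.hW hw w0 wy qy
  have hu := h.hU.eich_mem_om he ea rfl
  have hρ := h.hW.eich_mem_om hw wy rfl
  have hG := mul_mem (h.lm _ hu) (h.rm _ hρ)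
  have fm := fun c hc h0 => h.form9 (c := c) e0 he ea pa w0 hw wy qy hc h0
  have g0 : ∀ x z, (lf W (h.hU.eich e a (p a)) * rt U (h.hW.eich w y (q y))) (pt U f x z) =
      pt U f (h.hU.eich e a (p a) x) (h.hW.eich w y (q y) z) := fun x z => by
    rw [mul_app, rt_pt (h.hW.om_le_isom hρ).1, lf_pt]
  have g1 : ∀ z, f w z = 0 → rt U (h.hW.eich w z (q z)) * (lf W (h.hU.eich e a (p a)) *
      rt U (h.hW.eich w y (q y))) = lf W (h.hU.eich e a (p a)) * rt U (h.hW.eich w y (q y)) *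
      rt U (h.hW.eich w z (q z)) := fun z hz => ((lf_rt _ _).symm.mul_right (by
    rw [Commute, SemiconjBy, ← map_mul, ← map_mul, h.hW.eich_mul hw wy hz, h.hW.eich_mul hw hz wy,
      qs h.hW z, add_comm z, add_comm (q z)])).eq
  have g2 : (lf W (h.hU.eich e a (p a)) * rt U (h.hW.eich w y (q y))) ^ 3 = 1 := by
    rw [(lf_rt _ _).mul_pow, ← map_pow, ← map_pow, ← char3 h3, eich_pow h.hU he ea, eich_pow h.hW hw wy]
    simp
  have bp : ∀ x z x' z', B (pt U f x z) (pt U f x' z') = f z z' * g x x' := fun x z x' z' => by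
    simp [h.Bp]
  have u0 := h.hU.eich_apply he ea (p a)
  have u1 : h.hU.eich e a (p a) e = e := by simp [u0, h.hU.diag0 he, h.hU.refl ea]
  have u2 : h.hU.eich e a (p a) a = a + (2 * p a) • e := by simp [u0, ea, H19.TA.qd h.hU]
  have u3 : h.hU.eich e a (p a) e' = e' - a - p a • e := by simp [u0, ee, h.hU.refl ea']
  have u4 : g e' (h.hU.eich e a (p a) e') = -p a := by
    simp [u3, h.hU.diag0 he', ea', h.hU.flip_one ee]
  have u5 : g e' (h.hU.eich e a (p a) (h.hU.eich e a (p a) e')) = -4 * p a := by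
    simp [u1, u2, u3, h.hU.diag0 he', ea', h.hU.flip_one ee]; ring
  have r1 := h.hW.eich_fix (u := w) (w := y) (q y) (h.hW.diag0 hw) (h.hW.refl wy)
  generalize lf W (h.hU.eich e a (p a)) * rt U (h.hW.eich w y (q y)) = G at *
  let N : End F (W →ₗ[F] U) := G.toLinearMap - 1
  have n0 : ∀ v, N v = G v - v := fun _ => rfl
  have n1 : ∀ c : (W →ₗ[F] U) ≃ₗ[F] (W →ₗ[F] U), c * G = G * c → ∀ v, c (N v) = N (c v) := fun c hc v => by
    simp only [n0, map_sub, ← mul_app, hc]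
  have n2 : ∀ v, N (N (N v)) = 0 := fun v => by
    have a1 : G (G (G v)) = v := by simpa [pow_succ, mul_app] using LinearEquiv.congr_fun g2 v
    simp only [n0, map_sub, a1]
    linear_combination (norm := module) h3 • (G v - G (G v))
  have n3 : ∀ v d, N (N d) = 0 → B (N (N v)) d = 0 := fun v d hd => by
    have a1 : ∀ v d, B (N v) d = -B (G v) (N d) := fun v d => by simp [n0, (h.le hG).1]
    rw [a1, n1 G rfl, a1, hd]; simp
  let m : End F W := 1 - q y • (f w).smulRight w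
  have m0 : ∀ x, m x = x - (q y * f w x) • w := fun x => by simp [m, smul_smul]
  let φ : W →ₗ[F] (W →ₗ[F] U) := N ∘ₗ N ∘ₗ pt U f e' ∘ₗ m
  have p0 : ∀ x, φ x = N (N (pt U f e' (m x))) := fun _ => rfl
  have p1 : ∀ x x', B (pt U f e' (m x')) (φ x) = p a * f x' x := fun x x' => by
    rw [p0, n0, n0, map_sub G, g0, g0]
    simp only [map_sub, bp, u4, u5, h.hU.diag0 he']
    simp only [h.hW.eich_apply hw wy, m0, map_add, map_sub, map_smul, LinearMap.sub_apply,
      LinearMap.smul_apply, smul_eq_mul, h.hW.diag0 hw, wy, h.hW.refl wy, H19.TA.qd h.hW y, qs h.hW x' w,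
      qs h.hW x' y]
    linear_combination (-p a * f x' x - 2 * p a * f y x * f w x' + 2 * p a * f y x' * f w x +
      6 * p a * q y * f w x * f w x') * h3
  have p2 : Function.Injective φ := (injective_iff_map_eq_zero _).2 fun x hx =>
    h.hW.form.separatingRight h.hW.sep fun x' => by simpa [hx, pa] using (p1 x x').symm
  have p3 : LinearMap.range φ = LinearMap.ker N := by
    have a1 : LinearMap.range φ ≤ LinearMap.ker N := by rintro _ ⟨x, rfl⟩; exact n2 _
    have a2 := finrank_le_inf_ker_add (LinearMap.range N) N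
    have a3 := Submodule.finrank_mono (show LinearMap.range φ ≤ LinearMap.range N ⊓ LinearMap.ker N from
      le_inf (by rintro _ ⟨x, rfl⟩; exact ⟨_, rfl⟩) a1)
    have a4 := Submodule.finrank_mono (show LinearMap.range φ ≤ (LinearMap.range N).map N by
      rintro _ ⟨x, rfl⟩; exact ⟨_, ⟨_, rfl⟩, rfl⟩)
    have a5 := LinearMap.finrank_range_add_finrank_ker N
    have a6 := LinearMap.finrank_range_of_inj p2
    have := h.w9
    exact Submodule.eq_of_le_of_finrank_le a1 (by omega)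
  have p4 : ∀ c ∈ M, c * G = G * c → ∃ t ∈ Isom f q, ∀ x, c (φ x) = φ (t x) := fun c hc a1 => by
    have a2 : ∀ x, (c.toLinearMap ∘ₗ φ) x ∈ LinearMap.range φ := fun x => p3.ge (show N (c (φ x)) = 0 by
      rw [← n1 c a1, p0, n2, map_zero])
    let t : End F W := (LinearEquiv.ofInjective _ p2).symm.toLinearMap ∘ₗ (c.toLinearMap ∘ₗ φ).codRestrict _ a2
    have a3 : ∀ x, c (φ x) = φ (t x) := fun x =>
      (LinearEquiv.ofInjective_symm_apply (f := φ) (h := p2) ⟨_, a2 x⟩).symm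
    have a4 : ∀ x x', f (t x) (t x') = f x x' := fun x x' => mul_left_cancel₀ pa (by
      have a4 := n3 (pt U f e' (m (t x'))) (c (pt U f e' (m x)) - pt U f e' (m (t x))) (by
        rw [map_sub, map_sub, ← n1 c a1, ← n1 c a1, ← p0, ← p0, a3, sub_self])
      rw [← p0, qs h.hV, map_sub, LinearMap.sub_apply, p1, ← a3, (h.le hc).1, p1] at a4
      exact (sub_eq_zero.1 a4).symm)
    obtain ⟨t', a5, a6⟩ := IsForm.exists_isom_of_linear (Q := q) h.hW.sep t a4
      fun x => q_eq_of h.hW h.two (a4 x x)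
    exact ⟨t', a5, fun x => by rw [a6, a3]⟩
  have p5 : ∀ z, f w z = 0 → ∀ x, rt U (h.hW.eich w z (q z)) (φ x) = φ (h.hW.eich w z (q z) x) :=
    fun z hz x => by
      have a1 := h.hW.eich_mem_isom (c := q z) hw hz rfl
      have a2 := h.hW.eich_fix (u := w) (w := z) (q z) (h.hW.diag0 hw) (h.hW.refl hz)
      rw [p0, n1 _ (g1 z hz), n1 _ (g1 z hz), rt_pt a1.1, p0, m0, m0, map_sub, map_smul, a2, ← a1.1 w x, a2]
  have hτ := h.se19 w0 hw wy qy
  let K : Subgroup ((W →ₗ[F] U) ≃ₗ[F] (W →ₗ[F] U)) :=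
    { carrier := {c | c ∈ M ∧ c * G = G * c ∧ ∀ x, c (φ x) = φ x}
      one_mem' := ⟨one_mem _, by simp, fun _ => rfl⟩
      mul_mem' := fun {x z} hx hz => ⟨mul_mem hx.1 hz.1, (Commute.mul_left hx.2.1 hz.2.1).eq, fun v => by
        rw [mul_app, hz.2.2, hx.2.2]⟩
      inv_mem' := fun {x} hx => ⟨inv_mem hx.1, (Commute.inv_left hx.2.1).eq, fun v => inv_eq_of (hx.2.2 v)⟩ }
  have k1 : K ≤ h.HS := hτ.pg' (p := ringChar F) (h.le_hs (rt_mem (h.hW.om_le_isom hρ))) (h.rm _ hρ)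
    (by rw [← map_pow, eich_pow h.hW hw wy, map_one]) (fun _ h => h.1) (fun η => ⟨1, by
      refine Subtype.ext ((congrArg (η.1 ^ ·) (pow_one _)).trans (pow_of_nil h.odd fun v => ?_))
      set D : End F (W →ₗ[F] U) := η.1.toLinearMap - 1 with hD
      have h10 : ∀ v, N (D v) = D (N v) := fun v => by simp [hD, n1 _ η.2.2.1]
      have h11 : ∀ v, N v = 0 → D v = 0 := fun v hv => by
        obtain ⟨y, rfl⟩ := p3.ge hv
        exact sub_eq_zero.2 (η.2.2.2 y)
      refine h11 _ (by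
        rw [h10]
        refine h11 _ ?_
        rw [h10, h10]
        exact h11 _ (n2 v))⟩)
    (Subgroup.mem_normalizer_fintype fun η hη => ⟨mul_mem (mul_mem (h.rm _ hρ) hη.1) (inv_mem (h.rm _ hρ)),
      ((Commute.mul_left (g1 y wy) hη.2.1).mul_left (Commute.inv_left (g1 y wy))).eq, fun x => by
        rw [mul_app, mul_app, inv_eq_of (p5 y wy _ |>.trans (congrArg φ (app_inv _ x))), hη.2.2, p5 y wy,
          app_inv]⟩)
  have k2 : ∀ c ∈ M, c * G = G * c → ∀ t ∈ Isom f q, (∀ x, c (φ x) = φ (t x)) → f w (t w) = 0 → c ∈ h.HS :=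
    fun c hc a1 t ht a2 a3 => by
      obtain ⟨l, hl⟩ := Submodule.mem_span_singleton.1 (h.wl w (t w) hw (by rw [ht.2, hw]) a3 w0)
      have a4 : f w (t y) = 0 := by
        have := ht.1 w y
        rw [← hl, wy] at this
        exact by_contra fun c => app_ne_zero t w0 (by
          rw [← hl, show l = 0 by simpa [c] using this, zero_smul])
      have a5 : f w (l • t y) = 0 := by simp [a4]
      have a6 : t * h.hW.eich w y (q y) * t⁻¹ = h.hW.eich w (l • t y) (q (l • t y)) := by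
        rw [h.hW.conj_eich ht, ← hl, h.hW.eich_smul_left hw a4, h.hW.Q_smul, ht.2]; rfl
      have a7 := h.hW.eich_mem_om hw a5 rfl
      refine hτ c hc ((h.HS.mul_mem_cancel_right (inv_mem (h.le_hs (rt_mem (h.hW.om_le_isom a7))))).1
        (k1 ⟨mul_mem (mul_mem (mul_mem hc (h.rm _ hρ)) (inv_mem hc)) (inv_mem (h.rm _ a7)),
          (((Commute.mul_left a1 (g1 y wy)).mul_left (Commute.inv_left a1)).mul_left
            (Commute.inv_left (g1 _ a5))).eq, fun x => ?_⟩))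
      rw [mul_app, mul_app, mul_app, inv_eq_of (p5 _ a5 _ |>.trans (congrArg φ (app_inv _ x))),
        inv_eq_of (a2 _ |>.trans (congrArg φ (app_inv _ _))), p5 y wy, a2, ← a6]
      simp [mul_app]
  obtain ⟨t, ht, a1⟩ := p4 c hc h1
  refine k2 c hc h1 t ht a1 (by_contra fun a2 => ?_)
  let L : Subgroup (W ≃ₗ[F] W) :=
    { carrier := {t | t ∈ Isom f q ∧ ∃ c ∈ M, c * G = G * c ∧ ∀ x, c (φ x) = φ (t x)}
      one_mem' := ⟨one_mem _, 1, one_mem _, by simp, fun _ => rfl⟩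
      mul_mem' := by
        rintro s s' ⟨b1, x, b2, b3, b4⟩ ⟨b5, z, b6, b7, b8⟩
        exact ⟨mul_mem b1 b5, _, mul_mem b2 b6, (Commute.mul_left b3 b7).eq, fun v => by
          rw [mul_app, b8, b4, mul_app]⟩
      inv_mem' := by
        rintro s ⟨b1, x, b2, b3, b4⟩
        exact ⟨inv_mem b1, _, inv_mem b2, (Commute.inv_left b3).eq, fun v => inv_eq_of (by
          rw [b4, app_inv])⟩ }
  have a3 : L ≤ Isom f q := fun _ h => h.1
  have a4 : h.hW.Full L w := ⟨hw, fun z c hz hc => by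
    obtain rfl : c = q z := hc
    exact ⟨h.hW.eich_mem_isom hw hz rfl, _, h.rm _ (h.hW.eich_mem_om hw hz rfl), g1 z hz, p5 z hz⟩⟩
  obtain ⟨s, s0, s1⟩ : ∃ s : F, s ≠ 0 ∧ s * s * (s * s) ≠ 1 := by
    obtain ⟨s, s0, s1⟩ := h.sq
    by_cases s2 : s * s * (s * s) = 1
    · have s3 := (mul_self_eq_one_iff.1 s2).resolve_left s1
      have s4 : (1 + s) * (1 + s) = -s := by linear_combination s3 + s * h3
      exact ⟨1 + s, fun c => s0 (by simpa [c] using s4), by rwa [s4, neg_mul_neg]⟩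
    · exact ⟨s, s0, s2⟩
  obtain ⟨τ, a5, a6, -⟩ := tor h.hW hw hw' ww wy wy' qy s0
  obtain ⟨a7, d, a8, a9, a10⟩ := h.hW.om_le_of_full a3 a4 (a4.map a3 ⟨ht, c, hc, h1, a1⟩) a2 a5
  obtain ⟨a', y', b1, b2, b3⟩ := fm _ (mul_mem a8 a8) (h.sq_mem (k2 d a8 a9 τ a7 a10
    (by simp [a6, h.hW.diag0 hw]))) (Commute.mul_left a9 a9).eq.symm
  have b4 : φ w = (-2 * p a) • pt U f e w := by
    have t1 : N (pt U f e w) = 0 := by rw [n0, g0, u1, r1, sub_self]
    have t2 : N (pt U f a w) = (2 * p a) • pt U f e w := by rw [n0, g0, u2, r1]; simp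
    have t5 : N (pt U f e' w) = -pt U f a w - p a • pt U f e w := by rw [n0, g0, u3, r1]; simp; module
    rw [p0, m0, h.hW.diag0 hw, mul_zero, zero_smul, sub_zero, t5, map_sub, map_neg, map_smul, t1, t2]
    module
  have b5 : (d * d) (φ w) = φ w := by
    rw [b3, b4, map_smul, mul_app, rt_pt (h.hW.eich_mem_isom hw b2 rfl).1, lf_pt,
      h.hW.eich_fix _ (h.hW.diag0 hw) (h.hW.refl b2), h.hU.eich_fix _ (h.hU.diag0 he) (h.hU.refl b1)]
  rw [mul_app, a10, a10, a6, map_smul, a6, smul_smul] at b5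
  exact s1 (smul_left_injective F w0 ((p2 b5).trans (one_smul F w).symm))

end S9

end Cfsg.Agent.H11.Tz
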