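import Mathlib
import Cfsg.Agent.H11.Ty3
import Cfsg.Agent.H11.Ty4

/-!
Overgroups of the tensor wreath product `O₃ ≀ S₂` in `Ω₉(q)`.
-/

set_option autoImplicit false
set_option linter.unusedSectionVars false

namespace Cfsg.Agent.H11.Tz

open Module H10 H11 H19.TA
open H26.MX hiding finrank_le_inf_ker finrank_span_pair_le finrank_span_one_le SLv mem_SLv
  map_eq_of_le

variable {F : Type*} [Field F] {U W : Type*} [AddCommGroup U] [Module F U] [AddCommGroup W] [Module F W]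
  {g : U →ₗ[F] U →ₗ[F] F} {f : W →ₗ[F] W →ₗ[F] F} {p : U → F} {q : W → F}
  {B : (W →ₗ[F] U) →ₗ[F] (W →ₗ[F] U) →ₗ[F] F} {Q : (W →ₗ[F] U) → F}
  {M : Subgroup ((W →ₗ[F] U) ≃ₗ[F] (W →ₗ[F] U))} {k c σ : (W →ₗ[F] U) ≃ₗ[F] (W →ₗ[F] U)}
  {α : W ≃ₗ[F] U} {β : U ≃ₗ[F] W}

theorem conj_comm {G : Type*} [Group G] {x a b : G} (h : a * (x * b * x⁻¹) = x * b * x⁻¹ * a) :
    x⁻¹ * a * x⁻¹⁻¹ * b = b * (x⁻¹ * a * x⁻¹⁻¹) := by
  rw [← mul_left_inj x⁻¹, ← mul_right_inj x]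
  simpa [mul_assoc] using h

theorem scal_of [FiniteDimensional F U] {s : End F U} (hs : finrank F (LinearMap.ker (s - 1)) = finrank F U ∨
    finrank F (LinearMap.ker (-s - 1)) = finrank F U) : ∃ ε : F, ∀ y, s y = ε • y := by
  rcases hs with h7 | h7
  · exact ⟨1, fun y => by
      simpa using sub_eq_zero.1 (Submodule.eq_top_iff'.1 (Submodule.eq_top_of_finrank_eq h7) y)⟩
  · exact ⟨-1, fun y => by
      simpa [neg_eq_iff_eq_neg] using
        sub_eq_zero.1 (Submodule.eq_top_iff'.1 (Submodule.eq_top_of_finrank_eq h7) y)⟩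

namespace S9

variable [FiniteDimensional F U] [FiniteDimensional F W] [Finite F] (h : S9 g p f q B Q M σ α β)
include h

theorem se9 (hk : k ∈ h.HS) (hp : k ^ ringChar F = 1) (k1 : k ≠ 1) : Iso M h.HS k := by
  intro x hx h1
  have : Finite (W →ₗ[F] U) := Module.finite_of_finite F
  have : Finite ((W →ₗ[F] U) ≃ₗ[F] (W →ₗ[F] U)) := DFunLike.finite _
  have h0 : (x * k * x⁻¹) ^ ringChar F = 1 := by rw [conj_pow, hp]; simp
  obtain ⟨e, a, w, y, -, -, -, w0, hw, wy, h2⟩ := h.punip (h.hh_of_p h1 h0) h0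
  obtain ⟨w', hw', ww⟩ := h.hW.form.exists_partner h.hW.sep hw w0
  obtain ⟨z, wz, -, qz⟩ := exists_nons3 h.hW h.w3 hw hw' ww
  have h3 := ((lf_rt (h.hU.eich e a (p a)) _).symm.mul_right (show Commute (rt U (h.hW.eich w z (q z)))
    (rt U (h.hW.eich w y (q y))) by
      rw [Commute, SemiconjBy, ← map_mul, ← map_mul, h.hW.eich_mul hw wy wz, h.hW.eich_mul hw wz wy,
        qs h.hW z, add_comm z, add_comm (q z)])).eq
  rw [← h2] at h3
  have h4 := mul_mem (mul_mem (inv_mem hx) (h.rm _ (h.hW.eich_mem_om hw wz rfl))) (inv_mem (inv_mem hx))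
  refine (inv_mem_iff (x := x)).1 (h.se19 w0 hw wz qz _ (inv_mem hx) ?_)
  have h5 := conj_comm h3
  generalize x⁻¹ * rt U (h.hW.eich w z (q z)) * x⁻¹⁻¹ = c at h4 h5
  obtain ⟨e, a, w, y, e0, he, ea, w0, hw, wy, rfl⟩ := h.punip (h.hh_of_p hk hp) hp
  by_cases pa : p a = 0
  · rw [eich_triv h.hU (w1_three h.hU h.u3) e0 he ea pa, map_one, one_mul] at h5 k1
    exact h.le_hs (h.c_tau w0 hw wy (fun qy => k1 (by rw [eich_triv h.hW h.wl w0 hw wy qy, map_one])) h4 h5)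
  by_cases qy : q y = 0
  · rw [eich_triv h.hW h.wl w0 hw wy qy, map_one, mul_one] at h5
    exact h.le_hs (h.c_u e0 he ea pa h4 h5)
  by_cases h3 : (3 : F) = 0
  · exact h.cm3 e0 he ea pa w0 hw wy qy h3 h4 h5
  · exact h.cm5 e0 he ea pa w0 hw wy qy h3 h4 h5

theorem ti9 (h3 : (3 : F) = 0) {w : W} (w0 : w ≠ 0) (hw : q w = 0) :
    Ti (ringChar F) M h.HS (EE U h.hW hw ⊤) := by
  have := h.ntU
  have := h.ntW
  refine ⟨?_, ?_, ?_, fun hc => ?_, ?_, ?_⟩
  · rintro _ ⟨y, -, hy, rfl⟩; exact h.rm _ (h.hW.eich_mem_om hw hy rfl)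
  · rintro _ ⟨y, -, hy, rfl⟩; exact h.le_hs (rt_mem (h.hW.eich_mem_isom hw hy rfl))
  · rintro _ ⟨y, -, hy, rfl⟩ _ ⟨z, -, hz, rfl⟩
    rw [← map_mul, ← map_mul, h.hW.eich_mul hw hy hz, h.hW.eich_mul hw hz hy, qs h.hW y, add_comm y,
      add_comm (q y)]
  · obtain ⟨w', hw', ww⟩ := h.hW.form.exists_partner h.hW.sep hw w0
    obtain ⟨z, wz, -, qz⟩ := exists_nons3 h.hW h.w3 hw hw' ww
    obtain ⟨a, ha⟩ := exists_ne (0 : U)
    obtain ⟨t, t0, t1⟩ := h.sq
    let ψ : Multiplicative F →* EE U h.hW hw ⊤ := MonoidHom.mk'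
      (fun l => ⟨_, l.toAdd • z, trivial, by simp [wz], rfl⟩) fun l m => Subtype.ext (by
        simp only [Subgroup.coe_mul, ← map_mul]
        rw [h.hW.eich_mul hw (by simp [wz]) (by simp [wz]), toAdd_mul, add_smul, h.hW.Q_add]; simp)
    have h1 : Function.Injective ψ := (injective_iff_map_eq_one _).2 fun l hl => by_contra fun c =>
      h.rt_ne w0 hw (y := l.toAdd • z) (by simp [wz]) (by
        simp [h.hW.Q_smul, qz, show l.toAdd ≠ 0 from c]) (congrArg Subtype.val hl)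
    obtain ⟨s, hs⟩ := (isCyclic_of_injective ψ h1).exists_generator
    have h2 : ∀ l : F, ∃ n : ℤ, n * s.toAdd = l := fun l => by
      obtain ⟨n, hn⟩ := hs (Multiplicative.ofAdd l)
      exact ⟨n, by simpa using congrArg Multiplicative.toAdd hn⟩
    have h4 : ∀ n : ℤ, (n : F) * (n * n - 1) = 0 := fun n => by
      obtain ⟨m, rfl | rfl | rfl⟩ : ∃ m, n = 3 * m ∨ n = 3 * m + 1 ∨ n = 3 * m - 1 := ⟨(n + 1) / 3, by omega⟩
      all_goals simp [h3]
    obtain ⟨n, hn⟩ := h2 1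
    obtain ⟨m, hm⟩ := h2 (t * s.toAdd)
    have s0 : s.toAdd ≠ 0 := fun c => by simp [c] at hn
    have h5 := h4 m
    rw [mul_right_cancel₀ s0 hm] at h5
    exact mul_ne_zero t0 (sub_ne_zero.2 t1) h5
  · rintro ⟨_, y, h1, hy, rfl⟩
    exact ⟨1, Subtype.ext (by simp [← map_pow, eich_pow h.hW hw hy])⟩
  · rintro _ ⟨y, -, hy, rfl⟩ h1
    exact h.se19 w0 hw hy fun h2 => h1 (by rw [eich_triv h.hW h.wl w0 hw hy h2, map_one])

theorem cy9 (hc : c ∈ M) {b : U} (pb : p b ≠ 0) (h1 : ∀ y, ∃ y', c (pt U f b y) = pt U f b y') :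
    c ∈ h.HS := by
  have hp := CharP.char_is_prime F (ringChar F)
  have := Fact.mk hp
  have : Finite (W →ₗ[F] U) := Module.finite_of_finite F
  have : Finite ((W →ₗ[F] U) ≃ₗ[F] (W →ₗ[F] U)) := DFunLike.finite _
  have := h.ntV
  have b0 : b ≠ 0 := by rintro rfl; exact pb h.hU.Q_zero
  obtain ⟨t, h2⟩ := h.ex_t b0 h1
  have h3 : ∀ x y, f (t x) (t y) = f x y := fun x y => by
    simpa [h2, h.Bp, H19.TA.qd h.hU, h.two, pb] using (h.le hc).1 (pt U f b x) (pt U f b y)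
  obtain ⟨t, ht, h4⟩ := IsForm.exists_isom_of_linear (Q := q) h.hW.sep t h3
    fun x => q_eq_of h.hW h.two (h3 x x)
  simp only [← h4] at h2
  obtain ⟨w, w', y, hw, -, ww, wy, -, qy⟩ := frame h.hW h.w3
  have w0 : w ≠ 0 := by rintro rfl; simp at ww
  have h6 := h.hW.eich_mem_om hw wy rfl
  have a1 : ∀ z, f w z = 0 → rt U (h.hW.eich w z (q z)) ∈
      Subgroup.normalizer (Kf f M b : Set ((W →ₗ[F] U) ≃ₗ[F] (W →ₗ[F] U))) := fun z hz => by
    have h5 := h.hW.eich_mem_om hw hz rfl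
    exact Subgroup.mem_normalizer_fintype fun η hη => ⟨mul_mem (mul_mem (h.rm _ h5) hη.1)
      (inv_mem (h.rm _ h5)), fun x => by
        rw [mul_app, mul_app, ← map_inv, rt_pt (h.hW.om_le_isom (inv_mem h5)).1, hη.2,
          rt_pt (h.hW.om_le_isom h5).1, app_inv]⟩
  have a2 : ∀ x ∈ Kf f M b, x ∈ h.HS → x ^ ringChar F = 1 → x = 1 := fun x hx h5 h6 => by
    obtain ⟨e, a, w, y, e0, he, ea, w0, hw, wy, rfl⟩ := h.punip (h.hh_of_p h5 h6) h6
    have h7 := fun z => hx.2 z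
    simp only [mul_app, rt_pt (h.hW.eich_mem_isom hw wy rfl).1, lf_pt] at h7
    have h8 := h7 w
    erw [h.hW.eich_fix _ (h.hW.diag0 hw) (h.hW.refl wy)] at h8
    have h9 := eich_triv h.hU (w1_three h.hU h.u3) e0 he ea (by_contra fun pa =>
      h.not_ev e0 he ea pa pb 1 ((h.pt_inj' w0 h8).trans (one_smul F b).symm))
    rw [h9] at h7 ⊢
    rw [show h.hW.eich w y (q y) = 1 from LinearEquiv.ext fun z => h.pt_inj b0 (h7 z)]; rfl
  have h5 : Kf f M b ≤ h.HS := by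
    by_cases a3 : (3 : F) = 0
    · exact (h.ti9 a3 w0 hw).cop (fun _ h => h.1) (by rintro _ ⟨z, -, hz, rfl⟩; exact a1 z hz) a2
    refine hh_le (p := ringChar F) ?_ (h.le_hs (rt_mem (h.hW.om_le_isom h6))) (h.rm _ h6)
      (by rw [← map_pow, eich_pow h.hW hw wy, map_one]) (h.rt_ne w0 hw wy qy) (LinearMap.ext fun v => ?_)
      (fun _ h => h.1) (a1 y wy) a2 fun _ _ => h.se9
    · have a4 : ringChar F ≠ 3 := fun c => a3 (by
        have := ringChar.Nat.cast_ringChar (R := F); rwa [c] at this)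
      have := hp.two_le
      obtain ⟨m, hm⟩ := h.odd
      omega
    have a4 : ∀ v, ((rt U (h.hW.eich w y (q y))).toLinearMap - 1 : End F _) v =
        pt U f (v y) w - pt U f (v w) y - q y • pt U f (v w) w := fun v => by
      simp [rt_eich h.hW hw wy]; abel
    simp [pow_succ, -LinearMap.sub_apply, a4]
    simp [h.hW.diag0 hw, wy, h.hW.refl wy]
  have h7 := h.hW.conj_mem_om ht h6
  refine h.se19 w0 hw wy qy c hc ((h.HS.mul_mem_cancel_right
    (inv_mem (h.le_hs (rt_mem (h.hW.om_le_isom h7))))).1 (h5 ⟨mul_mem (mul_mem (mul_mem hc (h.rm _ h6))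
      (inv_mem hc)) (inv_mem (h.rm _ h7)), fun z => ?_⟩))
  rw [mul_app, mul_app, mul_app, ← map_inv, rt_pt (h.hW.om_le_isom (inv_mem h7)).1,
    inv_eq_of (h2 (t⁻¹ _) |>.trans (congrArg _ (app_inv _ _)))]
  erw [rt_pt (h.hW.om_le_isom h6).1, h2]
  simp [mul_app]

theorem cj9 {s : U ≃ₗ[F] U} (hs : s ∈ Isom g p) (s2 : ∀ x, s (s x) = x) (s1 : s ≠ 1)
    (hd : LinearMap.det s.toLinearMap = 1) (hc : c ∈ M) (h1 : c * lf W s = lf W s * c) : c ∈ h.HS := by
  obtain ⟨b, ε, pb, h2, h3⟩ := inv_line h.hU h.two h.u3 hs s2 s1 hd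
  refine h.cy9 hc pb fun y => h.ex_pt (by rintro rfl; exact pb h.hU.Q_zero) fun x => h3 _ ?_
  simpa [mul_app, lf_pt, h2] using (LinearMap.congr_fun (LinearEquiv.congr_fun h1 (pt U f b y)) x).symm

theorem mix_ne {e a : U} (e0 : e ≠ 0) (he : p e = 0) (ea : g e a = 0) (pa : p a ≠ 0) {t t' : W ≃ₗ[F] W} :
    lf W (h.hU.eich e a (p a)) * rt U t ≠ rt U t' := fun h1 => by
  have := h.ntU
  have := h.ntW
  obtain ⟨μ, h2, -⟩ := sep (s' := 1) h1
  exact h.not_ev e0 he ea pa pa μ (h2 a)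

theorem iso_k9 {j : U ≃ₗ[F] U} (hj : j ∈ Isom g p) (j2 : ∀ x, j (j x) = x) (j1 : j ≠ 1)
    (hd : LinearMap.det j.toLinearMap = 1) (hm : lf W j ∈ M) : Iso M h.HS (lf W j) := by
  intro x hx h0
  have := h.ntU
  have := h.ntW
  have h1 : lf W j * lf W j = 1 := by rw [← map_mul, show j * j = 1 from LinearEquiv.ext j2, map_one]
  suffices H : ∃ η ∈ M, η ∈ h.HS ∧ η ^ ringChar F = 1 ∧ η ≠ 1 ∧
      η * (x * lf W j * x⁻¹) = x * lf W j * x⁻¹ * η by
    obtain ⟨η, a1, a2, a3, a4, a5⟩ := H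
    exact (inv_mem_iff (x := x)).1 (h.se9 a2 a3 a4 _ (inv_mem hx) (h.cj9 hj j2 j1 hd
      (mul_mem (mul_mem (inv_mem hx) a1) (inv_mem (inv_mem hx))) (conj_comm a5)))
  obtain ⟨e, e', a, he, -, ee, ea, -, pa⟩ := frame h.hU h.u3.ge
  have e0 : e ≠ 0 := by rintro rfl; simp at ee
  have hu := h.hU.eich_mem_om he ea rfl
  have up : lf W (h.hU.eich e a (p a)) ^ ringChar F = 1 := by rw [← map_pow, eich_pow h.hU he ea, map_one]
  have h8 : x * lf W j * x⁻¹ * (x * lf W j * x⁻¹) = 1 := by rw [conj_mul, h1]; simp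
  rcases h0 with ⟨s, hs, t, ht, h0⟩ | h0
  swap
  · obtain ⟨t, ht, a1⟩ := h.cross_lf h0 (h.hU.om_le_isom hu)
    have a2 := mul_mem (mul_mem hx hm) (inv_mem hx)
    have a3 : rt U t ^ ringChar F = 1 := by rw [← a1, conj_pow]; erw [up]; simp
    generalize x * lf W j * x⁻¹ = k at *
    refine ⟨lf W (h.hU.eich e a (p a)) * rt U t, mul_mem (h.lm _ hu)
      (a1 ▸ mul_mem (mul_mem a2 (h.lm _ hu)) (inv_mem a2)), h.le_hs ⟨_, h.hU.om_le_isom hu, t, ht, rfl⟩,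
      by rw [(lf_rt _ _).mul_pow, up, a3, one_mul], h.mix_ne e0 he ea pa (t' := 1), ?_⟩
    have a4 := (lf_rt (h.hU.eich e a (p a)) t).eq
    erw [← a1] at a4 ⊢
    rw [inv_eq_of_mul_eq_one_left h8] at a4 ⊢
    nth_rw 2 [a4]
    simp only [← mul_assoc, h8, one_mul]
    rw [mul_assoc _ k k, h8, mul_one]
  obtain ⟨μ, h2, h3⟩ := sep (s := s * s) (t := t * t) (s' := 1) (t' := 1) (by
    change lf W s * rt U t * (lf W s * rt U t) = 1
    rw [← h0, h8])
  obtain rfl : μ = 1 := by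
    have h3 : μ * μ = 1 := by simpa [h2, ee] using (mul_mem hs hs).1 e e'
    have h4 := det_sim h.hU (l := 1) (by simpa using hs.1)
    rw [pow_two, ← LinearMap.det_comp, show s.toLinearMap ∘ₗ s.toLinearMap = μ • LinearMap.id from
      LinearMap.ext h2, LinearMap.det_smul, h.u3] at h4
    simp only [LinearMap.det_id] at h4
    linear_combination h4 - μ * h3
  replace h2 : ∀ x, s (s x) = x := by simpa [mul_app] using h2
  replace h3 : ∀ x, t⁻¹ (t⁻¹ x) = x := fun x => inv_eq_of (inv_eq_of (by simpa [mul_app] using h3 x)).symm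
  have a1 := fix_ge h.two (s := j.toLinearMap) (ψ := (1 : End F W)) (k := (lf W j).toLinearMap)
    (fun _ => rfl) fun _ _ => rfl
  have a2 := fix_ge h.two (s := -j.toLinearMap) (ψ := (1 : End F W)) (k := -(lf W j).toLinearMap)
    (fun _ => rfl) fun _ _ => rfl
  have a3 := eig h.two (s := (lf W j).toLinearMap) fun v => LinearEquiv.congr_fun h1 v
  have a4 := eig h.two (s := j.toLinearMap) j2
  have b1 := fix_ge h.two (s := s.toLinearMap) (ψ := t⁻¹.toLinearMap) (k := (lf W s * rt U t).toLinearMap)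
    h3 fun _ _ => rfl
  have b2 := fix_ge h.two (s := -s.toLinearMap) (ψ := t⁻¹.toLinearMap) (k := -(lf W s * rt U t).toLinearMap)
    h3 fun _ _ => rfl
  have b3 := eig h.two (s := s.toLinearMap) h2
  have b4 := eig h.two (s := t⁻¹.toLinearMap) h3
  have c1 := fr_conj x (k := (lf W j).toLinearMap) (k' := (lf W s * rt U t).toLinearMap) fun v => by
    simp [← h0, mul_app]
  have c2 := fr_conj x (k := -(lf W j).toLinearMap) (k' := -(lf W s * rt U t).toLinearMap) fun v => by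
    simp [← h0, mul_app]
  rw [sub_self, LinearMap.ker_zero, finrank_top, h.w9] at a1 a2
  rw [finrank_linearMap, h.w9, h.u3] at a3
  rw [neg_neg, c2] at b2
  rw [c1] at b1
  have c3 : (finrank F (LinearMap.ker (s.toLinearMap - 1)) = finrank F U ∨
      finrank F (LinearMap.ker (-s.toLinearMap - 1)) = finrank F U) ∨
      finrank F (LinearMap.ker (t⁻¹.toLinearMap - 1)) = finrank F W ∨
      finrank F (LinearMap.ker (-t⁻¹.toLinearMap - 1)) = finrank F W := by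
    rw [h.w9] at b4 ⊢
    rw [h.u3] at a4 b3 ⊢
    generalize finrank F (LinearMap.ker (s.toLinearMap - 1)) = m at b1 b2 b3
    generalize finrank F (LinearMap.ker (-s.toLinearMap - 1)) = n at b1 b2 b3
    obtain ⟨rfl, rfl⟩ | ⟨rfl, rfl⟩ | ⟨rfl, rfl⟩ | ⟨rfl, rfl⟩ :
      m = 0 ∧ n = 3 ∨ m = 1 ∧ n = 2 ∨ m = 2 ∧ n = 1 ∨ m = 3 ∧ n = 0 := by omega
    all_goals omega
  rw [h0]
  rcases c3 with c3 | c3
  · obtain ⟨ε, h7⟩ := scal_of c3
    replace h7 : ∀ y, s y = ε • y := h7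
    exact ⟨_, h.lm _ hu, h.le_hs (lf_mem (h.hU.om_le_isom hu)), up, h.mix_ne e0 he ea pa (t := 1) (t' := 1),
      LinearEquiv.ext fun v => LinearMap.ext fun z => by simp only [mul_app, lf_apply, rt_apply, h7, map_smul]⟩
  obtain ⟨ε, h7⟩ := scal_of c3
  replace h7 : ∀ y, t⁻¹ y = ε • y := h7
  obtain ⟨w, w', y, hw, -, ww, wy, -, qy⟩ := frame h.hW h.w3
  have h9 := h.hW.eich_mem_om hw wy rfl
  exact ⟨_, h.rm _ h9, h.le_hs (rt_mem (h.hW.om_le_isom h9)), by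
    rw [← map_pow]; erw [eich_pow h.hW hw wy]; rfl, h.rt_ne (by rintro rfl; simp at ww) hw wy qy,
    LinearEquiv.ext fun v => LinearMap.ext fun z => by simp only [mul_app, lf_apply, rt_apply, h7, map_smul]⟩

theorem le9 : M ≤ h.HS := fun x hx => by
  by_contra hx'
  have := Fact.mk (CharP.char_is_prime F (ringChar F))
  have : Finite (W →ₗ[F] U) := Module.finite_of_finite F
  have : Finite ((W →ₗ[F] U) ≃ₗ[F] (W →ₗ[F] U)) := DFunLike.finite _
  have := h.ntU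
  have := h.ntW
  obtain ⟨e, e', a, he, he', ee, ea, ea', pa⟩ := frame h.hU h.u3.ge
  have e0 : e ≠ 0 := by rintro rfl; simp at ee
  obtain ⟨w, w', y, hw, -, ww, wy, -, qy⟩ := frame h.hW h.w3
  have w0 : w ≠ 0 := by rintro rfl; simp at ww
  have hu := h.hU.eich_mem_om he ea rfl
  have hρ := h.hW.eich_mem_om hw wy rfl
  have h1 : ∀ j ∈ h.hU.Om, j * j = 1 → j ≠ 1 → Iso M h.HS (lf W j) := fun j h1 h2 h3 =>
    h.iso_k9 (h.hU.om_le_isom h1) (LinearEquiv.congr_fun h2) h3 (det_om h.hU h.two h1) (h.lm j h1)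
  have h2 : ∀ y ∈ M, y ∈ h.HS → y ^ ringChar F = 1 → y ≠ 1 → Iso M h.HS y := fun _ _ => h.se9
  obtain ⟨b, h3, h4, h5⟩ : ∃ b ∈ M, b ∉ h.HS ∧ b * b = 1 := by
    obtain ⟨j, h3, h4, h5⟩ := wey h.hU h.two he he' ee ea ea' pa
    exact ⟨x * lf W j * x⁻¹, mul_mem (mul_mem hx (h.lm j h3)) (inv_mem hx), fun c => hx' (h1 j h3 h4
      (by rintro rfl; exact h5 (h.hU.diag0 he)) x hx c), by rw [conj_mul, ← map_mul, h4]; simp⟩
  have gp : (lf W (h.hU.eich e a (p a)) * rt U (h.hW.eich w y (q y))) ^ ringChar F = 1 := by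
    rw [(lf_rt _ _).mul_pow, ← map_pow, ← map_pow, eich_pow h.hU he ea, eich_pow h.hW hw wy]; simp
  have gH : lf W (h.hU.eich e a (p a)) * rt U (h.hW.eich w y (q y)) ∈ h.HS :=
    h.le_hs ⟨_, h.hU.om_le_isom hu, _, h.hW.om_le_isom hρ, rfl⟩
  let N : Subgroup (U ≃ₗ[F] U) :=
    { carrier := {s | ∃ t : W ≃ₗ[F] W, lf W s * rt U t ∈ M ⊓ h.HS ⊓ h.HS.comap (MulAut.conj b).toMonoidHom}
      one_mem' := ⟨1, one_mem _⟩
      mul_mem' := fun ⟨t, ht⟩ ⟨t', ht'⟩ => ⟨t * t', (mul_mem ht ht' :)⟩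
      inv_mem' := fun ⟨t, ht⟩ => ⟨t⁻¹, (inv_mem ht :)⟩ }
  obtain ⟨t₀, t0, t1⟩ := h.sq
  obtain ⟨t, ⟨h6, h7⟩, h8⟩ := nrm3 h.hU h.two he he' ee ea ea' pa t0 t1 (N := N) fun j b1 b2 => by
    by_cases b3 : j = 1
    · exact b3 ▸ one_mem _
    have b4 := h.hU.om_le_isom b1
    have b5 : lf W j * lf W j = 1 := by rw [← map_mul, b2, map_one]
    obtain ⟨c, c1, c2, c3, c4, c5, z, c6, c7, c8⟩ := dich (h.lm j b1) (h.le_hs (lf_mem b4)) b5 (h1 j b1 b2 b3)
      h3 h4 h5 (mul_mem (h.lm _ hu) (h.rm _ hρ)) gH gp (fun z d1 d2 d3 => by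
        have d4 : (z⁻¹ * (lf W (h.hU.eich e a (p a)) * rt U (h.hW.eich w y (q y))) * z⁻¹⁻¹) ^ ringChar F = 1 := by
          rw [conj_pow, gp]; simp
        rw [inv_inv] at d4
        obtain ⟨e₁, a₁, w₁, y₁, f0, f1, f2, -, f3, f4, d5⟩ :=
          h.punip (h.hh_of_p (mul_mem (mul_mem (inv_mem d2) gH) d2) d4) d4
        erw [d5] at d3
        by_cases f5 : p a₁ = 0
        · rw [eich_triv h.hU (w1_three h.hU h.u3) f0 f1 f2 f5, map_one, one_mul, mul_assoc,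
            inv_mul_eq_iff_eq_mul, ← eq_mul_inv_iff_mul_eq] at d5
          have d6 := h.hW.eich_mem_isom (c := q y₁) f3 f4 rfl
          rcases d2 with d2 | d2
          · obtain ⟨t', -, d7⟩ := hh_rt d2 d6
            exact h.mix_ne e0 he ea pa (d5.trans d7)
          · obtain ⟨s', -, d7⟩ := h.cross_rt d2 d6
            obtain ⟨μ, -, d8⟩ := sep (t' := 1) (d5.trans d7)
            have d9 := (ev h.hW h.two hw w0 wy qy (by rintro rfl; simp at ww) (d8 w')).2.1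
            simp [ww] at d9
        obtain ⟨b, ε, pb, d6, d7⟩ := inv_line h.hU h.two h.u3 b4 (LinearEquiv.congr_fun b2) b3
          (det_om h.hU h.two b1)
        have d8 : h.hU.eich e₁ a₁ (p a₁) * j = j * h.hU.eich e₁ a₁ (p a₁) := h.lf_inj (by
          rw [map_mul, map_mul, ← mul_left_inj (rt U (h.hW.eich w₁ y₁ (q y₁))), mul_assoc, (lf_rt j _).eq,
            ← mul_assoc, d3, mul_assoc])
        obtain ⟨μ, d9⟩ := Submodule.mem_span_singleton.1 (d7 _ ((LinearEquiv.congr_fun d8 b).symm.trans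
          (by rw [mul_app, d6, map_smul]; rfl)))
        exact h.not_ev f0 f1 f2 f5 pb μ d9.symm) h2
    rw [eq_comm, ← eq_mul_inv_iff_mul_eq, inv_eq_of_mul_eq_one_left b5] at c8
    rcases c7 with c7 | c7
    · obtain ⟨s, hs, t, -, rfl⟩ := c7
      rw [show lf W s * rt U t * lf W j * (lf W s * rt U t)⁻¹ = lf W (s * j * s⁻¹) from
        LinearEquiv.ext fun v => LinearMap.ext fun x => by simp [mul_app, ← map_inv], ← map_mul] at c8
      subst c8
      have d3 : s * j * s⁻¹ * j * (s * j * s⁻¹ * j) = 1 := h.lf_inj (by rw [map_mul, c5, map_one])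
      have d4 : LinearEquiv.det j = 1 := Units.ext (by rw [LinearEquiv.coe_det]; exact det_om h.hU h.two b1)
      exact absurd (h.iso_k9 (mul_mem (mul_mem (mul_mem hs b4) (inv_mem hs)) b4) (LinearEquiv.congr_fun d3)
        (fun c => c4 (by rw [c, map_one])) ((LinearEquiv.coe_det _).symm.trans (by simp [d4])) c1 b h3 c3) h4
    · obtain ⟨t, -, d2⟩ := h.cross_lf c7 b4
      rw [d2, ← (lf_rt j t).eq] at c8
      exact ⟨t, c8 ▸ ⟨⟨c1, c2⟩, c3⟩⟩
  refine nd h2 h3 h4 h6 h7 h8 (by_contra fun h9 => ?_)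
  have h10 := pow_orderOf_eq_one (lf W (h.hU.eich e a (p a)) * rt U t)
  generalize orderOf (lf W (h.hU.eich e a (p a)) * rt U t) = n at h9 h10
  rw [(lf_rt _ _).mul_pow, ← map_pow, ← map_pow] at h10
  obtain ⟨μ, h11, -⟩ := sep (s' := 1) (t' := 1) h10
  have h12 : ∀ n : ℕ, (h.hU.eich e a (p a) ^ n) a = a + (n * (2 * p a)) • e := fun n => by
    induction n with
    | zero => simp
    | succ n ih =>
      rw [pow_succ', mul_app, ih]
      simp [h.hU.eich_apply he ea, ea, h.hU.diag0 he, h.hU.refl ea, H19.TA.qd h.hU]; module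
  have h13 := congrArg (g e') ((h12 n).symm.trans (h11 a))
  simp [ea', h.hU.flip_one ee, h.two, pa, ringChar.spec] at h13
  exact h9 h13

end S9

end Cfsg.Agent.H11.Tz
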