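import Mathlib
import Cfsg.Agent.H11.Ty5
import Cfsg.Agent.H19.TX10

/-!
The tensor wreath product `O₃ ≀ S₂` is maximal in `Ω₉(q)`, `q ≥ 5` odd.
-/

set_option autoImplicit false
set_option linter.unusedSectionVars false

namespace Cfsg.Agent.H11.Tz

open Module H10 H11 H19.TA Cfsg.Geo
open H11.Im (r r_apply r_isom r_inv r_r r_self conj_r)
open H26.MX hiding finrank_le_inf_ker finrank_span_pair_le finrank_span_one_le SLv mem_SLv
  map_eq_of_le

variable {F : Type*} [Field F] {U W : Type*} [AddCommGroup U] [Module F U] [AddCommGroup W] [Module F W]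
  {g : U →ₗ[F] U →ₗ[F] F} {f : W →ₗ[F] W →ₗ[F] F} {p : U → F} {q : W → F}
  {B : (W →ₗ[F] U) →ₗ[F] (W →ₗ[F] U) →ₗ[F] F} {Q : (W →ₗ[F] U) → F}

theorem rr_om [FiniteDimensional F U] [Finite F] (h : Cl (σ := RingHom.id F) 1 2 (AddMonoidHom.id F) g p)
    (hn : 5 ≤ finrank F U) {x y : U} (h1 : p x = p y) (h2 : p x ≠ 0) : r h x * r h y ∈ h.Om := by
  obtain ⟨s, hs, rfl⟩ := h.form.witt_one h.sep (v := x) (w := y) (by rintro rfl; exact h2 h.Q_zero)
    (by rintro rfl; exact h2 (h1.trans h.Q_zero)) h1.symm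
  have := (mem_om_quad h hn _).2 (Subgroup.commutator_mem_commutator (g₁ := (⟨_, r_isom h x⟩ : Isom g p))
    (g₂ := ⟨s, hs⟩) (Subgroup.mem_top _) (Subgroup.mem_top _))
  rw [← conj_r h hs]
  convert this using 1
  simp [commutatorElement_def, r_inv, mul_assoc]

variable [FiniteDimensional F U] [FiniteDimensional F W] [Finite F]
  {hV : Cl (σ := RingHom.id F) 1 2 (AddMonoidHom.id F) B Q}
  (h : TO 1 2 (AddMonoidHom.id F) g p f q B Q hV.Om) (u3 : finrank F U = 3) (w3 : finrank F W = 3)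
include h u3 w3

theorem ex_lf {k : (W →ₗ[F] U) ≃ₗ[F] (W →ₗ[F] U)} (hk : k ∈ Isom B Q) :
    ∃ s ∈ Isom g p, lf W s * k ∈ hV.Om := by
  have h0 : ∀ s ∈ Isom g p, lf W s ∈ Isom B Q := fun s hs => isom_of hV h.two (lf_iso h.hW h.Bp hs.1)
  let H : Subgroup (Isom B Q) :=
    { carrier := {k | ∃ s ∈ Isom g p, lf W s * k.1 ∈ hV.Om}
      one_mem' := ⟨1, one_mem _, by simp⟩
      mul_mem' := by
        rintro k k' ⟨s, hs, h1⟩ ⟨s', hs', h2⟩
        refine ⟨s' * s, mul_mem hs' hs, ?_⟩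
        convert mul_mem (hV.conj_mem_om (h0 _ hs') h1) h2 using 1
        simp [mul_assoc]
      inv_mem' := by
        rintro k ⟨s, hs, h1⟩
        refine ⟨s⁻¹, inv_mem hs, ?_⟩
        convert hV.conj_mem_om k.2 (inv_mem h1) using 1
        simp [mul_assoc] }
  have hQ : IsQuad B Q := hV.form
  refine Subgroup.eq_top_iff' H |>.1 (hQ.isom_induction hV.sep H (fun v hv => ?_) fun u w hu h1 h2 =>
    ⟨1, one_mem _, ?_⟩) ⟨k, hk⟩
  swap
  · convert hV.eich_mem_om hu h1 (c := Q w) rfl using 1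
    ext1 x
    simp [hQ.eich_apply, hV.eich_apply hu h1]
  obtain ⟨e, e', -, he, he', ee, -⟩ := frame h.hU u3.ge
  obtain ⟨w, w', y, hw, hw', ww, wy, wy', qy⟩ := frame h.hW w3.ge
  obtain ⟨b, hb⟩ : ∃ b, p b = -Q v / (2 * q y) := ⟨e + (-Q v / (2 * q y)) • e', by
    simp [h.hU.Q_add, h.hU.Q_smul, he, he', ee]⟩
  have h2 := h.two
  have h3 : ∀ z, Q (pt U f b z) = 2 * q z * p b := fun z => mul_left_cancel₀ h2 (by
    rw [← H19.TA.qd hV, h.Bp]; simp [H19.TA.qd h.hU, H19.TA.qd h.hW]; ring)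
  have pb : p b ≠ 0 := by simp [hb, hv, h2, qy]
  have h4 : q (w + q y • w') = q y := by simp [h.hW.Q_add, h.hW.Q_smul, hw, hw', ww]
  have h5 : q (w + -q y • w') = -q y := by simp [h.hW.Q_add, h.hW.Q_smul, hw, hw', ww, -neg_smul]
  have h6 : r hV (pt U f b y) * r hV (pt U f b (w + q y • w')) * r hV (pt U f b (w + -q y • w')) =
      lf W (r h.hU b) := LinearEquiv.ext fun u => LinearMap.ext fun x => by
    conv_rhs => rw [lf_apply, r_apply]; enter [2, 1, 2, 2, 2]; rw [dec3 h.hW h2 w3 hw hw' ww wy wy' qy x]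
    simp only [mul_app, r_apply, h3, h4, h5]
    simp only [h.Bp, LinearMap.sub_apply, LinearMap.smul_apply, pt_apply, map_sub,
      map_add, map_smul, LinearMap.add_apply, smul_eq_mul, h.hW.diag0 hw, h.hW.diag0 hw', ww, h.hW.flip_one ww,
      wy, wy', h.hW.refl wy, h.hW.refl wy', qs h.hW x]
    match_scalars <;> field_simp <;> ring
  have h7 : 5 ≤ finrank F (W →ₗ[F] U) := by rw [finrank_linearMap, u3, w3]; omega
  refine ⟨_, r_isom h.hU b, ?_⟩
  rw [← h6, mul_assoc, show (hQ.reflO v).1 = r hV v from LinearEquiv.ext fun x => by rw [r_apply, hQ.reflO_apply]]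
  exact mul_mem (rr_om hV h7 (by rw [h3, h3, h4]) (by rw [h3]; simp [h2, qy, pb]))
    (rr_om hV h7 (by rw [h3, h5, hb]; field_simp) (by rw [h3, h5]; simp [h2, qy, pb]))

theorem max33 (sq : ∃ t : F, t ≠ 0 ∧ t * t ≠ 1) {σ : (W →ₗ[F] U) ≃ₗ[F] (W →ₗ[F] U)} {α : W ≃ₗ[F] U}
    {β : U ≃ₗ[F] W} (sp : ∀ a w, σ (pt U f a w) = pt U f (α w) (β a)) {l : F} (l0 : l ≠ 0)
    (sa : ∀ x y, g (α x) (α y) = l * f x y) (sb : ∀ a b, l * f (β a) (β b) = g a b)
    {S M : Subgroup ((W →ₗ[F] U) ≃ₗ[F] (W →ₗ[F] U))} (h1 : σ ∈ S) (h2 : ∀ k, Tn k → k ∈ S)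
    (h3 : M ≤ hV.Om) (h4 : S ⊓ hV.Om ≤ M) (h5 : ¬ hV.Om ≤ M) : M ≤ S := by
  have h6 : σ ∈ Isom B Q := isom_of hV h.two fun v v' => sub_eq_zero.1 <|
    pt_ind h.hW (S := LinearMap.ker (B.flip (σ v') ∘ₗ σ.toLinearMap - B.flip v')) (fun a w =>
      pt_ind h.hW (S := LinearMap.ker (B (σ (pt U f a w)) ∘ₗ σ.toLinearMap - B (pt U f a w))) (fun a' w' => by
        simp [sp, h.Bp, sa, ← sb a a', qs h.hW w, qs h.hW (β a)]; ring) v') v
  obtain ⟨s, hs, h7⟩ := ex_lf h u3 w3 h6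
  have h8 := mul_mem (h2 _ (tn_of_hh (lf_mem (f := f) (q := q) hs))) h1
  have h9 : S9 g p f q B Q M (lf W s * σ) (α.trans s) β := ⟨⟨⟨h.hU, h.hW, hV, h.two, h.Bp, h.Qp, h3.trans h.le,
    fun s hs => h4 ⟨h2 _ (tn_of_hh (lf_mem (f := f) (q := q) (h.hU.om_le_isom hs))), h.lm s hs⟩,
    fun t ht => h4 ⟨h2 _ (tn_of_hh (rt_mem (g := g) (p := p) (h.hW.om_le_isom ht))), h.rm t ht⟩⟩,
    u3, w3.ge, w1_three h.hW w3, sq, h5⟩, w3, h3, h4 ⟨h8, h7⟩, fun a w => by simp [mul_app, sp, lf_pt],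
    l, l0, fun x y => by simp [hs.1, sa], sb⟩
  exact fun k hk => (h9.le9 hk).elim (fun h10 => h2 _ (tn_of_hh h10)) fun h10 =>
    (S.mul_mem_cancel_left h8).1 (h2 _ (tn_of_hh h10))

omit h u3 w3 in
open Matrix Kronecker H26 H19.TX in
/-- `O₃ ≀ S₂` -/
theorem o33_max [Fintype F] {ι : Type} [Fintype ι] [DecidableEq ι] (h2 : (2 : F) ≠ 0)
    {β : (ι → F) →ₗ[F] (ι → F) →ₗ[F] F} {Q : (ι → F) → F}
    (hQ : Cl (σ := RingHom.id F) 1 2 (AddMonoidHom.id F) β Q) (hq : Fintype.card F ≠ 3)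
    (e : ι ≃ (Fin 2 → Fin 3)) (P : GL ι F) {f₁ : (Fin 3 → F) → (Fin 3 → F) → F} (h₁ : IsSymmetricForm f₁)
    (hT : IsTensorPowerFormStructure id (QuadraticMap.polar Q) f₁ e P) :
    IsMaximalIn (omegaGL Q) (tensorWreathSubgroup 3 2 e P ⊓ omegaGL Q) := by
  obtain ⟨c, hc, hT⟩ := hT
  let e' := e.trans (finTwoArrowEquiv (Fin 3))
  have s₁ := sep_of h₁.bilinear h₁.nondegenerate
  obtain ⟨θ, hθ⟩ := exists_theta s₁
  have h1 := tensor_form (e := e') (P := P) (β := QuadraticMap.polar Q) (c := c) h₁.bilinear h₁.bilinear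
    (fun x y => (hT (x ∘ finTwoArrowEquiv _) (y ∘ finTwoArrowEquiv _)).trans (congrArg _
      (Fintype.sum_equiv (finTwoArrowEquiv _) _ _ fun a => Fintype.sum_equiv (finTwoArrowEquiv _) _ _ fun b => by
        simp))) hθ
  have hU := clSym (g := c • bilinOf h₁.bilinear) h2 (fun x y => by simp [h₁.symm x y])
    fun x hx => s₁ x fun y => by simpa [hc] using hx y
  have hW := clSym h2 h₁.symm s₁
  have h := to_om hU (hW.pullback θ) (hQ.pullback (tenE e' P)) h2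
    (fun x w v => by simpa [QuadraticMap.polar, hQ.Q_add, sub_sub] using (h1 x w v).2)
    (by simp [finrank_linearMap])
  have hG := mem_omegaGL_iff hQ (by rw [Fintype.card_congr e]; simp)
  let φ := (glEquiv ι F).trans (cjE (tenE e' P))
  have h3 : ∀ g, g ∈ omegaGL Q ↔ φ g ∈ (hQ.pullback (tenE e' P)).Om := fun g => (hG g).trans (mem_om_cjE _ _ _)
  have h4 : ∀ x w, tenE e' P (pt _ (pull (bilinOf h₁.bilinear) θ.toLinearMap) x w) = ptm e P ![x, θ w] :=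
    fun x w => (h1 x w 0).1.trans (by
      simp only [ptm, LinearMap.compMultilinearMap_apply, LinearMap.comp_apply, mulVecLin_apply]
      congr 1; ext i; simp [e'])
  refine H10.isMaximalIn_inf (not_le_wr' hQ le_rfl le_rfl hG) fun M hM hM' g hg hg' x hx => by_contra fun h5 => hg' ?_
  obtain ⟨y, hy, h6⟩ := max33 h (by simp) (by simp) (exists_sq_ne h2 hq)
    (σ := φ (trG e P (facPerm _ F (Equiv.swap 0 1)))) (α := θ) (β := θ.symm) (fun a w => (tenE e' P).injective (by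
      rw [h4, LinearEquiv.apply_symm_apply]
      simp only [φ, MulEquiv.trans_apply, cjE, MulEquiv.coe_mk, Equiv.coe_fn_mk, LinearEquiv.trans_apply,
        LinearEquiv.apply_symm_apply, h4, perm_ptm]
      congr 1; ext1 i; fin_cases i <;> rfl)) hc (fun x y => by simp) (fun x y => by simp)
    (S := (tensorWreathSubgroup 3 2 e P).map φ.toMonoidHom) (M := M.map φ.toMonoidHom)
    ⟨_, (mem_tensorWreathSubgroup e P _).2 (Subgroup.subset_closure (Or.inr ⟨Equiv.swap 0 1, fun x y => by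
      rw [MulEquiv.symm_apply_apply, facPerm_apply]⟩)), rfl⟩ (fun k hk => by
      obtain ⟨k, rfl⟩ := φ.surjective k
      obtain ⟨a, b, h6⟩ := (mem_tensorProductSubgroup e' P k).1 (mem_ten_of_tn hk)
      refine ⟨k, (mem_tensorWreathSubgroup e P _).2 (Subgroup.subset_closure (Or.inl ⟨![a, b], fun x y => ?_⟩)), rfl⟩
      rw [coe_trG_symm, h6, show trA e' P (a.val ⊗ₖ b.val) = trA e P ((a.val ⊗ₖ b.val).submatrix
        (finTwoArrowEquiv _) (finTwoArrowEquiv _)) from rfl, AlgEquiv.symm_apply_apply]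
      simp)
    (by rintro _ ⟨y, hy, rfl⟩; exact (h3 y).1 (hM' hy))
    (by rintro _ ⟨⟨y, hy, rfl⟩, h6⟩; exact ⟨y, hM ⟨hy, (h3 y).2 h6⟩, rfl⟩) (fun h6 => h5 (by
      obtain ⟨y, hy, h7⟩ := h6 ((h3 x).1 hx)
      rwa [← φ.injective h7])) ⟨g, hg, rfl⟩
  rwa [← φ.injective h6]

end Cfsg.Agent.H11.Tz
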